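import Mathlib
import Cfsg.Agent.Lib.Helper7.HermCount

/-!
Finite fields with an automorphism `σ` of order two (helper50): `σ x = x ^ q` with
`card F = q ^ 2`, surjectivity of the trace `x + σ x` and of the norm `x * σ x` onto the fixed
field, elements of trace zero and of norm one.
-/

set_option autoImplicit false

namespace Cfsg.Agent.Lib.Helper50

open Polynomial

section UnitField

variable {F : Type*} [Field F]

/-- The fixed field of a ring automorphism. -/
def fixF (σ : F ≃+* F) : Subfield F where
  carrier := {x | σ x = x}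
  mul_mem' := by
    intro a b ha hb
    show σ (a * b) = a * b
    rw [map_mul, show σ a = a from ha, show σ b = b from hb]
  one_mem' := map_one σ
  add_mem' := by
    intro a b ha hb
    show σ (a + b) = a + b
    rw [map_add, show σ a = a from ha, show σ b = b from hb]
  zero_mem' := map_zero σ
  neg_mem' := by
    intro a ha
    show σ (-a) = -a
    rw [map_neg, show σ a = a from ha]
  inv_mem' := by
    intro a ha
    show σ a⁻¹ = a⁻¹
    rw [map_inv₀, show σ a = a from ha]

theorem mem_fixF (σ : F ≃+* F) (x : F) : x ∈ fixF σ ↔ σ x = x := Iff.rfl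

/-- There is an element moved by `σ`. -/
theorem exists_moved (σ : F ≃+* F) (hσ : σ ≠ RingEquiv.refl F) : ∃ a : F, σ a ≠ a := by
  by_contra hcon
  push Not at hcon
  exact hσ (RingEquiv.ext hcon)

/-- A nonzero element of trace zero. -/
theorem exists_trace_zero (σ : F ≃+* F) (hσ : σ ≠ RingEquiv.refl F)
    (hinv : ∀ a : F, σ (σ a) = a) : ∃ b : F, b ≠ 0 ∧ b + σ b = 0 := by
  obtain ⟨a, ha⟩ := exists_moved σ hσ
  refine ⟨a - σ a, sub_ne_zero.mpr (Ne.symm ha), ?_⟩
  rw [map_sub, hinv]
  ring

/-- The trace is surjective onto the fixed field. -/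
theorem trace_surj (σ : F ≃+* F) (hσ : σ ≠ RingEquiv.refl F)
    (hinv : ∀ a : F, σ (σ a) = a) (c : F) (hc : σ c = c) : ∃ μ : F, μ + σ μ = c := by
  obtain ⟨a, ha⟩ := exists_moved σ hσ
  have hd : a - σ a ≠ 0 := sub_ne_zero.mpr (Ne.symm ha)
  have hd' : σ a - a ≠ 0 := sub_ne_zero.mpr ha
  refine ⟨c * a / (a - σ a), ?_⟩
  rw [map_div₀, map_mul, map_sub, hinv, hc]
  field_simp
  ring

/-- An element of norm one other than one. -/
theorem exists_norm_one (σ : F ≃+* F) (hσ : σ ≠ RingEquiv.refl F)
    (hinv : ∀ a : F, σ (σ a) = a) : ∃ ζ : F, ζ ≠ 1 ∧ ζ * σ ζ = 1 := by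
  obtain ⟨a, ha⟩ := exists_moved σ hσ
  have ha0 : a ≠ 0 := by
    rintro rfl
    exact ha (map_zero σ)
  have hsa0 : σ a ≠ 0 := by
    intro h
    apply ha0
    have := hinv a
    rw [h, map_zero] at this
    exact this.symm
  refine ⟨σ a / a, ?_, ?_⟩
  · intro h
    rw [div_eq_one_iff_eq ha0] at h
    exact ha h
  · rw [map_div₀, hinv]
    field_simp

variable [Fintype F]

/-- An automorphism of order two of a finite field is `x ↦ x ^ q`, where `card F = q ^ 2`. -/
theorem sigma_eq_pow (σ : F ≃+* F) (hσ : σ ≠ RingEquiv.refl F)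
    (hinv : ∀ a : F, σ (σ a) = a) :
    ∃ q : ℕ, Fintype.card F = q ^ 2 ∧ ∀ x : F, σ x = x ^ q := by
  classical
  let _ : Fintype (fixF σ) := Fintype.ofFinite _
  obtain ⟨p, hp⟩ := CharP.exists (fixF σ)
  obtain ⟨n, hprime, hcard⟩ := FiniteField.card (fixF σ) p
  have : Fact p.Prime := ⟨hprime⟩
  have hpF : CharP F p := charP_of_injective_ringHom (fixF σ).subtype.injective p
  set q := Fintype.card (fixF σ) with hq
  have hq1 : 1 < q := Fintype.one_lt_card
  -- fixed elements satisfy a ^ q = a
  have hfix : ∀ a : F, σ a = a → a ^ q = a := by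
    intro a ha
    have h := FiniteField.pow_card (⟨a, ha⟩ : fixF σ)
    exact congrArg Subtype.val h
  -- the Frobenius power
  have hpow_add : ∀ x y : F, (x + y) ^ q = x ^ q + y ^ q := by
    intro x y
    rw [hcard]
    exact add_pow_char_pow x y p n
  have hpow_sub : ∀ x y : F, (x - y) ^ q = x ^ q - y ^ q := by
    intro x y
    rw [hcard]
    exact sub_pow_char_pow x y n
  -- roots of X ^ q - X are the fixed elements
  have hroot : ∀ x : F, x ^ q = x → σ x = x := by
    intro x hx
    by_contra hne
    have hP0 : (X ^ q - X : F[X]) ≠ 0 := FiniteField.X_pow_card_sub_X_ne_zero F hq1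
    have hdeg : (X ^ q - X : F[X]).natDegree = q := FiniteField.X_pow_card_sub_X_natDegree_eq F hq1
    have hsub : insert x (Finset.univ.map ⟨fun a : fixF σ => (a : F), Subtype.val_injective⟩)
        ⊆ (X ^ q - X : F[X]).roots.toFinset := by
      intro y hy
      rw [Multiset.mem_toFinset, Polynomial.mem_roots hP0, Polynomial.IsRoot, Polynomial.eval_sub,
        Polynomial.eval_pow, Polynomial.eval_X, sub_eq_zero]
      rcases Finset.mem_insert.mp hy with rfl | hy
      · exact hx
      · obtain ⟨a, -, rfl⟩ := Finset.mem_map.mp hy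
        exact hfix a a.2
    have hcard1 : (insert x (Finset.univ.map
        ⟨fun a : fixF σ => (a : F), Subtype.val_injective⟩)).card = q + 1 := by
      rw [Finset.card_insert_of_notMem, Finset.card_map, Finset.card_univ]
      intro hmem
      obtain ⟨a, -, rfl⟩ := Finset.mem_map.mp hmem
      exact hne a.2
    have h1 := Finset.card_le_card hsub
    have h2 : (X ^ q - X : F[X]).roots.toFinset.card ≤ q := by
      calc (X ^ q - X : F[X]).roots.toFinset.card
          ≤ Multiset.card (X ^ q - X : F[X]).roots := Multiset.toFinset_card_le _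
        _ ≤ (X ^ q - X : F[X]).natDegree := Polynomial.card_roots' _
        _ = q := hdeg
    omega
  have hsig : ∀ x : F, σ x = x ^ q := by
    intro x
    have hT : σ (x + σ x) = x + σ x := by rw [map_add, hinv, add_comm]
    have hN : σ (x * σ x) = x * σ x := by rw [map_mul, hinv, mul_comm]
    have h0 : (x ^ q - x) * (x ^ q - σ x) = 0 := by
      have e1 : (x ^ q - x) * (x ^ q - σ x) = (x ^ q) ^ 2 - (x + σ x) * x ^ q + x * σ x := by ring
      have e2 : (x ^ 2 - (x + σ x) * x + x * σ x) ^ q
          = (x ^ q) ^ 2 - (x + σ x) * x ^ q + x * σ x := by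
        rw [hpow_add, hpow_sub, mul_pow, hfix _ hT, hfix _ hN, ← pow_mul, ← pow_mul, mul_comm 2 q]
      have e3 : x ^ 2 - (x + σ x) * x + x * σ x = 0 := by ring
      rw [e1, ← e2, e3, zero_pow (by omega)]
    rcases mul_eq_zero.mp h0 with h | h
    · have hx : x ^ q = x := sub_eq_zero.mp h
      rw [hx]
      exact hroot x hx
    · exact (sub_eq_zero.mp h).symm
  refine ⟨q, ?_, hsig⟩
  -- the cardinality
  obtain ⟨a, ha⟩ := exists_moved σ hσ
  have hd : a - σ a ≠ 0 := sub_ne_zero.mpr (Ne.symm ha)
  have hbij : Function.Bijective (fun z : fixF σ × fixF σ => (z.1 : F) + (z.2 : F) * a) := by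
    constructor
    · rintro ⟨α, β⟩ ⟨α', β'⟩ h
      simp only at h
      have hβ : (β : F) = β' := by
        by_contra hne
        apply ha
        have h1 : a = ((α' : F) - α) / ((β : F) - β') := by
          rw [eq_div_iff (sub_ne_zero.mpr hne)]
          linear_combination h
        rw [h1, map_div₀, map_sub, map_sub, show σ (α' : F) = α' from α'.2,
          show σ (α : F) = α from α.2, show σ (β : F) = β from β.2,
          show σ (β' : F) = β' from β'.2]
      have hα : (α : F) = α' := by
        rw [hβ] at h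
        exact add_right_cancel h
      exact Prod.ext (Subtype.ext hα) (Subtype.ext hβ)
    · intro x
      have hβ : σ ((x - σ x) / (a - σ a)) = (x - σ x) / (a - σ a) := by
        rw [map_div₀, map_sub, map_sub, hinv, hinv, ← neg_sub x, ← neg_sub a, neg_div_neg_eq]
      have hα : σ (x - (x - σ x) / (a - σ a) * a) = x - (x - σ x) / (a - σ a) * a := by
        rw [map_sub, map_mul, hβ]
        field_simp
        ring
      refine ⟨(⟨_, hα⟩, ⟨_, hβ⟩), ?_⟩
      simp only
      ring
  have h := Fintype.card_of_bijective hbij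
  rw [Fintype.card_prod] at h
  rw [← h, ← hq]
  ring

/-- The norm is surjective onto the fixed field. -/
theorem norm_surj (σ : F ≃+* F) (hσ : σ ≠ RingEquiv.refl F)
    (hinv : ∀ a : F, σ (σ a) = a) (c : F) (hc : σ c = c) : ∃ t : F, t * σ t = c := by
  obtain ⟨q, hF, hq⟩ := sigma_eq_pow σ hσ hinv
  by_cases hc0 : c = 0
  · exact ⟨0, by rw [zero_mul, hc0]⟩
  · rw [hq] at hc
    obtain ⟨t, -, ht⟩ := Cfsg.Agent.Lib.Helper7.herm_norm_surj hF c hc0 hc
    refine ⟨t, ?_⟩
    rw [hq, ← pow_succ', ht]

end UnitField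

end Cfsg.Agent.Lib.Helper50
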