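import Mathlib
import Cfsg.Prelude.Def_GeometricClasses
import Cfsg.Agent.Lib.Helper97.Transv
import Cfsg.Agent.Lib.Helper97.TransvM
import Cfsg.Agent.Lib.Helper97.SympMax
import Cfsg.Agent.Lib.Helper50.UnitField

/-!
Unitary forms given as functions (`Cfsg.Geo.IsUnitaryForm σ f`) over a finite field (helper50):
sesquilinear algebra, the row vector `rho f v` of the functional `f(·, v)`, Riesz representation,
existence of non-isotropic vectors in subspaces of small codimension, constructions of isotropic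
vectors, and unitary transvections.
-/

set_option autoImplicit false

namespace Cfsg.Agent.Lib.Helper50

open Matrix Cfsg.Agent.Lib.Helper97

section UnitForm

variable {ι : Type} [Fintype ι] [DecidableEq ι] {F : Type*} [Field F]
variable {σ : F ≃+* F} {f : (ι → F) → (ι → F) → F}

omit [Fintype ι] [DecidableEq ι] in
theorem uf_add_right (hf : Cfsg.Geo.IsUnitaryForm σ f) (v x y : ι → F) :
    f v (x + y) = f v x + f v y := by
  rw [hf.herm v (x + y), hf.add_left, map_add, ← hf.herm, ← hf.herm]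

omit [Fintype ι] [DecidableEq ι] in
theorem uf_smul_right (hf : Cfsg.Geo.IsUnitaryForm σ f) (c : F) (v x : ι → F) :
    f v (c • x) = σ c * f v x := by
  rw [hf.herm v (c • x), hf.smul_left, map_mul, ← hf.herm]

omit [Fintype ι] [DecidableEq ι] in
theorem uf_zero_left (hf : Cfsg.Geo.IsUnitaryForm σ f) (v : ι → F) : f 0 v = 0 := by
  have h := hf.smul_left 0 0 v
  rwa [zero_smul, zero_mul] at h

omit [Fintype ι] [DecidableEq ι] in
theorem uf_zero_right (hf : Cfsg.Geo.IsUnitaryForm σ f) (v : ι → F) : f v 0 = 0 := by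
  rw [hf.herm, uf_zero_left hf, map_zero]

omit [Fintype ι] [DecidableEq ι] in
theorem uf_neg_left (hf : Cfsg.Geo.IsUnitaryForm σ f) (x v : ι → F) : f (-x) v = - f x v := by
  have h := hf.smul_left (-1) x v
  rwa [neg_one_smul, neg_one_mul] at h

omit [Fintype ι] [DecidableEq ι] in
theorem uf_neg_right (hf : Cfsg.Geo.IsUnitaryForm σ f) (v x : ι → F) : f v (-x) = - f v x := by
  rw [hf.herm, uf_neg_left hf, map_neg, ← hf.herm]

omit [Fintype ι] [DecidableEq ι] in
theorem uf_sub_left (hf : Cfsg.Geo.IsUnitaryForm σ f) (x y v : ι → F) :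
    f (x - y) v = f x v - f y v := by
  rw [sub_eq_add_neg, hf.add_left, uf_neg_left hf, ← sub_eq_add_neg]

omit [Fintype ι] [DecidableEq ι] in
theorem uf_sub_right (hf : Cfsg.Geo.IsUnitaryForm σ f) (v x y : ι → F) :
    f v (x - y) = f v x - f v y := by
  rw [sub_eq_add_neg, uf_add_right hf, uf_neg_right hf, ← sub_eq_add_neg]

omit [Fintype ι] [DecidableEq ι] in
theorem uf_self (hf : Cfsg.Geo.IsUnitaryForm σ f) (v : ι → F) : σ (f v v) = f v v :=
  (hf.herm v v).symm

omit [Fintype ι] [DecidableEq ι] in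
theorem uf_swap_ne (hf : Cfsg.Geo.IsUnitaryForm σ f) {v w : ι → F} (h : f v w ≠ 0) :
    f w v ≠ 0 := by
  intro h0
  apply h
  rw [hf.herm, h0, map_zero]

omit [Fintype ι] [DecidableEq ι] in
theorem uf_swap_zero (hf : Cfsg.Geo.IsUnitaryForm σ f) {v w : ι → F} (h : f v w = 0) :
    f w v = 0 := by
  rw [hf.herm, h, map_zero]

omit [Fintype ι] [DecidableEq ι] in
/-- Expansion of the form on `x + α u`, `y + β w`. -/
theorem uf_expand (hf : Cfsg.Geo.IsUnitaryForm σ f) (x y u w : ι → F) (α β : F) :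
    f (x + α • u) (y + β • w) = f x y + σ β * f x w + α * f u y + α * σ β * f u w := by
  rw [hf.add_left, uf_add_right hf, uf_add_right hf, hf.smul_left, hf.smul_left,
    uf_smul_right hf, uf_smul_right hf]
  ring

/-- The linear functional `f(·, v)`. -/
def ufl (hf : Cfsg.Geo.IsUnitaryForm σ f) (v : ι → F) : (ι → F) →ₗ[F] F where
  toFun x := f x v
  map_add' x y := hf.add_left x y v
  map_smul' c x := hf.smul_left c x v

omit [Fintype ι] [DecidableEq ι] in
theorem ufl_apply (hf : Cfsg.Geo.IsUnitaryForm σ f) (v x : ι → F) : ufl hf v x = f x v := rfl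

theorem rho_dot_u (hf : Cfsg.Geo.IsUnitaryForm σ f) (v x : ι → F) : rho f v ⬝ᵥ x = f x v := by
  have h : f x v = ∑ i, x i • f (fun j => if i = j then 1 else 0) v :=
    LinearMap.pi_apply_eq_sum_univ (ufl hf v) x
  rw [h]
  show ∑ j, rho f v j * x j = _
  apply Finset.sum_congr rfl
  intro j _
  rw [smul_eq_mul, mul_comm]
  rfl

omit [Fintype ι] in
theorem rho_add_u (hf : Cfsg.Geo.IsUnitaryForm σ f) (w₁ w₂ : ι → F) :
    rho f (w₁ + w₂) = rho f w₁ + rho f w₂ := by
  funext j
  exact uf_add_right hf _ _ _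

omit [Fintype ι] in
theorem rho_smul_u (hf : Cfsg.Geo.IsUnitaryForm σ f) (c : F) (w : ι → F) :
    rho f (c • w) = σ c • rho f w := by
  funext j
  exact uf_smul_right hf c _ _

omit [Fintype ι] in
theorem rho_sub_u (hf : Cfsg.Geo.IsUnitaryForm σ f) (w₁ w₂ : ι → F) :
    rho f (w₁ - w₂) = rho f w₁ - rho f w₂ := by
  funext j
  exact uf_sub_right hf _ _ _

omit [Fintype ι] [DecidableEq ι] in
/-- A vector orthogonal to everything is zero. -/
theorem uf_eq_zero_of_forall (hf : Cfsg.Geo.IsUnitaryForm σ f) (w : ι → F)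
    (h : ∀ x, f x w = 0) : w = 0 := by
  by_contra hw
  obtain ⟨x, hx⟩ := (hf.nondegenerate w hw).1
  exact hx (h x)

/-- Every row vector is `rho f w` for some `w` (finite field). -/
theorem riesz_u [Finite F] (hf : Cfsg.Geo.IsUnitaryForm σ f) (ψ : ι → F) : ∃ w, rho f w = ψ := by
  have hinj : Function.Injective (rho f) := by
    intro w w' h
    have h0 : w - w' = 0 := by
      apply uf_eq_zero_of_forall hf
      intro x
      rw [uf_sub_right hf, ← rho_dot_u hf, ← rho_dot_u hf, h, sub_self]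
    exact sub_eq_zero.mp h0
  exact Finite.injective_iff_surjective.mp hinj ψ

omit [Fintype ι] [DecidableEq ι] in
/-- A subspace all of whose vectors are isotropic is totally isotropic. -/
theorem uf_zero_of_isotropic (hf : Cfsg.Geo.IsUnitaryForm σ f) (W : Submodule F (ι → F))
    (h : ∀ z ∈ W, f z z = 0) : ∀ x ∈ W, ∀ y ∈ W, f x y = 0 := by
  intro x hx y hy
  obtain ⟨a, ha⟩ := exists_moved σ hf.ne_refl
  have h1 := h _ (W.add_mem hx hy)
  rw [hf.add_left, uf_add_right hf, uf_add_right hf, h x hx, h y hy, zero_add, add_zero] at h1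
  have h2 := h _ (W.add_mem (W.smul_mem a hx) hy)
  rw [hf.add_left, uf_add_right hf, uf_add_right hf, hf.smul_left, hf.smul_left,
    uf_smul_right hf, uf_smul_right hf, h x hx, h y hy, mul_zero, mul_zero, zero_add,
    add_zero] at h2
  have h3 : (a - σ a) * f x y = 0 := by linear_combination h2 - σ a * h1
  rcases mul_eq_zero.mp h3 with h4 | h4
  · exact absurd (sub_eq_zero.mp h4).symm ha
  · exact h4

theorem natCard_eq_pow (K V : Type*) [Field K] [Fintype K] [AddCommGroup V] [Module K V]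
    [Finite V] : Nat.card V = Fintype.card K ^ Module.finrank K V := by
  let _ : Fintype V := Fintype.ofFinite V
  rw [Nat.card_eq_fintype_card]
  exact Module.card_eq_pow_finrank

/-- In dimension at least 7, the common kernel of three functionals `f(·, aᵢ)` contains a
non-isotropic vector. -/
theorem exists_noniso [Fintype F] (hf : Cfsg.Geo.IsUnitaryForm σ f) (hn : 7 ≤ Fintype.card ι)
    (a1 a2 a3 : ι → F) : ∃ z, f z a1 = 0 ∧ f z a2 = 0 ∧ f z a3 = 0 ∧ f z z ≠ 0 := by
  classical
  by_contra hcon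
  push Not at hcon
  let L : (ι → F) →ₗ[F] (Fin 3 → F) := LinearMap.pi ![ufl hf a1, ufl hf a2, ufl hf a3]
  have hW : ∀ z, z ∈ LinearMap.ker L → f z a1 = 0 ∧ f z a2 = 0 ∧ f z a3 = 0 := by
    intro z hz
    have h := LinearMap.mem_ker.mp hz
    exact ⟨congrFun h 0, congrFun h 1, congrFun h 2⟩
  have hiso : ∀ z ∈ LinearMap.ker L, f z z = 0 := by
    intro z hz
    obtain ⟨h1, h2, h3⟩ := hW z hz
    exact hcon z h1 h2 h3
  have hzero := uf_zero_of_isotropic hf (LinearMap.ker L) hiso
  have hrk := LinearMap.finrank_range_add_finrank_ker L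
  rw [Module.finrank_fintype_fun_eq_card] at hrk
  have hr : Module.finrank F (LinearMap.range L) ≤ 3 := by
    have := Submodule.finrank_le (LinearMap.range L)
    rw [Module.finrank_fintype_fun_eq_card, Fintype.card_fin] at this
    exact this
  have hann := Subspace.finrank_add_finrank_dualAnnihilator_eq (LinearMap.ker L)
  rw [Module.finrank_fintype_fun_eq_card] at hann
  have hinj : Function.Injective (fun w : LinearMap.ker L =>
      (⟨ufl hf w.1, (Submodule.mem_dualAnnihilator _).mpr (fun y hy => hzero y hy w.1 w.2)⟩ :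
        (LinearMap.ker L).dualAnnihilator)) := by
    intro w w' h
    have h1 : ufl hf w.1 = ufl hf w'.1 := congrArg Subtype.val h
    apply Subtype.ext
    have h0 : w.1 - w'.1 = 0 := by
      apply uf_eq_zero_of_forall hf
      intro x
      rw [uf_sub_right hf, ← ufl_apply hf, ← ufl_apply hf w'.1, h1, sub_self]
    exact sub_eq_zero.mp h0
  have hfin : Finite (Module.Dual F (ι → F)) := Module.finite_of_finite F
  have hle := Nat.card_le_card_of_injective _ hinj
  rw [natCard_eq_pow F, natCard_eq_pow F] at hle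
  have h2 := (Nat.pow_le_pow_iff_right (Fintype.one_lt_card (α := F))).mp hle
  omega

/-- Vectors of prescribed norm in the common kernel of three functionals. -/
theorem exists_norm_vec [Fintype F] (hf : Cfsg.Geo.IsUnitaryForm σ f) (hn : 7 ≤ Fintype.card ι)
    (a1 a2 a3 : ι → F) (c : F) (hc : σ c = c) :
    ∃ z, f z a1 = 0 ∧ f z a2 = 0 ∧ f z a3 = 0 ∧ f z z = c := by
  obtain ⟨z, h1, h2, h3, hz⟩ := exists_noniso hf hn a1 a2 a3
  have hfix : σ (c / f z z) = c / f z z := by rw [map_div₀, hc, uf_self hf]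
  obtain ⟨t, ht⟩ := norm_surj σ hf.ne_refl hf.involutive _ hfix
  refine ⟨t • z, ?_, ?_, ?_, ?_⟩
  · rw [hf.smul_left, h1, mul_zero]
  · rw [hf.smul_left, h2, mul_zero]
  · rw [hf.smul_left, h3, mul_zero]
  · rw [hf.smul_left, uf_smul_right hf, ← mul_assoc, ht, div_mul_cancel₀ _ hz]

omit [Fintype ι] [DecidableEq ι] in
/-- A vector non-orthogonal to two given non-zero vectors. -/
theorem uf_exists_both (hf : Cfsg.Geo.IsUnitaryForm σ f) {u x : ι → F} (hu : u ≠ 0)
    (hx : x ≠ 0) : ∃ y, f u y ≠ 0 ∧ f x y ≠ 0 := by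
  obtain ⟨z₁, hz₁⟩ := (hf.nondegenerate u hu).2
  obtain ⟨z₂, hz₂⟩ := (hf.nondegenerate x hx).2
  by_cases h1 : f x z₁ = 0
  · by_cases h2 : f u z₂ = 0
    · refine ⟨z₁ + z₂, ?_, ?_⟩
      · rw [uf_add_right hf, h2, add_zero]
        exact hz₁
      · rw [uf_add_right hf, h1, zero_add]
        exact hz₂
    · exact ⟨z₂, h2, hz₂⟩
  · exact ⟨z₁, hz₁, h1⟩

omit [Fintype ι] [DecidableEq ι] in
/-- For `x ≠ 0` and an isotropic `u ≠ 0` there is an isotropic vector non-orthogonal to both. -/
theorem exists_iso_both (hf : Cfsg.Geo.IsUnitaryForm σ f) {x u : ι → F} (hx : x ≠ 0)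
    (hu : u ≠ 0) (huu : f u u = 0) : ∃ z, f z z = 0 ∧ f x z ≠ 0 ∧ f u z ≠ 0 := by
  obtain ⟨y, huy, hxy⟩ := uf_exists_both hf hu hx
  obtain ⟨b, hb0, hb⟩ := exists_trace_zero σ hf.ne_refl hf.involutive
  have hyy : σ (-f y y) = -f y y := by rw [map_neg, uf_self hf]
  obtain ⟨t, ht⟩ := trace_surj σ hf.ne_refl hf.involutive _ hyy
  -- the vectors y + μ u with μ = t / f u y or (t + b) / f u y
  have hiso : ∀ s : F, s + σ s = -f y y → f (y + (s / f u y) • u) (y + (s / f u y) • u) = 0 := by
    intro s hs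
    have e := uf_expand hf y y u u (s / f u y) (s / f u y)
    rw [huu, mul_zero, add_zero, map_div₀, hf.herm y u] at e
    rw [e]
    have h1 : σ (f u y) ≠ 0 := by
      rw [← hf.herm y u]
      exact uf_swap_ne hf huy
    have hs' : σ s = -f y y - s := by linear_combination hs
    rw [hs']
    field_simp
    ring
  have hu2 : ∀ s : F, f u (y + (s / f u y) • u) ≠ 0 := by
    intro s
    rw [uf_add_right hf, uf_smul_right hf, huu, mul_zero, add_zero]
    exact huy
  have hx2 : ∀ s : F, f x (y + (s / f u y) • u) = f x y + σ (s / f u y) * f x u := by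
    intro s
    rw [uf_add_right hf, uf_smul_right hf]
  by_cases h1 : f x (y + (t / f u y) • u) = 0
  · refine ⟨y + ((t + b) / f u y) • u, hiso _ ?_, ?_, hu2 _⟩
    · rw [map_add]
      linear_combination ht + hb
    · intro h2
      rw [hx2] at h1 h2
      have h3 : σ (b / f u y) * f x u = 0 := by
        have e : σ ((t + b) / f u y) = σ (t / f u y) + σ (b / f u y) := by
          rw [add_div, map_add]
        rw [e] at h2
        linear_combination h2 - h1
      have h4 : σ (b / f u y) ≠ 0 := by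
        intro h5
        have h6 : b / f u y = 0 := by
          have := hf.involutive (b / f u y)
          rw [h5, map_zero] at this
          exact this.symm
        rcases div_eq_zero_iff.mp h6 with h7 | h7
        · exact hb0 h7
        · exact huy h7
      have h5 : f x u = 0 := by
        rcases mul_eq_zero.mp h3 with h | h
        · exact absurd h h4
        · exact h
      rw [h5, mul_zero, add_zero] at h1
      exact hxy h1
  · exact ⟨y + (t / f u y) • u, hiso _ ht, h1, hu2 _⟩

/-- A non-zero isotropic vector exists. -/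
theorem exists_iso [Fintype F] (hf : Cfsg.Geo.IsUnitaryForm σ f) (hn : 7 ≤ Fintype.card ι) :
    ∃ u : ι → F, u ≠ 0 ∧ f u u = 0 := by
  obtain ⟨x, -, -, -, hx⟩ := exists_noniso hf hn 0 0 0
  have hc : σ (-f x x) = -f x x := by rw [map_neg, uf_self hf]
  obtain ⟨z, hz, -, -, hzz⟩ := exists_norm_vec hf hn x 0 0 _ hc
  refine ⟨x + z, ?_, ?_⟩
  · intro h0
    apply hx
    have h1 : f (x + z) x = f x x := by rw [hf.add_left, hz, add_zero]
    rw [← h1, h0, uf_zero_left hf]
  · rw [hf.add_left, uf_add_right hf, uf_add_right hf, hzz, hz, uf_swap_zero hf hz]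
    ring

/-- Every vector is a sum of two isotropic vectors. -/
theorem exists_iso_sum [Fintype F] (hf : Cfsg.Geo.IsUnitaryForm σ f) (hn : 7 ≤ Fintype.card ι)
    (y : ι → F) : ∃ u₁ u₂ : ι → F, f u₁ u₁ = 0 ∧ f u₂ u₂ = 0 ∧ y = u₁ + u₂ := by
  by_cases hy : y = 0
  · refine ⟨0, 0, uf_zero_left hf 0, uf_zero_left hf 0, ?_⟩
    rw [hy, add_zero]
  · obtain ⟨u₀, hu₀, hu₀u₀⟩ := exists_iso hf hn
    obtain ⟨u, huu, hyu, -⟩ := exists_iso_both hf hy hu₀ hu₀u₀
    have hc : σ (f y y) = f y y := uf_self hf y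
    obtain ⟨t, ht⟩ := trace_surj σ hf.ne_refl hf.involutive _ hc
    have huy : f u y ≠ 0 := uf_swap_ne hf hyu
    refine ⟨(t / f u y) • u, y - (t / f u y) • u, ?_, ?_, ?_⟩
    · rw [hf.smul_left, uf_smul_right hf, huu, mul_zero, mul_zero]
    · rw [uf_sub_left hf, uf_sub_right hf, uf_sub_right hf, hf.smul_left, hf.smul_left,
        uf_smul_right hf, uf_smul_right hf, huu, map_div₀, hf.herm y u]
      have h1 : σ (f u y) ≠ 0 := by
        rw [← hf.herm y u]
        exact hyu
      have ht' : σ t = f y y - t := by linear_combination ht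
      rw [ht']
      field_simp
      ring
    · abel

theorem utv_dot0 (hf : Cfsg.Geo.IsUnitaryForm σ f) (u : ι → F) (huu : f u u = 0) (b : F) :
    (b • rho f u) ⬝ᵥ u = 0 := by
  rw [smul_dotProduct, rho_dot_u hf, huu, smul_zero]

/-- Unitary transvections `x ↦ x + b f(x, u) u` (`u` isotropic, `b` of trace zero) are
isometries of determinant one. -/
theorem utv_mem (hf : Cfsg.Geo.IsUnitaryForm σ f) (u : ι → F) (huu : f u u = 0) (b : F)
    (hb : b + σ b = 0) :
    tvG u (b • rho f u) (utv_dot0 hf u huu b) ∈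
      Cfsg.Geo.similarityGroup f ⊓ Cfsg.Geo.specialLinear ι F := by
  refine Subgroup.mem_inf.mpr ⟨?_, tvG_mem_specialLinear _ _ _⟩
  rw [mem_similarityGroup_iff]
  refine ⟨1, fun x y => ?_⟩
  rw [tvG_val, tv_mulVec, tv_mulVec, smul_dotProduct, smul_dotProduct, rho_dot_u hf,
    rho_dot_u hf, Units.val_one, one_mul, uf_expand hf, huu, hf.herm u y]
  simp only [smul_eq_mul, map_mul]
  have hb' : σ b = -b := by linear_combination hb
  rw [hb']
  ring

end UnitForm

end Cfsg.Agent.Lib.Helper50
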