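import Mathlib
import Cfsg.Prelude.Def_GeometricClasses
import Cfsg.Agent.Lib.Helper97.Transv
import Cfsg.Agent.Lib.Helper97.TransvM
import Cfsg.Agent.Lib.Helper97.SympMax
import Cfsg.Agent.Lib.Helper50.UnitField
import Cfsg.Agent.Lib.Helper50.UnitForm

/-!
The similarity group of a non-degenerate unitary form meets `SL_n` in a maximal subgroup of
`SL_n` over a finite field, `n ≥ 7` (helper50).  Elementary transvection argument on top of the
calculus `TM M u ψ` of helper97.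
-/

set_option autoImplicit false

namespace Cfsg.Agent.Lib.Helper50

open Matrix Cfsg.Agent.Lib.Helper97

section UnitMax

variable {ι : Type} [Fintype ι] [DecidableEq ι] {F : Type*} [Field F]
variable {σ : F ≃+* F} {f : (ι → F) → (ι → F) → F}

theorem gl_inv_mulVec (h : GL ι F) (y : ι → F) :
    ((h⁻¹ : GL ι F) : Matrix ι ι F) *ᵥ ((h : Matrix ι ι F) *ᵥ y) = y := by
  rw [Matrix.mulVec_mulVec, ← Units.val_mul, inv_mul_cancel, Units.val_one, Matrix.one_mulVec]

theorem gl_mulVec_inv (h : GL ι F) (y : ι → F) :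
    (h : Matrix ι ι F) *ᵥ (((h⁻¹ : GL ι F) : Matrix ι ι F) *ᵥ y) = y := by
  rw [Matrix.mulVec_mulVec, ← Units.val_mul, mul_inv_cancel, Units.val_one, Matrix.one_mulVec]

theorem rowvec_ext {ψ₁ ψ₂ : ι → F} (h : ∀ y : ι → F, ψ₁ ⬝ᵥ y = ψ₂ ⬝ᵥ y) : ψ₁ = ψ₂ := by
  funext j
  have := h (Pi.single j 1)
  rwa [dotProduct_single_one, dotProduct_single_one] at this

/-- Rescaling the centre of a transvection. -/
theorem TM_scale {M : Subgroup (GL ι F)} {u ψ : ι → F} (h : TM M u ψ) (c : F) (hc : c ≠ 0) :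
    TM M (c • u) (c⁻¹ • ψ) := by
  have h0 : (c⁻¹ • ψ) ⬝ᵥ (c • u) = 0 := by
    rw [smul_dotProduct, dotProduct_smul, h.1, smul_zero, smul_zero]
  refine ⟨h0, fun t ht => h.2 t ?_⟩
  rw [ht, tv, tv, Matrix.smul_vecMulVec, Matrix.vecMulVec_smul, smul_smul, mul_inv_cancel₀ hc,
    one_smul]

/-- The commutator of two transvections. -/
theorem TM_comm {M : Subgroup (GL ι F)} {v φ w ψ : ι → F} (h1 : TM M v φ) (h2 : TM M w ψ)
    (h0 : φ ⬝ᵥ w = 0) : TM M w ((ψ ⬝ᵥ v) • φ) := by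
  have hk := h1.mem
  have h3 := TM_conj h2 hk
  have hkw : ((tvG v φ h1.1 : GL ι F) : Matrix ι ι F) *ᵥ w = w := by
    rw [tvG_val, tv_mulVec, h0, zero_smul, add_zero]
  have hkw' : (((tvG v φ h1.1)⁻¹ : GL ι F) : Matrix ι ι F) *ᵥ w = w := by
    conv_lhs => rw [← hkw]
    rw [gl_inv_mulVec]
  rw [hkw', tvG_val, tv, Matrix.vecMul_add, Matrix.vecMul_one, Matrix.vecMul_vecMulVec] at h3
  have h4 := TM_sub h3 h2
  rwa [add_sub_cancel_left] at h4

omit [Fintype ι] [DecidableEq ι] in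
/-- If `f(·, z)` vanishes on the kernel of `f(·, v)` then `z` is a multiple of `v`. -/
theorem uf_prop_of_ker (hf : Cfsg.Geo.IsUnitaryForm σ f) (v z : ι → F)
    (h : ∀ y, f y v = 0 → f y z = 0) : ∃ c : F, z = c • v := by
  by_cases hv : v = 0
  · refine ⟨0, ?_⟩
    rw [zero_smul]
    apply uf_eq_zero_of_forall hf
    intro y
    exact h y (by rw [hv, uf_zero_right hf])
  · obtain ⟨x₀, hx₀⟩ := (hf.nondegenerate v hv).1
    refine ⟨σ (f x₀ z / f x₀ v), ?_⟩
    have h0 : z - σ (f x₀ z / f x₀ v) • v = 0 := by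
      apply uf_eq_zero_of_forall hf
      intro y
      have h1 : f (y - (f y v / f x₀ v) • x₀) v = 0 := by
        rw [uf_sub_left hf, hf.smul_left, div_mul_cancel₀ _ hx₀, sub_self]
      have h2 := h _ h1
      rw [uf_sub_left hf, hf.smul_left, sub_eq_zero] at h2
      rw [uf_sub_right hf, uf_smul_right hf, hf.involutive, h2]
      field_simp
      ring
    exact sub_eq_zero.mp h0

/-- Unitary transvections are isometries. -/
theorem utv_isom (hf : Cfsg.Geo.IsUnitaryForm σ f) (u : ι → F) (huu : f u u = 0) (b : F)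
    (hb : b + σ b = 0) (x y : ι → F) :
    f (tv u (b • rho f u) *ᵥ x) (tv u (b • rho f u) *ᵥ y) = f x y := by
  rw [tv_mulVec, tv_mulVec, smul_dotProduct, smul_dotProduct, rho_dot_u hf,
    rho_dot_u hf, uf_expand hf, huu, hf.herm u y]
  simp only [smul_eq_mul, map_mul]
  have hb' : σ b = -b := by linear_combination hb
  rw [hb']
  ring

/-- A matrix which, for every isotropic `u`, multiplies the functional `f(·, u)` by a scalar, is
a similarity. -/
theorem sim_of_iso [Fintype F] (hf : Cfsg.Geo.IsUnitaryForm σ f) (hn : 7 ≤ Fintype.card ι)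
    (g : GL ι F)
    (h : ∀ u : ι → F, f u u = 0 → ∃ c : F, ∀ y,
      f ((g : Matrix ι ι F) *ᵥ y) ((g : Matrix ι ι F) *ᵥ u) = c * f y u) :
    g ∈ Cfsg.Geo.similarityGroup f := by
  obtain ⟨u₀, hu₀, hu₀u₀⟩ := exists_iso hf hn
  obtain ⟨c₀, hc₀⟩ := h u₀ hu₀u₀
  -- constants of non-orthogonal isotropic vectors are conjugate
  have hconj : ∀ (u z : ι → F) (cu cz : F), f u z ≠ 0 →
      (∀ y, f ((g : Matrix ι ι F) *ᵥ y) ((g : Matrix ι ι F) *ᵥ u) = cu * f y u) →
      (∀ y, f ((g : Matrix ι ι F) *ᵥ y) ((g : Matrix ι ι F) *ᵥ z) = cz * f y z) →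
      cz = σ cu := by
    intro u z cu cz huz h1 h2
    have e1 := h2 u
    have e2 := h1 z
    rw [hf.herm, e2, map_mul, ← hf.herm u z] at e1
    exact (mul_right_cancel₀ huz e1).symm
  have hall : ∀ u : ι → F, f u u = 0 → ∀ y,
      f ((g : Matrix ι ι F) *ᵥ y) ((g : Matrix ι ι F) *ᵥ u) = c₀ * f y u := by
    intro u huu y
    by_cases hu : u = 0
    · rw [hu, Matrix.mulVec_zero, uf_zero_right hf, uf_zero_right hf, mul_zero]
    · obtain ⟨cu, hcu⟩ := h u huu
      obtain ⟨z, hzz, huz, hu₀z⟩ := exists_iso_both hf hu hu₀ hu₀u₀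
      obtain ⟨cz, hcz⟩ := h z hzz
      have e1 := hconj u z cu cz huz hcu hcz
      have e2 := hconj u₀ z c₀ cz hu₀z hc₀ hcz
      have e3 : cu = c₀ := σ.injective (e1.symm.trans e2)
      rw [hcu y, e3]
  have hall' : ∀ v y : ι → F,
      f ((g : Matrix ι ι F) *ᵥ y) ((g : Matrix ι ι F) *ᵥ v) = c₀ * f y v := by
    intro v y
    obtain ⟨u₁, u₂, h1, h2, rfl⟩ := exists_iso_sum hf hn v
    rw [Matrix.mulVec_add, uf_add_right hf, uf_add_right hf, hall u₁ h1, hall u₂ h2]
    ring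
  have hc0 : c₀ ≠ 0 := by
    intro h0
    apply hu₀
    have h1 : (g : Matrix ι ι F) *ᵥ u₀ = 0 := by
      apply uf_eq_zero_of_forall hf
      intro x
      have h2 := hall' u₀ (((g⁻¹ : GL ι F) : Matrix ι ι F) *ᵥ x)
      rw [gl_mulVec_inv, h0, zero_mul] at h2
      exact h2
    have h3 := gl_inv_mulVec g u₀
    rw [h1, Matrix.mulVec_zero] at h3
    exact h3.symm
  rw [mem_similarityGroup_iff]
  exact ⟨Units.mk0 c₀ hc0, fun u v => by rw [Units.val_mk0]; exact hall' v u⟩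

end UnitMax

section UnitMaxMain

variable {ι : Type} [Fintype ι] [DecidableEq ι] {F : Type*} [Field F]
variable {σ : F ≃+* F} {f : (ι → F) → (ι → F) → F}

/-- Conjugating the transvection `1 + v φᵀ` by the transvection `1 + w ψᵀ`. -/
theorem TM_conj_tv {M : Subgroup (GL ι F)} {v φ w ψ : ι → F} (h1 : TM M v φ) (h2 : TM M w ψ) :
    TM M (v + (ψ ⬝ᵥ v) • w) (φ - (φ ⬝ᵥ w) • ψ) := by
  have hk : tvG w (-ψ) (TM_neg h2).1 ∈ M := (TM_neg h2).mem
  have h3 := TM_conj h1 hk
  have hinv : (tvG w (-ψ) (TM_neg h2).1)⁻¹ = tvG w ψ h2.1 := by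
    rw [inv_eq_iff_eq_inv, eq_inv_iff_mul_eq_one]
    apply Units.ext
    rw [Units.val_mul, tvG_val, tvG_val, tv_mul_tv_same _ _ _ (TM_neg h2).1, neg_add_cancel,
      tv_zero_right, Units.val_one]
  rw [hinv, tvG_val, tvG_val, tv_mulVec, tv, Matrix.vecMul_add, Matrix.vecMul_one,
    Matrix.vecMul_vecMulVec] at h3
  rwa [smul_neg, ← sub_eq_add_neg] at h3

/-- Unitary transvections lie in every overgroup of the unitary similarity group in `SL`. -/
theorem utv_TM (hf : Cfsg.Geo.IsUnitaryForm σ f) {M : Subgroup (GL ι F)}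
    (hHM : Cfsg.Geo.similarityGroup f ⊓ Cfsg.Geo.specialLinear ι F ≤ M) (u : ι → F)
    (huu : f u u = 0) (b : F) (hb : b + σ b = 0) : TM M u (b • rho f u) :=
  TM_of_mem (utv_dot0 hf u huu b) (hHM (utv_mem hf u huu b hb))

/-- `UStar M f v`: all the transvections `1 + c v f(·, v)` lie in `M`. -/
def UStar (M : Subgroup (GL ι F)) (f : (ι → F) → (ι → F) → F) (v : ι → F) : Prop :=
  ∀ c : F, TM M v (c • rho f v)

theorem star_isom (hf : Cfsg.Geo.IsUnitaryForm σ f) {M : Subgroup (GL ι F)} (h : GL ι F)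
    (hh : h ∈ M)
    (hiso : ∀ x y, f ((h : Matrix ι ι F) *ᵥ x) ((h : Matrix ι ι F) *ᵥ y) = f x y) {v : ι → F}
    (hv : UStar M f v) : UStar M f ((h : Matrix ι ι F) *ᵥ v) := by
  intro c
  have t1 := TM_conj (hv c) (inv_mem hh)
  rw [inv_inv] at t1
  have e : (c • rho f v) ᵥ* ((h⁻¹ : GL ι F) : Matrix ι ι F) =
      c • rho f ((h : Matrix ι ι F) *ᵥ v) := by
    apply rowvec_ext
    intro y
    rw [← Matrix.dotProduct_mulVec, smul_dotProduct, smul_dotProduct, rho_dot_u hf,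
      rho_dot_u hf]
    congr 1
    have := hiso (((h⁻¹ : GL ι F) : Matrix ι ι F) *ᵥ y) v
    rw [gl_mulVec_inv] at this
    exact this.symm
  rwa [e] at t1

theorem star_smul (hf : Cfsg.Geo.IsUnitaryForm σ f) {M : Subgroup (GL ι F)} {v : ι → F}
    (hv : UStar M f v) (a : F) (ha : a ≠ 0) : UStar M f (a • v) := by
  intro c
  have t1 := TM_scale (hv (c * σ a * a)) a ha
  have e : a⁻¹ • (c * σ a * a) • rho f v = c • rho f (a • v) := by
    rw [rho_smul_u hf, smul_smul, smul_smul]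
    congr 1
    field_simp
  rwa [e] at t1

/-- Moving the property `UStar` between non-orthogonal isotropic vectors. -/
theorem star_move (hf : Cfsg.Geo.IsUnitaryForm σ f) {M : Subgroup (GL ι F)}
    (hHM : Cfsg.Geo.similarityGroup f ⊓ Cfsg.Geo.specialLinear ι F ≤ M) (v0 v : ι → F)
    (h0 : f v0 v0 = 0) (hvv : f v v = 0) (hne : f v0 v ≠ 0) (hs : UStar M f v0) :
    UStar M f v := by
  obtain ⟨b, hb0, hb⟩ := exists_trace_zero σ hf.ne_refl hf.involutive
  have hb' : σ b = -b := by linear_combination hb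
  have hne' : f v v0 ≠ 0 := uf_swap_ne hf hne
  obtain ⟨μ, hμ⟩ : ∃ μ : F, μ = b / f v v0 := ⟨_, rfl⟩
  have hμ0 : μ ≠ 0 := by rw [hμ]; exact div_ne_zero hb0 hne'
  have hμ2 : μ * f v v0 = b := by rw [hμ]; exact div_mul_cancel₀ b hne'
  have hσμ : σ μ * f v0 v = -b := by
    have h1 : σ μ * f v0 v = σ (μ * f v v0) := by rw [map_mul, ← hf.herm v0 v]
    rw [h1, hμ2, hb']
  have hww : f (v0 + μ • v) (v0 + μ • v) = 0 := by
    have e := uf_expand hf v0 v0 v v μ μ
    rw [h0, hvv, mul_zero, add_zero, zero_add, hσμ] at e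
    rw [e]
    linear_combination hμ2
  have hbi : b⁻¹ + σ b⁻¹ = 0 := by
    rw [map_inv₀, hb', inv_neg]
    ring
  have hk := hHM (utv_mem hf (v0 + μ • v) hww b⁻¹ hbi)
  have hkv : ((tvG (v0 + μ • v) (b⁻¹ • rho f (v0 + μ • v)) (utv_dot0 hf _ hww b⁻¹) : GL ι F) :
      Matrix ι ι F) *ᵥ v0 = (-μ) • v := by
    rw [tvG_val, tv_mulVec, smul_dotProduct, rho_dot_u hf, uf_add_right hf, uf_smul_right hf, h0,
      zero_add, hσμ, smul_eq_mul]
    have h1 : b⁻¹ * -b = -1 := by field_simp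
    rw [h1]
    module
  have s1 := star_isom hf _ hk (fun x y => by rw [tvG_val]; exact utv_isom hf _ hww b⁻¹ hbi x y) hs
  rw [hkv] at s1
  have s2 := star_smul hf s1 (-μ)⁻¹ (inv_ne_zero (neg_ne_zero.mpr hμ0))
  rwa [smul_smul, inv_mul_cancel₀ (neg_ne_zero.mpr hμ0), one_smul] at s2

section fin

variable [Fintype F]

/-- Step A1: an isotropic `v` with a transvection `1 + v f(·, z)` in `M`, `z` not a multiple of
`v`, has the property `UStar`. -/
theorem star_of_TM (hf : Cfsg.Geo.IsUnitaryForm σ f) (hn : 7 ≤ Fintype.card ι)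
    {M : Subgroup (GL ι F)}
    (hHM : Cfsg.Geo.similarityGroup f ⊓ Cfsg.Geo.specialLinear ι F ≤ M) (v z : ι → F)
    (hvv : f v v = 0) (hTM : TM M v (rho f z)) (hz : ∀ c : F, z ≠ c • v) : UStar M f v := by
  have hvz : f v z = 0 := by
    have := hTM.1
    rwa [rho_dot_u hf] at this
  have hy : ∃ y, f y v = 0 ∧ f y z ≠ 0 := by
    by_contra hcon
    push Not at hcon
    obtain ⟨c, hc⟩ := uf_prop_of_ker hf v z hcon
    exact hz c hc
  obtain ⟨y, hyv, hyz⟩ := hy
  have hw : ∃ w, f w w = 0 ∧ f w v = 0 ∧ f w z ≠ 0 := by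
    by_cases hyy : f y y = 0
    · exact ⟨y, hyy, hyv, hyz⟩
    · have hc : σ (-f y y) = -f y y := by rw [map_neg, uf_self hf]
      obtain ⟨z', h1, h2, h3, h4⟩ := exists_norm_vec hf hn v y z _ hc
      refine ⟨y + z', ?_, ?_, ?_⟩
      · rw [hf.add_left, uf_add_right hf, uf_add_right hf, h4, h2, uf_swap_zero hf h2]
        ring
      · rw [hf.add_left, hyv, h1, add_zero]
      · rw [hf.add_left, h3, add_zero]
        exact hyz
  obtain ⟨w, hww, hwv, hwz⟩ := hw
  obtain ⟨b, hb0, hb⟩ := exists_trace_zero σ hf.ne_refl hf.involutive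
  have hvw : f v w = 0 := uf_swap_zero hf hwv
  intro c
  obtain ⟨l, hl⟩ : ∃ l : F, l = c / (f w z * b) := ⟨_, rfl⟩
  have hu1 : f (l • w) (l • w) = 0 := by
    rw [hf.smul_left, uf_smul_right hf, hww, mul_zero, mul_zero]
  have hu2 : f (v + l • w) (v + l • w) = 0 := by
    rw [hf.add_left, uf_add_right hf, uf_add_right hf, hvv, hu1, hf.smul_left,
      uf_smul_right hf, hwv, hvw]
    ring
  have t1 := TM_comm (utv_TM hf hHM (l • w) hu1 b hb) hTM (by
    rw [smul_dotProduct, rho_dot_u hf, uf_smul_right hf, hvw, mul_zero, smul_zero])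
  have t2 := TM_comm (utv_TM hf hHM (v + l • w) hu2 b hb) hTM (by
    rw [smul_dotProduct, rho_dot_u hf, uf_add_right hf, uf_smul_right hf, hvw, hvv, mul_zero,
      add_zero, smul_zero])
  have t3 := TM_sub t2 t1
  have e : (rho f z ⬝ᵥ (v + l • w)) • b • rho f (v + l • w) -
      (rho f z ⬝ᵥ (l • w)) • b • rho f (l • w) = c • rho f v := by
    rw [rho_dot_u hf, rho_dot_u hf, hf.add_left, hf.smul_left, hvz, zero_add, rho_add_u hf,
      rho_smul_u hf]
    have hc : l * f w z * b = c := by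
      rw [hl]
      field_simp
    rw [← hc]
    module
  rwa [e] at t3

/-- Step A2: from a transvection in `M` with non-isotropic centre to one with isotropic
centre. -/
theorem exists_star_data_of_noniso (hf : Cfsg.Geo.IsUnitaryForm σ f)
    (hn : 7 ≤ Fintype.card ι) {M : Subgroup (GL ι F)}
    (hHM : Cfsg.Geo.similarityGroup f ⊓ Cfsg.Geo.specialLinear ι F ≤ M) (v z : ι → F)
    (hvv : f v v ≠ 0) (hTM : TM M v (rho f z)) (hz : z ≠ 0) :
    ∃ w z', w ≠ 0 ∧ f w w = 0 ∧ TM M w (rho f z') ∧ ∀ c : F, z' ≠ c • w := by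
  have hvz : f v z = 0 := by
    have := hTM.1
    rwa [rho_dot_u hf] at this
  have hzv : f z v = 0 := uf_swap_zero hf hvz
  obtain ⟨b, hb0, hb⟩ := exists_trace_zero σ hf.ne_refl hf.involutive
  have hc : σ (-f v v) = -f v v := by rw [map_neg, uf_self hf]
  obtain ⟨z'', h1, h2, -, h4⟩ := exists_norm_vec hf hn v z 0 _ hc
  have h1' : f v z'' = 0 := uf_swap_zero hf h1
  have hww : f (v + z'') (v + z'') = 0 := by
    rw [hf.add_left, uf_add_right hf, uf_add_right hf, h4, h1, h1']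
    ring
  have hwz : f (v + z'') z = 0 := by rw [hf.add_left, hvz, h2, add_zero]
  have hvw : f v (v + z'') = f v v := by rw [uf_add_right hf, h1', add_zero]
  have hwv : f (v + z'') v = f v v := by rw [hf.add_left, h1, add_zero]
  have hw0 : v + z'' ≠ 0 := by
    intro h0
    apply hvv
    rw [← hwv, h0, uf_zero_left hf]
  have t1 := TM_comm hTM (utv_TM hf hHM (v + z'') hww b hb) (by rw [rho_dot_u hf]; exact hwz)
  have hne : b * f v v ≠ 0 := mul_ne_zero hb0 hvv
  have e : ((b • rho f (v + z'')) ⬝ᵥ v) • rho f z = rho f (σ (b * f v v) • z) := by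
    rw [smul_dotProduct, rho_dot_u hf, hvw, rho_smul_u hf, hf.involutive, smul_eq_mul]
  rw [e] at t1
  refine ⟨v + z'', σ (b * f v v) • z, hw0, hww, t1, ?_⟩
  intro c hc'
  have h5 : f (σ (b * f v v) • z) v = 0 := by rw [hf.smul_left, hzv, mul_zero]
  rw [hc', hf.smul_left, hwv] at h5
  have hc0 : c = 0 := by
    rcases mul_eq_zero.mp h5 with h | h
    · exact h
    · exact absurd h hvv
  rw [hc0, zero_smul] at hc'
  have h6 : σ (b * f v v) ≠ 0 := by
    intro h7
    apply hne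
    have := hf.involutive (b * f v v)
    rw [h7, map_zero] at this
    exact this.symm
  rcases smul_eq_zero.mp hc' with h | h
  · exact h6 h
  · exact hz h

/-- Step 0: an element of `M` which is not a similarity yields a transvection in `M` with
isotropic centre `v` and functional `f(·, z)`, `z` not a multiple of `v`. -/
theorem exists_star_data (hf : Cfsg.Geo.IsUnitaryForm σ f) (hn : 7 ≤ Fintype.card ι)
    {M : Subgroup (GL ι F)}
    (hHM : Cfsg.Geo.similarityGroup f ⊓ Cfsg.Geo.specialLinear ι F ≤ M) (g : GL ι F)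
    (hgM : g ∈ M) (hg : g ∉ Cfsg.Geo.similarityGroup f) :
    ∃ v z, v ≠ 0 ∧ f v v = 0 ∧ TM M v (rho f z) ∧ ∀ c : F, z ≠ c • v := by
  have h1 : ¬ ∀ u : ι → F, f u u = 0 → ∃ c : F, ∀ y,
      f ((g : Matrix ι ι F) *ᵥ y) ((g : Matrix ι ι F) *ᵥ u) = c * f y u :=
    fun h => hg (sim_of_iso hf hn g h)
  push Not at h1
  obtain ⟨u, huu, hu⟩ := h1
  have hu0 : u ≠ 0 := by
    intro h0
    obtain ⟨y, hy⟩ := hu 0
    apply hy
    rw [h0, Matrix.mulVec_zero, uf_zero_right hf, uf_zero_right hf, mul_zero]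
  obtain ⟨b, hb0, hb⟩ := exists_trace_zero σ hf.ne_refl hf.involutive
  have t1 := TM_conj (utv_TM hf hHM u huu b hb) (inv_mem hgM)
  rw [inv_inv] at t1
  obtain ⟨z, hz⟩ := riesz_u hf ((b • rho f u) ᵥ* ((g⁻¹ : GL ι F) : Matrix ι ι F))
  have hzy : ∀ y, f y z = b * f (((g⁻¹ : GL ι F) : Matrix ι ι F) *ᵥ y) u := by
    intro y
    rw [← rho_dot_u hf, hz, ← Matrix.dotProduct_mulVec, smul_dotProduct, rho_dot_u hf,
      smul_eq_mul]
  have hzg : ∀ x, f ((g : Matrix ι ι F) *ᵥ x) z = b * f x u := by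
    intro x
    rw [hzy, gl_inv_mulVec]
  rw [← hz] at t1
  have hgu0 : (g : Matrix ι ι F) *ᵥ u ≠ 0 := by
    intro h0
    apply hu0
    have := gl_inv_mulVec g u
    rw [h0, Matrix.mulVec_zero] at this
    exact this.symm
  have hz0 : z ≠ 0 := by
    intro h0
    apply hu0
    apply uf_eq_zero_of_forall hf
    intro x
    have := hzg x
    rw [h0, uf_zero_right hf] at this
    rcases mul_eq_zero.mp this.symm with h | h
    · exact absurd h hb0
    · exact h
  by_cases hvv : f ((g : Matrix ι ι F) *ᵥ u) ((g : Matrix ι ι F) *ᵥ u) = 0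
  · refine ⟨_, z, hgu0, hvv, t1, ?_⟩
    intro c hc
    have h2 : ∀ x, σ c * f ((g : Matrix ι ι F) *ᵥ x) ((g : Matrix ι ι F) *ᵥ u) = b * f x u := by
      intro x
      rw [← hzg x, hc, uf_smul_right hf]
    have hc0 : σ c ≠ 0 := by
      intro h0
      apply hu0
      apply uf_eq_zero_of_forall hf
      intro x
      have := h2 x
      rw [h0, zero_mul] at this
      rcases mul_eq_zero.mp this.symm with h | h
      · exact absurd h hb0
      · exact h
    obtain ⟨y, hy⟩ := hu (b / σ c)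
    apply hy
    rw [div_mul_eq_mul_div, eq_div_iff hc0, mul_comm]
    exact h2 y
  · exact exists_star_data_of_noniso hf hn hHM _ z hvv t1 hz0

/-- All isotropic vectors have the property `UStar`. -/
theorem star_all (hf : Cfsg.Geo.IsUnitaryForm σ f) (hn : 7 ≤ Fintype.card ι)
    {M : Subgroup (GL ι F)}
    (hHM : Cfsg.Geo.similarityGroup f ⊓ Cfsg.Geo.specialLinear ι F ≤ M) (g : GL ι F)
    (hgM : g ∈ M) (hg : g ∉ Cfsg.Geo.similarityGroup f) :
    ∀ u : ι → F, f u u = 0 → UStar M f u := by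
  obtain ⟨v, z, hv0, hvv, hTM, hz⟩ := exists_star_data hf hn hHM g hgM hg
  have hs := star_of_TM hf hn hHM v z hvv hTM hz
  intro u huu
  by_cases hu : u = 0
  · intro c
    have t := utv_TM hf hHM u huu 0 (by rw [map_zero, add_zero])
    have e : c • rho f u = (0 : F) • rho f u := by
      have h0 : rho f u = 0 := by
        funext j
        show f _ u = 0
        rw [hu, uf_zero_right hf]
      rw [h0, smul_zero, smul_zero]
    rw [e]
    exact t
  · obtain ⟨z', hz'z', huz', hvz'⟩ := exists_iso_both hf hu hv0 hvv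
    have s1 := star_move hf hHM v z' hvv hz'z' hvz' hs
    exact star_move hf hHM z' u hz'z' huu (uf_swap_ne hf huz') s1

end fin

section fin2

variable [Fintype F]

/-- Steps B/C: if all isotropic vectors have the property `UStar`, then for orthogonal
non-isotropic `x`, `z` the transvections `1 + c x f(·, z)` lie in `M`. -/
theorem TM_noniso (hf : Cfsg.Geo.IsUnitaryForm σ f) {M : Subgroup (GL ι F)}
    (hstar : ∀ u : ι → F, f u u = 0 → UStar M f u) (x z : ι → F) (hxx : f x x ≠ 0)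
    (hzz : f z z ≠ 0) (hxz : f x z = 0) (c : F) : TM M x (c • rho f z) := by
  have hzx : f z x = 0 := uf_swap_zero hf hxz
  have hfix : σ (-f x x / f z z) = -f x x / f z z := by
    rw [map_div₀, map_neg, uf_self hf, uf_self hf]
  obtain ⟨l, hl⟩ := norm_surj σ hf.ne_refl hf.involutive _ hfix
  obtain ⟨ζ, hζ1, hζ⟩ := exists_norm_one σ hf.ne_refl hf.involutive
  have hζ0 : ζ ≠ 0 := by
    intro h0
    rw [h0, zero_mul] at hζ
    exact zero_ne_one hζ
  have hσζ : σ ζ = ζ⁻¹ := eq_inv_of_mul_eq_one_right hζ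
  have hl0 : l ≠ 0 := by
    intro h0
    rw [h0, zero_mul] at hl
    have h1 : -f x x / f z z ≠ 0 := div_ne_zero (neg_ne_zero.mpr hxx) hzz
    exact h1 hl.symm
  have hl' : l * σ l * f z z = -f x x := by
    rw [hl, div_mul_cancel₀ _ hzz]
  have hvv : f (x + l • z) (x + l • z) = 0 := by
    rw [uf_expand hf, hxz, hzx]
    linear_combination hl'
  have hww : f (x + (l * ζ) • z) (x + (l * ζ) • z) = 0 := by
    rw [uf_expand hf, hxz, hzx, map_mul]
    linear_combination (ζ * σ ζ) * hl' - f x x * hζ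
  have hvw : f (x + l • z) (x + (l * ζ) • z) = f x x * (1 - σ ζ) := by
    rw [uf_expand hf, hxz, hzx, map_mul]
    linear_combination σ ζ * hl'
  have hwv : f (x + (l * ζ) • z) (x + l • z) = f x x * (1 - ζ) := by
    rw [uf_expand hf, hxz, hzx]
    linear_combination ζ * hl'
  have h1ζ : 1 - ζ ≠ 0 := sub_ne_zero.mpr (Ne.symm hζ1)
  have hζ2 : 1 - σ ζ = -ζ⁻¹ * (1 - ζ) := by
    rw [hσζ]
    field_simp
    ring
  obtain ⟨κ, hκ⟩ : ∃ κ : F, κ = 1 - ζ⁻¹ := ⟨_, rfl⟩
  have hκ' : κ = -ζ⁻¹ * (1 - ζ) := by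
    rw [hκ]
    field_simp
    ring
  have hκ0 : κ ≠ 0 := by
    rw [hκ']
    exact mul_ne_zero (neg_ne_zero.mpr (inv_ne_zero hζ0)) h1ζ
  obtain ⟨τ, hτ⟩ : ∃ τ : F, τ = σ (l * (1 - ζ)) := ⟨_, rfl⟩
  have hτ0 : τ ≠ 0 := by
    intro h0
    have h1 := hf.involutive (l * (1 - ζ))
    rw [← hτ, h0, map_zero] at h1
    exact mul_ne_zero hl0 h1ζ h1.symm
  have hτ' : σ l - σ (l * ζ) = τ := by
    rw [hτ, mul_sub, mul_one, map_sub]
  obtain ⟨d, hd⟩ : ∃ d : F, d = (f x x * (1 - ζ))⁻¹ := ⟨_, rfl⟩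
  have hd1 : d * (f x x * (1 - ζ)) = 1 := by
    rw [hd]
    exact inv_mul_cancel₀ (mul_ne_zero hxx h1ζ)
  obtain ⟨c', hc'⟩ : ∃ c' : F, c' = c / (κ * τ) := ⟨_, rfl⟩
  have t := TM_conj_tv (hstar _ hvv c') (hstar _ hww d)
  have e1 : (x + l • z) + ((d • rho f (x + (l * ζ) • z)) ⬝ᵥ (x + l • z)) • (x + (l * ζ) • z) =
      κ • x := by
    rw [smul_dotProduct, rho_dot_u hf, hvw, smul_eq_mul, hζ2]
    have h1 : d * (f x x * (-ζ⁻¹ * (1 - ζ))) = -ζ⁻¹ := by linear_combination (-ζ⁻¹) * hd1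
    rw [h1, smul_add, smul_smul]
    have h2 : -ζ⁻¹ * (l * ζ) = -l := by
      field_simp
    rw [h2, hκ]
    module
  have e2 : c' • rho f (x + l • z) -
      ((c' • rho f (x + l • z)) ⬝ᵥ (x + (l * ζ) • z)) • d • rho f (x + (l * ζ) • z) =
      (κ⁻¹ * c) • rho f z := by
    rw [smul_dotProduct, rho_dot_u hf, hwv, smul_eq_mul, rho_add_u hf, rho_add_u hf,
      rho_smul_u hf, rho_smul_u hf, smul_smul]
    have h1 : c' * (f x x * (1 - ζ)) * d = c' := by linear_combination c' * hd1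
    rw [h1]
    have h2 : c' * (σ l - σ (l * ζ)) = κ⁻¹ * c := by
      rw [hτ', hc']
      field_simp
    rw [← h2]
    module
  rw [e1, e2] at t
  have t2 := TM_scale t κ⁻¹ (inv_ne_zero hκ0)
  rwa [smul_smul, inv_mul_cancel₀ hκ0, one_smul, inv_inv, smul_smul, ← mul_assoc,
    mul_inv_cancel₀ hκ0, one_mul] at t2

/-- Step D: non-isotropic vectors are centres of all their transvections in `M`. -/
theorem centres_noniso (hf : Cfsg.Geo.IsUnitaryForm σ f) (hn : 7 ≤ Fintype.card ι)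
    {M : Subgroup (GL ι F)} (hstar : ∀ u : ι → F, f u u = 0 → UStar M f u) (x : ι → F)
    (hxx : f x x ≠ 0) : x ∈ centres M := by
  apply mem_centres_of_TM
  intro ψ hψ
  obtain ⟨z0, rfl⟩ := riesz_u hf ψ
  rw [rho_dot_u hf] at hψ
  by_cases hz : f z0 z0 = 0
  · obtain ⟨z1, h1, h2, -, h4⟩ := exists_noniso hf hn x z0 0
    have h1' : f x z1 = 0 := uf_swap_zero hf h1
    have h2' : f z0 z1 = 0 := uf_swap_zero hf h2
    have h5 : f (z0 - z1) (z0 - z1) ≠ 0 := by
      rw [uf_sub_left hf, uf_sub_right hf, uf_sub_right hf, hz, h2, h2']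
      intro h
      apply h4
      linear_combination h
    have h6 : f x (z0 - z1) = 0 := by rw [uf_sub_right hf, hψ, h1', sub_zero]
    have t1 := TM_noniso hf hstar x z1 hxx h4 h1' 1
    have t2 := TM_noniso hf hstar x (z0 - z1) hxx h5 h6 1
    have t3 := TM_add t1 t2
    rwa [one_smul, one_smul, ← rho_add_u hf, add_sub_cancel] at t3
  · have t := TM_noniso hf hstar x z0 hxx hz hψ 1
    rwa [one_smul] at t

/-- A subgroup containing the unitary similarity group in `SL` and an element which is not a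
similarity contains `SL`. -/
theorem unit_overgroup [Nontrivial ι] (hf : Cfsg.Geo.IsUnitaryForm σ f)
    (hn : 7 ≤ Fintype.card ι) (M : Subgroup (GL ι F))
    (hHM : Cfsg.Geo.similarityGroup f ⊓ Cfsg.Geo.specialLinear ι F ≤ M) (g : GL ι F)
    (hgM : g ∈ M) (hg : g ∉ Cfsg.Geo.similarityGroup f) :
    Cfsg.Geo.specialLinear ι F ≤ M := by
  have hstar := star_all hf hn hHM g hgM hg
  have hc : ∀ v : ι → F, v ∈ centres M := by
    intro v
    by_cases hvv : f v v = 0
    · obtain ⟨x1, h1, -, -, h4⟩ := exists_noniso hf hn v 0 0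
      have h5 : f (v - x1) (v - x1) ≠ 0 := by
        rw [uf_sub_left hf, uf_sub_right hf, uf_sub_right hf, hvv, h1, uf_swap_zero hf h1]
        intro h
        apply h4
        linear_combination h
      have h6 := centres_add M (centres_noniso hf hn hstar x1 h4)
        (centres_noniso hf hn hstar _ h5)
      rwa [add_sub_cancel] at h6
    · exact centres_noniso hf hn hstar v hvv
  exact specialLinear_le_of_tv M (fun v φ hφ t ht => hc v φ hφ t ht)

/-- A transvection of determinant one which is not a similarity. -/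
theorem unit_exists_not_sim (hf : Cfsg.Geo.IsUnitaryForm σ f) (hn : 7 ≤ Fintype.card ι) :
    ∃ t ∈ Cfsg.Geo.specialLinear ι F, t ∉ Cfsg.Geo.similarityGroup f := by
  obtain ⟨x, -, -, -, hxx⟩ := exists_noniso hf hn 0 0 0
  obtain ⟨z, hzx, -, -, hzz⟩ := exists_noniso hf hn x 0 0
  have hxz : f x z = 0 := uf_swap_zero hf hzx
  have h0 : rho f z ⬝ᵥ x = 0 := by rw [rho_dot_u hf]; exact hxz
  refine ⟨tvG x (rho f z) h0, tvG_mem_specialLinear _ _ _, ?_⟩
  intro hmem
  rw [mem_similarityGroup_iff] at hmem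
  obtain ⟨c, hc⟩ := hmem
  have e1 := hc x x
  rw [tvG_val, tv_mulVec, h0, zero_smul, add_zero] at e1
  have hc1 : (c : F) = 1 := by
    have h1 : (c : F) * f x x = 1 * f x x := by rw [one_mul]; exact e1.symm
    exact mul_right_cancel₀ hxx h1
  have e2 := hc z z
  rw [tvG_val, tv_mulVec, rho_dot_u hf, hc1, one_mul] at e2
  have e3 := uf_expand hf z z x x (f z z) (f z z)
  rw [e2, uf_self hf, hzx, hxz] at e3
  have h2 : f z z * f z z * f x x = 0 := by linear_combination -e3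
  exact mul_ne_zero (mul_ne_zero hzz hzz) hxx h2

end fin2

end UnitMaxMain

/-- The similarity group of a non-degenerate unitary form meets `SL_n` in a maximal subgroup of
`SL_n` (finite field, `n ≥ 7`). -/
theorem unit_isMaximalIn {F : Type*} [Field F] [Fintype F] (n : ℕ) (hn : 7 ≤ n) (σ : F ≃+* F)
    (f : (Fin n → F) → (Fin n → F) → F) (hf : Cfsg.Geo.IsUnitaryForm σ f) :
    Cfsg.Geo.IsMaximalIn (Cfsg.Geo.specialLinear (Fin n) F)
      (Cfsg.Geo.similarityGroup f ⊓ Cfsg.Geo.specialLinear (Fin n) F) := by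
  have hnt : Nontrivial (Fin n) := Fin.nontrivial_iff_two_le.mpr (by omega)
  have hcard : 7 ≤ Fintype.card (Fin n) := by rw [Fintype.card_fin]; exact hn
  refine ⟨lt_of_le_of_ne inf_le_right ?_, ?_⟩
  · intro heq
    obtain ⟨t, ht, hts⟩ := unit_exists_not_sim hf hcard
    rw [← heq] at ht
    exact hts ht.1
  · intro M hHM hMS
    by_cases hMH : M ≤ Cfsg.Geo.similarityGroup f ⊓ Cfsg.Geo.specialLinear (Fin n) F
    · left
      exact le_antisymm hMH hHM
    · right
      obtain ⟨g, hgM, hgH⟩ := SetLike.not_le_iff_exists.mp hMH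
      exact le_antisymm hMS
        (unit_overgroup hf hcard M hHM g hgM (fun h => hgH ⟨h, hMS hgM⟩))

end Cfsg.Agent.Lib.Helper50
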