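import Mathlib
import Cfsg.Prelude.Def_GeometricClasses
import Cfsg.Agent.Lib.Helper97.Transv
import Cfsg.Agent.Lib.Helper97.TransvM
import Cfsg.Agent.Lib.Helper97.SympMax
import Cfsg.Agent.Lib.Helper50.UnitMax

/-!
Non-degenerate quadratic forms given as functions (`Cfsg.Geo.IsNondegenerateQuadraticForm Q`) in
odd characteristic (helper50): polar form algebra, Riesz representation, non-singular vectors and
vectors of prescribed norm in subspaces of small codimension, the form `Q ∘ g`.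
-/

set_option autoImplicit false

namespace Cfsg.Agent.Lib.Helper50

open Matrix Cfsg.Agent.Lib.Helper97 QuadraticMap

section OrthForm

variable {ι : Type} [Fintype ι] [DecidableEq ι] {F : Type*} [Field F]
variable {Q : (ι → F) → F}

omit [Fintype ι] [DecidableEq ι] in
theorem polar_def' (Q : (ι → F) → F) (x y : ι → F) : polar Q x y = Q (x + y) - Q x - Q y := rfl

omit [Fintype ι] [DecidableEq ι] in
theorem q_add (Q : (ι → F) → F) (x y : ι → F) : Q (x + y) = Q x + Q y + polar Q x y := by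
  rw [polar_def']
  ring

omit [Fintype ι] [DecidableEq ι] in
theorem q_zero (hQ : Cfsg.Geo.IsNondegenerateQuadraticForm Q) : Q 0 = 0 := by
  have h := hQ.smul 0 0
  rw [zero_smul, zero_pow two_ne_zero, zero_mul] at h
  exact h

omit [Fintype ι] [DecidableEq ι] in
theorem q_neg (hQ : Cfsg.Geo.IsNondegenerateQuadraticForm Q) (x : ι → F) : Q (-x) = Q x := by
  have h := hQ.smul (-1) x
  rw [neg_one_smul, neg_one_sq, one_mul] at h
  exact h

omit [Fintype ι] [DecidableEq ι] in
theorem b_symm (Q : (ι → F) → F) (x y : ι → F) : polar Q x y = polar Q y x :=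
  polar_comm Q x y

omit [Fintype ι] [DecidableEq ι] in
theorem b_self (hQ : Cfsg.Geo.IsNondegenerateQuadraticForm Q) (x : ι → F) :
    polar Q x x = 2 * Q x := by
  rw [polar_def', ← two_smul F x, hQ.smul]
  ring

omit [Fintype ι] [DecidableEq ι] in
theorem q_expand (hQ : Cfsg.Geo.IsNondegenerateQuadraticForm Q) (x y : ι → F) (t : F) :
    Q (x + t • y) = Q x + t * polar Q x y + t ^ 2 * Q y := by
  rw [q_add Q, hQ.polar_bilinear.smul_right, hQ.smul]
  ring

omit [Fintype ι] [DecidableEq ι] in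
theorem q_sub (hQ : Cfsg.Geo.IsNondegenerateQuadraticForm Q) (x y : ι → F) :
    Q (x - y) = Q x - polar Q x y + Q y := by
  have h := q_expand hQ x y (-1)
  rw [neg_one_smul, ← sub_eq_add_neg] at h
  rw [h]
  ring

omit [Fintype ι] [DecidableEq ι] in
theorem b_neg_right (hQ : Cfsg.Geo.IsNondegenerateQuadraticForm Q) (x y : ι → F) :
    polar Q x (-y) = - polar Q x y := by
  have h := hQ.polar_bilinear.smul_right (-1) x y
  rwa [neg_one_smul, neg_one_mul] at h

omit [Fintype ι] [DecidableEq ι] in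
theorem b_neg_left (hQ : Cfsg.Geo.IsNondegenerateQuadraticForm Q) (x y : ι → F) :
    polar Q (-x) y = - polar Q x y := by
  have h := hQ.polar_bilinear.smul_left (-1) x y
  rwa [neg_one_smul, neg_one_mul] at h

omit [Fintype ι] [DecidableEq ι] in
theorem b_sub_left (hQ : Cfsg.Geo.IsNondegenerateQuadraticForm Q) (x y v : ι → F) :
    polar Q (x - y) v = polar Q x v - polar Q y v := by
  rw [sub_eq_add_neg, hQ.polar_bilinear.add_left, b_neg_left hQ, ← sub_eq_add_neg]

omit [Fintype ι] [DecidableEq ι] in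
theorem b_sub_right (hQ : Cfsg.Geo.IsNondegenerateQuadraticForm Q) (v x y : ι → F) :
    polar Q v (x - y) = polar Q v x - polar Q v y := by
  rw [sub_eq_add_neg, hQ.polar_bilinear.add_right, b_neg_right hQ, ← sub_eq_add_neg]

omit [Fintype ι] [DecidableEq ι] in
theorem b_zero_left (hQ : Cfsg.Geo.IsNondegenerateQuadraticForm Q) (v : ι → F) :
    polar Q 0 v = 0 := form_zero_left hQ.polar_bilinear v

omit [Fintype ι] [DecidableEq ι] in
theorem b_zero_right (hQ : Cfsg.Geo.IsNondegenerateQuadraticForm Q) (v : ι → F) :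
    polar Q v 0 = 0 := form_zero_right hQ.polar_bilinear v

theorem rho_dot_s (hQ : Cfsg.Geo.IsNondegenerateQuadraticForm Q) (v x : ι → F) :
    rho (polar Q) v ⬝ᵥ x = polar Q x v := rho_dot hQ.polar_bilinear v x

omit [Fintype ι] [DecidableEq ι] in
theorem b_eq_zero_of_forall (hQ : Cfsg.Geo.IsNondegenerateQuadraticForm Q) (w : ι → F)
    (h : ∀ x, polar Q x w = 0) : w = 0 := by
  by_contra hw
  obtain ⟨x, hx⟩ := (hQ.nondegenerate w hw).1
  exact hx (h x)

/-- Every row vector is `rho (polar Q) w` for some `w`. -/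
theorem riesz_s (hQ : Cfsg.Geo.IsNondegenerateQuadraticForm Q) (ψ : ι → F) :
    ∃ w, rho (polar Q) w = ψ := by
  have hb := hQ.polar_bilinear
  let R : (ι → F) →ₗ[F] (ι → F) :=
    { toFun := rho (polar Q)
      map_add' := rho_add hb
      map_smul' := fun c w => rho_smul hb c w }
  have hinj : Function.Injective R := by
    rw [← LinearMap.ker_eq_bot, LinearMap.ker_eq_bot']
    intro w hw
    apply b_eq_zero_of_forall hQ
    intro x
    rw [← rho_dot hb]
    have hw' : rho (polar Q) w = 0 := hw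
    rw [hw', zero_dotProduct]
  exact LinearMap.surjective_of_injective hinj ψ

theorem two_ne_zero_of_odd [Fintype F] (hodd : Odd (Fintype.card F)) : (2 : F) ≠ 0 := by
  intro h
  have hc : CharP F 2 := CharTwo.of_one_ne_zero_of_two_eq_zero one_ne_zero h
  have h2 : ringChar F = 2 := ringChar.eq F 2
  have h3 := FiniteField.even_card_of_char_two h2
  rcases hodd with ⟨m, hm⟩
  omega

omit [DecidableEq ι] in
/-- A non-singular vector in the common kernel of `k` functionals, `2k < n`. -/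
theorem exists_nonsing (hQ : Cfsg.Geo.IsNondegenerateQuadraticForm Q) {k : ℕ}
    (φ : Fin k → ι → F) (hk : 2 * k < Fintype.card ι) :
    ∃ z, (∀ i, φ i ⬝ᵥ z = 0) ∧ Q z ≠ 0 := by
  classical
  by_contra hcon
  push Not at hcon
  have hb := hQ.polar_bilinear
  let L : (ι → F) →ₗ[F] (Fin k → F) := Matrix.mulVecLin (Matrix.of φ)
  have hK : ∀ z, z ∈ LinearMap.ker L → Q z = 0 := by
    intro z hz
    apply hcon z
    intro i
    exact congrFun (LinearMap.mem_ker.mp hz) i
  have hzero : ∀ x ∈ LinearMap.ker L, ∀ y ∈ LinearMap.ker L, polar Q x y = 0 := by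
    intro x hx y hy
    rw [polar_def', hK _ ((LinearMap.ker L).add_mem hx hy), hK x hx, hK y hy]
    ring
  have hrk := LinearMap.finrank_range_add_finrank_ker L
  rw [Module.finrank_fintype_fun_eq_card] at hrk
  have hr : Module.finrank F (LinearMap.range L) ≤ k := by
    have := Submodule.finrank_le (LinearMap.range L)
    rw [Module.finrank_fintype_fun_eq_card, Fintype.card_fin] at this
    exact this
  have hann := Subspace.finrank_add_finrank_dualAnnihilator_eq (LinearMap.ker L)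
  rw [Module.finrank_fintype_fun_eq_card] at hann
  let T : LinearMap.ker L →ₗ[F] Module.Dual F (ι → F) :=
    ((bil hb).flip).domRestrict (LinearMap.ker L)
  have hT : ∀ w : LinearMap.ker L, T w ∈ (LinearMap.ker L).dualAnnihilator := by
    intro w
    rw [Submodule.mem_dualAnnihilator]
    intro y hy
    exact hzero y hy w.1 w.2
  have hinj : Function.Injective (T.codRestrict _ hT) := by
    intro w w' h
    have h1 : T w = T w' := congrArg Subtype.val h
    apply Subtype.ext
    by_contra hne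
    have h0 : w.1 - w'.1 ≠ 0 := sub_ne_zero.mpr hne
    obtain ⟨x, hx⟩ := (hQ.nondegenerate _ h0).1
    apply hx
    have h2 : T w x = T w' x := by rw [h1]
    have h3 : polar Q x w.1 = polar Q x w'.1 := h2
    rw [b_sub_right hQ, h3, sub_self]
  have hle := LinearMap.finrank_le_finrank_of_injective hinj
  omega

omit [DecidableEq ι] in
/-- A non-singular vector in the common kernel of five functionals. -/
theorem exists_nonsing5 (hQ : Cfsg.Geo.IsNondegenerateQuadraticForm Q)
    (hn : 11 ≤ Fintype.card ι) (φ1 φ2 φ3 φ4 φ5 : ι → F) :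
    ∃ z, φ1 ⬝ᵥ z = 0 ∧ φ2 ⬝ᵥ z = 0 ∧ φ3 ⬝ᵥ z = 0 ∧ φ4 ⬝ᵥ z = 0 ∧ φ5 ⬝ᵥ z = 0 ∧ Q z ≠ 0 := by
  obtain ⟨z, hz, hq⟩ := exists_nonsing hQ ![φ1, φ2, φ3, φ4, φ5] (by omega)
  exact ⟨z, hz 0, hz 1, hz 2, hz 3, hz 4, hq⟩

/-- In a finite field of odd order, `a x² + b y² = c` is solvable. -/
theorem exists_sq_sum [Fintype F] (hodd : Odd (Fintype.card F)) (a b c : F) (ha : a ≠ 0)
    (hb : b ≠ 0) : ∃ x y : F, a * x ^ 2 + b * y ^ 2 = c := by
  classical
  have h1 : (Polynomial.C a * Polynomial.X ^ 2 - Polynomial.C c : Polynomial F).degree = 2 := by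
    rw [Polynomial.degree_sub_C, Polynomial.degree_C_mul_X_pow 2 ha]
    · rfl
    · rw [Polynomial.degree_C_mul_X_pow 2 ha]
      decide
  have h2 : (Polynomial.C b * Polynomial.X ^ 2 : Polynomial F).degree = 2 := by
    rw [Polynomial.degree_C_mul_X_pow 2 hb]
    rfl
  obtain ⟨x, y, hxy⟩ := FiniteField.exists_root_sum_quadratic h1 h2 (Nat.odd_iff.mp hodd)
  refine ⟨x, y, ?_⟩
  simp only [Polynomial.eval_sub, Polynomial.eval_mul, Polynomial.eval_C, Polynomial.eval_pow,
    Polynomial.eval_X] at hxy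
  linear_combination hxy

/-- A vector of prescribed norm in the common kernel of three functionals. -/
theorem exists_norm3 [Fintype F] (hQ : Cfsg.Geo.IsNondegenerateQuadraticForm Q)
    (hodd : Odd (Fintype.card F)) (hn : 11 ≤ Fintype.card ι) (φ1 φ2 φ3 : ι → F) (c : F) :
    ∃ z, φ1 ⬝ᵥ z = 0 ∧ φ2 ⬝ᵥ z = 0 ∧ φ3 ⬝ᵥ z = 0 ∧ Q z = c := by
  obtain ⟨d₁, h11, h12, h13, -, -, hd₁⟩ := exists_nonsing5 hQ hn φ1 φ2 φ3 0 0
  obtain ⟨d₂, h21, h22, h23, h24, -, hd₂⟩ :=
    exists_nonsing5 hQ hn φ1 φ2 φ3 (rho (polar Q) d₁) 0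
  rw [rho_dot_s hQ] at h24
  obtain ⟨x, y, hxy⟩ := exists_sq_sum hodd (Q d₁) (Q d₂) c hd₁ hd₂
  refine ⟨x • d₁ + y • d₂, ?_, ?_, ?_, ?_⟩
  · rw [dotProduct_add, dotProduct_smul, dotProduct_smul, h11, h21, smul_zero, smul_zero,
      add_zero]
  · rw [dotProduct_add, dotProduct_smul, dotProduct_smul, h12, h22, smul_zero, smul_zero,
      add_zero]
  · rw [dotProduct_add, dotProduct_smul, dotProduct_smul, h13, h23, smul_zero, smul_zero,
      add_zero]
  · rw [q_add Q, hQ.smul, hQ.smul, hQ.polar_bilinear.smul_left, hQ.polar_bilinear.smul_right,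
      b_symm Q d₁ d₂, h24]
    linear_combination hxy

/-- The quadratic form `x ↦ Q (g x)` is again non-degenerate. -/
theorem q_comp (hQ : Cfsg.Geo.IsNondegenerateQuadraticForm Q) (g : GL ι F) :
    Cfsg.Geo.IsNondegenerateQuadraticForm (fun x => Q ((g : Matrix ι ι F) *ᵥ x)) := by
  have hb := hQ.polar_bilinear
  have hp : ∀ x y, polar (fun x => Q ((g : Matrix ι ι F) *ᵥ x)) x y =
      polar Q ((g : Matrix ι ι F) *ᵥ x) ((g : Matrix ι ι F) *ᵥ y) := by
    intro x y
    rw [polar_def', polar_def', Matrix.mulVec_add]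
  refine ⟨fun c v => ?_, ⟨?_, ?_, ?_, ?_⟩, ?_⟩
  · show Q ((g : Matrix ι ι F) *ᵥ (c • v)) = c ^ 2 * Q ((g : Matrix ι ι F) *ᵥ v)
    rw [Matrix.mulVec_smul, hQ.smul]
  · intro x y v
    rw [hp, hp, hp, Matrix.mulVec_add, hb.add_left]
  · intro c x v
    rw [hp, hp, Matrix.mulVec_smul, hb.smul_left]
  · intro v x y
    rw [hp, hp, hp, Matrix.mulVec_add, hb.add_right]
  · intro c v x
    rw [hp, hp, Matrix.mulVec_smul, hb.smul_right]
  · intro v hv
    have hgv : (g : Matrix ι ι F) *ᵥ v ≠ 0 := by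
      intro h0
      apply hv
      have := gl_inv_mulVec g v
      rw [h0, Matrix.mulVec_zero] at this
      exact this.symm
    obtain ⟨⟨x, hx⟩, ⟨y, hy⟩⟩ := hQ.nondegenerate _ hgv
    refine ⟨⟨((g⁻¹ : GL ι F) : Matrix ι ι F) *ᵥ x, ?_⟩, ⟨((g⁻¹ : GL ι F) : Matrix ι ι F) *ᵥ y, ?_⟩⟩
    · rw [hp, gl_mulVec_inv]
      exact hx
    · rw [hp, gl_mulVec_inv]
      exact hy

theorem polar_comp (Q : (ι → F) → F) (g : GL ι F) (x y : ι → F) :
    polar (fun x => Q ((g : Matrix ι ι F) *ᵥ x)) x y =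
      polar Q ((g : Matrix ι ι F) *ᵥ x) ((g : Matrix ι ι F) *ᵥ y) := by
  rw [polar_def', polar_def', Matrix.mulVec_add]

end OrthForm

end Cfsg.Agent.Lib.Helper50
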