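import Mathlib
import Cfsg.Prelude.Def_GeometricClasses
import Cfsg.Agent.Lib.Helper97.Transv
import Cfsg.Agent.Lib.Helper97.TransvM
import Cfsg.Agent.Lib.Helper97.SympMax
import Cfsg.Agent.Lib.Helper50.UnitMax
import Cfsg.Agent.Lib.Helper50.OrthForm

/-!
The similarity group of a non-degenerate quadratic form meets `SL_n` in a maximal subgroup of
`SL_n` over a finite field of odd order, `n ≥ 11` (helper50).  Reflections as elements of `GL`,
the commutator of two double reflections for two different forms is a transvection, and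
reflections spread one transvection to all of them.
-/

set_option autoImplicit false

namespace Cfsg.Agent.Lib.Helper50

open Matrix Cfsg.Agent.Lib.Helper97 QuadraticMap

section OrthRefl

variable {ι : Type} [Fintype ι] [DecidableEq ι] {F : Type*} [Field F]
variable {Q : (ι → F) → F}

theorem mem_quadSim_iff (Q : (ι → F) → F) (g : GL ι F) :
    g ∈ Cfsg.Geo.quadSimilarityGroup Q ↔
      ∃ c : Fˣ, ∀ v, Q ((g : Matrix ι ι F) *ᵥ v) = (c : F) * Q v := Iff.rfl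

/-- The matrix of the reflection `y ↦ y - (B(y,a)/Q(a)) a`. -/
def Rf (Q : (ι → F) → F) (a : ι → F) : Matrix ι ι F :=
  tv a (-(Q a)⁻¹ • rho (polar Q) a)

omit [Fintype ι] in
theorem Rf_eq (Q : (ι → F) → F) (a : ι → F) : Rf Q a = tv a (-(Q a)⁻¹ • rho (polar Q) a) := rfl

theorem Rf_mulVec (hQ : Cfsg.Geo.IsNondegenerateQuadraticForm Q) (a y : ι → F) :
    Rf Q a *ᵥ y = y - (polar Q y a / Q a) • a := by
  rw [Rf_eq, tv_mulVec, smul_dotProduct, rho_dot_s hQ, smul_eq_mul, sub_eq_add_neg, ← neg_smul]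
  congr 2
  ring

theorem Rf_fix (hQ : Cfsg.Geo.IsNondegenerateQuadraticForm Q) (a y : ι → F)
    (h : polar Q y a = 0) : Rf Q a *ᵥ y = y := by
  rw [Rf_mulVec hQ, h, zero_div, zero_smul, sub_zero]

theorem Rf_det (hQ : Cfsg.Geo.IsNondegenerateQuadraticForm Q) (a : ι → F) (ha : Q a ≠ 0) :
    (Rf Q a).det = -1 := by
  rw [Rf_eq, tv, Matrix.vecMulVec_eq Unit, Matrix.det_one_add_replicateCol_mul_replicateRow,
    smul_dotProduct, rho_dot_s hQ, b_self hQ, smul_eq_mul]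
  field_simp
  ring

theorem Rf_q (hQ : Cfsg.Geo.IsNondegenerateQuadraticForm Q) (a : ι → F) (ha : Q a ≠ 0)
    (y : ι → F) : Q (Rf Q a *ᵥ y) = Q y := by
  rw [Rf_mulVec hQ, sub_eq_add_neg, ← neg_smul, q_expand hQ]
  field_simp
  ring

/-- The reflection as an element of `GL`. -/
noncomputable def RfG (hQ : Cfsg.Geo.IsNondegenerateQuadraticForm Q) (a : ι → F)
    (ha : Q a ≠ 0) : GL ι F :=
  Matrix.GeneralLinearGroup.mkOfDetNeZero (Rf Q a)
    (by rw [Rf_det hQ a ha]; exact neg_ne_zero.mpr one_ne_zero)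

theorem RfG_val (hQ : Cfsg.Geo.IsNondegenerateQuadraticForm Q) (a : ι → F) (ha : Q a ≠ 0) :
    ((RfG hQ a ha : GL ι F) : Matrix ι ι F) = Rf Q a := rfl

/-- Products of two reflections are isometries of determinant one. -/
theorem Rf2_mem (hQ : Cfsg.Geo.IsNondegenerateQuadraticForm Q) (a b : ι → F) (ha : Q a ≠ 0)
    (hb : Q b ≠ 0) :
    RfG hQ a ha * RfG hQ b hb ∈
      Cfsg.Geo.quadSimilarityGroup Q ⊓ Cfsg.Geo.specialLinear ι F := by
  refine Subgroup.mem_inf.mpr ⟨?_, ?_⟩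
  · rw [mem_quadSim_iff]
    refine ⟨1, fun v => ?_⟩
    rw [Units.val_mul, ← Matrix.mulVec_mulVec, RfG_val, RfG_val, Rf_q hQ a ha, Rf_q hQ b hb,
      Units.val_one, one_mul]
  · rw [mem_specialLinear_iff, Units.val_mul, Matrix.det_mul, RfG_val, RfG_val, Rf_det hQ a ha,
      Rf_det hQ b hb]
    ring

theorem Rf2_val_mulVec (hQ : Cfsg.Geo.IsNondegenerateQuadraticForm Q) (a b : ι → F)
    (ha : Q a ≠ 0) (hb : Q b ≠ 0) (y : ι → F) :
    ((RfG hQ a ha * RfG hQ b hb : GL ι F) : Matrix ι ι F) *ᵥ y = Rf Q a *ᵥ (Rf Q b *ᵥ y) := by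
  rw [Units.val_mul, ← Matrix.mulVec_mulVec, RfG_val, RfG_val]

omit [Fintype ι] in
theorem rho_sub_smul_s (hQ : Cfsg.Geo.IsNondegenerateQuadraticForm Q) (w₁ w₂ : ι → F) (c : F) :
    rho (polar Q) (w₁ - c • w₂) = rho (polar Q) w₁ - c • rho (polar Q) w₂ := by
  funext j
  exact form_sub_smul_right hQ.polar_bilinear _ _ _ c

/-- Row vectors `rho ω` transform under reflections like vectors. -/
theorem rho_vecMul_Rf (hQ : Cfsg.Geo.IsNondegenerateQuadraticForm Q) (ω x : ι → F) :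
    rho (polar Q) ω ᵥ* Rf Q x = rho (polar Q) (Rf Q x *ᵥ ω) := by
  apply rowvec_ext
  intro y
  rw [← Matrix.dotProduct_mulVec, rho_dot_s hQ, rho_dot_s hQ, Rf_mulVec hQ, Rf_mulVec hQ,
    form_sub_smul_left hQ.polar_bilinear, form_sub_smul_right hQ.polar_bilinear, b_symm Q x ω]
  ring

theorem rho_vecMul_Rf2 (hQ : Cfsg.Geo.IsNondegenerateQuadraticForm Q) (ω a b : ι → F)
    (ha : Q a ≠ 0) (hb : Q b ≠ 0) :
    rho (polar Q) ω ᵥ* ((RfG hQ a ha * RfG hQ b hb : GL ι F) : Matrix ι ι F) =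
      rho (polar Q) (Rf Q b *ᵥ (Rf Q a *ᵥ ω)) := by
  rw [Units.val_mul, ← Matrix.vecMul_vecMul, RfG_val, RfG_val, rho_vecMul_Rf hQ,
    rho_vecMul_Rf hQ]

theorem gl_inv_fix (h : GL ι F) (v : ι → F) (hv : (h : Matrix ι ι F) *ᵥ v = v) :
    ((h⁻¹ : GL ι F) : Matrix ι ι F) *ᵥ v = v := by
  conv_lhs => rw [← hv]
  exact gl_inv_mulVec h v

theorem vecMul_inv_fix (h : GL ι F) (ψ : ι → F) (hψ : ψ ᵥ* (h : Matrix ι ι F) = ψ) :
    ψ ᵥ* ((h⁻¹ : GL ι F) : Matrix ι ι F) = ψ := by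
  conv_lhs => rw [← hψ]
  rw [Matrix.vecMul_vecMul, ← Units.val_mul, mul_inv_cancel, Units.val_one, Matrix.vecMul_one]

/-- Transvections with the same functional: the centres add. -/
theorem TM_add_centre {M : Subgroup (GL ι F)} {u u' ψ : ι → F} (h₁ : TM M u ψ)
    (h₂ : TM M u' ψ) : TM M (u + u') ψ := by
  have h0 : ψ ⬝ᵥ (u + u') = 0 := by rw [dotProduct_add, h₁.1, h₂.1, add_zero]
  refine ⟨h0, fun t ht => ?_⟩
  have h3 : t = tvG u ψ h₁.1 * tvG u' ψ h₂.1 := by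
    apply Units.ext
    rw [ht, Units.val_mul, tvG_val, tvG_val, tv, tv, tv, Matrix.add_mul, Matrix.one_mul,
      Matrix.mul_add, Matrix.mul_one, Matrix.vecMulVec_mul_vecMulVec, h₂.1, zero_smul,
      Matrix.vecMulVec_zero, add_zero, Matrix.add_vecMulVec, add_assoc,
      add_comm (vecMulVec u ψ)]
  rw [h3]
  exact M.mul_mem h₁.mem h₂.mem

/-- The commutator computation: pure linear algebra. -/
theorem comm_calc (φc φd φa φb c d a b : ι → F)
    (h1 : φc ⬝ᵥ c = -2) (h2 : φd ⬝ᵥ d = -2) (h3 : φc ⬝ᵥ d = 0) (h4 : φd ⬝ᵥ c = 0)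
    (h5 : φc ⬝ᵥ a = 0) (h6 : φd ⬝ᵥ a = 0) (h7 : φc ⬝ᵥ b = 0) (h8 : φd ⬝ᵥ b = 0)
    (h9 : φa ⬝ᵥ a = -2) (h10 : φb ⬝ᵥ b = -2) (h11 : φa ⬝ᵥ b = 0) (h12 : φb ⬝ᵥ a = 0)
    (h13 : φb ⬝ᵥ c = 0) (h14 : φb ⬝ᵥ d = 0) :
    tv c φc * tv d φd * (tv a φa * tv b φb) * (tv c φc * tv d φd) * (tv a φa * tv b φb) =
      tv a ((φa ⬝ᵥ c) • φc + (φa ⬝ᵥ d) • φd) := by
  apply ext_mulVec_single
  intro m
  simp only [← Matrix.mulVec_mulVec, tv_mulVec, dotProduct_add, dotProduct_smul, add_dotProduct,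
    smul_dotProduct, smul_eq_mul, h1, h2, h3, h4, h5, h6, h7, h8, h9, h10, h11, h12, h13, h14]
  module

end OrthRefl

section OrthMain

variable {ι : Type} [Fintype ι] [DecidableEq ι] {F : Type*} [Field F]
variable {Q Q' : (ι → F) → F}

theorem neg_inv_mul_two (x : F) (hx : x ≠ 0) : -x⁻¹ * (2 * x) = -2 := by
  field_simp

/-- The similarity group of `Q ∘ g` (meeting `SL`) lies in `M` if that of `Q` does and
`g ∈ M`. -/
theorem sim_conj_le {M : Subgroup (GL ι F)} (Q : (ι → F) → F) (g : GL ι F) (hg : g ∈ M)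
    (hM : Cfsg.Geo.quadSimilarityGroup Q ⊓ Cfsg.Geo.specialLinear ι F ≤ M) :
    Cfsg.Geo.quadSimilarityGroup (fun x => Q ((g : Matrix ι ι F) *ᵥ x)) ⊓
      Cfsg.Geo.specialLinear ι F ≤ M := by
  intro x hx
  obtain ⟨hx1, hx2⟩ := Subgroup.mem_inf.mp hx
  rw [mem_quadSim_iff] at hx1
  obtain ⟨c, hc⟩ := hx1
  rw [mem_specialLinear_iff] at hx2
  have hy : g * x * g⁻¹ ∈ M := by
    apply hM
    refine Subgroup.mem_inf.mpr ⟨?_, ?_⟩
    · rw [mem_quadSim_iff]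
      refine ⟨c, fun v => ?_⟩
      have h1 : Q ((g : Matrix ι ι F) *ᵥ ((x : Matrix ι ι F) *ᵥ
          (((g⁻¹ : GL ι F) : Matrix ι ι F) *ᵥ v))) =
          (c : F) * Q ((g : Matrix ι ι F) *ᵥ (((g⁻¹ : GL ι F) : Matrix ι ι F) *ᵥ v)) := hc _
      rw [gl_mulVec_inv] at h1
      rw [Units.val_mul, Units.val_mul, ← Matrix.mulVec_mulVec, ← Matrix.mulVec_mulVec]
      exact h1
    · rw [mem_specialLinear_iff, Units.val_mul, Units.val_mul, Matrix.det_mul, Matrix.det_mul,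
        hx2, mul_one, ← Matrix.det_mul, ← Units.val_mul, mul_inv_cancel, Units.val_one,
        Matrix.det_one]
  have e : x = g⁻¹ * (g * x * g⁻¹) * g := by group
  rw [e]
  exact M.mul_mem (M.mul_mem (M.inv_mem hg) hy) hg

/-- The commutator of two double reflections for two forms is a transvection. -/
theorem comm_TM (hQ : Cfsg.Geo.IsNondegenerateQuadraticForm Q)
    (hQ' : Cfsg.Geo.IsNondegenerateQuadraticForm Q') {M : Subgroup (GL ι F)}
    (hM : Cfsg.Geo.quadSimilarityGroup Q ⊓ Cfsg.Geo.specialLinear ι F ≤ M)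
    (hM' : Cfsg.Geo.quadSimilarityGroup Q' ⊓ Cfsg.Geo.specialLinear ι F ≤ M)
    (c d a b : ι → F) (hc : Q c ≠ 0) (hd : Q d ≠ 0) (ha : Q' a ≠ 0) (hb : Q' b ≠ 0)
    (hcd : polar Q c d = 0) (hab : polar Q' a b = 0) (hac : polar Q a c = 0)
    (had : polar Q a d = 0) (hbc : polar Q b c = 0) (hbd : polar Q b d = 0)
    (hbc' : polar Q' c b = 0) (hbd' : polar Q' d b = 0) :
    TM M a ((-(Q' a)⁻¹ * polar Q' c a) • (-(Q c)⁻¹ • rho (polar Q) c) +
      (-(Q' a)⁻¹ * polar Q' d a) • (-(Q d)⁻¹ • rho (polar Q) d)) := by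
  have hh := hM (Rf2_mem hQ c d hc hd)
  have hk := hM' (Rf2_mem hQ' a b ha hb)
  have hX := M.mul_mem (M.mul_mem (M.mul_mem hh hk) hh) hk
  have e := comm_calc (-(Q c)⁻¹ • rho (polar Q) c) (-(Q d)⁻¹ • rho (polar Q) d)
    (-(Q' a)⁻¹ • rho (polar Q') a) (-(Q' b)⁻¹ • rho (polar Q') b) c d a b
    (by rw [smul_dotProduct, rho_dot_s hQ, b_self hQ, smul_eq_mul, neg_inv_mul_two _ hc])
    (by rw [smul_dotProduct, rho_dot_s hQ, b_self hQ, smul_eq_mul, neg_inv_mul_two _ hd])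
    (by rw [smul_dotProduct, rho_dot_s hQ, b_symm Q d c, hcd, smul_zero])
    (by rw [smul_dotProduct, rho_dot_s hQ, hcd, smul_zero])
    (by rw [smul_dotProduct, rho_dot_s hQ, hac, smul_zero])
    (by rw [smul_dotProduct, rho_dot_s hQ, had, smul_zero])
    (by rw [smul_dotProduct, rho_dot_s hQ, hbc, smul_zero])
    (by rw [smul_dotProduct, rho_dot_s hQ, hbd, smul_zero])
    (by rw [smul_dotProduct, rho_dot_s hQ', b_self hQ', smul_eq_mul, neg_inv_mul_two _ ha])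
    (by rw [smul_dotProduct, rho_dot_s hQ', b_self hQ', smul_eq_mul, neg_inv_mul_two _ hb])
    (by rw [smul_dotProduct, rho_dot_s hQ', b_symm Q' b a, hab, smul_zero])
    (by rw [smul_dotProduct, rho_dot_s hQ', hab, smul_zero])
    (by rw [smul_dotProduct, rho_dot_s hQ', hbc', smul_zero])
    (by rw [smul_dotProduct, rho_dot_s hQ', hbd', smul_zero])
  have e1 : (-(Q' a)⁻¹ • rho (polar Q') a) ⬝ᵥ c = -(Q' a)⁻¹ * polar Q' c a := by
    rw [smul_dotProduct, rho_dot_s hQ', smul_eq_mul]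
  have e2 : (-(Q' a)⁻¹ • rho (polar Q') a) ⬝ᵥ d = -(Q' a)⁻¹ * polar Q' d a := by
    rw [smul_dotProduct, rho_dot_s hQ', smul_eq_mul]
  rw [e1, e2] at e
  have h0 : ((-(Q' a)⁻¹ * polar Q' c a) • (-(Q c)⁻¹ • rho (polar Q) c) +
      (-(Q' a)⁻¹ * polar Q' d a) • (-(Q d)⁻¹ • rho (polar Q) d)) ⬝ᵥ a = 0 := by
    rw [add_dotProduct, smul_dotProduct, smul_dotProduct, smul_dotProduct, smul_dotProduct,
      rho_dot_s hQ, rho_dot_s hQ, hac, had, smul_zero, smul_zero, smul_zero, smul_zero, add_zero]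
  refine ⟨h0, fun t ht => ?_⟩
  have h3 : t = RfG hQ c hc * RfG hQ d hd * (RfG hQ' a ha * RfG hQ' b hb) *
      (RfG hQ c hc * RfG hQ d hd) * (RfG hQ' a ha * RfG hQ' b hb) := by
    apply Units.ext
    have e' : Rf Q c * Rf Q d * (Rf Q' a * Rf Q' b) * (Rf Q c * Rf Q d) * (Rf Q' a * Rf Q' b) =
        tv a ((-(Q' a)⁻¹ * polar Q' c a) • (-(Q c)⁻¹ • rho (polar Q) c) +
          (-(Q' a)⁻¹ * polar Q' d a) • (-(Q d)⁻¹ • rho (polar Q) d)) := e
    rw [ht, ← e']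
    simp only [Units.val_mul, RfG_val]
  rw [h3]
  exact hX

/-- If `Q'` is not a multiple of `Q`, some `Q`-non-singular `c` has `B'(·, c)` not proportional
to `B(·, c)`. -/
theorem exists_bad (hQ : Cfsg.Geo.IsNondegenerateQuadraticForm Q)
    (hQ' : Cfsg.Geo.IsNondegenerateQuadraticForm Q') (h2 : (2 : F) ≠ 0)
    (hn : 11 ≤ Fintype.card ι) (hne : ¬ ∃ l : F, ∀ x, Q' x = l * Q x) :
    ∃ c, Q c ≠ 0 ∧ ¬ ∃ l : F, ∀ x, polar Q' x c = l * polar Q x c := by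
  by_contra hcon
  push Not at hcon
  obtain ⟨c₁, -, -, -, -, -, hc₁⟩ := exists_nonsing5 hQ hn 0 0 0 0 0
  obtain ⟨l₁, hl₁⟩ := hcon c₁ hc₁
  have hb := hQ.polar_bilinear
  have hb' := hQ'.polar_bilinear
  have key : ∀ c₂ w : ι → F, Q c₂ ≠ 0 → polar Q c₁ c₂ = 0 → polar Q w c₁ = 0 →
      polar Q w c₂ = 0 → polar Q' c₁ w = 0 → polar Q' c₂ w = 0 → Q (c₁ + c₂ + w) ≠ 0 →
      ∀ l₂ : F, (∀ x, polar Q' x c₂ = l₂ * polar Q x c₂) → l₂ = l₁ := by
    intro c₂ w hc₂ h12 hw1 hw2 hw1' hw2' he l₂ hl₂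
    obtain ⟨le, hle⟩ := hcon _ he
    have e1 := hle c₁
    rw [hb'.add_right, hb'.add_right, hl₁ c₁, hl₂ c₁, hw1', hb.add_right, hb.add_right, h12,
      b_symm Q c₁ w, hw1, b_self hQ] at e1
    have e2 := hle c₂
    rw [hb'.add_right, hb'.add_right, hl₁ c₂, hl₂ c₂, hw2', hb.add_right, hb.add_right,
      b_symm Q c₂ c₁, h12, b_symm Q c₂ w, hw2, b_self hQ] at e2
    have h3 : le = l₁ := by
      have h : (le - l₁) * (2 * Q c₁) = 0 := by linear_combination -e1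
      rcases mul_eq_zero.mp h with h | h
      · exact sub_eq_zero.mp h
      · exact absurd h (mul_ne_zero h2 hc₁)
    have h4 : le = l₂ := by
      have h : (le - l₂) * (2 * Q c₂) = 0 := by linear_combination -e2
      rcases mul_eq_zero.mp h with h | h
      · exact sub_eq_zero.mp h
      · exact absurd h (mul_ne_zero h2 hc₂)
    rw [← h4, h3]
  have hall : ∀ c₂ : ι → F, Q c₂ ≠ 0 → ∀ x, polar Q' x c₂ = l₁ * polar Q x c₂ := by
    intro c₂ hc₂
    obtain ⟨l₂, hl₂⟩ := hcon c₂ hc₂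
    suffices h : l₂ = l₁ by rw [← h]; exact hl₂
    by_cases h12 : polar Q c₁ c₂ = 0
    · by_cases hs : Q c₁ + Q c₂ = 0
      · obtain ⟨c₃, h31, h32, -, -, -, hc₃⟩ :=
          exists_nonsing5 hQ hn (rho (polar Q) c₁) (rho (polar Q) c₂) 0 0 0
        rw [rho_dot_s hQ] at h31 h32
        obtain ⟨l₃, hl₃⟩ := hcon c₃ hc₃
        apply key c₂ c₃ hc₂ h12 h31 h32 _ _ _ l₂ hl₂
        · rw [hl₃, b_symm Q c₁ c₃, h31, mul_zero]
        · rw [hl₃, b_symm Q c₂ c₃, h32, mul_zero]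
        · rw [q_add Q, q_add Q, h12, hb.add_left, b_symm Q c₁ c₃, h31, b_symm Q c₂ c₃, h32, hs]
          simpa using hc₃
      · apply key c₂ 0 hc₂ h12 (b_zero_left hQ _) (b_zero_left hQ _) (b_zero_right hQ' _)
          (b_zero_right hQ' _) _ l₂ hl₂
        rw [add_zero, q_add Q, h12, add_zero]
        exact hs
    · have e1 := hl₂ c₁
      have e2 := hl₁ c₂
      rw [b_symm Q' c₂ c₁, e1, b_symm Q c₂ c₁] at e2
      exact mul_right_cancel₀ h12 e2
  have hall2 : ∀ c x : ι → F, polar Q' x c = l₁ * polar Q x c := by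
    intro c x
    by_cases hc : Q c = 0
    · obtain ⟨d, hd1, -, -, -, -, hd⟩ := exists_nonsing5 hQ hn (rho (polar Q) c) 0 0 0 0
      rw [rho_dot_s hQ] at hd1
      have hcd : Q (c + d) ≠ 0 := by
        rw [q_add Q, hc, b_symm Q c d, hd1, zero_add, add_zero]
        exact hd
      have e1 := hall (c + d) hcd x
      have e2 := hall d hd x
      rw [hb'.add_right, hb.add_right, e2] at e1
      linear_combination e1
    · exact hall c hc x
  apply hne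
  refine ⟨l₁, fun x => ?_⟩
  have e := hall2 x x
  rw [b_self hQ', b_self hQ] at e
  have h : 2 * (Q' x - l₁ * Q x) = 0 := by linear_combination e
  rcases mul_eq_zero.mp h with h | h
  · exact absurd h h2
  · exact sub_eq_zero.mp h

/-- A transvection in `M`. -/
theorem exists_tv (hQ : Cfsg.Geo.IsNondegenerateQuadraticForm Q)
    (hQ' : Cfsg.Geo.IsNondegenerateQuadraticForm Q') (h2 : (2 : F) ≠ 0)
    (hn : 11 ≤ Fintype.card ι) {M : Subgroup (GL ι F)}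
    (hM : Cfsg.Geo.quadSimilarityGroup Q ⊓ Cfsg.Geo.specialLinear ι F ≤ M)
    (hM' : Cfsg.Geo.quadSimilarityGroup Q' ⊓ Cfsg.Geo.specialLinear ι F ≤ M)
    (hne : ¬ ∃ l : F, ∀ x, Q' x = l * Q x) :
    ∃ a ω x : ι → F, a ≠ 0 ∧ TM M a (rho (polar Q) ω) ∧ polar Q x a = 0 ∧ Q x ≠ 0 ∧
      polar Q ω x ≠ 0 := by
  have hb := hQ.polar_bilinear
  have hb' := hQ'.polar_bilinear
  obtain ⟨c, hc, hbad⟩ := exists_bad hQ hQ' h2 hn hne
  obtain ⟨d, hd1, hd2, -, -, -, hd⟩ :=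
    exists_nonsing5 hQ hn (rho (polar Q) c) (rho (polar Q') c) 0 0 0
  rw [rho_dot_s hQ] at hd1
  rw [rho_dot_s hQ'] at hd2
  have hcd : polar Q c d = 0 := by rw [b_symm Q c d]; exact hd1
  have ha₁ : ∃ a₁, polar Q a₁ c = 0 ∧ polar Q a₁ d = 0 ∧ polar Q' a₁ c ≠ 0 := by
    by_contra hcon
    push Not at hcon
    apply hbad
    refine ⟨Q' c / Q c, fun x => ?_⟩
    have h1 := hcon (x - (polar Q x c / (2 * Q c)) • c - (polar Q x d / (2 * Q d)) • d) ?_ ?_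
    · rw [form_sub_smul_left hb', form_sub_smul_left hb', b_self hQ', hd2, mul_zero,
        sub_zero] at h1
      rw [sub_eq_zero.mp h1]
      field_simp
    · rw [form_sub_smul_left hb, form_sub_smul_left hb, b_self hQ, hd1, mul_zero, sub_zero,
        div_mul_cancel₀ _ (mul_ne_zero h2 hc), sub_self]
    · rw [form_sub_smul_left hb, form_sub_smul_left hb, b_self hQ, hcd, mul_zero, sub_zero,
        div_mul_cancel₀ _ (mul_ne_zero h2 hd), sub_self]
  obtain ⟨a₁, ha₁c, ha₁d, ha₁c'⟩ := ha₁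
  have ha : ∃ a, polar Q a c = 0 ∧ polar Q a d = 0 ∧ polar Q' a c ≠ 0 ∧ Q' a ≠ 0 := by
    by_cases h0 : Q' a₁ = 0
    · obtain ⟨w, hw1, hw2, hw3, hw4, -, hw⟩ := exists_nonsing5 hQ' hn (rho (polar Q) c)
        (rho (polar Q) d) (rho (polar Q') c) (rho (polar Q') a₁) 0
      rw [rho_dot_s hQ] at hw1 hw2
      rw [rho_dot_s hQ'] at hw3 hw4
      refine ⟨a₁ + w, ?_, ?_, ?_, ?_⟩
      · rw [hb.add_left, ha₁c, hw1, add_zero]
      · rw [hb.add_left, ha₁d, hw2, add_zero]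
      · rw [hb'.add_left, hw3, add_zero]
        exact ha₁c'
      · rw [q_add Q', h0, b_symm Q' a₁ w, hw4, zero_add, add_zero]
        exact hw
    · exact ⟨a₁, ha₁c, ha₁d, ha₁c', h0⟩
  obtain ⟨a, hac, had, hac', ha⟩ := ha
  obtain ⟨b, hb1, hb2, hb3, hb4, hb5, hbq⟩ := exists_nonsing5 hQ' hn (rho (polar Q) c)
    (rho (polar Q) d) (rho (polar Q') c) (rho (polar Q') d) (rho (polar Q') a)
  rw [rho_dot_s hQ] at hb1 hb2
  rw [rho_dot_s hQ'] at hb3 hb4 hb5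
  have hT := comm_TM hQ hQ' hM hM' c d a b hc hd ha hbq hcd
    (by rw [b_symm Q' a b]; exact hb5) hac had hb1 hb2 (by rw [b_symm Q' c b]; exact hb3)
    (by rw [b_symm Q' d b]; exact hb4)
  obtain ⟨κc, hκc⟩ : ∃ κ : F, κ = -(Q' a)⁻¹ * polar Q' c a * -(Q c)⁻¹ := ⟨_, rfl⟩
  obtain ⟨κd, hκd⟩ : ∃ κ : F, κ = -(Q' a)⁻¹ * polar Q' d a * -(Q d)⁻¹ := ⟨_, rfl⟩
  have e : (-(Q' a)⁻¹ * polar Q' c a) • (-(Q c)⁻¹ • rho (polar Q) c) +
      (-(Q' a)⁻¹ * polar Q' d a) • (-(Q d)⁻¹ • rho (polar Q) d) =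
      rho (polar Q) (κc • c + κd • d) := by
    rw [rho_add hb, rho_smul hb, rho_smul hb, smul_smul, smul_smul, hκc, hκd]
  rw [e] at hT
  have hκc0 : κc ≠ 0 := by
    rw [hκc]
    have h1 : polar Q' c a ≠ 0 := by rw [b_symm Q' c a]; exact hac'
    exact mul_ne_zero (mul_ne_zero (neg_ne_zero.mpr (inv_ne_zero ha)) h1)
      (neg_ne_zero.mpr (inv_ne_zero hc))
  refine ⟨a, κc • c + κd • d, c, ?_, hT, ?_, hc, ?_⟩
  · intro h0
    apply ha
    rw [h0]
    exact q_zero hQ'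
  · rw [b_symm Q c a]
    exact hac
  · rw [hb.add_left, hb.smul_left, hb.smul_left, b_self hQ, hd1, mul_zero, add_zero]
    exact mul_ne_zero hκc0 (mul_ne_zero h2 hc)

/-- Making the functional non-singular. -/
theorem tm_nonsing_fun (hQ : Cfsg.Geo.IsNondegenerateQuadraticForm Q)
    (hn : 11 ≤ Fintype.card ι) {M : Subgroup (GL ι F)}
    (hM : Cfsg.Geo.quadSimilarityGroup Q ⊓ Cfsg.Geo.specialLinear ι F ≤ M) (v ω x : ι → F)
    (hTM : TM M v (rho (polar Q) ω)) (hxv : polar Q x v = 0) (hx : Q x ≠ 0)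
    (hωx : polar Q ω x ≠ 0) : ∃ ω', TM M v (rho (polar Q) ω') ∧ Q ω' ≠ 0 := by
  have hb := hQ.polar_bilinear
  obtain ⟨y, hy1, hy2, hy3, -, -, hy⟩ := exists_nonsing5 hQ hn (rho (polar Q) v)
    (rho (polar Q) ω) (rho (polar Q) x) 0 0
  rw [rho_dot_s hQ] at hy1 hy2 hy3
  have hh := hM (Rf2_mem hQ x y hx hy)
  have t1 := TM_conj hTM hh
  have hfix : ((RfG hQ x hx * RfG hQ y hy : GL ι F) : Matrix ι ι F) *ᵥ v = v := by
    rw [Rf2_val_mulVec, Rf_fix hQ y v (by rw [b_symm Q v y]; exact hy1),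
      Rf_fix hQ x v (by rw [b_symm Q v x]; exact hxv)]
  rw [gl_inv_fix _ v hfix, rho_vecMul_Rf2 hQ, Rf_mulVec hQ x ω] at t1
  have hfix2 : Rf Q y *ᵥ (ω - (polar Q ω x / Q x) • x) = ω - (polar Q ω x / Q x) • x := by
    apply Rf_fix hQ
    rw [form_sub_smul_left hb, b_symm Q ω y, hy2, b_symm Q x y, hy3, mul_zero, sub_zero]
  rw [hfix2, rho_sub_smul_s hQ] at t1
  have t2 := TM_sub hTM t1
  rw [sub_sub_cancel, ← rho_smul hb] at t2
  refine ⟨_, t2, ?_⟩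
  rw [hQ.smul]
  exact mul_ne_zero (pow_ne_zero 2 (div_ne_zero hωx hx)) hx

/-- Making the centre non-singular. -/
theorem tm_nonsing_centre (hQ : Cfsg.Geo.IsNondegenerateQuadraticForm Q) (h2 : (2 : F) ≠ 0)
    (hn : 11 ≤ Fintype.card ι) {M : Subgroup (GL ι F)}
    (hM : Cfsg.Geo.quadSimilarityGroup Q ⊓ Cfsg.Geo.specialLinear ι F ≤ M) (v ω : ι → F)
    (hv : v ≠ 0) (hTM : TM M v (rho (polar Q) ω)) (hω : Q ω ≠ 0) :
    ∃ v', TM M v' (rho (polar Q) ω) ∧ Q v' ≠ 0 := by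
  by_cases hqv : Q v = 0
  swap
  · exact ⟨v, hTM, hqv⟩
  have hb := hQ.polar_bilinear
  have hvω : polar Q v ω = 0 := by
    have := hTM.1
    rwa [rho_dot_s hQ] at this
  obtain ⟨x₀, hx₀⟩ := (hQ.nondegenerate v hv).1
  have hx₁ : ∃ x₁, polar Q x₁ ω = 0 ∧ polar Q x₁ v ≠ 0 := by
    refine ⟨x₀ - (polar Q x₀ ω / (2 * Q ω)) • ω, ?_, ?_⟩
    · rw [form_sub_smul_left hb, b_self hQ, div_mul_cancel₀ _ (mul_ne_zero h2 hω), sub_self]
    · rw [form_sub_smul_left hb, b_symm Q ω v, hvω, mul_zero, sub_zero]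
      exact hx₀
  obtain ⟨x₁, hx₁ω, hx₁v⟩ := hx₁
  have hx : ∃ x, polar Q x ω = 0 ∧ polar Q x v ≠ 0 ∧ Q x ≠ 0 := by
    by_cases h0 : Q x₁ = 0
    · obtain ⟨w, hw1, hw2, hw3, -, -, hw⟩ := exists_nonsing5 hQ hn (rho (polar Q) ω)
        (rho (polar Q) v) (rho (polar Q) x₁) 0 0
      rw [rho_dot_s hQ] at hw1 hw2 hw3
      refine ⟨x₁ + w, ?_, ?_, ?_⟩
      · rw [hb.add_left, hx₁ω, hw1, add_zero]
      · rw [hb.add_left, hw2, add_zero]
        exact hx₁v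
      · rw [q_add Q, h0, b_symm Q x₁ w, hw3, zero_add, add_zero]
        exact hw
    · exact ⟨x₁, hx₁ω, hx₁v, h0⟩
  obtain ⟨x, hxω, hxv, hx⟩ := hx
  obtain ⟨y, hy1, hy2, hy3, -, -, hy⟩ := exists_nonsing5 hQ hn (rho (polar Q) ω)
    (rho (polar Q) v) (rho (polar Q) x) 0 0
  rw [rho_dot_s hQ] at hy1 hy2 hy3
  have hh := M.inv_mem (hM (Rf2_mem hQ x y hx hy))
  have t1 := TM_conj hTM hh
  rw [inv_inv] at t1
  have hψ : rho (polar Q) ω ᵥ* ((RfG hQ x hx * RfG hQ y hy : GL ι F) : Matrix ι ι F) =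
      rho (polar Q) ω := by
    rw [rho_vecMul_Rf2 hQ, Rf_fix hQ x ω (by rw [b_symm Q ω x]; exact hxω),
      Rf_fix hQ y ω (by rw [b_symm Q ω y]; exact hy1)]
  rw [vecMul_inv_fix _ _ hψ, Rf2_val_mulVec, Rf_fix hQ y v (by rw [b_symm Q v y]; exact hy2),
    Rf_mulVec hQ x v] at t1
  have t2 := TM_add_centre hTM t1
  refine ⟨_, t2, ?_⟩
  have hvx : polar Q v x ≠ 0 := by rw [b_symm Q v x]; exact hxv
  have e : Q (v + (v - (polar Q v x / Q x) • x)) = -(polar Q v x) ^ 2 / Q x := by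
    rw [q_add Q, q_sub hQ, form_sub_smul_right hb, hb.smul_right, hQ.smul, b_self hQ, hqv]
    field_simp
    ring
  rw [e]
  exact div_ne_zero (neg_ne_zero.mpr (pow_ne_zero 2 hvx)) hx

section fin

variable [Fintype F]

/-- A non-singular centre of a transvection of `M` with non-singular functional is a centre of
all its transvections. -/
theorem centre_of_TM (hQ : Cfsg.Geo.IsNondegenerateQuadraticForm Q)
    (hodd : Odd (Fintype.card F)) (hn : 11 ≤ Fintype.card ι) {M : Subgroup (GL ι F)}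
    (hM : Cfsg.Geo.quadSimilarityGroup Q ⊓ Cfsg.Geo.specialLinear ι F ≤ M) (v ω : ι → F)
    (hTM : TM M v (rho (polar Q) ω)) (_hv : Q v ≠ 0) (hω : Q ω ≠ 0) : v ∈ centres M := by
  have hb := hQ.polar_bilinear
  have h2 := two_ne_zero_of_odd hodd
  have C0 : ∀ ω₁ : ι → F, TM M v (rho (polar Q) ω₁) → Q ω₁ ≠ 0 → ∀ u : ι → F, Q u = 0 →
      polar Q u v = 0 → polar Q u ω₁ = 0 → ∀ s : F, TM M v (rho (polar Q) ((2 * s) • u)) := by
    intro ω₁ hT₁ hω₁ u hu huv huω s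
    have hvω₁ : polar Q v ω₁ = 0 := by
      have := hT₁.1
      rwa [rho_dot_s hQ] at this
    have hQy : Q (ω₁ + s • u) = Q ω₁ := by
      rw [q_expand hQ, hu, b_symm Q ω₁ u, huω, mul_zero, mul_zero, add_zero, add_zero]
    have hy : Q (ω₁ + s • u) ≠ 0 := by rw [hQy]; exact hω₁
    have hpy : polar Q ω₁ (ω₁ + s • u) = 2 * Q ω₁ := by
      rw [hb.add_right, hb.smul_right, b_self hQ, b_symm Q ω₁ u, huω, mul_zero, add_zero]
    have hh := hM (Rf2_mem hQ ω₁ (ω₁ + s • u) hω₁ hy)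
    have t1 := TM_conj hT₁ hh
    have hfix : ((RfG hQ ω₁ hω₁ * RfG hQ (ω₁ + s • u) hy : GL ι F) : Matrix ι ι F) *ᵥ v = v := by
      rw [Rf2_val_mulVec, Rf_fix hQ _ v (by
        rw [hb.add_right, hb.smul_right, hvω₁, b_symm Q v u, huv, mul_zero, add_zero]),
        Rf_fix hQ ω₁ v hvω₁]
    rw [gl_inv_fix _ v hfix, rho_vecMul_Rf2 hQ] at t1
    have e : Rf Q (ω₁ + s • u) *ᵥ (Rf Q ω₁ *ᵥ ω₁) = ω₁ + (2 * s) • u := by
      have h1 : 2 * Q ω₁ / Q ω₁ = 2 := by field_simp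
      have h3 : (2 * Q ω₁ - 2 * (2 * Q ω₁)) / Q ω₁ = -2 := by
        field_simp
        ring
      rw [Rf_mulVec hQ ω₁ ω₁, b_self hQ, h1, Rf_mulVec hQ, form_sub_smul_left hb, hpy, hQy, h3]
      module
    rw [e] at t1
    have t2 := TM_sub t1 hT₁
    rwa [rho_add hb, add_sub_cancel_left] at t2
  have C1 : ∀ ω₁ : ι → F, TM M v (rho (polar Q) ω₁) → Q ω₁ ≠ 0 → ∀ u : ι → F, Q u = 0 →
      polar Q u v = 0 → polar Q u ω₁ = 0 → ∀ t : F, TM M v (rho (polar Q) (t • u)) := by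
    intro ω₁ hT₁ hω₁ u hu huv huω t
    have h := C0 ω₁ hT₁ hω₁ u hu huv huω (t / 2)
    rwa [mul_div_cancel₀ _ h2] at h
  have C2 : ∀ ω₁ : ι → F, TM M v (rho (polar Q) ω₁) → Q ω₁ ≠ 0 → ∀ y : ι → F,
      polar Q y v = 0 → polar Q y ω₁ = 0 → TM M v (rho (polar Q) y) := by
    intro ω₁ hT₁ hω₁ y hyv hyω
    obtain ⟨z, hz1, hz2, hz3, hz⟩ := exists_norm3 hQ hodd hn (rho (polar Q) v)
      (rho (polar Q) ω₁) (rho (polar Q) y) (-Q y)
    rw [rho_dot_s hQ] at hz1 hz2 hz3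
    have hyz : polar Q y z = 0 := by rw [b_symm Q y z]; exact hz3
    have hp : Q (y + z) = 0 := by
      rw [q_add Q, hz, hyz]
      ring
    have hm : Q (y - z) = 0 := by
      rw [q_sub hQ, hz, hyz]
      ring
    have t1 := C1 ω₁ hT₁ hω₁ (y + z) hp (by rw [hb.add_left, hyv, hz1, add_zero])
      (by rw [hb.add_left, hyω, hz2, add_zero]) 2⁻¹
    have t2 := C1 ω₁ hT₁ hω₁ (y - z) hm (by rw [b_sub_left hQ, hyv, hz1, sub_zero])
      (by rw [b_sub_left hQ, hyω, hz2, sub_zero]) 2⁻¹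
    have t3 := TM_add t1 t2
    rw [← rho_add hb] at t3
    have e : (2 : F)⁻¹ • (y + z) + (2 : F)⁻¹ • (y - z) = y := by
      rw [← smul_add, add_add_sub_cancel, ← two_smul F y, smul_smul, inv_mul_cancel₀ h2,
        one_smul]
    rwa [e] at t3
  have hvω : polar Q v ω = 0 := by
    have := hTM.1
    rwa [rho_dot_s hQ] at this
  obtain ⟨z₁, hz11, hz12, -, -, -, hz₁⟩ := exists_nonsing5 hQ hn (rho (polar Q) v)
    (rho (polar Q) ω) 0 0 0
  rw [rho_dot_s hQ] at hz11 hz12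
  obtain ⟨z₂, hz21, hz22, hz23, hz₂⟩ := exists_norm3 hQ hodd hn (rho (polar Q) v)
    (rho (polar Q) ω) (rho (polar Q) z₁) (-Q z₁)
  rw [rho_dot_s hQ] at hz21 hz22 hz23
  have hu₀ : Q (z₁ + z₂) = 0 := by
    rw [q_add Q, hz₂, b_symm Q z₁ z₂, hz23]
    ring
  have hu₀v : polar Q (z₁ + z₂) v = 0 := by rw [hb.add_left, hz11, hz21, add_zero]
  have hu₀ω : polar Q (z₁ + z₂) ω = 0 := by rw [hb.add_left, hz12, hz22, add_zero]
  have tω₂ : TM M v (rho (polar Q) (ω + (z₁ + z₂))) := by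
    have t1 := C1 ω hTM hω (z₁ + z₂) hu₀ hu₀v hu₀ω 1
    rw [one_smul] at t1
    have t2 := TM_add hTM t1
    rwa [← rho_add hb] at t2
  have hω₂ : Q (ω + (z₁ + z₂)) ≠ 0 := by
    rw [q_add Q, hu₀, b_symm Q ω (z₁ + z₂), hu₀ω, add_zero, add_zero]
    exact hω
  apply mem_centres_of_TM
  intro ψ hψ
  obtain ⟨η, rfl⟩ := riesz_s hQ ψ
  rw [rho_dot_s hQ] at hψ
  obtain ⟨u', hu'⟩ : ∃ u' : ι → F, u' = ω - (Q ω / Q z₁) • z₁ := ⟨_, rfl⟩
  have hu'v : polar Q u' v = 0 := by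
    rw [hu', form_sub_smul_left hb, b_symm Q ω v, hvω, hz11, mul_zero, sub_zero]
  have hu'ω : polar Q u' ω = 2 * Q ω := by
    rw [hu', form_sub_smul_left hb, b_self hQ, hz12, mul_zero, sub_zero]
  have hu'ω₂ : polar Q u' (ω + (z₁ + z₂)) = 0 := by
    rw [hb.add_right, hu'ω, hu', form_sub_smul_left hb, b_symm Q ω (z₁ + z₂), hu₀ω,
      hb.add_right, b_self hQ, b_symm Q z₁ z₂, hz23]
    field_simp
    ring
  obtain ⟨s, hs⟩ : ∃ s : F, s = polar Q η ω / (2 * Q ω) := ⟨_, rfl⟩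
  have t1 : TM M v (rho (polar Q) (η - s • u')) := by
    apply C2 ω hTM hω
    · rw [form_sub_smul_left hb, b_symm Q η v, hψ, hu'v, mul_zero, sub_zero]
    · rw [form_sub_smul_left hb, hu'ω, hs, div_mul_cancel₀ _ (mul_ne_zero h2 hω), sub_self]
  have t2 : TM M v (rho (polar Q) (s • u')) := by
    apply C2 _ tω₂ hω₂
    · rw [hb.smul_left, hu'v, mul_zero]
    · rw [hb.smul_left, hu'ω₂, mul_zero]
  have t3 := TM_add t1 t2
  rwa [← rho_add hb, sub_add_cancel] at t3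

/-- A subgroup containing the orthogonal similarity group in `SL` and an element which is not
a similarity contains `SL`. -/
theorem orth_overgroup [Nontrivial ι] (hQ : Cfsg.Geo.IsNondegenerateQuadraticForm Q)
    (hodd : Odd (Fintype.card F)) (hn : 11 ≤ Fintype.card ι) (M : Subgroup (GL ι F))
    (hM : Cfsg.Geo.quadSimilarityGroup Q ⊓ Cfsg.Geo.specialLinear ι F ≤ M) (g : GL ι F)
    (hgM : g ∈ M) (hg : g ∉ Cfsg.Geo.quadSimilarityGroup Q) :
    Cfsg.Geo.specialLinear ι F ≤ M := by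
  have hb := hQ.polar_bilinear
  have h2 := two_ne_zero_of_odd hodd
  have hQ' := q_comp hQ g
  have hM' := sim_conj_le Q g hgM hM
  have hne : ¬ ∃ l : F, ∀ x, Q ((g : Matrix ι ι F) *ᵥ x) = l * Q x := by
    rintro ⟨l, hl⟩
    apply hg
    have hl0 : l ≠ 0 := by
      intro h0
      obtain ⟨z, -, -, -, -, -, hz⟩ := exists_nonsing5 hQ hn 0 0 0 0 0
      apply hz
      have h1 := hl (((g⁻¹ : GL ι F) : Matrix ι ι F) *ᵥ z)
      rw [gl_mulVec_inv, h0, zero_mul] at h1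
      exact h1
    rw [mem_quadSim_iff]
    exact ⟨Units.mk0 l hl0, fun v => by rw [Units.val_mk0]; exact hl v⟩
  obtain ⟨a, ω, x, ha0, hT, hxa, hx, hωx⟩ := exists_tv hQ hQ' h2 hn hM hM' hne
  obtain ⟨ω', hT', hω'⟩ := tm_nonsing_fun hQ hn hM a ω x hT hxa hx hωx
  obtain ⟨v, hTv, hv⟩ := tm_nonsing_centre hQ h2 hn hM a ω' ha0 hT' hω'
  have hv0 := centre_of_TM hQ hodd hn hM v ω' hTv hv hω'
  have S1 : ∀ v d : ι → F, v ∈ centres M → Q d ≠ 0 → polar Q v d ≠ 0 → d ∈ centres M := by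
    intro v d hvC hd hvd
    obtain ⟨e, he1, he2, -, -, -, he⟩ := exists_nonsing5 hQ hn (rho (polar Q) v)
      (rho (polar Q) d) 0 0 0
    rw [rho_dot_s hQ] at he1 he2
    have h1 := centres_smul_mem M hvC (hM (Rf2_mem hQ d e hd he))
    rw [Rf2_val_mulVec, Rf_fix hQ e v (by rw [b_symm Q v e]; exact he1), Rf_mulVec hQ d v] at h1
    have h3 := centres_add M hvC (centres_smul M h1 (-1))
    have h4 := centres_smul M h3 (Q d / polar Q v d)
    have e : (Q d / polar Q v d) • (v + (-1 : F) • (v - (polar Q v d / Q d) • d)) = d := by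
      have h5 : Q d / polar Q v d * (polar Q v d / Q d) = 1 := by field_simp
      rw [neg_one_smul, neg_sub, add_sub_cancel, smul_smul, h5, one_smul]
    rwa [e] at h4
  have hallns : ∀ d : ι → F, Q d ≠ 0 → d ∈ centres M := by
    intro d hd
    by_cases hvd : polar Q v d = 0
    · have hd₃ : ∃ d₃, Q d₃ ≠ 0 ∧ polar Q v d₃ ≠ 0 ∧ polar Q d₃ d ≠ 0 := by
        by_cases hs : Q v + Q d = 0
        · obtain ⟨w, hw1, hw2, -, -, -, hw⟩ := exists_nonsing5 hQ hn (rho (polar Q) v)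
            (rho (polar Q) d) 0 0 0
          rw [rho_dot_s hQ] at hw1 hw2
          refine ⟨v + d + w, ?_, ?_, ?_⟩
          · rw [q_add Q, q_add Q, hvd, hb.add_left, b_symm Q v w, hw1, b_symm Q d w, hw2, hs]
            simpa using hw
          · rw [hb.add_right, hb.add_right, b_self hQ, hvd, b_symm Q v w, hw1, add_zero,
              add_zero]
            exact mul_ne_zero h2 hv
          · rw [hb.add_left, hb.add_left, hvd, b_self hQ, hw2, zero_add, add_zero]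
            exact mul_ne_zero h2 hd
        · refine ⟨v + d, ?_, ?_, ?_⟩
          · rw [q_add Q, hvd, add_zero]
            exact hs
          · rw [hb.add_right, b_self hQ, hvd, add_zero]
            exact mul_ne_zero h2 hv
          · rw [hb.add_left, hvd, b_self hQ, zero_add]
            exact mul_ne_zero h2 hd
      obtain ⟨d₃, hd₃, hvd₃, hd₃d⟩ := hd₃
      exact S1 d₃ d (S1 v d₃ hv0 hd₃ hvd₃) hd hd₃d
    · exact S1 v d hv0 hd hvd
  have hall : ∀ y : ι → F, y ∈ centres M := by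
    intro y
    by_cases hy : Q y = 0
    · obtain ⟨d, hd1, -, -, -, -, hd⟩ := exists_nonsing5 hQ hn (rho (polar Q) y) 0 0 0 0
      rw [rho_dot_s hQ] at hd1
      have h1 : Q (y + d) ≠ 0 := by
        rw [q_add Q, hy, b_symm Q y d, hd1, zero_add, add_zero]
        exact hd
      have h3 := centres_add M (hallns _ h1) (centres_smul M (hallns d hd) (-1))
      rwa [neg_one_smul, add_neg_cancel_right] at h3
    · exact hallns y hy
  exact specialLinear_le_of_tv M (fun v φ hφ t ht => hall v φ hφ t ht)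

end fin

/-- A transvection of determinant one which is not a similarity. -/
theorem orth_exists_not_sim (hQ : Cfsg.Geo.IsNondegenerateQuadraticForm Q) (h2 : (2 : F) ≠ 0)
    (hn : 11 ≤ Fintype.card ι) :
    ∃ t ∈ Cfsg.Geo.specialLinear ι F, t ∉ Cfsg.Geo.quadSimilarityGroup Q := by
  obtain ⟨x, -, -, -, -, -, hx⟩ := exists_nonsing5 hQ hn 0 0 0 0 0
  obtain ⟨z, hzx, -, -, -, -, hz⟩ := exists_nonsing5 hQ hn (rho (polar Q) x) 0 0 0 0
  rw [rho_dot_s hQ] at hzx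
  have h0 : rho (polar Q) z ⬝ᵥ x = 0 := by
    rw [rho_dot_s hQ, b_symm Q x z]
    exact hzx
  refine ⟨tvG x (rho (polar Q) z) h0, tvG_mem_specialLinear _ _ _, ?_⟩
  intro hmem
  rw [mem_quadSim_iff] at hmem
  obtain ⟨c, hc⟩ := hmem
  have e1 := hc x
  rw [tvG_val, tv_mulVec, h0, zero_smul, add_zero] at e1
  have hc1 : (c : F) = 1 := by
    have h1 : (c : F) * Q x = 1 * Q x := by rw [one_mul]; exact e1.symm
    exact mul_right_cancel₀ hx h1
  have e2 := hc z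
  rw [tvG_val, tv_mulVec, rho_dot_s hQ, b_self hQ, hc1, one_mul, q_expand hQ, hzx] at e2
  have h3 : (2 * Q z) ^ 2 * Q x = 0 := by linear_combination e2
  exact mul_ne_zero (pow_ne_zero 2 (mul_ne_zero h2 hz)) hx h3

end OrthMain

/-- The similarity group of a non-degenerate quadratic form meets `SL_n` in a maximal subgroup
of `SL_n` (finite field of odd order, `n ≥ 11`). -/
theorem orth_isMaximalIn {F : Type*} [Field F] [Fintype F] (n : ℕ) (hn : 11 ≤ n)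
    (hodd : Odd (Fintype.card F)) (Q : (Fin n → F) → F)
    (hQ : Cfsg.Geo.IsNondegenerateQuadraticForm Q) :
    Cfsg.Geo.IsMaximalIn (Cfsg.Geo.specialLinear (Fin n) F)
      (Cfsg.Geo.quadSimilarityGroup Q ⊓ Cfsg.Geo.specialLinear (Fin n) F) := by
  have hnt : Nontrivial (Fin n) := Fin.nontrivial_iff_two_le.mpr (by omega)
  have hcard : 11 ≤ Fintype.card (Fin n) := by rw [Fintype.card_fin]; exact hn
  refine ⟨lt_of_le_of_ne inf_le_right ?_, ?_⟩
  · intro heq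
    obtain ⟨t, ht, hts⟩ := orth_exists_not_sim hQ (two_ne_zero_of_odd hodd) hcard
    rw [← heq] at ht
    exact hts ht.1
  · intro M hHM hMS
    by_cases hMH : M ≤ Cfsg.Geo.quadSimilarityGroup Q ⊓ Cfsg.Geo.specialLinear (Fin n) F
    · left
      exact le_antisymm hMH hHM
    · right
      obtain ⟨g, hgM, hgH⟩ := SetLike.not_le_iff_exists.mp hMH
      exact le_antisymm hMS
        (orth_overgroup hQ hodd hcard M hHM g hgM (fun h => hgH ⟨h, hMS hgM⟩))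

end Cfsg.Agent.Lib.Helper50
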