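import Mathlib
import Cfsg.Prelude.Def_GeometricClasses
import Cfsg.Agent.Lib.Helper97.Transv
import Cfsg.Agent.Lib.Helper97.TransvM
import Cfsg.Agent.Lib.Helper50.UnitMax
import Cfsg.Agent.Lib.Helper50.OrthMax

/-!
# Subfield subgroups of `SL_n`: the parameter field of an overgroup

Helper library (helper50).  For a subfield `F₀` of `F`, a vector or matrix is *rational* if its
entries lie in `F₀`.  `H1 F₀` is the group of scalar multiples of invertible rational matrices.
For an overgroup `M` of `H1 F₀ ⊓ SL`, `InW M c` says that all elementary transvections with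
parameter `c` lie in `M`; these parameters form a subfield containing `F₀`.
-/

set_option autoImplicit false

namespace Cfsg.Agent.Lib.Helper50

open Matrix Cfsg.Agent.Lib.Helper97

section SubfW

variable {ι : Type} [Fintype ι] [DecidableEq ι] {F : Type*} [Field F]

/-- A vector with entries in the subfield. -/
def RatV (F₀ : Subfield F) (v : ι → F) : Prop := ∀ i, v i ∈ F₀

/-- A matrix with entries in the subfield. -/
def RatM (F₀ : Subfield F) (A : Matrix ι ι F) : Prop := ∀ i j, A i j ∈ F₀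

omit [Fintype ι] [DecidableEq ι] in
theorem ratV_zero (F₀ : Subfield F) : RatV F₀ (0 : ι → F) := fun _ => F₀.zero_mem

omit [Fintype ι] in
theorem ratV_single (F₀ : Subfield F) (i : ι) {c : F} (hc : c ∈ F₀) :
    RatV F₀ (Pi.single i c) := by
  intro k
  by_cases h : k = i
  · subst h; rw [Pi.single_eq_same]; exact hc
  · rw [Pi.single_eq_of_ne h]; exact F₀.zero_mem

omit [Fintype ι] [DecidableEq ι] in
theorem ratV_add {F₀ : Subfield F} {v w : ι → F} (hv : RatV F₀ v) (hw : RatV F₀ w) :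
    RatV F₀ (v + w) := fun i => F₀.add_mem (hv i) (hw i)

omit [Fintype ι] [DecidableEq ι] in
theorem ratV_sub {F₀ : Subfield F} {v w : ι → F} (hv : RatV F₀ v) (hw : RatV F₀ w) :
    RatV F₀ (v - w) := fun i => F₀.sub_mem (hv i) (hw i)

omit [Fintype ι] [DecidableEq ι] in
theorem ratV_neg {F₀ : Subfield F} {v : ι → F} (hv : RatV F₀ v) :
    RatV F₀ (-v) := fun i => F₀.neg_mem (hv i)

omit [Fintype ι] [DecidableEq ι] in
theorem ratV_smul {F₀ : Subfield F} {c : F} (hc : c ∈ F₀) {v : ι → F} (hv : RatV F₀ v) :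
    RatV F₀ (c • v) := fun i => F₀.mul_mem hc (hv i)

omit [DecidableEq ι] in
theorem ratV_dot {F₀ : Subfield F} {v w : ι → F} (hv : RatV F₀ v) (hw : RatV F₀ w) :
    v ⬝ᵥ w ∈ F₀ := F₀.sum_mem (fun i _ => F₀.mul_mem (hv i) (hw i))

omit [DecidableEq ι] in
theorem ratM_mulVec {F₀ : Subfield F} {A : Matrix ι ι F} {v : ι → F} (hA : RatM F₀ A)
    (hv : RatV F₀ v) : RatV F₀ (A *ᵥ v) := fun i => ratV_dot (hA i) hv

omit [DecidableEq ι] in
theorem ratM_vecMul {F₀ : Subfield F} {A : Matrix ι ι F} {v : ι → F} (hv : RatV F₀ v)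
    (hA : RatM F₀ A) : RatV F₀ (v ᵥ* A) := fun j => ratV_dot hv (fun i => hA i j)

omit [DecidableEq ι] in
theorem ratM_mul {F₀ : Subfield F} {A B : Matrix ι ι F} (hA : RatM F₀ A) (hB : RatM F₀ B) :
    RatM F₀ (A * B) := fun i j => ratV_dot (hA i) (fun k => hB k j)

omit [Fintype ι] in
theorem ratM_one (F₀ : Subfield F) : RatM F₀ (1 : Matrix ι ι F) := by
  intro i j
  rw [Matrix.one_apply]
  split_ifs
  exacts [F₀.one_mem, F₀.zero_mem]

omit [Fintype ι] in
theorem ratM_tv {F₀ : Subfield F} {v φ : ι → F} (hv : RatV F₀ v) (hφ : RatV F₀ φ) :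
    RatM F₀ (tv v φ) := by
  intro i j
  rw [tv, Matrix.add_apply, Matrix.vecMulVec_apply]
  exact F₀.add_mem (ratM_one F₀ i j) (F₀.mul_mem (hv i) (hφ j))

omit [Fintype ι] [DecidableEq ι] in
theorem ratM_smul {F₀ : Subfield F} {c : F} (hc : c ∈ F₀) {A : Matrix ι ι F} (hA : RatM F₀ A) :
    RatM F₀ (c • A) := fun i j => F₀.mul_mem hc (hA i j)

/-- The group of scalar multiples of invertible rational matrices. -/
def H1 (ι : Type) [Fintype ι] [DecidableEq ι] {F : Type*} [Field F] (F₀ : Subfield F) :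
    Subgroup (GL ι F) :=
  (Matrix.GeneralLinearGroup.map (F₀.subtype : F₀ →+* F)).range ⊔ Cfsg.Geo.scalars ι F

theorem mem_H1_of (F₀ : Subfield F) (g : GL ι F) (c : F) (hc : c ≠ 0) (A : Matrix ι ι F)
    (hA : RatM F₀ A) (hg : (g : Matrix ι ι F) = c • A) : g ∈ H1 ι F₀ := by
  classical
  set A0 : Matrix ι ι F₀ := fun i j => ⟨A i j, hA i j⟩ with hA0
  have hmap : (F₀.subtype : F₀ →+* F).mapMatrix A0 = A := by
    ext i j; rfl
  have hdetg : (g : Matrix ι ι F).det ≠ 0 :=
    ((Matrix.isUnit_iff_isUnit_det _).mp g.isUnit).ne_zero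
  have hdetA : A.det ≠ 0 := by
    intro h0
    apply hdetg
    rw [hg, Matrix.det_smul, h0, mul_zero]
  have hdetA0 : A0.det ≠ 0 := by
    intro h0
    apply hdetA
    rw [← hmap, ← RingHom.map_det, h0, map_zero]
  set g0 : GL ι F₀ := Matrix.GeneralLinearGroup.mkOfDetNeZero A0 hdetA0 with hg0
  set x : GL ι F := Matrix.GeneralLinearGroup.map (F₀.subtype : F₀ →+* F) g0 with hx
  have hxval : (x : Matrix ι ι F) = A := by
    ext i j
    rw [hx, Matrix.GeneralLinearGroup.map_apply]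
    rfl
  have hs : x⁻¹ * g ∈ Cfsg.Geo.scalars ι F := by
    rw [Cfsg.Geo.mem_scalars_iff]
    refine ⟨Units.mk0 c hc, ?_⟩
    rw [Units.val_mul, hg, Matrix.mul_smul, ← hxval, ← Units.val_mul, inv_mul_cancel,
      Units.val_one, Units.val_mk0]
  have hmem : x * (x⁻¹ * g) ∈ H1 ι F₀ :=
    Subgroup.mul_mem_sup (MonoidHom.mem_range.mpr ⟨g0, rfl⟩) hs
  rwa [mul_inv_cancel_left] at hmem

open Pointwise in
theorem exists_of_mem_H1 (F₀ : Subfield F) (g : GL ι F) (hg : g ∈ H1 ι F₀) :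
    ∃ c : F, c ≠ 0 ∧ ∃ A : Matrix ι ι F, RatM F₀ A ∧ (g : Matrix ι ι F) = c • A := by
  have h1 : g ∈ (((Matrix.GeneralLinearGroup.map (F₀.subtype : F₀ →+* F)).range :
      Subgroup (GL ι F)) : Set (GL ι F)) * ((Cfsg.Geo.scalars ι F : Subgroup (GL ι F)) :
      Set (GL ι F)) := by
    rw [← Subgroup.mul_normal]
    exact hg
  obtain ⟨x, hx, y, hy, rfl⟩ := Set.mem_mul.mp h1
  obtain ⟨g0, rfl⟩ := MonoidHom.mem_range.mp hx
  obtain ⟨c, hc⟩ := (Cfsg.Geo.mem_scalars_iff y).mp hy
  refine ⟨c, c.ne_zero,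
    ((Matrix.GeneralLinearGroup.map (F₀.subtype : F₀ →+* F) g0 : GL ι F) : Matrix ι ι F), ?_, ?_⟩
  · intro i j
    rw [Matrix.GeneralLinearGroup.map_apply]
    exact (g0.1 i j).2
  · rw [Units.val_mul, hc, Matrix.mul_smul, Matrix.mul_one]

/-- Rational transvections lie in every overgroup of `H1 ⊓ SL`. -/
theorem rat_TM {F₀ : Subfield F} {M : Subgroup (GL ι F)}
    (hHM : H1 ι F₀ ⊓ Cfsg.Geo.specialLinear ι F ≤ M) {v φ : ι → F} (hv : RatV F₀ v)
    (hφ : RatV F₀ φ) (h0 : φ ⬝ᵥ v = 0) : TM M v φ := by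
  refine TM_of_mem h0 (hHM ⟨?_, tvG_mem_specialLinear v φ h0⟩)
  refine mem_H1_of F₀ _ 1 one_ne_zero (tv v φ) (ratM_tv hv hφ) ?_
  rw [one_smul, tvG_val]

/-- `c` is a parameter of `M`: all elementary transvections `1 + c E_ij` lie in `M`. -/
def InW (M : Subgroup (GL ι F)) (c : F) : Prop :=
  ∀ i j : ι, i ≠ j → TM M (Pi.single i 1) (Pi.single j c)

theorem single_dot_single_ne {i j : ι} (h : i ≠ j) (a b : F) :
    (Pi.single j a : ι → F) ⬝ᵥ Pi.single i b = 0 := by
  rw [dotProduct_single, Pi.single_eq_of_ne h, zero_mul]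

theorem inW_of_mem {F₀ : Subfield F} {M : Subgroup (GL ι F)}
    (hHM : H1 ι F₀ ⊓ Cfsg.Geo.specialLinear ι F ≤ M) {c : F} (hc : c ∈ F₀) : InW M c :=
  fun i j hij => rat_TM hHM (ratV_single F₀ i F₀.one_mem) (ratV_single F₀ j hc)
    (single_dot_single_ne hij c 1)

theorem inW_add {M : Subgroup (GL ι F)} {a b : F} (ha : InW M a) (hb : InW M b) :
    InW M (a + b) := by
  intro i j hij
  have h := TM_add (ha i j hij) (hb i j hij)
  rwa [← Pi.single_add] at h

theorem inW_neg {M : Subgroup (GL ι F)} {a : F} (ha : InW M a) : InW M (-a) := by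
  intro i j hij
  have h := TM_neg (ha i j hij)
  rwa [← Pi.single_neg] at h

theorem inW_mul {M : Subgroup (GL ι F)} (h3 : ∀ i j : ι, ∃ k, k ≠ i ∧ k ≠ j) {a b : F}
    (ha : InW M a) (hb : InW M b) : InW M (a * b) := by
  intro i j hij
  obtain ⟨k, hki, hkj⟩ := h3 i j
  have h1 : TM M (Pi.single k 1) (Pi.single j b) := hb k j hkj
  have h2 : TM M (Pi.single i 1) (Pi.single k a) := ha i k (Ne.symm hki)
  have h := TM_comm h1 h2 (single_dot_single_ne hij b 1)
  rwa [dotProduct_single, Pi.single_eq_same, mul_one, ← Pi.single_smul', smul_eq_mul] at h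

/-- Moving a scalar between centre and functional of a transvection. -/
theorem TM_smul_centre {M : Subgroup (GL ι F)} {u ψ : ι → F} (a : F) :
    TM M (a • u) ψ ↔ TM M u (a • ψ) := by
  have htv : tv (a • u) ψ = tv u (a • ψ) := by
    rw [tv, tv, Matrix.smul_vecMulVec, Matrix.vecMulVec_smul]
  have hdot : ψ ⬝ᵥ (a • u) = (a • ψ) ⬝ᵥ u := by rw [dotProduct_smul, smul_dotProduct]
  constructor
  · rintro ⟨h0, h⟩
    exact ⟨by rw [← hdot]; exact h0, fun t ht => h t (by rw [ht, htv])⟩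
  · rintro ⟨h0, h⟩
    exact ⟨by rw [hdot]; exact h0, fun t ht => h t (by rw [ht, htv])⟩

theorem TM_sub_centre {M : Subgroup (GL ι F)} {u u' ψ : ι → F} (h₁ : TM M u ψ)
    (h₂ : TM M u' ψ) : TM M (u - u') ψ := by
  have h3 : TM M (-u') ψ := by
    have h4 : TM M u' ((-1 : F) • ψ) := by rw [neg_one_smul]; exact TM_neg h₂
    have h5 := (TM_smul_centre (M := M) (u := u') (ψ := ψ) (-1)).mpr h4
    rwa [neg_one_smul] at h5
  rw [sub_eq_add_neg]
  exact TM_add_centre h₁ h3

theorem TM_zero_right (M : Subgroup (GL ι F)) (u : ι → F) : TM M u 0 := by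
  refine ⟨zero_dotProduct u, fun t ht => ?_⟩
  have h1 : t = 1 := Units.ext (by rw [ht, tv_zero_right]; rfl)
  rw [h1]
  exact M.one_mem

theorem TM_moveA {F₀ : Subfield F} {M : Subgroup (GL ι F)}
    (hHM : H1 ι F₀ ⊓ Cfsg.Geo.specialLinear ι F ≤ M) {i j j' : ι} (hij' : i ≠ j')
    (hjj' : j ≠ j') {c : F} (h : TM M (Pi.single i 1) (Pi.single j c)) :
    TM M (Pi.single i 1) (Pi.single j' c) := by
  have h1 : TM M (Pi.single j 1) (Pi.single j' 1) :=
    rat_TM hHM (ratV_single F₀ j F₀.one_mem) (ratV_single F₀ j' F₀.one_mem)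
      (single_dot_single_ne hjj' 1 1)
  have h2 := TM_comm h1 h (single_dot_single_ne hij' 1 1)
  rwa [dotProduct_single, Pi.single_eq_same, mul_one, ← Pi.single_smul', smul_eq_mul,
    mul_one] at h2

theorem TM_moveB {F₀ : Subfield F} {M : Subgroup (GL ι F)}
    (hHM : H1 ι F₀ ⊓ Cfsg.Geo.specialLinear ι F ≤ M) {i i' j : ι} (hi'j : i' ≠ j)
    (hii' : i ≠ i') {c : F} (h : TM M (Pi.single i 1) (Pi.single j c)) :
    TM M (Pi.single i' 1) (Pi.single j c) := by
  have h2 : TM M (Pi.single i' 1) (Pi.single i 1) :=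
    rat_TM hHM (ratV_single F₀ i' F₀.one_mem) (ratV_single F₀ i F₀.one_mem)
      (single_dot_single_ne (Ne.symm hii') 1 1)
  have h3 := TM_conj_tv h h2
  rw [dotProduct_single, Pi.single_eq_same, mul_one, one_smul,
    single_dot_single_ne hi'j c 1, zero_smul, sub_zero] at h3
  have h4 := TM_sub_centre h3 h
  rwa [add_sub_cancel_left] at h4

/-- One elementary transvection with parameter `c` gives all of them. -/
theorem inW_of_one {F₀ : Subfield F} {M : Subgroup (GL ι F)}
    (hHM : H1 ι F₀ ⊓ Cfsg.Geo.specialLinear ι F ≤ M) (h3 : ∀ i j : ι, ∃ k, k ≠ i ∧ k ≠ j)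
    {i j : ι} (hij : i ≠ j) {c : F} (h : TM M (Pi.single i 1) (Pi.single j c)) : InW M c := by
  intro i' j' hij'
  by_cases hj'i : j' = i
  · subst hj'i
    obtain ⟨k, hkj', hkj⟩ := h3 j' j
    have hB : TM M (Pi.single k 1) (Pi.single j c) := TM_moveB hHM hkj (Ne.symm hkj') h
    have hA : TM M (Pi.single k 1) (Pi.single j' c) := TM_moveA hHM hkj' (Ne.symm hij) hB
    by_cases hi'k : i' = k
    · subst hi'k; exact hA
    · exact TM_moveB hHM hij' (Ne.symm hi'k) hA
  · have hA : TM M (Pi.single i 1) (Pi.single j' c) := by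
      by_cases hjj' : j' = j
      · subst hjj'; exact h
      · exact TM_moveA hHM (Ne.symm hj'i) (Ne.symm hjj') h
    by_cases hi'i : i' = i
    · subst hi'i; exact hA
    · exact TM_moveB hHM hij' (Ne.symm hi'i) hA

/-- The entries of the functional of a transvection with centre `e_i` are parameters. -/
theorem inW_of_TM_single {F₀ : Subfield F} {M : Subgroup (GL ι F)}
    (hHM : H1 ι F₀ ⊓ Cfsg.Geo.specialLinear ι F ≤ M) (h3 : ∀ i j : ι, ∃ k, k ≠ i ∧ k ≠ j)
    {i : ι} {ψ : ι → F} (h : TM M (Pi.single i 1) ψ) (k : ι) : InW M (ψ k) := by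
  by_cases hk : k = i
  · subst hk
    have h0 := h.1
    rw [dotProduct_single, mul_one] at h0
    rw [h0]
    exact inW_of_mem hHM F₀.zero_mem
  · obtain ⟨j, hji, hjk⟩ := h3 i k
    have h1 : TM M (Pi.single k 1) (Pi.single j 1) :=
      rat_TM hHM (ratV_single F₀ k F₀.one_mem) (ratV_single F₀ j F₀.one_mem)
        (single_dot_single_ne (Ne.symm hjk) 1 1)
    have h2 := TM_comm h1 h (single_dot_single_ne (Ne.symm hji) 1 1)
    rw [dotProduct_single, mul_one, ← Pi.single_smul', smul_eq_mul, mul_one] at h2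
    exact inW_of_one hHM h3 (Ne.symm hji) h2

theorem TM_sum {M : Subgroup (GL ι F)} (u : ι → F) (s : Finset ι) (f : ι → ι → F)
    (h : ∀ j ∈ s, TM M u (f j)) : TM M u (∑ j ∈ s, f j) := by
  classical
  induction s using Finset.induction_on with
  | empty => rw [Finset.sum_empty]; exact TM_zero_right M u
  | insert a s ha ih =>
    rw [Finset.sum_insert ha]
    exact TM_add (h a (Finset.mem_insert_self a s))
      (ih (fun j hj => h j (Finset.mem_insert_of_mem hj)))

/-- If every field element is a parameter, `M` contains the special linear group. -/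
theorem sl_le_of_inW [Nontrivial ι] {M : Subgroup (GL ι F)} (hall : ∀ c : F, InW M c) :
    Cfsg.Geo.specialLinear ι F ≤ M := by
  classical
  have hc1 : ∀ i : ι, (Pi.single i 1 : ι → F) ∈ centres M := by
    intro i
    apply mem_centres_of_TM
    intro φ hφ
    rw [dotProduct_single, mul_one] at hφ
    have h1 : φ = ∑ j, Pi.single j (φ j) := (Finset.univ_sum_single φ).symm
    rw [h1]
    apply TM_sum
    intro j _
    by_cases hj : j = i
    · subst hj
      rw [hφ, Pi.single_zero]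
      exact TM_zero_right M _
    · exact hall (φ j) i j (Ne.symm hj)
  have hsum : ∀ (s : Finset ι) (f : ι → ι → F), (∀ j ∈ s, f j ∈ centres M) →
      (∑ j ∈ s, f j) ∈ centres M := by
    intro s f
    induction s using Finset.induction_on with
    | empty =>
      intro _
      rw [Finset.sum_empty]
      obtain ⟨i⟩ := (inferInstance : Nonempty ι)
      have := centres_smul M (hc1 i) 0
      rwa [zero_smul] at this
    | insert a s ha ih =>
      intro h
      rw [Finset.sum_insert ha]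
      exact centres_add M (h a (Finset.mem_insert_self a s))
        (ih (fun j hj => h j (Finset.mem_insert_of_mem hj)))
  have hc : ∀ v : ι → F, v ∈ centres M := by
    intro v
    have h1 : v = ∑ j, Pi.single j (v j) := (Finset.univ_sum_single v).symm
    rw [h1]
    apply hsum
    intro j _
    have h2 : (Pi.single j (v j) : ι → F) = v j • Pi.single j 1 := by
      rw [← Pi.single_smul', smul_eq_mul, mul_one]
    rw [h2]
    exact centres_smul M (hc1 j) _
  exact specialLinear_le_of_tv M (fun v φ h t ht => hc v φ h t ht)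

/-- The parameters form a subfield between `F₀` and `F`; for prime degree it is `F₀` or `F`. -/
theorem inW_dichotomy [Fintype F] {F₀ : Subfield F} {M : Subgroup (GL ι F)}
    (hHM : H1 ι F₀ ⊓ Cfsg.Geo.specialLinear ι F ≤ M) (h3 : ∀ i j : ι, ∃ k, k ≠ i ∧ k ≠ j)
    (r : ℕ) (hr : r.Prime) (hcard : Fintype.card F = Nat.card F₀ ^ r) :
    (∀ c : F, InW M c → c ∈ F₀) ∨ (∀ c : F, InW M c) := by
  classical
  let R : Subring F :=
    { carrier := {c | InW M c}
      mul_mem' := fun ha hb => inW_mul h3 ha hb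
      one_mem' := inW_of_mem hHM F₀.one_mem
      add_mem' := fun ha hb => inW_add ha hb
      zero_mem' := inW_of_mem hHM F₀.zero_mem
      neg_mem' := fun ha => inW_neg ha }
  let K : Subfield F :=
    { R with
      inv_mem' := by
        intro c hc
        by_cases h0 : c = 0
        · subst h0; rw [_root_.inv_zero]; exact R.zero_mem
        · have h1 : c⁻¹ = c ^ (Fintype.card F - 2) := by
            have h2 := FiniteField.pow_card_sub_one_eq_one c h0
            have h4 : Fintype.card F - 1 = (Fintype.card F - 2) + 1 := by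
              have := Fintype.one_lt_card (α := F); omega
            rw [h4, pow_succ] at h2
            exact inv_eq_of_mul_eq_one_left h2
          rw [h1]; exact R.pow_mem hc _ }
  have hle : ∀ x : F₀, algebraMap F₀ F x ∈ K := fun x => inW_of_mem hHM x.2
  let E : IntermediateField F₀ F := Subfield.toIntermediateField K hle
  have hfin : Module.finrank F₀ F = r := by
    let _ : Fintype F₀ := Fintype.ofFinite F₀
    have h1 := Module.card_eq_pow_finrank (K := F₀) (V := F)
    rw [hcard, Nat.card_eq_fintype_card] at h1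
    exact (Nat.pow_right_injective (Fintype.one_lt_card) h1).symm
  have hso := IntermediateField.isSimpleOrder_of_finrank_prime F₀ F (by rw [hfin]; exact hr)
  rcases eq_bot_or_eq_top E with hE | hE
  · left
    intro c hc
    have h1 : c ∈ E := hc
    rw [hE, IntermediateField.mem_bot] at h1
    obtain ⟨x, rfl⟩ := h1
    exact x.2
  · right
    intro c
    have h1 : c ∈ E := by rw [hE]; exact IntermediateField.mem_top
    exact h1

/-- A rational transvection (or the identity) moving `e_i` to a multiple of a given rational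
vector. -/
theorem exists_red {F₀ : Subfield F} (x : ι → F) (hx : RatV F₀ x) (hx0 : x ≠ 0) (i : ι) :
    ∃ p q : ι → F, RatV F₀ p ∧ RatV F₀ q ∧ q ⬝ᵥ p = 0 ∧ ∃ l : F, l ∈ F₀ ∧ l ≠ 0 ∧
      Pi.single i 1 + (q ⬝ᵥ Pi.single i 1) • p = l • x := by
  by_cases h : ∃ j, j ≠ i ∧ x j ≠ 0
  · obtain ⟨j, hji, hxj⟩ := h
    refine ⟨x - Pi.single i 1, Pi.single i 1 - Pi.single j ((x i - 1) / x j),
      ratV_sub hx (ratV_single F₀ i F₀.one_mem),
      ratV_sub (ratV_single F₀ i F₀.one_mem)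
        (ratV_single F₀ j (F₀.div_mem (F₀.sub_mem (hx i) F₀.one_mem) (hx j))), ?_, 1,
      F₀.one_mem, one_ne_zero, ?_⟩
    · rw [sub_dotProduct, single_dotProduct, single_dotProduct, Pi.sub_apply, Pi.sub_apply,
        Pi.single_eq_same, Pi.single_eq_of_ne hji]
      field_simp
      ring
    · rw [sub_dotProduct, single_dotProduct, single_dotProduct, Pi.single_eq_same,
        Pi.single_eq_of_ne hji, mul_zero, mul_one, sub_zero, one_smul, one_smul,
        add_sub_cancel]
  · push Not at h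
    have hxi : x i ≠ 0 := by
      intro h0
      apply hx0
      funext k
      by_cases hk : k = i
      · subst hk; exact h0
      · exact h k hk
    refine ⟨0, 0, ratV_zero F₀, ratV_zero F₀, zero_dotProduct _, (x i)⁻¹, F₀.inv_mem (hx i),
      inv_ne_zero hxi, ?_⟩
    rw [smul_zero, add_zero]
    funext k
    by_cases hk : k = i
    · subst hk
      rw [Pi.single_eq_same, Pi.smul_apply, smul_eq_mul, inv_mul_cancel₀ hxi]
    · rw [Pi.single_eq_of_ne hk, Pi.smul_apply, h k hk, smul_zero]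

/-- If no parameter lies outside `F₀`, a centre with a zero entry is a multiple of a rational
vector. -/
theorem rat_of_zero_entry {F₀ : Subfield F} {M : Subgroup (GL ι F)}
    (hHM : H1 ι F₀ ⊓ Cfsg.Geo.specialLinear ι F ≤ M) (h3 : ∀ i j : ι, ∃ k, k ≠ i ∧ k ≠ j)
    (hW : ∀ c : F, InW M c → c ∈ F₀) (u ψ : ι → F) (j k : ι) (hkj : k ≠ j) (huj : u j = 0)
    (h : TM M u ψ) : RatV F₀ (ψ k • u) := by
  have h1 : TM M (Pi.single k 1) (Pi.single j 1) :=
    rat_TM hHM (ratV_single F₀ k F₀.one_mem) (ratV_single F₀ j F₀.one_mem)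
      (single_dot_single_ne hkj 1 1)
  have h0 : (Pi.single j 1 : ι → F) ⬝ᵥ u = 0 := by rw [single_dotProduct, huj, mul_zero]
  have h2 := TM_comm h1 h h0
  rw [dotProduct_single, mul_one, ← Pi.single_smul', smul_eq_mul, mul_one] at h2
  intro k'
  obtain ⟨l, hlj, hlk'⟩ := h3 j k'
  have h4 : TM M (Pi.single l 1) (Pi.single k' 1) :=
    rat_TM hHM (ratV_single F₀ l F₀.one_mem) (ratV_single F₀ k' F₀.one_mem)
      (single_dot_single_ne hlk' 1 1)
  have h5 := TM_conj_tv h2 h4
  rw [single_dotProduct, one_mul, single_dot_single_ne hlj (ψ k) 1, zero_smul, sub_zero] at h5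
  have h6 := TM_sub_centre h5 h2
  rw [add_sub_cancel_left] at h6
  have h7 := (TM_smul_centre (u k')).mp h6
  rw [← Pi.single_smul', smul_eq_mul] at h7
  have h8 := hW _ (inW_of_one hHM h3 hlj h7)
  show ψ k * u k' ∈ F₀
  rwa [mul_comm]

theorem fix_point_inv (m : GL ι F) (i : ι) (l : F)
    (hmi : (m : Matrix ι ι F) *ᵥ Pi.single i 1 = l • Pi.single i 1) :
    l ≠ 0 ∧ ((m⁻¹ : GL ι F) : Matrix ι ι F) *ᵥ Pi.single i 1 = l⁻¹ • Pi.single i 1 := by
  have hl : l ≠ 0 := by
    rintro rfl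
    rw [zero_smul] at hmi
    have h1 := gl_inv_mulVec m (Pi.single i 1)
    rw [hmi, Matrix.mulVec_zero] at h1
    have h2 := congrFun h1 i
    rw [Pi.single_eq_same, Pi.zero_apply] at h2
    exact zero_ne_one h2
  refine ⟨hl, ?_⟩
  have h1 := gl_inv_mulVec m (Pi.single i 1)
  rw [hmi, Matrix.mulVec_smul] at h1
  conv_rhs => rw [← h1]
  rw [smul_smul, inv_mul_cancel₀ hl, one_smul]

/-- If no parameter lies outside `F₀` and `m ∈ M` fixes the point `⟨e_i⟩` with eigenvalue `l`,
then `l • m⁻¹` is rational. -/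
theorem rat_of_fix_point {F₀ : Subfield F} {M : Subgroup (GL ι F)}
    (hHM : H1 ι F₀ ⊓ Cfsg.Geo.specialLinear ι F ≤ M) (h3 : ∀ i j : ι, ∃ k, k ≠ i ∧ k ≠ j)
    (hW : ∀ c : F, InW M c → c ∈ F₀) (m : GL ι F) (hm : m ∈ M) (i : ι) (l : F)
    (hmi : (m : Matrix ι ι F) *ᵥ Pi.single i 1 = l • Pi.single i 1) :
    RatM F₀ (l • ((m⁻¹ : GL ι F) : Matrix ι ι F)) := by
  obtain ⟨hl, hmi'⟩ := fix_point_inv m i l hmi
  have hrow : ∀ (g : GL ι F), g ∈ M → ∀ c : F,
      (g : Matrix ι ι F) *ᵥ Pi.single i 1 = c • Pi.single i 1 → ∀ k, k ≠ i → ∀ k',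
      c * ((g⁻¹ : GL ι F) : Matrix ι ι F) k k' ∈ F₀ := by
    intro g hg c hgi k hki k'
    have h1 : TM M (Pi.single i 1) (Pi.single k 1) :=
      rat_TM hHM (ratV_single F₀ i F₀.one_mem) (ratV_single F₀ k F₀.one_mem)
        (single_dot_single_ne (Ne.symm hki) 1 1)
    have h2 := TM_conj h1 (M.inv_mem hg)
    rw [inv_inv, hgi] at h2
    have h3' := (TM_smul_centre c).mp h2
    have h4 := hW _ (inW_of_TM_single hHM h3 h3' k')
    rwa [Pi.smul_apply, smul_eq_mul, Matrix.single_one_vecMul] at h4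
  have hB := hrow m hm l hmi
  have hB' := hrow m⁻¹ (M.inv_mem hm) l⁻¹ hmi'
  intro k k'
  by_cases hki : k = i
  · subst hki
    by_cases hk' : k' = k
    · subst hk'
      have h1 := congrFun hmi' k'
      rw [Matrix.mulVec_single_one, Pi.smul_apply, Pi.single_eq_same, smul_eq_mul, mul_one] at h1
      show l * ((m⁻¹ : GL ι F) : Matrix ι ι F) k' k' ∈ F₀
      have h2 : ((m⁻¹ : GL ι F) : Matrix ι ι F) k' k' = l⁻¹ := h1
      rw [h2, mul_inv_cancel₀ hl]
      exact F₀.one_mem
    · obtain ⟨l', hl'k, hl'k'⟩ := h3 k k'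
      have h1 : TM M (Pi.single k' 1) (Pi.single l' 1) :=
        rat_TM hHM (ratV_single F₀ k' F₀.one_mem) (ratV_single F₀ l' F₀.one_mem)
          (single_dot_single_ne (Ne.symm hl'k') 1 1)
      have h2 := TM_conj h1 hm
      have h3' := TM_scale h2 l hl
      set β : ι → F := l⁻¹ • (Pi.single l' 1 ᵥ* (m : Matrix ι ι F)) with hβ
      set w : ι → F := l • (((m⁻¹ : GL ι F) : Matrix ι ι F) *ᵥ Pi.single k' 1) with hw
      have hβrat : RatV F₀ β := by
        intro k''
        have h5 := hB' l' hl'k k''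
        rw [inv_inv] at h5
        show l⁻¹ * (Pi.single l' 1 ᵥ* (m : Matrix ι ι F)) k'' ∈ F₀
        rwa [Matrix.single_one_vecMul]
      have hβi : β k = 0 := by
        have h5 := congrFun hmi l'
        rw [Matrix.mulVec_single_one, Pi.smul_apply, Pi.single_eq_of_ne hl'k, smul_zero] at h5
        show l⁻¹ * (Pi.single l' 1 ᵥ* (m : Matrix ι ι F)) k = 0
        rw [Matrix.single_one_vecMul]
        have h6 : (m : Matrix ι ι F) l' k = 0 := h5
        show l⁻¹ * (m : Matrix ι ι F) l' k = 0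
        rw [h6, mul_zero]
      set b : ι → F := w - Pi.single k (w k) with hb
      have hbrat : RatV F₀ b := by
        intro k''
        by_cases h : k'' = k
        · subst h
          rw [hb, Pi.sub_apply, Pi.single_eq_same, sub_self]
          exact F₀.zero_mem
        · rw [hb, Pi.sub_apply, Pi.single_eq_of_ne h, sub_zero, hw, Pi.smul_apply,
            Matrix.mulVec_single_one]
          exact hB k'' h k'
      have hβb : β ⬝ᵥ b = 0 := by
        rw [hb, dotProduct_sub, h3'.1, dotProduct_single, hβi, zero_mul, sub_zero]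
      have h6 : TM M b β := rat_TM hHM hbrat hβrat hβb
      have h7 := TM_sub_centre h3' h6
      have h8 : w - b = w k • Pi.single k 1 := by
        rw [hb, sub_sub_cancel, ← Pi.single_smul', smul_eq_mul, mul_one]
      rw [h8] at h7
      have h9 := (TM_smul_centre (w k)).mp h7
      have hβ0 : ∃ k'', β k'' ≠ 0 := by
        by_contra hcon
        push Not at hcon
        have h10 : Pi.single l' 1 ᵥ* (m : Matrix ι ι F) = 0 := by
          funext k''
          have h11 := hcon k''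
          rw [hβ, Pi.smul_apply, smul_eq_mul] at h11
          rcases mul_eq_zero.mp h11 with h12 | h12
          · exact absurd h12 (inv_ne_zero hl)
          · exact h12
        have h13 : (Pi.single l' 1 ᵥ* (m : Matrix ι ι F)) ᵥ* ((m⁻¹ : GL ι F) : Matrix ι ι F)
            = Pi.single l' 1 := by
          rw [Matrix.vecMul_vecMul, ← Units.val_mul, mul_inv_cancel, Units.val_one,
            Matrix.vecMul_one]
        rw [h10, Matrix.zero_vecMul] at h13
        have h14 := congrFun h13 l'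
        rw [Pi.single_eq_same, Pi.zero_apply] at h14
        exact zero_ne_one h14
      obtain ⟨k'', hk''⟩ := hβ0
      have h10 := hW _ (inW_of_TM_single hHM h3 h9 k'')
      have h11 : w k = l * ((m⁻¹ : GL ι F) : Matrix ι ι F) k k' := by
        rw [hw, Pi.smul_apply, Matrix.mulVec_single_one]
        rfl
      show l * ((m⁻¹ : GL ι F) : Matrix ι ι F) k k' ∈ F₀
      rw [← h11]
      have h12 : w k = (w k * β k'') * (β k'')⁻¹ := by
        rw [mul_assoc, mul_inv_cancel₀ hk'', mul_one]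
      rw [h12]
      exact F₀.mul_mem h10 (F₀.inv_mem (hβrat k''))
  · exact hB k hki k'

theorem mem_H1_of_fix_point {F₀ : Subfield F} {M : Subgroup (GL ι F)}
    (hHM : H1 ι F₀ ⊓ Cfsg.Geo.specialLinear ι F ≤ M) (h3 : ∀ i j : ι, ∃ k, k ≠ i ∧ k ≠ j)
    (hW : ∀ c : F, InW M c → c ∈ F₀) (m : GL ι F) (hm : m ∈ M) (i : ι) (l : F)
    (hmi : (m : Matrix ι ι F) *ᵥ Pi.single i 1 = l • Pi.single i 1) : m ∈ H1 ι F₀ := by
  obtain ⟨hl, hmi'⟩ := fix_point_inv m i l hmi
  have h := rat_of_fix_point hHM h3 hW m⁻¹ (M.inv_mem hm) i l⁻¹ hmi'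
  rw [inv_inv] at h
  exact mem_H1_of F₀ m l hl (l⁻¹ • (m : Matrix ι ι F)) h
    (by rw [smul_smul, mul_inv_cancel₀ hl, one_smul])

/-- General position of `m` with respect to the rational structure: no rational point is mapped
into a rational hyperplane. -/
def GP (F₀ : Subfield F) (m : GL ι F) : Prop :=
  ∀ v φ : ι → F, RatV F₀ v → RatV F₀ φ → v ≠ 0 → φ ≠ 0 →
    φ ⬝ᵥ ((m : Matrix ι ι F) *ᵥ v) ≠ 0

theorem tvG_mem_H1 {F₀ : Subfield F} {p q : ι → F} (hp : RatV F₀ p) (hq : RatV F₀ q)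
    (h : q ⬝ᵥ p = 0) : tvG p q h ∈ H1 ι F₀ :=
  mem_H1_of F₀ _ 1 one_ne_zero (tv p q) (ratM_tv hp hq) (by rw [one_smul, tvG_val])

/-- If no parameter lies outside `F₀`, every element of `M` that is not in general position
is a scalar multiple of a rational matrix. -/
theorem mem_H1_of_not_GP {F₀ : Subfield F} {M : Subgroup (GL ι F)}
    (hHM : H1 ι F₀ ⊓ Cfsg.Geo.specialLinear ι F ≤ M) (h3 : ∀ i j : ι, ∃ k, k ≠ i ∧ k ≠ j)
    (hW : ∀ c : F, InW M c → c ∈ F₀) (m : GL ι F) (hm : m ∈ M) (hGP : ¬ GP F₀ m) :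
    m ∈ H1 ι F₀ := by
  unfold GP at hGP
  push Not at hGP
  obtain ⟨v, φ, hv, hφ, hv0, hφ0, h0⟩ := hGP
  obtain ⟨i, -⟩ := Function.ne_iff.mp hv0
  obtain ⟨j, hji, -⟩ := h3 i i
  obtain ⟨p, q, hp, hq, hqp, l2, hl2, hl20, hred2⟩ := exists_red v hv hv0 i
  obtain ⟨p', q', hp', hq', hqp', l1, hl1, hl10, hred1⟩ := exists_red φ hφ hφ0 j
  have hh2 : TM M p q := rat_TM hHM hp hq hqp
  have hqp'' : p' ⬝ᵥ q' = 0 := by rw [dotProduct_comm]; exact hqp'
  have hh1 : TM M q' p' := rat_TM hHM hq' hp' hqp''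
  set g2 : GL ι F := tvG p q hqp with hg2def
  set g1 : GL ι F := tvG q' p' hqp'' with hg1def
  have hg2M : g2 ∈ M := hh2.mem
  have hg1M : g1 ∈ M := hh1.mem
  have hg2 : (g2 : Matrix ι ι F) *ᵥ Pi.single i 1 = l2 • v := by
    rw [hg2def, tvG_val, tv_mulVec]; exact hred2
  have hg1 : Pi.single j 1 ᵥ* (g1 : Matrix ι ι F) = l1 • φ := by
    rw [hg1def, tvG_val, tv, Matrix.vecMul_add, Matrix.vecMul_one, Matrix.vecMul_vecMulVec,
      dotProduct_comm]
    exact hred1
  set m' : GL ι F := g1 * m * g2 with hm'def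
  have hm' : m' ∈ M := M.mul_mem (M.mul_mem hg1M hm) hg2M
  set u : ι → F := (m' : Matrix ι ι F) *ᵥ Pi.single i 1 with hu
  have huj : u j = 0 := by
    have h1 : u j = (Pi.single j 1 : ι → F) ⬝ᵥ u := by rw [single_dotProduct, one_mul]
    rw [h1, hu, hm'def, Units.val_mul, Units.val_mul, ← Matrix.mulVec_mulVec,
      ← Matrix.mulVec_mulVec, Matrix.dotProduct_mulVec, hg1, hg2, Matrix.mulVec_smul,
      smul_dotProduct, dotProduct_smul, h0, smul_zero, smul_zero]
  have hex : ∃ l k, l ≠ i ∧ k ≠ j ∧ ((m'⁻¹ : GL ι F) : Matrix ι ι F) l k ≠ 0 := by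
    by_contra hcon
    push Not at hcon
    obtain ⟨k1, hk1j, -⟩ := h3 j j
    obtain ⟨k2, hk2j, hk2k1⟩ := h3 j k1
    have hcol : ∀ k, k ≠ j → ((m'⁻¹ : GL ι F) : Matrix ι ι F) *ᵥ Pi.single k 1 =
        (((m'⁻¹ : GL ι F) : Matrix ι ι F) i k) • Pi.single i 1 := by
      intro k hk
      funext l
      rw [Matrix.mulVec_single_one]
      by_cases hl : l = i
      · subst hl
        rw [Pi.smul_apply, Pi.single_eq_same, smul_eq_mul, mul_one]
        rfl
      · rw [Pi.smul_apply, Pi.single_eq_of_ne hl, smul_zero]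
        exact hcon l k hl hk
    set a1 := ((m'⁻¹ : GL ι F) : Matrix ι ι F) i k1 with ha1
    set a2 := ((m'⁻¹ : GL ι F) : Matrix ι ι F) i k2 with ha2
    have h5 : ((m'⁻¹ : GL ι F) : Matrix ι ι F) *ᵥ
        (a2 • Pi.single k1 1 - a1 • Pi.single k2 1) = 0 := by
      rw [Matrix.mulVec_sub, Matrix.mulVec_smul, Matrix.mulVec_smul, hcol k1 hk1j,
        hcol k2 hk2j, smul_smul, smul_smul, mul_comm, sub_self]
    have h6 : a2 • (Pi.single k1 1 : ι → F) - a1 • Pi.single k2 1 = 0 := by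
      have h7 := gl_mulVec_inv m' (a2 • Pi.single k1 1 - a1 • Pi.single k2 1)
      rw [h5, Matrix.mulVec_zero] at h7
      exact h7.symm
    have h8 := congrFun h6 k2
    rw [Pi.sub_apply, Pi.smul_apply, Pi.smul_apply, Pi.single_eq_same,
      Pi.single_eq_of_ne hk2k1, smul_zero, zero_sub, smul_eq_mul, mul_one, Pi.zero_apply,
      neg_eq_zero] at h8
    have h9 := hcol k1 hk1j
    rw [← ha1, h8, zero_smul] at h9
    have h10 := gl_mulVec_inv m' (Pi.single k1 1)
    rw [h9, Matrix.mulVec_zero] at h10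
    have h11 := congrFun h10 k1
    rw [Pi.single_eq_same, Pi.zero_apply] at h11
    exact zero_ne_one h11
  obtain ⟨l, k, hli, hkj, hne⟩ := hex
  have h8 : TM M (Pi.single i 1) (Pi.single l 1) :=
    rat_TM hHM (ratV_single F₀ i F₀.one_mem) (ratV_single F₀ l F₀.one_mem)
      (single_dot_single_ne (Ne.symm hli) 1 1)
  have h9 := TM_conj h8 (M.inv_mem hm')
  rw [inv_inv] at h9
  have h10 := rat_of_zero_entry hHM h3 hW u _ j k hkj huj h9
  rw [Matrix.single_one_vecMul] at h10
  set c : F := ((m'⁻¹ : GL ι F) : Matrix ι ι F) l k with hc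
  have h10' : RatV F₀ (c • u) := h10
  have hu0 : u ≠ 0 := by
    intro hu0
    have h11 := gl_inv_mulVec m' (Pi.single i 1)
    rw [← hu, hu0, Matrix.mulVec_zero] at h11
    have h12 := congrFun h11 i
    rw [Pi.single_eq_same, Pi.zero_apply] at h12
    exact zero_ne_one h12
  have hx0 : c • u ≠ 0 := smul_ne_zero hne hu0
  obtain ⟨p3, q3, hp3, hq3, hqp3, l3, hl3, hl30, hred3⟩ := exists_red (c • u) h10' hx0 i
  have hh3 : TM M p3 q3 := rat_TM hHM hp3 hq3 hqp3
  set g3 : GL ι F := tvG p3 q3 hqp3 with hg3def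
  have hg3M : g3 ∈ M := hh3.mem
  have hg3 : (g3 : Matrix ι ι F) *ᵥ Pi.single i 1 = (l3 * c) • u := by
    rw [hg3def, tvG_val, tv_mulVec, mul_smul]; exact hred3
  set m'' : GL ι F := g3⁻¹ * m' with hm''def
  have hlc : l3 * c ≠ 0 := mul_ne_zero hl30 hne
  have hm''i : (m'' : Matrix ι ι F) *ᵥ Pi.single i 1 = (l3 * c)⁻¹ • Pi.single i 1 := by
    have h11 : u = (l3 * c)⁻¹ • ((g3 : Matrix ι ι F) *ᵥ Pi.single i 1) := by
      rw [hg3, smul_smul, inv_mul_cancel₀ hlc, one_smul]
    rw [hm''def, Units.val_mul, ← Matrix.mulVec_mulVec, ← hu, h11, Matrix.mulVec_smul,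
      gl_inv_mulVec]
  have h11 := mem_H1_of_fix_point hHM h3 hW m'' (M.mul_mem (M.inv_mem hg3M) hm') i _ hm''i
  have hg1H : g1 ∈ H1 ι F₀ := tvG_mem_H1 hq' hp' hqp''
  have hg2H : g2 ∈ H1 ι F₀ := tvG_mem_H1 hp hq hqp
  have hg3H : g3 ∈ H1 ι F₀ := tvG_mem_H1 hp3 hq3 hqp3
  have hfin : m = g1⁻¹ * (g3 * m'') * g2⁻¹ := by
    rw [hm''def, hm'def]; group
  rw [hfin]
  exact mul_mem (mul_mem (inv_mem hg1H) (mul_mem hg3H h11)) (inv_mem hg2H)

end SubfW

end Cfsg.Agent.Lib.Helper50
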