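import Mathlib
import Cfsg.Prelude.Def_GeometricClasses
import Cfsg.Agent.Lib.Helper97.Transv
import Cfsg.Agent.Lib.Helper97.TransvM
import Cfsg.Agent.Lib.Helper50.UnitMax
import Cfsg.Agent.Lib.Helper50.OrthMax
import Cfsg.Agent.Lib.Helper50.SubfW

/-!
# Subfield subgroups of `SL_n` are maximal

Helper library (helper50).  If the parameter field of an overgroup `M` of the subfield group is
`F₀`, every element of `M` outside the subfield group is in general position; a dihedral argument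
with two non-conjugate rational involutions then gives a contradiction.
-/

set_option autoImplicit false

namespace Cfsg.Agent.Lib.Helper50

open Matrix Cfsg.Agent.Lib.Helper97

section SubfMax

variable {ι : Type} [Fintype ι] [DecidableEq ι] {F : Type*} [Field F]

omit [Fintype ι] [DecidableEq ι] in
theorem ratM_add {F₀ : Subfield F} {A B : Matrix ι ι F} (hA : RatM F₀ A) (hB : RatM F₀ B) :
    RatM F₀ (A + B) := fun i j => F₀.add_mem (hA i j) (hB i j)

omit [Fintype ι] [DecidableEq ι] in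
theorem ratM_sub {F₀ : Subfield F} {A B : Matrix ι ι F} (hA : RatM F₀ A) (hB : RatM F₀ B) :
    RatM F₀ (A - B) := fun i j => F₀.sub_mem (hA i j) (hB i j)

theorem pow_card_of_mem [Fintype F] (F₀ : Subfield F) {x : F} (hx : x ∈ F₀) :
    x ^ Nat.card F₀ = x := by
  classical
  let _ : Fintype F₀ := Fintype.ofFinite F₀
  have h := FiniteField.pow_card (⟨x, hx⟩ : F₀)
  rw [Nat.card_eq_fintype_card]
  have h2 := congrArg (fun y : F₀ => (y : F)) h
  simpa using h2

theorem mem_of_pow_card_eq [Fintype F] (F₀ : Subfield F) (x : F) (hx : x ^ Nat.card F₀ = x) :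
    x ∈ F₀ := by
  classical
  let _ : Fintype F₀ := Fintype.ofFinite F₀
  set q0 := Nat.card F₀ with hq0
  have hq1 : 1 < q0 := by rw [hq0, Nat.card_eq_fintype_card]; exact Fintype.one_lt_card
  set P : Polynomial F := Polynomial.X ^ q0 - Polynomial.X with hP
  have hP0 : P ≠ 0 := FiniteField.X_pow_card_sub_X_ne_zero F hq1
  have hdeg : P.natDegree = q0 := FiniteField.X_pow_card_sub_X_natDegree_eq F hq1
  set S : Finset F := Finset.univ.image (fun y : F₀ => (y : F)) with hS
  have hScard : S.card = q0 := by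
    rw [hS, Finset.card_image_of_injective _ Subtype.val_injective, Finset.card_univ, hq0,
      Nat.card_eq_fintype_card]
  have hSsub : S ⊆ P.roots.toFinset := by
    intro y hy
    obtain ⟨z, -, rfl⟩ := Finset.mem_image.mp hy
    rw [Multiset.mem_toFinset, Polynomial.mem_roots hP0, Polynomial.IsRoot, hP,
      Polynomial.eval_sub, Polynomial.eval_pow, Polynomial.eval_X, pow_card_of_mem F₀ z.2,
      sub_self]
  have hcard : P.roots.toFinset.card ≤ q0 :=
    (Multiset.toFinset_card_le _).trans ((Polynomial.card_roots' P).trans hdeg.le)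
  have hEq : S = P.roots.toFinset :=
    Finset.eq_of_subset_of_card_le hSsub (by rw [hScard]; exact hcard)
  have hxS : x ∈ S := by
    rw [hEq, Multiset.mem_toFinset, Polynomial.mem_roots hP0, Polynomial.IsRoot, hP,
      Polynomial.eval_sub, Polynomial.eval_pow, Polynomial.eval_X, hx, sub_self]
  obtain ⟨z, -, rfl⟩ := Finset.mem_image.mp hxS
  exact z.2

/-- In characteristic two or for odd degree, square roots of elements of `F₀` lie in `F₀`. -/
theorem mem_of_sq_mem [Fintype F] (F₀ : Subfield F) (r : ℕ)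
    (hcard : Fintype.card F = Nat.card F₀ ^ r) (hr : (2 : F) = 0 ∨ Odd r) (c : F)
    (hc : c ^ 2 ∈ F₀) : c ∈ F₀ := by
  set q0 := Nat.card F₀ with hq0
  have h1 : (c ^ q0) ^ 2 = c ^ 2 := by
    rw [← pow_mul, mul_comm, pow_mul, pow_card_of_mem F₀ hc]
  rcases sq_eq_sq_iff_eq_or_eq_neg.mp h1 with h2 | h2
  · exact mem_of_pow_card_eq F₀ c h2
  · rcases hr with h2' | hodd
    · have h3 : -c = c := by
        have h4 : c + c = 0 := by rw [← two_mul, h2', zero_mul]
        exact neg_eq_of_add_eq_zero_left h4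
      exact mem_of_pow_card_eq F₀ c (by rw [h2, h3])
    · have hj : ∀ j : ℕ, c ^ (q0 ^ j) = (-1) ^ j * c := by
        intro j
        induction j with
        | zero => rw [pow_zero, pow_one, pow_zero, one_mul]
        | succ j ih =>
          have h5 : ((-1 : F) ^ j) ^ q0 = (-1) ^ j :=
            pow_card_of_mem F₀ (F₀.pow_mem (F₀.neg_mem F₀.one_mem) j)
          rw [pow_succ, pow_mul, ih, mul_pow, h2, h5, pow_succ]
          ring
      have h3 := hj r
      rw [← hcard, FiniteField.pow_card, hodd.neg_one_pow, neg_one_mul] at h3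
      exact mem_of_pow_card_eq F₀ c (by rw [h2]; exact h3.symm)

theorem finrank_of_card [Fintype F] (F₀ : Subfield F) (r : ℕ)
    (hcard : Fintype.card F = Nat.card F₀ ^ r) : Module.finrank F₀ F = r := by
  classical
  let _ : Fintype F₀ := Fintype.ofFinite F₀
  have h1 := Module.card_eq_pow_finrank (K := F₀) (V := F)
  rw [hcard, Nat.card_eq_fintype_card] at h1
  exact (Nat.pow_right_injective (Fintype.one_lt_card) h1).symm

/-- An element in general position forces `n ≤ r`. -/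
theorem card_le_of_GP [Fintype F] (F₀ : Subfield F) (r : ℕ)
    (hcard : Fintype.card F = Nat.card F₀ ^ r) (m : GL ι F) (hGP : GP F₀ m) (i : ι) :
    Fintype.card ι ≤ r := by
  classical
  have hfin := finrank_of_card F₀ r hcard
  set u : ι → F := (m : Matrix ι ι F) *ᵥ Pi.single i 1 with hu
  let L : (ι → F₀) →ₗ[F₀] F :=
    { toFun := fun a => ∑ k, (a k : F) * u k
      map_add' := by
        intro a b
        simp only [Pi.add_apply, Subfield.coe_add, add_mul, Finset.sum_add_distrib]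
      map_smul' := by
        intro c a
        simp only [Pi.smul_apply, smul_eq_mul, Subfield.coe_mul, RingHom.id_apply,
          Finset.mul_sum, mul_assoc, Subfield.smul_def] }
  have hinj : Function.Injective L := by
    rw [← LinearMap.ker_eq_bot, LinearMap.ker_eq_bot']
    intro a ha
    by_contra ha0
    have h1 : (fun k => ((a k : F₀) : F)) ≠ 0 := by
      intro h
      apply ha0
      funext k
      have := congrFun h k
      exact Subtype.ext this
    exact hGP (Pi.single i 1) (fun k => (a k : F)) (ratV_single F₀ i F₀.one_mem)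
      (fun k => (a k).2) (by
        intro h
        have := congrFun h i
        rw [Pi.single_eq_same, Pi.zero_apply] at this
        exact one_ne_zero this) h1 ha
  have h2 := LinearMap.finrank_le_finrank_of_injective hinj
  rw [Module.finrank_fintype_fun_eq_card, hfin] at h2
  exact h2

/-- Two involutions in a finite group are conjugate, or a power of their product is a central
involution of the dihedral group they generate. -/
theorem dihedral_alt {G : Type*} [Group G] [Finite G] (a b : G) (ha : a * a = 1)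
    (hb : b * b = 1) :
    (∃ g : G, b = g * a * g⁻¹) ∨
    (∃ j : ℕ, (a * b) ^ j ≠ 1 ∧ (a * b) ^ j * (a * b) ^ j = 1 ∧
      a * (a * b) ^ j = (a * b) ^ j * a ∧ b * (a * b) ^ j = (a * b) ^ j * b) := by
  have hainv : a⁻¹ = a := inv_eq_of_mul_eq_one_left ha
  have hbinv : b⁻¹ = b := inv_eq_of_mul_eq_one_left hb
  have hwinv : (a * b)⁻¹ = b * a := by rw [_root_.mul_inv_rev, hainv, hbinv]
  have haw : SemiconjBy a (a * b) (a * b)⁻¹ := by
    show a * (a * b) = (a * b)⁻¹ * a
    rw [hwinv, mul_assoc b a a, ha, mul_one, ← mul_assoc, ha, one_mul]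
  have hbw : SemiconjBy b (a * b) (a * b)⁻¹ := by
    show b * (a * b) = (a * b)⁻¹ * b
    rw [hwinv, mul_assoc b a b]
  have hk : 0 < orderOf (a * b) := orderOf_pos (a * b)
  rcases Nat.even_or_odd' (orderOf (a * b)) with ⟨j, hj | hj⟩
  · right
    have hsq : (a * b) ^ j * (a * b) ^ j = 1 := by
      rw [← pow_add, ← two_mul, ← hj]; exact pow_orderOf_eq_one (a * b)
    have h2 : ((a * b)⁻¹) ^ j = (a * b) ^ j := by
      rw [inv_pow]
      exact inv_eq_of_mul_eq_one_left hsq
    refine ⟨j, ?_, hsq, ?_, ?_⟩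
    · intro h
      have h1 := orderOf_dvd_of_pow_eq_one h
      have h3 := Nat.le_of_dvd (by omega) h1
      omega
    · have h1 := (haw.pow_right j).eq
      rw [h1, h2]
    · have h1 := (hbw.pow_right j).eq
      rw [h1, h2]
  · left
    refine ⟨(a * b) ^ j, ?_⟩
    have haw' : SemiconjBy a (a * b)⁻¹ (a * b) := by
      show a * (a * b)⁻¹ = (a * b) * a
      rw [hwinv, mul_assoc]
    have h1 := (haw'.pow_right j).eq
    have h2 : (a * b) ^ (2 * j) = (a * b)⁻¹ := by
      have h3 := pow_orderOf_eq_one (a * b)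
      rw [hj, pow_succ] at h3
      exact eq_inv_of_mul_eq_one_left h3
    rw [← inv_pow, mul_assoc, h1, ← mul_assoc, ← pow_add, ← two_mul, h2, hwinv, mul_assoc, ha,
      mul_one]

theorem exists_col_ne_zero {A : Matrix ι ι F} (hA : A ≠ 0) : ∃ k, A *ᵥ Pi.single k 1 ≠ 0 := by
  by_contra h
  push Not at h
  apply hA
  ext i k
  have h1 := congrFun (h k) i
  rw [Matrix.mulVec_single_one] at h1
  exact h1

theorem exists_row_ne_zero {A : Matrix ι ι F} (hA : A ≠ 0) : ∃ l, Pi.single l 1 ᵥ* A ≠ 0 := by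
  by_contra h
  push Not at h
  apply hA
  ext l k
  have h1 := congrFun (h l) k
  rw [Matrix.single_one_vecMul] at h1
  exact h1

theorem pow_mulVec_fix (A : Matrix ι ι F) (x : ι → F) (h : A *ᵥ x = x) (j : ℕ) :
    (A ^ j) *ᵥ x = x := by
  induction j with
  | zero => rw [pow_zero, Matrix.one_mulVec]
  | succ j ih => rw [pow_succ, ← Matrix.mulVec_mulVec, h, ih]

/-- The dihedral argument: with two suitable rational involutions `a`, `b0` in `M`, an
overgroup `M` all of whose elements outside `H1` are in general position is contained in `H1`. -/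
theorem le_H1_of_involutions {F₀ : Subfield F} {M : Subgroup (GL ι F)} [Finite (GL ι F)]
    (hGPl : ∀ m ∈ M, ¬ GP F₀ m → m ∈ H1 ι F₀)
    (hsq : ∀ c : F, c ^ 2 ∈ F₀ → c ∈ F₀)
    (a b0 : GL ι F) (haM : a ∈ M) (hb0M : b0 ∈ M)
    (ha2 : a * a = 1) (hb2 : b0 * b0 = 1)
    (hb0p : (b0 : Matrix ι ι F) + 1 ≠ 0)
    (hP1 : ∀ z : GL ι F, a * z = z * a → ¬ GP F₀ z)
    (φ0 : ι → F) (hφ0 : RatV F₀ φ0) (hφ00 : φ0 ≠ 0)
    (hP2 : ∀ w : ι → F, (b0 : Matrix ι ι F) *ᵥ w = w → φ0 ⬝ᵥ w = 0)
    (hP3 : ∀ g : GL ι F, a ≠ g * b0 * g⁻¹)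
    (hP4 : ∀ m : GL ι F, ∃ x0 : ι → F, x0 ≠ 0 ∧ (a : Matrix ι ι F) *ᵥ x0 = x0 ∧
        (b0 : Matrix ι ι F) *ᵥ (((m⁻¹ : GL ι F) : Matrix ι ι F) *ᵥ x0) =
          ((m⁻¹ : GL ι F) : Matrix ι ι F) *ᵥ x0) :
    M ≤ H1 ι F₀ := by
  intro m hm
  by_contra hmH
  have hGPm' : GP F₀ m⁻¹ := by
    by_contra h
    have h1 := (H1 ι F₀).inv_mem (hGPl m⁻¹ (M.inv_mem hm) h)
    rw [inv_inv] at h1
    exact hmH h1
  set b : GL ι F := m * b0 * m⁻¹ with hb
  have hbM : b ∈ M := M.mul_mem (M.mul_mem hm hb0M) (M.inv_mem hm)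
  have hbb : b * b = 1 := by
    have h1 : b * b = m * (b0 * b0) * m⁻¹ := by rw [hb]; group
    rw [h1, hb2, mul_one, mul_inv_cancel]
  obtain ⟨i0, -⟩ := Function.ne_iff.mp hφ00
  have hrat : ∀ z : GL ι F, z ∈ H1 ι F₀ → z * z = 1 → RatM F₀ (z : Matrix ι ι F) := by
    intro z hz hzz
    obtain ⟨c, hc0, A, hA, hzA⟩ := exists_of_mem_H1 F₀ z hz
    have h1 : (c ^ 2) • (A * A) = 1 := by
      have h2 := congrArg Units.val hzz
      rw [Units.val_mul, hzA, Matrix.smul_mul, Matrix.mul_smul, smul_smul, Units.val_one] at h2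
      rw [pow_two]; exact h2
    have h2 := congrFun (congrFun h1 i0) i0
    rw [Matrix.smul_apply, Matrix.one_apply_eq, smul_eq_mul] at h2
    have h3 : (c⁻¹) ^ 2 ∈ F₀ := by
      have h4 : (c⁻¹) ^ 2 = (A * A) i0 i0 := by
        rw [inv_pow]; exact inv_eq_of_mul_eq_one_right h2
      rw [h4]; exact ratM_mul hA hA i0 i0
    have h4 : c ∈ F₀ := by
      have h5 := F₀.inv_mem (hsq _ h3)
      rwa [inv_inv] at h5
    rw [hzA]; exact ratM_smul h4 hA
  have hkey : ∀ z y : GL ι F, RatM F₀ (z : Matrix ι ι F) → z * z = 1 →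
      (z : Matrix ι ι F) - 1 ≠ 0 → (z : Matrix ι ι F) + 1 ≠ 0 → y * z = z * y → ¬ GP F₀ y := by
    intro z y hzr hzz hzm hzp hyz hGP
    obtain ⟨k, hk⟩ := exists_col_ne_zero hzp
    obtain ⟨l, hl⟩ := exists_row_ne_zero hzm
    have hv : RatV F₀ (((z : Matrix ι ι F) + 1) *ᵥ Pi.single k 1) :=
      ratM_mulVec (ratM_add hzr (ratM_one F₀)) (ratV_single F₀ k F₀.one_mem)
    have hφ : RatV F₀ (Pi.single l 1 ᵥ* ((z : Matrix ι ι F) - 1)) :=
      ratM_vecMul (ratV_single F₀ l F₀.one_mem) (ratM_sub hzr (ratM_one F₀))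
    apply hGP _ _ hv hφ hk hl
    have hyz' : (y : Matrix ι ι F) * (z : Matrix ι ι F) = (z : Matrix ι ι F) * (y : Matrix ι ι F) := by
      rw [← Units.val_mul, ← Units.val_mul, hyz]
    have hzz' : (z : Matrix ι ι F) * (z : Matrix ι ι F) = 1 := by
      rw [← Units.val_mul, hzz, Units.val_one]
    have h1 : ((z : Matrix ι ι F) - 1) * ((y : Matrix ι ι F) * ((z : Matrix ι ι F) + 1)) = 0 := by
      calc ((z : Matrix ι ι F) - 1) * ((y : Matrix ι ι F) * ((z : Matrix ι ι F) + 1))
          = (z : Matrix ι ι F) * ((y : Matrix ι ι F) * (z : Matrix ι ι F))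
            + (z : Matrix ι ι F) * (y : Matrix ι ι F)
            - (y : Matrix ι ι F) * (z : Matrix ι ι F) - (y : Matrix ι ι F) := by noncomm_ring
        _ = (z : Matrix ι ι F) * (z : Matrix ι ι F) * (y : Matrix ι ι F)
            + (z : Matrix ι ι F) * (y : Matrix ι ι F)
            - (z : Matrix ι ι F) * (y : Matrix ι ι F) - (y : Matrix ι ι F) := by
          rw [hyz', ← mul_assoc]
        _ = 0 := by rw [hzz']; noncomm_ring
    rw [← Matrix.dotProduct_mulVec, Matrix.mulVec_mulVec, Matrix.mulVec_mulVec,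
      Matrix.mul_assoc, h1, Matrix.zero_mulVec, dotProduct_zero]
  rcases dihedral_alt a b ha2 hbb with ⟨g, hg⟩ | ⟨j, hz1, hzz, haz, hbz⟩
  · apply hP3 (g⁻¹ * m)
    have h1 : a = g⁻¹ * b * g := by rw [hg]; group
    rw [h1, hb]; group
  · set z : GL ι F := (a * b) ^ j with hz
    have hzM : z ∈ M := M.pow_mem (M.mul_mem haM hbM) j
    have hzH : z ∈ H1 ι F₀ := hGPl z hzM (hP1 z haz)
    have hzr := hrat z hzH hzz
    have hzm : (z : Matrix ι ι F) - 1 ≠ 0 := by
      intro h
      apply hz1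
      apply Units.ext
      rw [Units.val_one]
      exact sub_eq_zero.mp h
    obtain ⟨x0, hx0, hax0, hbx0⟩ := hP4 m
    have hbx0' : (b : Matrix ι ι F) *ᵥ x0 = x0 := by
      rw [hb, Units.val_mul, Units.val_mul, ← Matrix.mulVec_mulVec, ← Matrix.mulVec_mulVec,
        hbx0, gl_mulVec_inv]
    have hzx0 : (z : Matrix ι ι F) *ᵥ x0 = x0 := by
      rw [hz, Units.val_pow_eq_pow_val]
      apply pow_mulVec_fix
      rw [Units.val_mul, ← Matrix.mulVec_mulVec, hbx0', hax0]
    have hzp : (z : Matrix ι ι F) + 1 ≠ 0 := by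
      intro h
      have h1 : (z : Matrix ι ι F) = -1 := eq_neg_of_add_eq_zero_left h
      rw [h1, Matrix.neg_mulVec, Matrix.one_mulVec] at hzx0
      have h2 : (2 : F) = 0 := by
        obtain ⟨i1, hi1⟩ := Function.ne_iff.mp hx0
        have h3 := congrFun hzx0 i1
        rw [Pi.neg_apply] at h3
        have h4 : (2 : F) * x0 i1 = 0 := by
          rw [two_mul]
          nth_rewrite 1 [← h3]
          exact neg_add_cancel _
        rcases mul_eq_zero.mp h4 with h5 | h5
        · exact h5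
        · exact absurd h5 hi1
      apply hzm
      rw [h1]
      have h6 : (-1 : Matrix ι ι F) - 1 = -((2 : F) • (1 : Matrix ι ι F)) := by
        rw [two_smul]; abel
      rw [h6, h2, zero_smul, neg_zero]
    have hbGP := hkey z b hzr hzz hzm hzp hbz
    have hbH := hGPl b hbM hbGP
    have hbr := hrat b hbH hbb
    have hbp : (b : Matrix ι ι F) + 1 ≠ 0 := by
      intro h
      apply hb0p
      have h7 : (b : Matrix ι ι F) + 1 =
          (m : Matrix ι ι F) * ((b0 : Matrix ι ι F) + 1) * ((m⁻¹ : GL ι F) : Matrix ι ι F) := by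
        rw [hb, Units.val_mul, Units.val_mul, Matrix.mul_add, Matrix.add_mul, Matrix.mul_one,
          Units.mul_inv]
      have h8 : (b0 : Matrix ι ι F) + 1 = ((m⁻¹ : GL ι F) : Matrix ι ι F) *
          ((b : Matrix ι ι F) + 1) * (m : Matrix ι ι F) := by
        rw [h7]
        calc (b0 : Matrix ι ι F) + 1
            = (((m⁻¹ : GL ι F) : Matrix ι ι F) * (m : Matrix ι ι F)) * ((b0 : Matrix ι ι F) + 1)
              * (((m⁻¹ : GL ι F) : Matrix ι ι F) * (m : Matrix ι ι F)) := by
              rw [Units.inv_mul, one_mul, mul_one]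
          _ = _ := by simp only [Matrix.mul_assoc]
      rw [h8, h, Matrix.mul_zero, Matrix.zero_mul]
    obtain ⟨k, hk⟩ := exists_col_ne_zero hbp
    have hv'r : RatV F₀ (((b : Matrix ι ι F) + 1) *ᵥ Pi.single k 1) :=
      ratM_mulVec (ratM_add hbr (ratM_one F₀)) (ratV_single F₀ k F₀.one_mem)
    set v' : ι → F := ((b : Matrix ι ι F) + 1) *ᵥ Pi.single k 1 with hv'
    have hbv' : (b : Matrix ι ι F) *ᵥ v' = v' := by
      have h1 : (b : Matrix ι ι F) * ((b : Matrix ι ι F) + 1) = (b : Matrix ι ι F) + 1 := by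
        rw [Matrix.mul_add, Matrix.mul_one, ← Units.val_mul, hbb, Units.val_one, add_comm]
      rw [hv', Matrix.mulVec_mulVec, h1]
    clear_value v'
    have h5 : (b0 : Matrix ι ι F) *ᵥ (((m⁻¹ : GL ι F) : Matrix ι ι F) *ᵥ v') =
        ((m⁻¹ : GL ι F) : Matrix ι ι F) *ᵥ v' := by
      have h6 : (b : Matrix ι ι F) *ᵥ v' = (m : Matrix ι ι F) *ᵥ ((b0 : Matrix ι ι F) *ᵥ
          (((m⁻¹ : GL ι F) : Matrix ι ι F) *ᵥ v')) := by
        rw [hb, Units.val_mul, Units.val_mul, Matrix.mulVec_mulVec, Matrix.mulVec_mulVec,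
          Matrix.mul_assoc]
      rw [hbv'] at h6
      have h7 : ((m⁻¹ : GL ι F) : Matrix ι ι F) *ᵥ v' = ((m⁻¹ : GL ι F) : Matrix ι ι F) *ᵥ
          ((m : Matrix ι ι F) *ᵥ ((b0 : Matrix ι ι F) *ᵥ
          (((m⁻¹ : GL ι F) : Matrix ι ι F) *ᵥ v'))) :=
        congrArg (fun x => ((m⁻¹ : GL ι F) : Matrix ι ι F) *ᵥ x) h6
      rw [gl_inv_mulVec] at h7
      exact h7.symm
    exact hGPm' v' φ0 hv'r hφ0 hk hφ00 (hP2 _ h5)

end SubfMax

section SubfInst

variable {F : Type*} [Field F]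

theorem two_by_three (p q : Fin 3 → F) :
    ∃ c : Fin 3 → F, c ≠ 0 ∧ p ⬝ᵥ c = 0 ∧ q ⬝ᵥ c = 0 := by
  have hdet : (Matrix.of ![p, q, 0] : Matrix (Fin 3) (Fin 3) F).det = 0 :=
    Matrix.det_eq_zero_of_row_eq_zero 2 (fun j => rfl)
  obtain ⟨c, hc0, hc⟩ := Matrix.exists_mulVec_eq_zero_iff.mpr hdet
  exact ⟨c, hc0, congrFun hc 0, congrFun hc 1⟩

/-- A non-zero vector supported on the coordinates 4, 5, 6 whose image under `g` has vanishing
coordinates 0 and 1. -/
theorem exists_x0 {n : ℕ} (hn : 7 ≤ n) (g : Matrix (Fin n) (Fin n) F) :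
    ∃ x0 : Fin n → F, x0 ≠ 0 ∧ (∀ k : Fin n, k.val < 4 → x0 k = 0) ∧
      (g *ᵥ x0) ⟨0, by omega⟩ = 0 ∧ (g *ᵥ x0) ⟨1, by omega⟩ = 0 := by
  obtain ⟨c, hc0, hp, hq⟩ := two_by_three
    (fun t => g ⟨0, by omega⟩ ⟨4 + t.val, by omega⟩)
    (fun t => g ⟨1, by omega⟩ ⟨4 + t.val, by omega⟩)
  rw [dotProduct, Fin.sum_univ_three] at hp hq
  refine ⟨c 0 • Pi.single ⟨4, by omega⟩ 1 + c 1 • Pi.single ⟨5, by omega⟩ 1 +
    c 2 • Pi.single ⟨6, by omega⟩ 1, ?_, ?_, ?_, ?_⟩
  · intro h
    apply hc0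
    funext t
    fin_cases t
    · have h1 := congrFun h ⟨4, by omega⟩
      simpa [Pi.single_apply, Fin.ext_iff] using h1
    · have h1 := congrFun h ⟨5, by omega⟩
      simpa [Pi.single_apply, Fin.ext_iff] using h1
    · have h1 := congrFun h ⟨6, by omega⟩
      simpa [Pi.single_apply, Fin.ext_iff] using h1
  · intro k hk
    have h4 : k ≠ ⟨4, by omega⟩ := by intro h; rw [h] at hk; simp at hk
    have h5 : k ≠ ⟨5, by omega⟩ := by intro h; rw [h] at hk; simp at hk
    have h6 : k ≠ ⟨6, by omega⟩ := by intro h; rw [h] at hk; simp at hk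
    simp [h4, h5, h6]
  · rw [Matrix.mulVec_add, Matrix.mulVec_add, Matrix.mulVec_smul, Matrix.mulVec_smul,
      Matrix.mulVec_smul, Matrix.mulVec_single_one, Matrix.mulVec_single_one,
      Matrix.mulVec_single_one]
    simp only [Pi.add_apply, Pi.smul_apply, Matrix.col_apply, smul_eq_mul]
    simp only [Fin.val_zero, Fin.val_one, Fin.val_two, add_zero] at hp
    linear_combination hp
  · rw [Matrix.mulVec_add, Matrix.mulVec_add, Matrix.mulVec_smul, Matrix.mulVec_smul,
      Matrix.mulVec_smul, Matrix.mulVec_single_one, Matrix.mulVec_single_one,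
      Matrix.mulVec_single_one]
    simp only [Pi.add_apply, Pi.smul_apply, Matrix.col_apply, smul_eq_mul]
    simp only [Fin.val_zero, Fin.val_one, Fin.val_two, add_zero] at hq
    linear_combination hq

/-- The diagonal matrix with `-1` on the first `j` coordinates. -/
def dsign (n j : ℕ) (F : Type*) [Field F] : Matrix (Fin n) (Fin n) F :=
  Matrix.diagonal (fun k => if k.val < j then (-1 : F) else 1)

theorem dsign_mulVec (n j : ℕ) (y : Fin n → F) (k : Fin n) :
    (dsign n j F *ᵥ y) k = (if k.val < j then (-1 : F) else 1) * y k := by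
  rw [dsign, Matrix.mulVec_diagonal]

theorem dsign_mul_self (n j : ℕ) : dsign n j F * dsign n j F = 1 := by
  rw [dsign, Matrix.diagonal_mul_diagonal, ← Matrix.diagonal_one]
  congr 1
  funext k
  split_ifs <;> simp

theorem filter_lt_range {n j : ℕ} (hj : j ≤ n) :
    (Finset.range n).filter (fun k => k < j) = Finset.range j := by
  ext k
  simp only [Finset.mem_filter, Finset.mem_range]
  omega

theorem dsign_det (n j : ℕ) (hj : j ≤ n) : (dsign n j F).det = (-1) ^ j := by
  rw [dsign, Matrix.det_diagonal,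
    Fin.prod_univ_eq_prod_range (fun k => if k < j then (-1 : F) else 1) n, Finset.prod_ite,
    Finset.prod_const_one, mul_one, Finset.prod_const, filter_lt_range hj, Finset.card_range]

theorem dsign_trace (n j : ℕ) (hj : j ≤ n) : (dsign n j F).trace = (n : F) - 2 * (j : F) := by
  have h1 : ∀ k : ℕ, (if k < j then (-1 : F) else 1) = 1 - (if k < j then 2 else 0) := by
    intro k; split_ifs <;> ring
  rw [dsign, Matrix.trace_diagonal,
    Fin.sum_univ_eq_sum_range (fun k => if k < j then (-1 : F) else 1) n]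
  simp_rw [h1]
  rw [Finset.sum_sub_distrib, Finset.sum_const, Finset.card_range, ← Finset.sum_filter,
    filter_lt_range hj, Finset.sum_const, Finset.card_range, nsmul_eq_mul, nsmul_eq_mul, mul_one,
    mul_comm]

theorem ratM_dsign (F₀ : Subfield F) (n j : ℕ) : RatM F₀ (dsign n j F) := by
  intro i k
  rw [dsign, Matrix.diagonal_apply]
  split_ifs
  exacts [F₀.neg_mem F₀.one_mem, F₀.one_mem, F₀.zero_mem]

end SubfInst

section SubfMain

variable {F : Type*} [Field F] [Fintype F]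

theorem fin_third {n : ℕ} (hn : 3 ≤ n) (i j : Fin n) : ∃ k, k ≠ i ∧ k ≠ j := by
  have h : ∃ t : ℕ, t < 3 ∧ t ≠ i.val ∧ t ≠ j.val := by
    by_cases a0 : 0 ≠ i.val ∧ 0 ≠ j.val
    · exact ⟨0, by omega, a0.1, a0.2⟩
    by_cases a1 : 1 ≠ i.val ∧ 1 ≠ j.val
    · exact ⟨1, by omega, a1.1, a1.2⟩
    exact ⟨2, by omega, by omega, by omega⟩
  obtain ⟨t, ht, hti, htj⟩ := h
  exact ⟨⟨t, by omega⟩, fun h => hti (by rw [← h]), fun h => htj (by rw [← h])⟩

omit [Fintype F] in
theorem single_ne_zero_fin {n : ℕ} (k : Fin n) : (Pi.single k (1 : F) : Fin n → F) ≠ 0 := by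
  intro h
  have h1 := congrFun h k
  rw [Pi.single_eq_same, Pi.zero_apply] at h1
  exact one_ne_zero h1

/-- The odd characteristic instance of the dihedral argument. -/
theorem le_H1_odd {n : ℕ} (hn : 7 ≤ n) {F₀ : Subfield F} {M : Subgroup (GL (Fin n) F)}
    (hHM : H1 (Fin n) F₀ ⊓ Cfsg.Geo.specialLinear (Fin n) F ≤ M)
    (hGPl : ∀ m ∈ M, ¬ GP F₀ m → m ∈ H1 (Fin n) F₀)
    (hsq : ∀ c : F, c ^ 2 ∈ F₀ → c ∈ F₀) (h2 : (2 : F) ≠ 0) : M ≤ H1 (Fin n) F₀ := by
  have hd4 : (dsign n 4 F).det = 1 := by rw [dsign_det n 4 (by omega)]; norm_num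
  have hd2 : (dsign n 2 F).det = 1 := by rw [dsign_det n 2 (by omega)]; norm_num
  set a : GL (Fin n) F := Matrix.GeneralLinearGroup.mkOfDetNeZero (dsign n 4 F)
    (by rw [hd4]; exact one_ne_zero) with ha
  set b0 : GL (Fin n) F := Matrix.GeneralLinearGroup.mkOfDetNeZero (dsign n 2 F)
    (by rw [hd2]; exact one_ne_zero) with hb0
  have haval : (a : Matrix (Fin n) (Fin n) F) = dsign n 4 F := rfl
  have hbval : (b0 : Matrix (Fin n) (Fin n) F) = dsign n 2 F := rfl
  have haM : a ∈ M := hHM ⟨mem_H1_of F₀ a 1 one_ne_zero _ (ratM_dsign F₀ n 4)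
    (by rw [one_smul, haval]), (mem_specialLinear_iff a).mpr (by rw [haval, hd4])⟩
  have hb0M : b0 ∈ M := hHM ⟨mem_H1_of F₀ b0 1 one_ne_zero _ (ratM_dsign F₀ n 2)
    (by rw [one_smul, hbval]), (mem_specialLinear_iff b0).mpr (by rw [hbval, hd2])⟩
  have ha2 : a * a = 1 :=
    Units.ext (by rw [Units.val_mul, haval, dsign_mul_self, Units.val_one])
  have hb2 : b0 * b0 = 1 :=
    Units.ext (by rw [Units.val_mul, hbval, dsign_mul_self, Units.val_one])
  have hneg : ∀ x : F, -1 * x = x → x = 0 := by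
    intro x hx
    have h3 : (2 : F) * x = 0 := by linear_combination (-1 : F) * hx
    rcases mul_eq_zero.mp h3 with h4 | h4
    · exact absurd h4 h2
    · exact h4
  refine le_H1_of_involutions hGPl hsq a b0 haM hb0M ha2 hb2 ?_ ?_ (Pi.single ⟨0, by omega⟩ 1)
    (ratV_single F₀ _ F₀.one_mem) (single_ne_zero_fin _) ?_ ?_ ?_
  · intro h
    have h1 := congrFun (congrFun h ⟨2, by omega⟩) ⟨2, by omega⟩
    rw [hbval, Matrix.add_apply, dsign, Matrix.diagonal_apply_eq, Matrix.one_apply_eq,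
      Matrix.zero_apply, if_neg (by simp), one_add_one_eq_two] at h1
    exact h2 h1
  · intro z haz hGP
    have h3 : (a : Matrix (Fin n) (Fin n) F) *ᵥ Pi.single ⟨4, by omega⟩ 1 =
        Pi.single ⟨4, by omega⟩ 1 := by
      funext k
      rw [haval, dsign_mulVec]
      by_cases hk : k = ⟨4, by omega⟩
      · subst hk
        rw [if_neg (by simp), one_mul]
      · rw [Pi.single_eq_of_ne hk, mul_zero]
    have h1 : (a : Matrix (Fin n) (Fin n) F) *ᵥ ((z : Matrix (Fin n) (Fin n) F) *ᵥ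
        Pi.single ⟨4, by omega⟩ 1) = (z : Matrix (Fin n) (Fin n) F) *ᵥ
        Pi.single ⟨4, by omega⟩ 1 := by
      rw [Matrix.mulVec_mulVec, ← Units.val_mul, haz, Units.val_mul, ← Matrix.mulVec_mulVec, h3]
    have h4 := congrFun h1 ⟨0, by omega⟩
    rw [haval, dsign_mulVec, if_pos (by simp)] at h4
    have h5 := hneg _ h4
    apply hGP (Pi.single ⟨4, by omega⟩ 1) (Pi.single ⟨0, by omega⟩ 1)
      (ratV_single F₀ _ F₀.one_mem) (ratV_single F₀ _ F₀.one_mem) (single_ne_zero_fin _)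
      (single_ne_zero_fin _)
    rw [single_dotProduct, one_mul, h5]
  · intro w hw
    have h4 := congrFun hw ⟨0, by omega⟩
    rw [hbval, dsign_mulVec, if_pos (by simp)] at h4
    rw [single_dotProduct, one_mul, hneg _ h4]
  · intro g hg
    have h1 := congrArg (fun x : GL (Fin n) F => (x : Matrix (Fin n) (Fin n) F).trace) hg
    simp only [Units.val_mul] at h1
    rw [Matrix.trace_mul_comm, ← Matrix.mul_assoc, Units.inv_mul, Matrix.one_mul, haval, hbval,
      dsign_trace n 4 (by omega), dsign_trace n 2 (by omega)] at h1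
    push_cast at h1
    have h3 : (2 : F) * 2 = 0 := by linear_combination (-1 : F) * h1
    exact h2 (mul_self_eq_zero.mp h3)
  · intro m
    obtain ⟨x0, hx0, hsupp, h0, h1⟩ :=
      exists_x0 hn ((m⁻¹ : GL (Fin n) F) : Matrix (Fin n) (Fin n) F)
    refine ⟨x0, hx0, ?_, ?_⟩
    · funext k
      rw [haval, dsign_mulVec]
      split_ifs with hk
      · rw [hsupp k hk, mul_zero]
      · rw [one_mul]
    · funext k
      rw [hbval, dsign_mulVec]
      split_ifs with hk
      · have h5 : k = ⟨0, by omega⟩ ∨ k = ⟨1, by omega⟩ := by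
          rcases Nat.lt_or_ge k.val 1 with h6 | h6
          · left; exact Fin.ext (by simp; omega)
          · right; exact Fin.ext (by simp; omega)
        rcases h5 with h5 | h5
        · rw [h5, h0, mul_zero]
        · rw [h5, h1, mul_zero]
      · rw [one_mul]

/-- The characteristic two instance of the dihedral argument. -/
theorem le_H1_two {n : ℕ} (hn : 7 ≤ n) {F₀ : Subfield F} {M : Subgroup (GL (Fin n) F)}
    (hHM : H1 (Fin n) F₀ ⊓ Cfsg.Geo.specialLinear (Fin n) F ≤ M)
    (hGPl : ∀ m ∈ M, ¬ GP F₀ m → m ∈ H1 (Fin n) F₀)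
    (hsq : ∀ c : F, c ^ 2 ∈ F₀ → c ∈ F₀) (h2 : (2 : F) = 0) : M ≤ H1 (Fin n) F₀ := by
  set i0 : Fin n := ⟨0, by omega⟩ with hi0
  set i1 : Fin n := ⟨1, by omega⟩ with hi1
  set i2 : Fin n := ⟨2, by omega⟩ with hi2
  set i3 : Fin n := ⟨3, by omega⟩ with hi3
  have n01 : i0 ≠ i1 := by rw [hi0, hi1]; simp
  have n02 : i0 ≠ i2 := by rw [hi0, hi2]; simp
  have n03 : i0 ≠ i3 := by rw [hi0, hi3]; simp
  have n12 : i1 ≠ i2 := by rw [hi1, hi2]; simp
  have n13 : i1 ≠ i3 := by rw [hi1, hi3]; simp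
  have n23 : i2 ≠ i3 := by rw [hi2, hi3]; simp
  have h01 : (Pi.single i1 (1 : F) : Fin n → F) ⬝ᵥ Pi.single i0 1 = 0 :=
    single_dot_single_ne n01 1 1
  have h23 : (Pi.single i3 (1 : F) : Fin n → F) ⬝ᵥ Pi.single i2 1 = 0 :=
    single_dot_single_ne n23 1 1
  set s0 : Fin n → F := Pi.single i0 1 with hs0
  set s2 : Fin n → F := Pi.single i2 1 with hs2
  have s0_0 : s0 i0 = 1 := by rw [hs0, Pi.single_eq_same]
  have s0_1 : s0 i1 = 0 := by rw [hs0, Pi.single_eq_of_ne (Ne.symm n01)]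
  have s0_2 : s0 i2 = 0 := by rw [hs0, Pi.single_eq_of_ne (Ne.symm n02)]
  have s0_3 : s0 i3 = 0 := by rw [hs0, Pi.single_eq_of_ne (Ne.symm n03)]
  have s2_0 : s2 i0 = 0 := by rw [hs2, Pi.single_eq_of_ne n02]
  have s2_1 : s2 i1 = 0 := by rw [hs2, Pi.single_eq_of_ne n12]
  have s2_2 : s2 i2 = 1 := by rw [hs2, Pi.single_eq_same]
  have s2_3 : s2 i3 = 0 := by rw [hs2, Pi.single_eq_of_ne (Ne.symm n23)]
  set b0 : GL (Fin n) F := tvG s0 (Pi.single i1 1) h01 with hb0
  set c0 : GL (Fin n) F := tvG s2 (Pi.single i3 1) h23 with hc0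
  set a : GL (Fin n) F := b0 * c0 with ha
  have hbmv : ∀ y : Fin n → F, (b0 : Matrix (Fin n) (Fin n) F) *ᵥ y = y + y i1 • s0 := by
    intro y
    rw [hb0, tvG_val, tv_mulVec, single_dotProduct, one_mul]
  have hcmv : ∀ y : Fin n → F, (c0 : Matrix (Fin n) (Fin n) F) *ᵥ y = y + y i3 • s2 := by
    intro y
    rw [hc0, tvG_val, tv_mulVec, single_dotProduct, one_mul]
  have hamv : ∀ y : Fin n → F, (a : Matrix (Fin n) (Fin n) F) *ᵥ y =
      y + y i3 • s2 + y i1 • s0 := by
    intro y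
    rw [ha, Units.val_mul, ← Matrix.mulVec_mulVec, hcmv, hbmv, Pi.add_apply, Pi.smul_apply,
      s2_1, smul_zero, add_zero]
  have hb0M : b0 ∈ M := (rat_TM hHM (ratV_single F₀ i0 F₀.one_mem)
    (ratV_single F₀ i1 F₀.one_mem) h01).mem
  have hc0M : c0 ∈ M := (rat_TM hHM (ratV_single F₀ i2 F₀.one_mem)
    (ratV_single F₀ i3 F₀.one_mem) h23).mem
  have haM : a ∈ M := M.mul_mem hb0M hc0M
  have hsmul2 : ∀ (x : F) (v : Fin n → F), x • v + x • v = 0 := by
    intro x v
    rw [← two_smul F (x • v), h2, zero_smul]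
  have hb2 : b0 * b0 = 1 := by
    apply Units.ext
    apply ext_mulVec_single
    intro k
    rw [Units.val_mul, ← Matrix.mulVec_mulVec, hbmv, hbmv, Units.val_one, Matrix.one_mulVec,
      Pi.add_apply, Pi.smul_apply, s0_1, smul_zero, add_zero, add_assoc, hsmul2, add_zero]
  have ha2 : a * a = 1 := by
    apply Units.ext
    apply ext_mulVec_single
    intro k
    rw [Units.val_mul, ← Matrix.mulVec_mulVec, hamv, hamv, Units.val_one, Matrix.one_mulVec]
    simp only [Pi.add_apply, Pi.smul_apply, s0_1, s0_3, s2_1, s2_3, smul_zero, add_zero]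
    have h5 := hsmul2 ((Pi.single k 1 : Fin n → F) i3) s2
    have h6 := hsmul2 ((Pi.single k 1 : Fin n → F) i1) s0
    calc (Pi.single k 1 : Fin n → F) + (Pi.single k 1 : Fin n → F) i3 • s2
          + (Pi.single k 1 : Fin n → F) i1 • s0 + (Pi.single k 1 : Fin n → F) i3 • s2
          + (Pi.single k 1 : Fin n → F) i1 • s0
        = (Pi.single k 1 : Fin n → F) + ((Pi.single k 1 : Fin n → F) i3 • s2
          + (Pi.single k 1 : Fin n → F) i3 • s2) + ((Pi.single k 1 : Fin n → F) i1 • s0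
          + (Pi.single k 1 : Fin n → F) i1 • s0) := by abel
      _ = Pi.single k 1 := by rw [h5, h6, add_zero, add_zero]
  refine le_H1_of_involutions hGPl hsq a b0 haM hb0M ha2 hb2 ?_ ?_ (Pi.single i1 1)
    (ratV_single F₀ _ F₀.one_mem) (single_ne_zero_fin _) ?_ ?_ ?_
  · intro h
    have h1 := congrFun (congrFun h i0) i1
    rw [hb0, tvG_val, tv, Matrix.add_apply, Matrix.add_apply, Matrix.vecMulVec_apply, s0_0,
      Pi.single_eq_same, Matrix.one_apply_ne n01, Matrix.zero_apply, zero_add, mul_one,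
      add_zero] at h1
    exact one_ne_zero h1
  · intro z haz hGP
    have h3 : (a : Matrix (Fin n) (Fin n) F) *ᵥ s0 = s0 := by
      rw [hamv, s0_3, s0_1, zero_smul, zero_smul, add_zero, add_zero]
    have h1 : (a : Matrix (Fin n) (Fin n) F) *ᵥ ((z : Matrix (Fin n) (Fin n) F) *ᵥ s0) =
        (z : Matrix (Fin n) (Fin n) F) *ᵥ s0 := by
      rw [Matrix.mulVec_mulVec, ← Units.val_mul, haz, Units.val_mul, ← Matrix.mulVec_mulVec, h3]
    rw [hamv] at h1
    have h4 := congrFun h1 i0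
    simp only [Pi.add_apply, Pi.smul_apply, s2_0, s0_0, smul_eq_mul, mul_zero, mul_one,
      add_zero] at h4
    have h5 : ((z : Matrix (Fin n) (Fin n) F) *ᵥ s0) i1 = 0 := by
      linear_combination h4
    apply hGP s0 (Pi.single i1 1) (ratV_single F₀ _ F₀.one_mem) (ratV_single F₀ _ F₀.one_mem)
      (single_ne_zero_fin _) (single_ne_zero_fin _)
    rw [single_dotProduct, one_mul, h5]
  · intro w hw
    rw [hbmv] at hw
    have h4 := congrFun hw i0
    simp only [Pi.add_apply, Pi.smul_apply, s0_0, smul_eq_mul, mul_one] at h4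
    rw [single_dotProduct, one_mul]
    linear_combination h4
  · intro g hg
    have hmv : ∀ y : Fin n → F, (a : Matrix (Fin n) (Fin n) F) *ᵥ y =
        y + (((g⁻¹ : GL (Fin n) F) : Matrix (Fin n) (Fin n) F) *ᵥ y) i1 •
          ((g : Matrix (Fin n) (Fin n) F) *ᵥ s0) := by
      intro y
      rw [hg, Units.val_mul, Units.val_mul, ← Matrix.mulVec_mulVec, ← Matrix.mulVec_mulVec,
        hbmv, Matrix.mulVec_add, Matrix.mulVec_smul, gl_mulVec_inv]
    have e1 := hmv (Pi.single i1 1)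
    have e3 := hmv (Pi.single i3 1)
    rw [hamv] at e1 e3
    rw [Pi.single_eq_same, Pi.single_eq_of_ne (Ne.symm n13), zero_smul, add_zero, one_smul,
      add_right_inj] at e1
    rw [Pi.single_eq_same, Pi.single_eq_of_ne n13, zero_smul, add_zero, one_smul,
      add_right_inj] at e3
    have f1 := congrFun e1 i0
    have f2 := congrFun e1 i2
    have f3 := congrFun e3 i2
    rw [Pi.smul_apply, smul_eq_mul, s0_0] at f1
    rw [Pi.smul_apply, smul_eq_mul, s0_2] at f2
    rw [Pi.smul_apply, smul_eq_mul, s2_2] at f3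
    have hα : (((g⁻¹ : GL (Fin n) F) : Matrix (Fin n) (Fin n) F) *ᵥ Pi.single i1 1) i1 ≠ 0 := by
      intro h
      rw [h, zero_mul] at f1
      exact one_ne_zero f1
    have hw2 : ((g : Matrix (Fin n) (Fin n) F) *ᵥ s0) i2 = 0 := by
      rcases mul_eq_zero.mp f2.symm with h | h
      · exact absurd h hα
      · exact h
    rw [hw2, mul_zero] at f3
    exact one_ne_zero f3
  · intro m
    obtain ⟨x0, hx0, hsupp, h0, h1⟩ :=
      exists_x0 hn ((m⁻¹ : GL (Fin n) F) : Matrix (Fin n) (Fin n) F)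
    refine ⟨x0, hx0, ?_, ?_⟩
    · rw [hamv, hsupp i3 (by rw [hi3]; simp), hsupp i1 (by rw [hi1]; simp), zero_smul,
        zero_smul, add_zero, add_zero]
    · rw [hbmv]
      have h5 : (((m⁻¹ : GL (Fin n) F) : Matrix (Fin n) (Fin n) F) *ᵥ x0) i1 = 0 := h1
      rw [h5, zero_smul, add_zero]

/-- The subfield group (in standard position) is maximal in `SL_n`. -/
theorem subfield_max_aux (n : ℕ) (hn : 7 ≤ n) (F₀ : Subfield F) (r : ℕ) (hr : r.Prime)
    (hcard : Fintype.card F = Nat.card F₀ ^ r) :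
    Cfsg.Geo.IsMaximalIn (Cfsg.Geo.specialLinear (Fin n) F)
      (H1 (Fin n) F₀ ⊓ Cfsg.Geo.specialLinear (Fin n) F) := by
  classical
  have h3 : ∀ i j : Fin n, ∃ k, k ≠ i ∧ k ≠ j := fin_third (by omega)
  have : Nontrivial (Fin n) := Fin.nontrivial_iff_two_le.mpr (by omega)
  refine ⟨lt_of_le_of_ne inf_le_right ?_, fun M hHM hMK => ?_⟩
  · intro heq
    have hex : ∃ c : F, c ∉ F₀ := by
      by_contra hcon
      push Not at hcon
      have h1 : Nat.card F₀ = Fintype.card F := by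
        rw [← Nat.card_eq_fintype_card]
        exact Nat.card_congr (Equiv.subtypeUnivEquiv hcon)
      have h4 : 1 < Nat.card F₀ := by rw [h1]; exact Fintype.one_lt_card
      rw [← h1] at hcard
      have h5 : Nat.card F₀ ^ 1 = Nat.card F₀ ^ r := by rw [pow_one]; exact hcard
      have h6 := Nat.pow_right_injective h4 h5
      exact hr.one_lt.ne h6
    obtain ⟨c, hc⟩ := hex
    set i0 : Fin n := ⟨0, by omega⟩ with hi0
    set i1 : Fin n := ⟨1, by omega⟩ with hi1
    have n01 : i0 ≠ i1 := by rw [hi0, hi1]; simp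
    have h01 : (Pi.single i1 c : Fin n → F) ⬝ᵥ Pi.single i0 1 = 0 :=
      single_dot_single_ne n01 c 1
    have ht : tvG (Pi.single i0 1) (Pi.single i1 c) h01 ∈
        H1 (Fin n) F₀ ⊓ Cfsg.Geo.specialLinear (Fin n) F := by
      rw [heq]; exact tvG_mem_specialLinear _ _ h01
    obtain ⟨c', hc'0, A, hA, htA⟩ := exists_of_mem_H1 F₀ _ ht.1
    have e00 := congrFun (congrFun htA i0) i0
    have e01 := congrFun (congrFun htA i0) i1
    rw [tvG_val, tv, Matrix.add_apply, Matrix.vecMulVec_apply, Matrix.smul_apply,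
      Pi.single_eq_same, Pi.single_eq_of_ne n01, mul_zero, add_zero, Matrix.one_apply_eq,
      smul_eq_mul] at e00
    rw [tvG_val, tv, Matrix.add_apply, Matrix.vecMulVec_apply, Matrix.smul_apply,
      Pi.single_eq_same, Pi.single_eq_same, one_mul, Matrix.one_apply_ne n01, zero_add,
      smul_eq_mul] at e01
    have hc'mem : c' ∈ F₀ := by
      have h7 : c' = (A i0 i0)⁻¹ := eq_inv_of_mul_eq_one_left e00.symm
      rw [h7]; exact F₀.inv_mem (hA i0 i0)
    apply hc
    rw [e01]
    exact F₀.mul_mem hc'mem (hA i0 i1)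
  · rcases inW_dichotomy hHM h3 r hr hcard with hW | hall
    · left
      have hGPl : ∀ m ∈ M, ¬ GP F₀ m → m ∈ H1 (Fin n) F₀ :=
        fun m hm h => mem_H1_of_not_GP hHM h3 hW m hm h
      have hle : M ≤ H1 (Fin n) F₀ := by
        by_cases h2 : (2 : F) = 0
        · exact le_H1_two hn hHM hGPl (mem_of_sq_mem F₀ r hcard (Or.inl h2)) h2
        · rcases hr.eq_two_or_odd' with hr2 | hrodd
          · intro m hm
            by_contra hmH
            have hGP : GP F₀ m := by
              by_contra h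
              exact hmH (hGPl m hm h)
            have h5 := card_le_of_GP F₀ r hcard m hGP ⟨0, by omega⟩
            rw [Fintype.card_fin] at h5
            omega
          · exact le_H1_odd hn hHM hGPl (mem_of_sq_mem F₀ r hcard (Or.inr hrodd)) h2
      exact le_antisymm (fun m hm => ⟨hle hm, hMK hm⟩) hHM
    · right
      exact le_antisymm hMK (sl_le_of_inW hall)

omit [Fintype F] in
theorem isMaximalIn_map {G : Type*} [Group G] (φ : G ≃* G) {K H : Subgroup G}
    (h : Cfsg.Geo.IsMaximalIn K H) :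
    Cfsg.Geo.IsMaximalIn (K.map φ.toMonoidHom) (H.map φ.toMonoidHom) := by
  obtain ⟨hlt, hmax⟩ := h
  refine ⟨(Subgroup.map_lt_map_iff_of_injective φ.injective).mpr hlt, fun M hHM hMK => ?_⟩
  have h1 := hmax (M.comap φ.toMonoidHom) (Subgroup.map_le_iff_le_comap.mp hHM) (by
    intro x hx
    obtain ⟨y, hy, hyx⟩ := hMK hx
    have h2 : y = x := φ.injective hyx
    rwa [← h2])
  rcases h1 with h1 | h1
  · left; rw [← h1, Subgroup.map_comap_eq_self_of_surjective φ.surjective]
  · right; rw [← h1, Subgroup.map_comap_eq_self_of_surjective φ.surjective]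

omit [Fintype F] in
theorem sl_map_conj {ι : Type} [Fintype ι] [DecidableEq ι] (P : GL ι F) :
    (Cfsg.Geo.specialLinear ι F).map (MulAut.conj P).toMonoidHom =
      Cfsg.Geo.specialLinear ι F := by
  apply le_antisymm
  · rintro _ ⟨y, hy, rfl⟩
    rw [SetLike.mem_coe, mem_specialLinear_iff] at hy
    rw [mem_specialLinear_iff]
    show ((P * y * P⁻¹ : GL ι F) : Matrix ι ι F).det = 1
    rw [Units.val_mul, Units.val_mul, Matrix.det_mul, Matrix.det_mul, hy, mul_one,
      ← Matrix.det_mul, Units.mul_inv, Matrix.det_one]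
  · intro x hx
    rw [mem_specialLinear_iff] at hx
    refine ⟨P⁻¹ * x * P, ?_, ?_⟩
    · rw [SetLike.mem_coe, mem_specialLinear_iff, Units.val_mul, Units.val_mul, Matrix.det_mul,
        Matrix.det_mul, hx, mul_one, ← Matrix.det_mul, Units.inv_mul, Matrix.det_one]
    · show P * (P⁻¹ * x * P) * P⁻¹ = x
      group

/-- The subfield subgroup of `SL_n(F)` for a subfield of prime degree is maximal. -/
theorem subfield_isMaximalIn (n : ℕ) (hn : 7 ≤ n) (F₀ : Subfield F) (r : ℕ) (hr : r.Prime)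
    (hcard : Fintype.card F = Nat.card F₀ ^ r) (P : GL (Fin n) F) :
    Cfsg.Geo.IsMaximalIn (Cfsg.Geo.specialLinear (Fin n) F)
      (Cfsg.Geo.subfieldSubgroup F₀ P ⊓ Cfsg.Geo.specialLinear (Fin n) F) := by
  have h := isMaximalIn_map (MulAut.conj P) (subfield_max_aux n hn F₀ r hr hcard)
  rw [Subgroup.map_inf_eq _ _ _ (MulAut.conj P).injective, sl_map_conj] at h
  exact h

end SubfMain

end Cfsg.Agent.Lib.Helper50
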