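import Mathlib
import Cfsg.Agent.Lib.Helper96.SfArith

/-!
# S5982 project (helper96), piece UF-FROB (helper50): the involutory field automorphism
`x ↦ x ^ q₀` of a field with `q₀ ^ 2` elements.
-/

set_option autoImplicit false

namespace Cfsg.Agent.Lib.Helper50.Uf

-- PIECE FROB
theorem exists_frob {F : Type*} [Field F] [Fintype F] (p : ℕ) [Fact p.Prime] [CharP F p] (q₀ : ℕ)
    (hq : Fintype.card F = q₀ ^ 2) :
    ∃ σ : F →+* F, (∀ x, σ x = x ^ q₀) ∧ (∀ x, σ (σ x) = x) ∧ ∃ c, σ c ≠ c := by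
  classical
  obtain ⟨e, he⟩ := Cfsg.Agent.Lib.Helper96.Sf.exists_char_pow p two_ne_zero hq
  have hσ : ∀ x : F, iterateFrobenius F p e x = x ^ q₀ := by
    intro x
    rw [iterateFrobenius_def, he]
  have hcard : 2 ≤ Fintype.card F := Fintype.one_lt_card
  have hq2 : 2 ≤ q₀ := by
    by_contra hlt
    have h1 : q₀ ≤ 1 := by omega
    have h2 : q₀ ^ 2 ≤ 1 := by
      calc q₀ ^ 2 ≤ 1 ^ 2 := Nat.pow_le_pow_left h1 2
        _ = 1 := one_pow 2
    omega
  refine ⟨iterateFrobenius F p e, hσ, ?_, ?_⟩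
  · intro x
    rw [hσ, hσ, ← pow_mul, ← sq, ← hq, FiniteField.pow_card]
  · obtain ⟨g, hg⟩ := IsCyclic.exists_ofOrder_eq_natCard (α := Fˣ)
    rw [Nat.card_eq_fintype_card, Fintype.card_units, hq] at hg
    refine ⟨(g : F), ?_⟩
    rw [hσ]
    intro h
    have h1 : g ^ (q₀ - 1) = 1 := by
      apply Units.ext
      have h3 : (g : F) ^ (q₀ - 1) * (g : F) = (g : F) := by
        rw [← pow_succ, Nat.sub_add_cancel (by omega)]
        exact h
      have h4 : (g : F) ≠ 0 := g.ne_zero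
      have h5 : (g : F) ^ (q₀ - 1) = 1 := by
        have h6 : ((g : F) ^ (q₀ - 1) - 1) * (g : F) = 0 := by
          rw [sub_mul, h3, one_mul, sub_self]
        rcases mul_eq_zero.mp h6 with h7 | h7
        · exact sub_eq_zero.mp h7
        · exact absurd h7 h4
      simpa using h5
    have h2 : q₀ ^ 2 - 1 ∣ q₀ - 1 := by
      rw [← hg]
      exact orderOf_dvd_of_pow_eq_one h1
    have h3 : q₀ ^ 2 - 1 ≤ q₀ - 1 := Nat.le_of_dvd (by omega) h2
    have h4 : q₀ < q₀ ^ 2 := by nlinarith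
    omega

end Cfsg.Agent.Lib.Helper50.Uf
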