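import Mathlib
import Cfsg.Prelude.Def_GeometricClasses
import Cfsg.Prelude.Def_LieClassical
import Cfsg.Agent.Lib.Helper71.Asch0

/-!
# Project SUQ (helper50), piece TFS: from hermitian Gram matrices to unitary forms.
-/

set_option autoImplicit false

namespace Cfsg.Agent.Lib.Helper50.SUQTFS

open Matrix Cfsg.Geo Cfsg.Agent.Lib.Helper71.Asch
open scoped Kronecker

variable {n : ℕ} {F : Type*} [Field F] [Fintype F] {q : ℕ}

theorem suqtfs_q_pos (hF : Fintype.card F = q ^ 2) : 0 < q := by
  rcases Nat.eq_zero_or_pos q with h | h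
  · subst h
    have : 0 < Fintype.card F := Fintype.card_pos
    rw [hF] at this
    simp at this
  · exact h

theorem suqtfs_frob2 (hF : Fintype.card F = q ^ 2) (c : F) : (c ^ q) ^ q = c := by
  rw [← pow_mul, ← pow_two, ← hF]
  exact FiniteField.pow_card c

theorem suqtfs_add_pow (hF : Fintype.card F = q ^ 2) (a b : F) : (a + b) ^ q = a ^ q + b ^ q := by
  obtain ⟨p, hp⟩ := CharP.exists F
  obtain ⟨⟨m, hm⟩, hpp, hcard⟩ := FiniteField.card F p
  have hfact : Fact p.Prime := ⟨hpp⟩
  rw [hF] at hcard
  -- q ^ 2 = p ^ m, so q is a power of p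
  have hq : ∃ j, q = p ^ j := by
    have hdvd : q ∣ p ^ (m : ℕ) := by
      have h2 : q ^ 2 = p ^ m := hcard
      rw [← h2]
      exact dvd_pow_self q (by norm_num)
    obtain ⟨j, _, hj⟩ := (Nat.dvd_prime_pow hpp).1 hdvd
    exact ⟨j, hj⟩
  obtain ⟨j, rfl⟩ := hq
  exact add_pow_char_pow a b p j

theorem suqtfs_sum_pow (hF : Fintype.card F = q ^ 2) {ι : Type*} (s : Finset ι) (g : ι → F) :
    (∑ i ∈ s, g i) ^ q = ∑ i ∈ s, (g i) ^ q := by
  classical
  induction s using Finset.induction_on with
  | empty =>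
    simp [zero_pow (suqtfs_q_pos hF).ne']
  | insert a s ha ih =>
    rw [Finset.sum_insert ha, Finset.sum_insert ha, suqtfs_add_pow hF, ih]

theorem suqtfs_gram (hF : Fintype.card F = q ^ 2) {m : ℕ} (G : Matrix (Fin m) (Fin m) F) :
    gramMatrix (formOfGram (fun c : F => c ^ q) G) = G := by
  have hq := (suqtfs_q_pos hF).ne'
  ext a b
  simp [gramMatrix, formOfGram, Pi.single_apply, ite_mul, mul_ite, ite_pow, zero_pow hq]

theorem suqtfs_unitary (hF : Fintype.card F = q ^ 2) {m : ℕ} (G : Matrix (Fin m) (Fin m) F)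
    (h1 : G.det ≠ 0) (hh : ∀ a b, G a b = (G b a) ^ q) :
    IsUnitaryFormPow q (formOfGram (fun c : F => c ^ q) G) := by
  have hq := (suqtfs_q_pos hF).ne'
  refine ⟨?_, ?_, ?_, ?_⟩
  · intro x y v
    simp only [formOfGram, Pi.add_apply, add_mul, Finset.sum_add_distrib]
  · intro c x v
    simp only [formOfGram, Pi.smul_apply, smul_eq_mul, Finset.mul_sum, mul_assoc]
  · intro v w
    simp only [formOfGram]
    rw [suqtfs_sum_pow hF]
    rw [Finset.sum_comm]
    refine Finset.sum_congr rfl fun b _ => ?_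
    rw [suqtfs_sum_pow hF]
    refine Finset.sum_congr rfl fun a _ => ?_
    rw [mul_pow, mul_pow, suqtfs_frob2 hF, ← hh a b]
    ring
  · intro v hv
    have hGu : IsUnit G.det := isUnit_iff_ne_zero.2 h1
    constructor
    · -- some x with f x v ≠ 0
      by_contra hcon
      push Not at hcon
      have hz : G *ᵥ (fun b => (v b) ^ q) = 0 := by
        ext a
        have := hcon (Pi.single a 1)
        simp only [formOfGram, Pi.single_apply, ite_mul, one_mul, zero_mul] at this
        rw [Finset.sum_eq_single a] at this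
        · simp only [if_true] at this
          simpa [Matrix.mulVec, dotProduct] using this
        · intro b _ hb
          simp [hb]
        · intro h
          exact absurd (Finset.mem_univ a) h
      have hz2 : (fun b => (v b) ^ q) = 0 := by
        have := congrArg (fun w => G⁻¹ *ᵥ w) hz
        simp only [Matrix.mulVec_mulVec, Matrix.nonsing_inv_mul _ hGu, Matrix.one_mulVec,
          Matrix.mulVec_zero] at this
        exact this
      apply hv
      ext b
      have := congrFun hz2 b
      simp only [Pi.zero_apply] at this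
      exact pow_eq_zero_iff hq |>.1 this
    · by_contra hcon
      push Not at hcon
      have hz : v ᵥ* G = 0 := by
        ext b
        have := hcon (Pi.single b 1)
        simp only [formOfGram, Pi.single_apply, ite_pow, one_pow, zero_pow hq, mul_ite, mul_one,
          mul_zero] at this
        rw [Finset.sum_congr rfl (fun a _ => Finset.sum_eq_single b
          (fun b' _ hb' => by simp [hb']) (fun h => absurd (Finset.mem_univ b) h))] at this
        simp only [if_true] at this
        simpa [Matrix.vecMul, dotProduct] using this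
      have hz2 : v = 0 := by
        have := congrArg (fun w => w ᵥ* G⁻¹) hz
        simp only [Matrix.vecMul_vecMul, Matrix.mul_nonsing_inv _ hGu, Matrix.vecMul_one,
          Matrix.zero_vecMul] at this
        exact this
      exact hv hz2

/-- TFS: from hermitian Gram matrices to unitary forms: the tensor form structure of the
statements. -/
theorem TFS (hF : Fintype.card F = q ^ 2) {d k : ℕ} (e : Fin n ≃ Fin d × Fin k)
    (P : GL (Fin n) F) (G₁ : Matrix (Fin d) (Fin d) F) (G₂ : Matrix (Fin k) (Fin k) F)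
    (h1 : G₁.det ≠ 0) (h2 : G₂.det ≠ 0) (hh1 : ∀ a b, G₁ a b = (G₁ b a) ^ q)
    (hh2 : ∀ a b, G₂ a b = (G₂ b a) ^ q)
    (hid : ∀ x y : Fin d × Fin k → F,
      Cfsg.hermForm n F q (P.1 *ᵥ (x ∘ e)) (P.1 *ᵥ (y ∘ e)) =
        formOfGram (fun c : F => c ^ q) (G₁ ⊗ₖ G₂) x y) :
    ∃ (f₁ : (Fin d → F) → (Fin d → F) → F) (f₂ : (Fin k → F) → (Fin k → F) → F),
      IsUnitaryFormPow q f₁ ∧ IsUnitaryFormPow q f₂ ∧
      IsTensorFormStructure (fun x : F => x ^ q) (Cfsg.hermForm n F q) f₁ f₂ e P := by
  refine ⟨formOfGram (fun c : F => c ^ q) G₁, formOfGram (fun c : F => c ^ q) G₂,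
    suqtfs_unitary hF G₁ h1 hh1, suqtfs_unitary hF G₂ h2 hh2, 1, one_ne_zero, ?_⟩
  intro x y
  rw [suqtfs_gram hF, suqtfs_gram hF, one_mul]
  exact hid x y

end Cfsg.Agent.Lib.Helper50.SUQTFS
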