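import Mathlib
import Cfsg.Prelude.Def_RootSubgroups
import Cfsg.Agent.Lib.Helper87.SpRoot
import Cfsg.Agent.Lib.Helper87.SLTransv

/-!
# The transvection subgroups of `SL` as a class of abstract root subgroups (helper50)

`tL w χ c` is the element `1 + c • w χᵀ` of `SL ι F` (for `χ ⬝ᵥ w = 0`; `1` otherwise),
`TL w χ` the subgroup of all of them, `SigL ι F` the set of all `TL w χ` with `w, χ ≠ 0`,
`χ ⬝ᵥ w = 0`.  For two such groups `TL u φ`, `TL v ψ` with `α = φ ⬝ᵥ v`, `β = ψ ⬝ᵥ u`: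
they commute if `α = β = 0`, are in the commutator case if exactly one of `α, β` vanishes,
and form a rank one pair (an image of `SL₂`) if both are non-zero.
-/

set_option autoImplicit false
set_option linter.unusedSectionVars false

namespace Cfsg.Agent.Lib.Helper50

open Matrix

section AbsRing

variable {R : Type*} [Ring R]

theorem comm_identity {A B : R} (hA : A * A = 0) (hB : B * B = 0) (hBA : B * A = 0) :
    (1 + A) * (1 + B) * (1 - A) * (1 - B) = 1 + A * B := by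
  have e : (1 + A) * (1 + B) * (1 - A) * (1 - B) =
      1 + A * B - A * A - B * A - B * B + A * A * B + B * A * B - A * (B * A) - A * (B * B)
        + A * (B * A) * B := by noncomm_ring
  rw [e, hA, hBA, hB]
  simp only [zero_mul, mul_zero, sub_zero, add_zero]

end AbsRing

section Elements

variable {ι : Type} [Fintype ι] [DecidableEq ι] {F : Type*} [Field F]

theorem sl_ext {A B : Matrix.SpecialLinearGroup ι F} (h : (A : Matrix ι ι F) = (B : Matrix ι ι F)) :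
    A = B := Subtype.ext h

/-- The matrix `1 + c • w χᵀ` as an element of `SL`, given `χ ⬝ᵥ w = 0`. -/
def tL0 (w χ : ι → F) (c : F) (h : χ ⬝ᵥ w = 0) : Matrix.SpecialLinearGroup ι F :=
  ⟨1 + c • vecMulVec w χ, by
    rw [← Matrix.smul_vecMulVec]
    exact Cfsg.Agent.Lib.Helper97.tv_det (by rw [dotProduct_smul, h, smul_zero])⟩

open Classical in
/-- The transvection `1 + c • w χᵀ` as an element of `SL` (for `χ ⬝ᵥ w = 0`). -/
noncomputable def tL (w χ : ι → F) (c : F) : Matrix.SpecialLinearGroup ι F :=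
  if h : χ ⬝ᵥ w = 0 then tL0 w χ c h else 1

theorem tL_coe {w χ : ι → F} (h : χ ⬝ᵥ w = 0) (c : F) :
    (tL w χ c : Matrix ι ι F) = 1 + c • vecMulVec w χ := by
  rw [tL, dif_pos h]
  rfl

theorem tL_of_not {w χ : ι → F} (h : ¬ χ ⬝ᵥ w = 0) (c : F) : tL w χ c = 1 := by
  rw [tL, dif_neg h]

theorem vmv_sq {w χ : ι → F} (h : χ ⬝ᵥ w = 0) : vecMulVec w χ * vecMulVec w χ = 0 := by
  rw [vecMulVec_mul_vecMulVec, h, zero_smul, vecMulVec_zero]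

theorem tL_zero (w χ : ι → F) : tL w χ 0 = 1 := by
  by_cases h : χ ⬝ᵥ w = 0
  · apply sl_ext
    rw [tL_coe h, zero_smul, add_zero]
    rfl
  · exact tL_of_not h 0

theorem tL_mul (w χ : ι → F) (c d : F) : tL w χ c * tL w χ d = tL w χ (c + d) := by
  by_cases h : χ ⬝ᵥ w = 0
  · apply sl_ext
    rw [Matrix.SpecialLinearGroup.coe_mul, tL_coe h, tL_coe h, tL_coe h]
    have e : (1 + c • vecMulVec w χ) * (1 + d • vecMulVec w χ) =
        1 + (c + d) • vecMulVec w χ + (c * d) • (vecMulVec w χ * vecMulVec w χ) := by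
      simp only [add_mul, mul_add, one_mul, mul_one, Matrix.smul_mul, Matrix.mul_smul, smul_smul,
        add_smul]
      rw [mul_comm d c]
      abel
    rw [e, vmv_sq h, smul_zero, add_zero]
  · rw [tL_of_not h, tL_of_not h, tL_of_not h, mul_one]

theorem tL_inv (w χ : ι → F) (c : F) : (tL w χ c)⁻¹ = tL w χ (-c) := by
  apply inv_eq_of_mul_eq_one_right
  rw [tL_mul, add_neg_cancel, tL_zero]

theorem tL_mulVec {w χ : ι → F} (h : χ ⬝ᵥ w = 0) (c : F) (x : ι → F) :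
    (tL w χ c : Matrix ι ι F) *ᵥ x = x + (c * (χ ⬝ᵥ x)) • w := by
  rw [tL_coe h, add_mulVec, one_mulVec, smul_mulVec, vecMulVec_mulVec, op_smul_eq_smul, smul_smul]

theorem tL_vecMul {w χ : ι → F} (h : χ ⬝ᵥ w = 0) (c : F) (ρ : ι → F) :
    ρ ᵥ* (tL w χ c : Matrix ι ι F) = ρ + (c * (ρ ⬝ᵥ w)) • χ := by
  rw [tL_coe h, vecMul_add, vecMul_one, vecMul_smul, vecMul_vecMulVec, smul_smul]

theorem conj_dot {w χ : ι → F} (h : χ ⬝ᵥ w = 0) (g : Matrix.SpecialLinearGroup ι F) :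
    (χ ᵥ* (↑(g⁻¹) : Matrix ι ι F)) ⬝ᵥ ((g : Matrix ι ι F) *ᵥ w) = 0 := by
  rw [dotProduct_mulVec, vecMul_vecMul, Cfsg.Agent.Lib.Helper87.sl_inv_mul, vecMul_one]
  exact h

theorem tL_conj {w χ : ι → F} (h : χ ⬝ᵥ w = 0) (g : Matrix.SpecialLinearGroup ι F) (c : F) :
    g * tL w χ c * g⁻¹ = tL ((g : Matrix ι ι F) *ᵥ w) (χ ᵥ* (↑(g⁻¹) : Matrix ι ι F)) c := by
  apply sl_ext
  rw [Matrix.SpecialLinearGroup.coe_mul, Matrix.SpecialLinearGroup.coe_mul, tL_coe h, tL_coe (conj_dot h g),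
    mul_add, add_mul, mul_one, Cfsg.Agent.Lib.Helper87.sl_mul_inv, Matrix.mul_smul,
    Matrix.smul_mul, mul_vecMulVec, vecMulVec_mul]

theorem tL_smul_left {w χ : ι → F} (h : χ ⬝ᵥ w = 0) (a c : F) :
    tL (a • w) χ c = tL w χ (a * c) := by
  have h' : χ ⬝ᵥ (a • w) = 0 := by rw [dotProduct_smul, h, smul_zero]
  apply sl_ext
  rw [tL_coe h', tL_coe h, smul_vecMulVec, smul_smul, mul_comm]

theorem tL_smul_right {w χ : ι → F} (h : χ ⬝ᵥ w = 0) (a c : F) :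
    tL w (a • χ) c = tL w χ (a * c) := by
  have h' : (a • χ) ⬝ᵥ w = 0 := by rw [smul_dotProduct, h, smul_zero]
  apply sl_ext
  rw [tL_coe h', tL_coe h, vecMulVec_smul, smul_smul, mul_comm]

theorem tL_ne_one {w χ : ι → F} (hw : w ≠ 0) (hχ : χ ≠ 0) (h : χ ⬝ᵥ w = 0) {c : F}
    (hc : c ≠ 0) : tL w χ c ≠ 1 := by
  intro h1
  have h2 := congrArg (fun g : Matrix.SpecialLinearGroup ι F => (g : Matrix ι ι F)) h1
  simp only [tL_coe h, Matrix.SpecialLinearGroup.coe_one] at h2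
  have h3 : c • vecMulVec w χ = 0 := by
    have h4 : (1 : Matrix ι ι F) + c • vecMulVec w χ = 1 + 0 := by rw [add_zero]; exact h2
    exact add_left_cancel h4
  rcases smul_eq_zero.1 h3 with h4 | h4
  · exact hc h4
  · exact Matrix.vecMulVec_ne_zero hw hχ h4

theorem tL_comm {u φ v ψ : ι → F} (hφu : φ ⬝ᵥ u = 0) (hψv : ψ ⬝ᵥ v = 0) (hα : φ ⬝ᵥ v = 0)
    (hβ : ψ ⬝ᵥ u = 0) (c d : F) : tL u φ c * tL v ψ d = tL v ψ d * tL u φ c := by
  apply sl_ext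
  rw [Matrix.SpecialLinearGroup.coe_mul, Matrix.SpecialLinearGroup.coe_mul, tL_coe hφu, tL_coe hψv]
  have hAB : vecMulVec u φ * vecMulVec v ψ = 0 := by
    rw [vecMulVec_mul_vecMulVec, hα, zero_smul, vecMulVec_zero]
  have hBA : vecMulVec v ψ * vecMulVec u φ = 0 := by
    rw [vecMulVec_mul_vecMulVec, hβ, zero_smul, vecMulVec_zero]
  have e1 : (1 + c • vecMulVec u φ) * (1 + d • vecMulVec v ψ) =
      1 + c • vecMulVec u φ + d • vecMulVec v ψ + (c * d) • (vecMulVec u φ * vecMulVec v ψ) := by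
    simp only [add_mul, mul_add, one_mul, mul_one, Matrix.smul_mul, Matrix.mul_smul, smul_smul]
    rw [mul_comm d c]
    abel
  have e2 : (1 + d • vecMulVec v ψ) * (1 + c • vecMulVec u φ) =
      1 + c • vecMulVec u φ + d • vecMulVec v ψ + (d * c) • (vecMulVec v ψ * vecMulVec u φ) := by
    simp only [add_mul, mul_add, one_mul, mul_one, Matrix.smul_mul, Matrix.mul_smul, smul_smul]
    rw [mul_comm d c]
    abel
  rw [e1, e2, hAB, hBA, smul_zero, smul_zero]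

/-- The commutator of two transvections with `ψ ⬝ᵥ u = 0`. -/
theorem tL_commutator {u φ v ψ : ι → F} (hφu : φ ⬝ᵥ u = 0) (hψv : ψ ⬝ᵥ v = 0)
    (hβ : ψ ⬝ᵥ u = 0) (c d : F) :
    tL u φ c * tL v ψ d * (tL u φ c)⁻¹ * (tL v ψ d)⁻¹ = tL u ψ (c * d * (φ ⬝ᵥ v)) := by
  rw [tL_inv, tL_inv]
  apply sl_ext
  rw [Matrix.SpecialLinearGroup.coe_mul, Matrix.SpecialLinearGroup.coe_mul, Matrix.SpecialLinearGroup.coe_mul,
    tL_coe hφu, tL_coe hψv, tL_coe hφu, tL_coe hψv, tL_coe hβ]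
  have hA : (c • vecMulVec u φ) * (c • vecMulVec u φ) = 0 := by
    rw [Matrix.smul_mul, Matrix.mul_smul, vmv_sq hφu, smul_zero, smul_zero]
  have hB : (d • vecMulVec v ψ) * (d • vecMulVec v ψ) = 0 := by
    rw [Matrix.smul_mul, Matrix.mul_smul, vmv_sq hψv, smul_zero, smul_zero]
  have hBA : (d • vecMulVec v ψ) * (c • vecMulVec u φ) = 0 := by
    rw [Matrix.smul_mul, Matrix.mul_smul, vecMulVec_mul_vecMulVec, hβ, zero_smul, vecMulVec_zero,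
      smul_zero, smul_zero]
  have hAB : (c • vecMulVec u φ) * (d • vecMulVec v ψ) = (c * d * (φ ⬝ᵥ v)) • vecMulVec u ψ := by
    rw [Matrix.smul_mul, Matrix.mul_smul, vecMulVec_mul_vecMulVec, vecMulVec_smul, smul_smul,
      smul_smul]
  have e1 : (1 : Matrix ι ι F) + -c • vecMulVec u φ = 1 - c • vecMulVec u φ := by
    rw [neg_smul, sub_eq_add_neg]
  have e2 : (1 : Matrix ι ι F) + -d • vecMulVec v ψ = 1 - d • vecMulVec v ψ := by
    rw [neg_smul, sub_eq_add_neg]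
  rw [e1, e2, comm_identity hA hB hBA, hAB]

end Elements

section Subgroups

variable {ι : Type} [Fintype ι] [DecidableEq ι] {F : Type*} [Field F]

/-- The transvection subgroup `{1 + c • w χᵀ}`. -/
def TL (w χ : ι → F) : Subgroup (Matrix.SpecialLinearGroup ι F) where
  carrier := Set.range (tL w χ)
  one_mem' := ⟨0, tL_zero w χ⟩
  mul_mem' := by
    rintro _ _ ⟨c, rfl⟩ ⟨d, rfl⟩
    exact ⟨c + d, (tL_mul w χ c d).symm⟩
  inv_mem' := by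
    rintro _ ⟨c, rfl⟩
    exact ⟨-c, (tL_inv w χ c).symm⟩

theorem mem_TL (w χ : ι → F) (g : Matrix.SpecialLinearGroup ι F) :
    g ∈ TL w χ ↔ ∃ c, tL w χ c = g := Iff.rfl

theorem tL_mem_TL (w χ : ι → F) (c : F) : tL w χ c ∈ TL w χ := ⟨c, rfl⟩

theorem TL_smul_left {w χ : ι → F} (h : χ ⬝ᵥ w = 0) {a : F} (ha : a ≠ 0) :
    TL (a • w) χ = TL w χ := by
  ext g
  constructor
  · rintro ⟨c, rfl⟩
    exact ⟨a * c, (tL_smul_left h a c).symm⟩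
  · rintro ⟨c, rfl⟩
    refine ⟨a⁻¹ * c, ?_⟩
    rw [tL_smul_left h, ← mul_assoc, mul_inv_cancel₀ ha, one_mul]

theorem TL_smul_right {w χ : ι → F} (h : χ ⬝ᵥ w = 0) {a : F} (ha : a ≠ 0) :
    TL w (a • χ) = TL w χ := by
  ext g
  constructor
  · rintro ⟨c, rfl⟩
    exact ⟨a * c, (tL_smul_right h a c).symm⟩
  · rintro ⟨c, rfl⟩
    refine ⟨a⁻¹ * c, ?_⟩
    rw [tL_smul_right h, ← mul_assoc, mul_inv_cancel₀ ha, one_mul]

theorem TL_smul_smul {w χ : ι → F} (h : χ ⬝ᵥ w = 0) {a b : F} (ha : a ≠ 0) (hb : b ≠ 0) :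
    TL (a • w) (b • χ) = TL w χ := by
  have h1 : (b • χ) ⬝ᵥ w = 0 := by rw [smul_dotProduct, h, smul_zero]
  rw [TL_smul_left h1 ha, TL_smul_right h hb]

theorem conjBy_TL {w χ : ι → F} (h : χ ⬝ᵥ w = 0) (g : Matrix.SpecialLinearGroup ι F) :
    Cfsg.conjBy (TL w χ) g =
      TL ((g : Matrix ι ι F) *ᵥ w) (χ ᵥ* (↑(g⁻¹) : Matrix ι ι F)) := by
  ext x
  constructor
  · rintro ⟨_, ⟨c, rfl⟩, rfl⟩
    exact ⟨c, (tL_conj h g c).symm⟩
  · rintro ⟨c, rfl⟩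
    exact ⟨tL w χ c, tL_mem_TL w χ c, tL_conj h g c⟩

theorem TL_comm {u φ v ψ : ι → F} (hφu : φ ⬝ᵥ u = 0) (hψv : ψ ⬝ᵥ v = 0) (hα : φ ⬝ᵥ v = 0)
    (hβ : ψ ⬝ᵥ u = 0) {a b : Matrix.SpecialLinearGroup ι F} (ha : a ∈ TL u φ) (hb : b ∈ TL v ψ) :
    a * b = b * a := by
  obtain ⟨c, rfl⟩ := ha
  obtain ⟨d, rfl⟩ := hb
  exact tL_comm hφu hψv hα hβ c d

theorem TL_commutator_eq_bot {u φ v ψ : ι → F} (hφu : φ ⬝ᵥ u = 0) (hψv : ψ ⬝ᵥ v = 0)
    (hα : φ ⬝ᵥ v = 0) (hβ : ψ ⬝ᵥ u = 0) : ⁅TL u φ, TL v ψ⁆ = ⊥ := by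
  rw [Subgroup.commutator_eq_bot_iff_le_centralizer]
  intro a ha
  rw [Subgroup.mem_centralizer_iff]
  intro b hb
  exact (TL_comm hφu hψv hα hβ ha hb).symm

theorem TL_isMulCommutative (w χ : ι → F) : IsMulCommutative ↥(TL w χ) := by
  rw [isMulCommutative_iff]
  rintro ⟨_, ⟨c, rfl⟩⟩ ⟨_, ⟨d, rfl⟩⟩
  apply Subtype.ext
  show tL w χ c * tL w χ d = tL w χ d * tL w χ c
  rw [tL_mul, tL_mul, add_comm]

theorem TL_isNilpotent (w χ : ι → F) : Group.IsNilpotent ↥(TL w χ) := by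
  have h := TL_isMulCommutative w χ
  rw [isMulCommutative_iff] at h
  let _ : CommGroup ↥(TL w χ) := { (inferInstance : Group ↥(TL w χ)) with mul_comm := h }
  exact CommGroup.isNilpotent

theorem TL_ne_bot {w χ : ι → F} (hw : w ≠ 0) (hχ : χ ≠ 0) (h : χ ⬝ᵥ w = 0) : TL w χ ≠ ⊥ := by
  intro hb
  have h1 : tL w χ (1 : F) ∈ (⊥ : Subgroup (Matrix.SpecialLinearGroup ι F)) :=
    hb ▸ tL_mem_TL w χ 1
  exact tL_ne_one hw hχ h one_ne_zero (Subgroup.mem_bot.1 h1)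

theorem exists_of_mem_TL_ne_one {w χ : ι → F} {a : Matrix.SpecialLinearGroup ι F}
    (ha : a ∈ TL w χ) (h1 : a ≠ 1) : ∃ c : F, c ≠ 0 ∧ a = tL w χ c := by
  obtain ⟨c, rfl⟩ := ha
  refine ⟨c, ?_, rfl⟩
  rintro rfl
  exact h1 (tL_zero w χ)

theorem exists_dot_one {χ : ι → F} (hχ : χ ≠ 0) : ∃ x : ι → F, χ ⬝ᵥ x = 1 := by
  obtain ⟨x, -, hx⟩ := Cfsg.Agent.Lib.Helper97.exists_dot (⊥ : Submodule F (ι → F)) χ
    (by rw [Submodule.mem_bot]; exact hχ)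
  exact ⟨x, by rw [dotProduct_comm]; exact hx⟩

theorem centre_of_TL_le {w χ w' χ' : ι → F} (h : χ ⬝ᵥ w = 0) (h' : χ' ⬝ᵥ w' = 0) (hχ' : χ' ≠ 0)
    (hle : TL w' χ' ≤ TL w χ) : ∃ e : F, w' = e • w := by
  obtain ⟨c, hc⟩ := hle (tL_mem_TL w' χ' 1)
  obtain ⟨x, hx⟩ := exists_dot_one hχ'
  have h2 := congrArg (fun g : Matrix.SpecialLinearGroup ι F => (g : Matrix ι ι F) *ᵥ x) hc
  simp only [tL_mulVec h, tL_mulVec h', hx, mul_one, one_smul] at h2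
  exact ⟨c * (χ ⬝ᵥ x), (add_left_cancel h2).symm⟩

theorem axis_of_TL_le {w χ w' χ' : ι → F} (h : χ ⬝ᵥ w = 0) (h' : χ' ⬝ᵥ w' = 0) (hw' : w' ≠ 0)
    (hle : TL w' χ' ≤ TL w χ) : ∃ e : F, χ' = e • χ := by
  obtain ⟨c, hc⟩ := hle (tL_mem_TL w' χ' 1)
  obtain ⟨x, hx⟩ := exists_dot_one hw'
  rw [dotProduct_comm] at hx
  have h2 := congrArg (fun g : Matrix.SpecialLinearGroup ι F => x ᵥ* (g : Matrix ι ι F)) hc
  simp only [tL_vecMul h, tL_vecMul h', hx, mul_one, one_smul] at h2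
  exact ⟨c * (x ⬝ᵥ w), (add_left_cancel h2).symm⟩

theorem TL_ne {u φ v ψ : ι → F} (hφu : φ ⬝ᵥ u = 0) (hψv : ψ ⬝ᵥ v = 0) (hψ : ψ ≠ 0) (hv : v ≠ 0)
    (hβ : ψ ⬝ᵥ u ≠ 0) : TL u φ ≠ TL v ψ := by
  intro hEq
  obtain ⟨e, he⟩ := centre_of_TL_le hφu hψv hψ hEq.ge
  have h1 : ψ ⬝ᵥ v = e * (ψ ⬝ᵥ u) := by rw [he, dotProduct_smul, smul_eq_mul]
  rw [hψv] at h1
  rcases mul_eq_zero.1 h1.symm with h2 | h2
  · apply hv
    rw [he, h2, zero_smul]
  · exact hβ h2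

/-- The rank one condition for two transvection groups in general position. -/
theorem rankOneCondition_TL {u φ v ψ : ι → F} (hφu : φ ⬝ᵥ u = 0) (hψv : ψ ⬝ᵥ v = 0)
    (hv : v ≠ 0) (hψ : ψ ≠ 0) (hα : φ ⬝ᵥ v ≠ 0) (hβ : ψ ⬝ᵥ u ≠ 0) :
    Cfsg.RankOneCondition (TL u φ) (TL v ψ) := by
  intro a ha ha1
  obtain ⟨c, hc, rfl⟩ := exists_of_mem_TL_ne_one ha ha1
  have hd : (c * (φ ⬝ᵥ v) * (ψ ⬝ᵥ u))⁻¹ ≠ 0 := inv_ne_zero (mul_ne_zero (mul_ne_zero hc hα) hβ)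
  refine ⟨tL v ψ (c * (φ ⬝ᵥ v) * (ψ ⬝ᵥ u))⁻¹, tL_mem_TL _ _ _, tL_ne_one hv hψ hψv hd, ?_⟩
  have hbase : (ψ + (c * (ψ ⬝ᵥ u)) • φ) ⬝ᵥ (v + (-c * (φ ⬝ᵥ v)) • u) = 0 := by
    simp only [add_dotProduct, dotProduct_add, smul_dotProduct, dotProduct_smul, hφu, hψv,
      smul_eq_mul]
    ring
  have e1 : u + (-(c * (φ ⬝ᵥ v) * (ψ ⬝ᵥ u))⁻¹ * (ψ ⬝ᵥ u)) • v =
      (-(c * (φ ⬝ᵥ v))⁻¹) • (v + (-c * (φ ⬝ᵥ v)) • u) := by
    rw [smul_add, smul_smul, add_comm]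
    congr 1
    · congr 1
      field_simp
    · have : -(c * (φ ⬝ᵥ v))⁻¹ * (-c * (φ ⬝ᵥ v)) = 1 := by field_simp
      rw [this, one_smul]
  have e2 : φ + (- -(c * (φ ⬝ᵥ v) * (ψ ⬝ᵥ u))⁻¹ * (φ ⬝ᵥ v)) • ψ =
      (c * (ψ ⬝ᵥ u))⁻¹ • (ψ + (c * (ψ ⬝ᵥ u)) • φ) := by
    rw [smul_add, smul_smul, add_comm]
    congr 1
    · congr 1
      field_simp
    · have : (c * (ψ ⬝ᵥ u))⁻¹ * (c * (ψ ⬝ᵥ u)) = 1 := by field_simp
      rw [this, one_smul]
  rw [conjBy_TL hφu, conjBy_TL hψv, inv_inv, inv_inv, tL_inv, tL_inv, tL_mulVec hψv,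
    tL_vecMul hψv, tL_mulVec hφu, tL_vecMul hφu, e1]
  rw [show φ + ((c * (φ ⬝ᵥ v) * (ψ ⬝ᵥ u))⁻¹ * (φ ⬝ᵥ v)) • ψ =
      (c * (ψ ⬝ᵥ u))⁻¹ • (ψ + (c * (ψ ⬝ᵥ u)) • φ) from by rw [← e2, neg_neg]]
  exact TL_smul_smul hbase (neg_ne_zero.2 (inv_ne_zero (mul_ne_zero hc hα)))
    (inv_ne_zero (mul_ne_zero hc hβ))

end Subgroups

section RootSet

variable {ι : Type} [Fintype ι] [DecidableEq ι] {F : Type*} [Field F]

theorem isRankOnePair_TL {u φ v ψ : ι → F} (hu : u ≠ 0) (hφ : φ ≠ 0) (hv : v ≠ 0) (hψ : ψ ≠ 0)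
    (hφu : φ ⬝ᵥ u = 0) (hψv : ψ ⬝ᵥ v = 0) (hα : φ ⬝ᵥ v ≠ 0) (hβ : ψ ⬝ᵥ u ≠ 0) :
    Cfsg.IsRankOnePair (TL u φ) (TL v ψ) :=
  ⟨TL_ne hφu hψv hψ hv hβ, TL_isNilpotent u φ, TL_isNilpotent v ψ,
    rankOneCondition_TL hφu hψv hv hψ hα hβ, rankOneCondition_TL hψv hφu hu hφ hβ hα⟩

/-- The set of all transvection subgroups. -/
def SigL (ι : Type) [Fintype ι] [DecidableEq ι] (F : Type*) [Field F] :
    Set (Subgroup (Matrix.SpecialLinearGroup ι F)) :=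
  {A | ∃ w χ : ι → F, w ≠ 0 ∧ χ ≠ 0 ∧ χ ⬝ᵥ w = 0 ∧ A = TL w χ}

theorem rootCommCase_symm {G : Type*} [Group G] {S : Set (Subgroup G)} {A B : Subgroup G}
    (h : Cfsg.RootCommutatorCase S A B) : Cfsg.RootCommutatorCase S B A := by
  obtain ⟨h1, h2, h3, h4⟩ := h
  have hc : ⁅B, A⁆ = ⁅A, B⁆ := Subgroup.commutator_comm B A
  have key : ∀ (X : Subgroup G) (y : G),
      Subgroup.closure ((fun x : G => y * x * y⁻¹ * x⁻¹) '' (X : Set G)) =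
      Subgroup.closure ((fun x : G => x * y * x⁻¹ * y⁻¹) '' (X : Set G)) := by
    intro X y
    rw [← Subgroup.closure_inv]
    congr 1
    ext z
    rw [Set.mem_inv]
    constructor
    · rintro ⟨x, hx, hxz⟩
      refine ⟨x, hx, ?_⟩
      show x * y * x⁻¹ * y⁻¹ = z
      have : z = (y * x * y⁻¹ * x⁻¹)⁻¹ := by
        rw [show y * x * y⁻¹ * x⁻¹ = z⁻¹ from hxz, inv_inv]
      rw [this]
      group
    · rintro ⟨x, hx, hxz⟩
      refine ⟨x, hx, ?_⟩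
      show y * x * y⁻¹ * x⁻¹ = z⁻¹
      rw [← show x * y * x⁻¹ * y⁻¹ = z from hxz]
      group
  refine ⟨hc ▸ h1, ?_, ?_, ?_⟩
  · rw [hc, sup_comm]
    exact h2
  · intro b hb hb1
    rw [hc, ← h4 b hb hb1]
    exact key A b
  · intro a ha ha1
    rw [hc, ← h3 a ha ha1]
    exact (key B a).symm

theorem TL_commutator {u φ v ψ : ι → F} (hφu : φ ⬝ᵥ u = 0) (hψv : ψ ⬝ᵥ v = 0)
    (hα : φ ⬝ᵥ v ≠ 0) (hβ : ψ ⬝ᵥ u = 0) : ⁅TL u φ, TL v ψ⁆ = TL u ψ := by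
  apply le_antisymm
  · rw [Subgroup.commutator_le]
    rintro a ⟨c, rfl⟩ b ⟨d, rfl⟩
    rw [commutatorElement_def, tL_commutator hφu hψv hβ]
    exact tL_mem_TL _ _ _
  · rintro _ ⟨e, rfl⟩
    have h1 := Subgroup.commutator_mem_commutator (tL_mem_TL u φ 1)
      (tL_mem_TL v ψ (e / (φ ⬝ᵥ v)))
    rw [commutatorElement_def, tL_commutator hφu hψv hβ] at h1
    have h2 : 1 * (e / (φ ⬝ᵥ v)) * (φ ⬝ᵥ v) = e := by field_simp
    rw [h2] at h1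
    exact h1

/-- The commutator case: `φ ⬝ᵥ v ≠ 0`, `ψ ⬝ᵥ u = 0`. -/
theorem rootCommCase_TL {u φ v ψ : ι → F} (hu : u ≠ 0) (hψ : ψ ≠ 0)
    (hφu : φ ⬝ᵥ u = 0) (hψv : ψ ⬝ᵥ v = 0) (hα : φ ⬝ᵥ v ≠ 0) (hβ : ψ ⬝ᵥ u = 0) :
    Cfsg.RootCommutatorCase (SigL ι F) (TL u φ) (TL v ψ) := by
  have hcomm := TL_commutator hφu hψv hα hβ
  refine ⟨?_, ?_, ?_, ?_⟩
  · rw [hcomm]
    exact ⟨u, ψ, hu, hψ, hβ, rfl⟩
  · rw [hcomm]
    rintro _ ⟨e, rfl⟩ x hx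
    have hle : TL u φ ⊔ TL v ψ ≤ Subgroup.centralizer {tL u ψ e} := by
      apply sup_le
      · rintro _ ⟨c, rfl⟩
        rw [Subgroup.mem_centralizer_iff]
        intro y hy
        rw [Set.mem_singleton_iff] at hy
        rw [hy]
        exact tL_comm hβ hφu hβ hφu e c
      · rintro _ ⟨d, rfl⟩
        rw [Subgroup.mem_centralizer_iff]
        intro y hy
        rw [Set.mem_singleton_iff] at hy
        rw [hy]
        exact tL_comm hβ hψv hψv hβ e d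
    exact (Subgroup.mem_centralizer_iff.1 (hle hx)) _ (Set.mem_singleton _)
  · intro a ha ha1
    obtain ⟨c, hc, rfl⟩ := exists_of_mem_TL_ne_one ha ha1
    rw [hcomm]
    apply le_antisymm
    · rw [Subgroup.closure_le]
      rintro _ ⟨b, ⟨d, rfl⟩, rfl⟩
      show tL u φ c * tL v ψ d * (tL u φ c)⁻¹ * (tL v ψ d)⁻¹ ∈ TL u ψ
      rw [tL_commutator hφu hψv hβ]
      exact tL_mem_TL _ _ _
    · rintro _ ⟨e, rfl⟩
      apply Subgroup.subset_closure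
      refine ⟨tL v ψ (e / (c * (φ ⬝ᵥ v))), tL_mem_TL _ _ _, ?_⟩
      show tL u φ c * tL v ψ (e / (c * (φ ⬝ᵥ v))) * (tL u φ c)⁻¹ *
        (tL v ψ (e / (c * (φ ⬝ᵥ v))))⁻¹ = tL u ψ e
      rw [tL_commutator hφu hψv hβ]
      congr 1
      field_simp
  · intro b hb hb1
    obtain ⟨d, hd, rfl⟩ := exists_of_mem_TL_ne_one hb hb1
    rw [hcomm]
    apply le_antisymm
    · rw [Subgroup.closure_le]
      rintro _ ⟨a, ⟨c, rfl⟩, rfl⟩
      show tL u φ c * tL v ψ d * (tL u φ c)⁻¹ * (tL v ψ d)⁻¹ ∈ TL u ψ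
      rw [tL_commutator hφu hψv hβ]
      exact tL_mem_TL _ _ _
    · rintro _ ⟨e, rfl⟩
      apply Subgroup.subset_closure
      refine ⟨tL u φ (e / (d * (φ ⬝ᵥ v))), tL_mem_TL _ _ _, ?_⟩
      show tL u φ (e / (d * (φ ⬝ᵥ v))) * tL v ψ d * (tL u φ (e / (d * (φ ⬝ᵥ v))))⁻¹ *
        (tL v ψ d)⁻¹ = tL u ψ e
      rw [tL_commutator hφu hψv hβ]
      congr 1
      field_simp

theorem mulVec_ne_zero_sl (g : Matrix.SpecialLinearGroup ι F) {w : ι → F} (hw : w ≠ 0) :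
    (g : Matrix ι ι F) *ᵥ w ≠ 0 := by
  intro h
  apply hw
  have h1 := congrArg (fun z => (↑(g⁻¹) : Matrix ι ι F) *ᵥ z) h
  simp only [Matrix.mulVec_mulVec, Cfsg.Agent.Lib.Helper87.sl_inv_mul, Matrix.one_mulVec,
    Matrix.mulVec_zero] at h1
  exact h1

theorem vecMul_ne_zero_sl (g : Matrix.SpecialLinearGroup ι F) {χ : ι → F} (hχ : χ ≠ 0) :
    χ ᵥ* (↑(g⁻¹) : Matrix ι ι F) ≠ 0 := by
  intro h
  apply hχ
  have h1 := congrArg (fun z => z ᵥ* (↑g : Matrix ι ι F)) h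
  simp only [Matrix.vecMul_vecMul, Cfsg.Agent.Lib.Helper87.sl_inv_mul, Matrix.vecMul_one,
    Matrix.zero_vecMul] at h1
  exact h1

theorem iSup_sigL [Nontrivial ι] : (⨆ A ∈ SigL ι F, A) = ⊤ := by
  rw [eq_top_iff, ← Cfsg.Agent.Lib.Helper87.closure_tvSet, Subgroup.closure_le]
  rintro t ⟨w, χ, hw, hχ, hχw, ht⟩
  have ht' : t = tL w χ 1 := by
    apply sl_ext
    rw [ht, tL_coe hχw, one_smul]
  have h1 : TL w χ ≤ ⨆ A ∈ SigL ι F, A :=
    le_iSup₂ (f := fun (A : Subgroup (Matrix.SpecialLinearGroup ι F)) (_ : A ∈ SigL ι F) => A)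
      (TL w χ) ⟨w, χ, hw, hχ, hχw, rfl⟩
  exact h1 (ht' ▸ tL_mem_TL w χ 1)

theorem isRootSubgroupSet_sigL [Nontrivial ι] : Cfsg.IsRootSubgroupSet (SigL ι F) := by
  refine ⟨?_, ?_, iSup_sigL, ?_, ?_⟩
  · rintro A ⟨w, χ, hw, hχ, h, rfl⟩
    exact TL_isMulCommutative w χ
  · rintro A ⟨w, χ, hw, hχ, h, rfl⟩
    exact TL_ne_bot hw hχ h
  · rintro A ⟨w, χ, hw, hχ, h, rfl⟩ g
    exact ⟨_, _, mulVec_ne_zero_sl g hw, vecMul_ne_zero_sl g hχ, conj_dot h g, conjBy_TL h g⟩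
  · rintro A ⟨u, φ, hu, hφ, hφu, rfl⟩ B ⟨v, ψ, hv, hψ, hψv, rfl⟩
    by_cases hα : φ ⬝ᵥ v = 0
    · by_cases hβ : ψ ⬝ᵥ u = 0
      · exact Or.inl (TL_commutator_eq_bot hφu hψv hα hβ)
      · exact Or.inr (Or.inr (rootCommCase_symm (rootCommCase_TL hv hφ hψv hφu hβ hα)))
    · by_cases hβ : ψ ⬝ᵥ u = 0
      · exact Or.inr (Or.inr (rootCommCase_TL hu hψ hφu hψv hα hβ))
      · exact Or.inr (Or.inl (isRankOnePair_TL hu hφ hv hψ hφu hψv hα hβ))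

/-- A rank one pair of transvection groups is in general position. -/
theorem general_of_rankOnePair {u φ v ψ : ι → F} (hu : u ≠ 0) (hφ : φ ≠ 0) (hv : v ≠ 0)
    (hψ : ψ ≠ 0) (hφu : φ ⬝ᵥ u = 0) (hψv : ψ ⬝ᵥ v = 0)
    (hpair : Cfsg.IsRankOnePair (TL u φ) (TL v ψ)) : φ ⬝ᵥ v ≠ 0 ∧ ψ ⬝ᵥ u ≠ 0 := by
  obtain ⟨b, hb, hb1, hconj⟩ := hpair.cond_left (tL u φ 1) (tL_mem_TL u φ 1)
    (tL_ne_one hu hφ hφu one_ne_zero)
  obtain ⟨d, rfl⟩ := hb
  rw [conjBy_TL hφu, conjBy_TL hψv, inv_inv, inv_inv, tL_inv, tL_inv, tL_mulVec hψv,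
    tL_vecMul hψv, tL_mulVec hφu, tL_vecMul hφu] at hconj
  by_cases hα : φ ⬝ᵥ v = 0
  · by_cases hβ : ψ ⬝ᵥ u = 0
    · exfalso
      rw [hα, hβ] at hconj
      simp only [mul_zero, zero_smul, add_zero] at hconj
      exact hpair.ne hconj
    · exfalso
      rw [hα] at hconj
      simp only [mul_zero, zero_smul, add_zero] at hconj
      have h1 : φ ⬝ᵥ (u + (-d * (ψ ⬝ᵥ u)) • v) = 0 := by
        rw [dotProduct_add, dotProduct_smul, hφu, hα, smul_zero, add_zero]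
      have h2 : (ψ + (1 * (ψ ⬝ᵥ u)) • φ) ⬝ᵥ v = 0 := by
        rw [add_dotProduct, smul_dotProduct, hψv, hα, smul_zero, add_zero]
      obtain ⟨e, he⟩ := axis_of_TL_le h1 h2 hv hconj.ge
      have h3 := congrArg (fun ρ : ι → F => ρ ⬝ᵥ u) he
      simp only [add_dotProduct, smul_dotProduct, hφu, smul_zero, add_zero] at h3
      exact hβ h3
  · by_cases hβ : ψ ⬝ᵥ u = 0
    · exfalso
      rw [hβ] at hconj
      simp only [mul_zero, zero_smul, add_zero] at hconj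
      have h1 : (φ + (d * (φ ⬝ᵥ v)) • ψ) ⬝ᵥ u = 0 := by
        rw [add_dotProduct, smul_dotProduct, hφu, hβ, smul_zero, add_zero]
      have h2 : ψ ⬝ᵥ (v + (-1 * (φ ⬝ᵥ v)) • u) = 0 := by
        rw [dotProduct_add, dotProduct_smul, hψv, hβ, smul_zero, add_zero]
      obtain ⟨e, he⟩ := centre_of_TL_le h1 h2 hψ hconj.ge
      have h3 := congrArg (fun x : ι → F => φ ⬝ᵥ x) he
      simp only [dotProduct_add, dotProduct_smul, hφu, smul_zero, add_zero] at h3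
      exact hα h3
    · exact ⟨hα, hβ⟩

end RootSet

section Embed

variable {ι : Type} [Fintype ι] [DecidableEq ι] {F : Type*} [Field F]

open Cfsg.Agent.Lib.Helper87 (embM embM_one embM_mul embM_eq_one mul_single_mul_apply fin2_01
  fin2_10 upper_eq_range lower_eq_range upper_sup_lower)

theorem embM_det (P : Matrix ι (Fin 2) F) (Q : Matrix (Fin 2) ι F) (h : Q * P = 1)
    (M : Matrix (Fin 2) (Fin 2) F) : (embM P Q M).det = M.det := by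
  rw [embM, Matrix.mul_assoc, Matrix.det_one_add_mul_comm, Matrix.mul_assoc, h, Matrix.mul_one,
    add_sub_cancel]

/-- The matrix with columns `u`, `v`. -/
def embPL (u v : ι → F) : Matrix ι (Fin 2) F := (Matrix.of ![u, v])ᵀ

/-- The matrix with rows `ψ`, `φ`. -/
def embQL (ψ φ : ι → F) : Matrix (Fin 2) ι F := Matrix.of ![ψ, φ]

theorem embQL_mul_embPL {u φ v ψ : ι → F} (hψu : ψ ⬝ᵥ u = 1) (hψv : ψ ⬝ᵥ v = 0)
    (hφu : φ ⬝ᵥ u = 0) (hφv : φ ⬝ᵥ v = 1) : embQL ψ φ * embPL u v = 1 := by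
  ext i j
  have e : (embQL ψ φ * embPL u v) i j = (embQL ψ φ i) ⬝ᵥ (fun a => embPL u v a j) := rfl
  rw [e]
  fin_cases i <;> fin_cases j
  · show ψ ⬝ᵥ u = 1
    exact hψu
  · show ψ ⬝ᵥ v = 0
    exact hψv
  · show φ ⬝ᵥ u = 0
    exact hφu
  · show φ ⬝ᵥ v = 1
    exact hφv

/-- The embedded matrix as an element of `SL`. -/
def embSL (P : Matrix ι (Fin 2) F) (Q : Matrix (Fin 2) ι F) (h : Q * P = 1)
    (M : Matrix.SpecialLinearGroup (Fin 2) F) : Matrix.SpecialLinearGroup ι F :=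
  ⟨embM P Q (M : Matrix (Fin 2) (Fin 2) F), by rw [embM_det P Q h]; exact M.2⟩

theorem embSL_coe (P : Matrix ι (Fin 2) F) (Q : Matrix (Fin 2) ι F) (h : Q * P = 1)
    (M : Matrix.SpecialLinearGroup (Fin 2) F) :
    (embSL P Q h M : Matrix ι ι F) = embM P Q (M : Matrix (Fin 2) (Fin 2) F) := rfl

/-- The homomorphism `SL₂(F) → SL` attached to `P`, `Q` with `Q P = 1`. -/
noncomputable def slEmb (P : Matrix ι (Fin 2) F) (Q : Matrix (Fin 2) ι F) (h : Q * P = 1) :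
    Matrix.SpecialLinearGroup (Fin 2) F →* Matrix.SpecialLinearGroup ι F :=
  MonoidHom.mk' (embSL P Q h) (fun M₁ M₂ => sl_ext (by
    rw [Matrix.SpecialLinearGroup.coe_mul, embSL_coe, embSL_coe, embSL_coe,
      Matrix.SpecialLinearGroup.coe_mul, embM_mul _ _ h]))

theorem slEmb_apply (P : Matrix ι (Fin 2) F) (Q : Matrix (Fin 2) ι F) (h : Q * P = 1)
    (M : Matrix.SpecialLinearGroup (Fin 2) F) : slEmb P Q h M = embSL P Q h M := rfl

theorem slEmb_ker (P : Matrix ι (Fin 2) F) (Q : Matrix (Fin 2) ι F) (h : Q * P = 1) :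
    (slEmb P Q h).ker = ⊥ := by
  rw [eq_bot_iff]
  intro M hM
  rw [Subgroup.mem_bot]
  have h1 : (slEmb P Q h M : Matrix ι ι F) = 1 := by
    rw [MonoidHom.mem_ker.1 hM]
    rfl
  rw [slEmb_apply, embSL_coe] at h1
  exact sl_ext (embM_eq_one _ _ h h1)

theorem embM_transv01 {u φ : ι → F} (v ψ : ι → F) (hφu : φ ⬝ᵥ u = 0) (x : F) :
    embM (embPL u v) (embQL ψ φ)
      (Matrix.SpecialLinearGroup.transvection fin2_01 x : Matrix (Fin 2) (Fin 2) F) =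
      (tL u φ x : Matrix ι ι F) := by
  rw [embM, Matrix.SpecialLinearGroup.transvection_coe, add_sub_cancel_left, tL_coe hφu]
  ext a b
  rw [Matrix.add_apply, Matrix.add_apply, mul_single_mul_apply, Matrix.smul_apply,
    vecMulVec_apply]
  show (1 : Matrix ι ι F) a b + u a * x * φ b = (1 : Matrix ι ι F) a b + x • (u a * φ b)
  rw [smul_eq_mul]
  ring

theorem embM_transv10 {v ψ : ι → F} (u φ : ι → F) (hψv : ψ ⬝ᵥ v = 0) (y : F) :
    embM (embPL u v) (embQL ψ φ)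
      (Matrix.SpecialLinearGroup.transvection fin2_10 y : Matrix (Fin 2) (Fin 2) F) =
      (tL v ψ y : Matrix ι ι F) := by
  rw [embM, Matrix.SpecialLinearGroup.transvection_coe, add_sub_cancel_left, tL_coe hψv]
  ext a b
  rw [Matrix.add_apply, Matrix.add_apply, mul_single_mul_apply, Matrix.smul_apply,
    vecMulVec_apply]
  show (1 : Matrix ι ι F) a b + v a * y * ψ b = (1 : Matrix ι ι F) a b + y • (v a * ψ b)
  rw [smul_eq_mul]
  ring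

theorem isPSL2Pair_TL {u φ v ψ : ι → F} (hφu : φ ⬝ᵥ u = 0) (hψv : ψ ⬝ᵥ v = 0)
    (hφv : φ ⬝ᵥ v = 1) (hψu : ψ ⬝ᵥ u = 1) : Cfsg.IsPSL2PairOver F (TL u φ) (TL v ψ) := by
  have hQP := embQL_mul_embPL hψu hψv hφu hφv
  have h01 : ∀ x : F, slEmb (embPL u v) (embQL ψ φ) hQP
      (Matrix.SpecialLinearGroup.transvection fin2_01 x) = tL u φ x :=
    fun x => sl_ext (embM_transv01 v ψ hφu x)
  have h10 : ∀ y : F, slEmb (embPL u v) (embQL ψ φ) hQP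
      (Matrix.SpecialLinearGroup.transvection fin2_10 y) = tL v ψ y :=
    fun y => sl_ext (embM_transv10 u φ hψv y)
  have hup : (Cfsg.upperUnipotentSL2 F).map (slEmb (embPL u v) (embQL ψ φ) hQP) = TL u φ := by
    show (Subgroup.closure _).map (slEmb (embPL u v) (embQL ψ φ) hQP) = TL u φ
    rw [upper_eq_range, MonoidHom.map_closure]
    apply le_antisymm
    · rw [Subgroup.closure_le]
      rintro _ ⟨_, ⟨x, rfl⟩, rfl⟩
      exact ⟨x, (h01 x).symm⟩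
    · rintro _ ⟨c, rfl⟩
      apply Subgroup.subset_closure
      exact ⟨_, ⟨c, rfl⟩, h01 c⟩
  have hlow : (Cfsg.lowerUnipotentSL2 F).map (slEmb (embPL u v) (embQL ψ φ) hQP) = TL v ψ := by
    show (Subgroup.closure _).map (slEmb (embPL u v) (embQL ψ φ) hQP) = TL v ψ
    rw [lower_eq_range, MonoidHom.map_closure]
    apply le_antisymm
    · rw [Subgroup.closure_le]
      rintro _ ⟨_, ⟨x, rfl⟩, rfl⟩
      exact ⟨x, (h10 x).symm⟩
    · rintro _ ⟨c, rfl⟩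
      apply Subgroup.subset_closure
      exact ⟨_, ⟨c, rfl⟩, h10 c⟩
  refine ⟨slEmb (embPL u v) (embQL ψ φ) hQP, ?_, ?_, hup, hlow⟩
  · rw [MonoidHom.range_eq_map, ← upper_sup_lower F, Subgroup.map_sup, hup, hlow]
  · rw [slEmb_ker]
    exact bot_le

theorem isKRoot_sigL [Nontrivial ι] : Cfsg.IsKRootSubgroupSet F (SigL ι F) := by
  refine ⟨isRootSubgroupSet_sigL, ?_⟩
  rintro A ⟨u, φ, hu, hφ, hφu, rfl⟩ B ⟨v, ψ, hv, hψ, hψv, rfl⟩ hpair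
  obtain ⟨hα, hβ⟩ := general_of_rankOnePair hu hφ hv hψ hφu hψv hpair
  have h1 : φ ⬝ᵥ ((φ ⬝ᵥ v)⁻¹ • v) = 1 := by
    rw [dotProduct_smul, smul_eq_mul, inv_mul_cancel₀ hα]
  have h2 : ((ψ ⬝ᵥ u)⁻¹ • ψ) ⬝ᵥ u = 1 := by
    rw [smul_dotProduct, smul_eq_mul, inv_mul_cancel₀ hβ]
  have h3 : ((ψ ⬝ᵥ u)⁻¹ • ψ) ⬝ᵥ ((φ ⬝ᵥ v)⁻¹ • v) = 0 := by
    rw [smul_dotProduct, dotProduct_smul, hψv, smul_zero, smul_zero]
  have h4 := isPSL2Pair_TL hφu h3 h1 h2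
  rw [TL_smul_smul hψv (inv_ne_zero hα) (inv_ne_zero hβ)] at h4
  exact h4

end Embed

section Connected

variable {ι : Type} [Fintype ι] [DecidableEq ι] {F : Type*} [Field F]

theorem exists_mid {u φ v ψ : ι → F} (hu : u ≠ 0) (hφ : φ ≠ 0) (hv : v ≠ 0) (hψ : ψ ≠ 0)
    (hφu : φ ⬝ᵥ u = 0) (hψv : ψ ⬝ᵥ v = 0) :
    ∃ x χ : ι → F, x ≠ 0 ∧ χ ≠ 0 ∧ χ ⬝ᵥ x = 0 ∧ φ ⬝ᵥ x ≠ 0 ∧ χ ⬝ᵥ u ≠ 0 ∧ ψ ⬝ᵥ x ≠ 0 ∧
      χ ⬝ᵥ v ≠ 0 := by
  obtain ⟨x₁, h1⟩ := exists_dot_one hφ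
  obtain ⟨x₂, h2⟩ := exists_dot_one hψ
  have hx : ∃ x : ι → F, φ ⬝ᵥ x ≠ 0 ∧ ψ ⬝ᵥ x ≠ 0 := by
    by_cases h3 : ψ ⬝ᵥ x₁ = 0
    · by_cases h4 : φ ⬝ᵥ x₂ = 0
      · refine ⟨x₁ + x₂, ?_, ?_⟩
        · rw [dotProduct_add, h1, h4, add_zero]
          exact one_ne_zero
        · rw [dotProduct_add, h3, h2, zero_add]
          exact one_ne_zero
      · exact ⟨x₂, h4, by rw [h2]; exact one_ne_zero⟩
    · exact ⟨x₁, by rw [h1]; exact one_ne_zero, h3⟩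
  obtain ⟨x, hφx, hψx⟩ := hx
  have hux : u ∉ Submodule.span F ({x} : Set (ι → F)) := by
    intro hmem
    obtain ⟨e, he⟩ := Submodule.mem_span_singleton.1 hmem
    have h5 : φ ⬝ᵥ u = e * (φ ⬝ᵥ x) := by rw [← he, dotProduct_smul, smul_eq_mul]
    rw [hφu] at h5
    rcases mul_eq_zero.1 h5.symm with h6 | h6
    · apply hu
      rw [← he, h6, zero_smul]
    · exact hφx h6
  have hvx : v ∉ Submodule.span F ({x} : Set (ι → F)) := by
    intro hmem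
    obtain ⟨e, he⟩ := Submodule.mem_span_singleton.1 hmem
    have h5 : ψ ⬝ᵥ v = e * (ψ ⬝ᵥ x) := by rw [← he, dotProduct_smul, smul_eq_mul]
    rw [hψv] at h5
    rcases mul_eq_zero.1 h5.symm with h6 | h6
    · apply hv
      rw [← he, h6, zero_smul]
    · exact hψx h6
  obtain ⟨χ₁, hχ₁P, hχ₁u⟩ := Cfsg.Agent.Lib.Helper97.exists_dot _ u hux
  obtain ⟨χ₂, hχ₂P, hχ₂v⟩ := Cfsg.Agent.Lib.Helper97.exists_dot _ v hvx
  have hχ₁x : χ₁ ⬝ᵥ x = 0 := hχ₁P x (Submodule.mem_span_singleton_self x)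
  have hχ₂x : χ₂ ⬝ᵥ x = 0 := hχ₂P x (Submodule.mem_span_singleton_self x)
  have hx0 : x ≠ 0 := by
    rintro rfl
    exact hφx (dotProduct_zero φ)
  have hχ : ∃ χ : ι → F, χ ⬝ᵥ x = 0 ∧ χ ⬝ᵥ u ≠ 0 ∧ χ ⬝ᵥ v ≠ 0 := by
    by_cases h3 : χ₁ ⬝ᵥ v = 0
    · by_cases h4 : χ₂ ⬝ᵥ u = 0
      · refine ⟨χ₁ + χ₂, ?_, ?_, ?_⟩
        · rw [add_dotProduct, hχ₁x, hχ₂x, add_zero]
        · rw [add_dotProduct, hχ₁u, h4, add_zero]
          exact one_ne_zero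
        · rw [add_dotProduct, h3, hχ₂v, zero_add]
          exact one_ne_zero
      · exact ⟨χ₂, hχ₂x, h4, by rw [hχ₂v]; exact one_ne_zero⟩
    · exact ⟨χ₁, hχ₁x, by rw [hχ₁u]; exact one_ne_zero, h3⟩
  obtain ⟨χ, hχx, hχu, hχv⟩ := hχ
  have hχ0 : χ ≠ 0 := by
    rintro rfl
    exact hχu (zero_dotProduct u)
  exact ⟨x, χ, hx0, hχ0, hχx, hφx, hχu, hψx, hχv⟩

theorem isConnected_sigL : Cfsg.IsConnectedFamily (Cfsg.FAdj (SigL ι F)) (SigL ι F) := by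
  rintro A ⟨u, φ, hu, hφ, hφu, rfl⟩ B ⟨v, ψ, hv, hψ, hψv, rfl⟩
  obtain ⟨x, χ, hx, hχ, hχx, h1, h2, h3, h4⟩ := exists_mid hu hφ hv hψ hφu hψv
  exact Relation.ReflTransGen.tail
    (Relation.ReflTransGen.single ⟨⟨u, φ, hu, hφ, hφu, rfl⟩, ⟨x, χ, hx, hχ, hχx, rfl⟩,
      isRankOnePair_TL hu hφ hx hχ hφu hχx h1 h2⟩)
    ⟨⟨x, χ, hx, hχ, hχx, rfl⟩, ⟨v, ψ, hv, hψ, hψv, rfl⟩,
      isRankOnePair_TL hx hχ hv hψ hχx hψv h4 h3⟩

end Connected

section Statement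

variable {ι : Type} [Fintype ι] [DecidableEq ι] {F : Type*} [Field F]

theorem sgl_ne_zero (i : ι) : (Pi.single i (1 : F) : ι → F) ≠ 0 := by
  intro h
  have h1 := congrFun h i
  rw [Pi.single_eq_same] at h1
  exact one_ne_zero h1

theorem sgl_dot_ne {i j : ι} (h : i ≠ j) :
    (Pi.single i (1 : F) : ι → F) ⬝ᵥ Pi.single j 1 = 0 := by
  rw [single_dotProduct, one_mul, Pi.single_eq_of_ne h]

theorem sgl_dot_same (i : ι) : (Pi.single i (1 : F) : ι → F) ⬝ᵥ Pi.single i 1 = 1 := by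
  rw [single_dotProduct, one_mul, Pi.single_eq_same]

theorem isNondegenerate_sigL {i j k : ι} (hij : i ≠ j) (hik : i ≠ k) (hjk : j ≠ k) :
    Cfsg.IsNondegenerateRootSet (SigL ι F) := by
  have hji : (Pi.single j (1 : F) : ι → F) ⬝ᵥ Pi.single i 1 = 0 := sgl_dot_ne hij.symm
  have hki : (Pi.single k (1 : F) : ι → F) ⬝ᵥ Pi.single i 1 = 0 := sgl_dot_ne hik.symm
  have hkj : (Pi.single k (1 : F) : ι → F) ⬝ᵥ Pi.single j 1 = 0 := sgl_dot_ne hjk.symm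
  have hij' : (Pi.single i (1 : F) : ι → F) ⬝ᵥ Pi.single j 1 = 0 := sgl_dot_ne hij
  refine ⟨?_, ?_, ?_⟩
  · refine ⟨TL (Pi.single i 1) (Pi.single j 1), ⟨_, _, sgl_ne_zero i, sgl_ne_zero j, hji, rfl⟩,
      TL (Pi.single i 1) (Pi.single k 1), ⟨_, _, sgl_ne_zero i, sgl_ne_zero k, hki, rfl⟩, ?_,
      TL_commutator_eq_bot hji hki hji hki⟩
    intro hEq
    obtain ⟨e, he⟩ := axis_of_TL_le hji hki (sgl_ne_zero i) hEq.ge
    have h1 := congrFun he k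
    rw [Pi.single_eq_same, Pi.smul_apply, Pi.single_eq_of_ne hjk.symm, smul_zero] at h1
    exact one_ne_zero h1
  · refine ⟨TL (Pi.single i 1) (Pi.single j 1), ⟨_, _, sgl_ne_zero i, sgl_ne_zero j, hji, rfl⟩,
      TL (Pi.single j 1) (Pi.single i 1), ⟨_, _, sgl_ne_zero j, sgl_ne_zero i, hij', rfl⟩, ?_⟩
    apply isRankOnePair_TL (sgl_ne_zero i) (sgl_ne_zero j) (sgl_ne_zero j) (sgl_ne_zero i) hji hij'
    · rw [sgl_dot_same]
      exact one_ne_zero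
    · rw [sgl_dot_same]
      exact one_ne_zero
  · refine ⟨TL (Pi.single i 1) (Pi.single j 1), ⟨_, _, sgl_ne_zero i, sgl_ne_zero j, hji, rfl⟩,
      TL (Pi.single j 1) (Pi.single k 1), ⟨_, _, sgl_ne_zero j, sgl_ne_zero k, hkj, rfl⟩, ?_⟩
    apply rootCommCase_TL (sgl_ne_zero i) (sgl_ne_zero k) hji hkj
    · rw [sgl_dot_same]
      exact one_ne_zero
    · exact hki

theorem single_eq_smul_vmv (i j : ι) (c : F) :
    Matrix.single i j c = c • vecMulVec (Pi.single i (1 : F)) (Pi.single j (1 : F)) := by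
  rw [Cfsg.Agent.Lib.Helper87.single_eq_vecMulVec, ← Matrix.smul_vecMulVec]
  congr 1
  ext a
  rw [Pi.smul_apply, Pi.single_apply, Pi.single_apply, smul_eq_mul]
  split_ifs <;> simp

theorem TL_std_eq_closure {i j : ι} (hij : i ≠ j) :
    Subgroup.closure {t : Matrix.SpecialLinearGroup ι F |
      ∃ c : F, (t : Matrix ι ι F) = Matrix.transvection i j c} =
      TL (Pi.single i 1) (Pi.single j 1) := by
  have hd : (Pi.single j (1 : F) : ι → F) ⬝ᵥ Pi.single i 1 = 0 := sgl_dot_ne hij.symm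
  have h : {t : Matrix.SpecialLinearGroup ι F |
      ∃ c : F, (t : Matrix ι ι F) = Matrix.transvection i j c} =
      (TL (Pi.single i (1 : F)) (Pi.single j (1 : F)) : Set (Matrix.SpecialLinearGroup ι F)) := by
    ext t
    constructor
    · rintro ⟨c, hc⟩
      refine ⟨c, sl_ext ?_⟩
      rw [tL_coe hd, hc, Matrix.transvection, single_eq_smul_vmv]
    · rintro ⟨c, rfl⟩
      refine ⟨c, ?_⟩
      rw [tL_coe hd, Matrix.transvection, single_eq_smul_vmv]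
  rw [h, Subgroup.closure_eq]

theorem conjBy_conjBy {G : Type*} [Group G] (A : Subgroup G) (g h : G) :
    Cfsg.conjBy (Cfsg.conjBy A g) h = Cfsg.conjBy A (h * g) := by
  show (A.map (MulAut.conj g).toMonoidHom).map (MulAut.conj h).toMonoidHom =
    A.map (MulAut.conj (h * g)).toMonoidHom
  rw [Subgroup.map_map]
  congr 1
  ext x
  simp [mul_assoc]

theorem sigL_eq_conj {i j k : ι} (hij : i ≠ j) (hik : i ≠ k) (hjk : j ≠ k) :
    {A : Subgroup (Matrix.SpecialLinearGroup ι F) | ∃ g : Matrix.SpecialLinearGroup ι F,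
      A = Cfsg.conjBy (TL (Pi.single i (1 : F)) (Pi.single j (1 : F))) g} = SigL ι F := by
  have hd : (Pi.single j (1 : F) : ι → F) ⬝ᵥ Pi.single i 1 = 0 := sgl_dot_ne hij.symm
  ext A
  constructor
  · rintro ⟨g, rfl⟩
    exact ⟨_, _, mulVec_ne_zero_sl g (sgl_ne_zero i), vecMul_ne_zero_sl g (sgl_ne_zero j),
      conj_dot hd g, conjBy_TL hd g⟩
  · rintro ⟨w, χ, hw, hχ, h, rfl⟩
    obtain ⟨g₁, hg₁⟩ := Cfsg.Agent.Lib.Helper87.exists_sl_single hij hw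
    have hχ' : χ ᵥ* (g₁ : Matrix ι ι F) ≠ 0 := by
      have := vecMul_ne_zero_sl g₁⁻¹ hχ
      rwa [inv_inv] at this
    have hχ'i : (χ ᵥ* (g₁ : Matrix ι ι F)) ⬝ᵥ Pi.single i 1 = 0 := by
      rw [← Matrix.dotProduct_mulVec, hg₁]
      exact h
    obtain ⟨g₂, hg₂, hg₂'⟩ :=
      Cfsg.Agent.Lib.Helper87.exists_sl_single_dual hij hik hjk hχ' hχ'i
    refine ⟨g₁ * g₂, ?_⟩
    have e1 : ((g₁ * g₂ : Matrix.SpecialLinearGroup ι F) : Matrix ι ι F) *ᵥ Pi.single i 1 = w := by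
      rw [Matrix.SpecialLinearGroup.coe_mul, ← Matrix.mulVec_mulVec, hg₂, hg₁]
    have hχ2 : χ ᵥ* ((g₁ * g₂ : Matrix.SpecialLinearGroup ι F) : Matrix ι ι F) =
        Pi.single j 1 := by
      rw [Matrix.SpecialLinearGroup.coe_mul, ← Matrix.vecMul_vecMul, hg₂']
    have e2 : (Pi.single j (1 : F) : ι → F) ᵥ*
        (↑((g₁ * g₂)⁻¹ : Matrix.SpecialLinearGroup ι F) : Matrix ι ι F) = χ := by
      rw [← hχ2, Matrix.vecMul_vecMul, Cfsg.Agent.Lib.Helper87.sl_mul_inv, Matrix.vecMul_one]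
    rw [conjBy_TL hd, e1, e2]

theorem isConjClass_sigL {i j k : ι} (hij : i ≠ j) (hik : i ≠ k) (hjk : j ≠ k) :
    Cfsg.IsConjClassOfSubgroups (SigL ι F) := by
  have hd : (Pi.single j (1 : F) : ι → F) ⬝ᵥ Pi.single i 1 = 0 := sgl_dot_ne hij.symm
  refine ⟨⟨TL (Pi.single i 1) (Pi.single j 1), _, _, sgl_ne_zero i, sgl_ne_zero j, hd, rfl⟩, ?_⟩
  intro A hA B hB
  rw [← sigL_eq_conj hij hik hjk] at hA hB
  obtain ⟨g₁, rfl⟩ := hA
  obtain ⟨g₂, rfl⟩ := hB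
  refine ⟨g₂ * g₁⁻¹, ?_⟩
  rw [conjBy_conjBy, inv_mul_cancel_right]

/-- S5043: the transvection subgroups of `SL_{n+3}(k)`. -/
theorem sl_root_statement (k : Type*) [Field k] (n : ℕ) :
    Cfsg.IsRootSubgroupClass {A : Subgroup (Matrix.SpecialLinearGroup (Fin (n + 3)) k) |
        ∃ g : Matrix.SpecialLinearGroup (Fin (n + 3)) k,
          A = Cfsg.conjBy (Subgroup.closure {t : Matrix.SpecialLinearGroup (Fin (n + 3)) k |
            ∃ c : k, (t : Matrix (Fin (n + 3)) (Fin (n + 3)) k) = Matrix.transvection 0 1 c}) g} ∧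
    Cfsg.IsNondegenerateRootSet {A : Subgroup (Matrix.SpecialLinearGroup (Fin (n + 3)) k) |
        ∃ g : Matrix.SpecialLinearGroup (Fin (n + 3)) k,
          A = Cfsg.conjBy (Subgroup.closure {t : Matrix.SpecialLinearGroup (Fin (n + 3)) k |
            ∃ c : k, (t : Matrix (Fin (n + 3)) (Fin (n + 3)) k) = Matrix.transvection 0 1 c}) g} ∧
    Cfsg.IsKRootSubgroupSet k {A : Subgroup (Matrix.SpecialLinearGroup (Fin (n + 3)) k) |
        ∃ g : Matrix.SpecialLinearGroup (Fin (n + 3)) k,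
          A = Cfsg.conjBy (Subgroup.closure {t : Matrix.SpecialLinearGroup (Fin (n + 3)) k |
            ∃ c : k, (t : Matrix (Fin (n + 3)) (Fin (n + 3)) k) = Matrix.transvection 0 1 c}) g} ∧
    Cfsg.IsConnectedFamily (Cfsg.FAdj {A : Subgroup (Matrix.SpecialLinearGroup (Fin (n + 3)) k) |
        ∃ g : Matrix.SpecialLinearGroup (Fin (n + 3)) k,
          A = Cfsg.conjBy (Subgroup.closure {t : Matrix.SpecialLinearGroup (Fin (n + 3)) k |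
            ∃ c : k, (t : Matrix (Fin (n + 3)) (Fin (n + 3)) k) = Matrix.transvection 0 1 c}) g})
      {A : Subgroup (Matrix.SpecialLinearGroup (Fin (n + 3)) k) |
        ∃ g : Matrix.SpecialLinearGroup (Fin (n + 3)) k,
          A = Cfsg.conjBy (Subgroup.closure {t : Matrix.SpecialLinearGroup (Fin (n + 3)) k |
            ∃ c : k, (t : Matrix (Fin (n + 3)) (Fin (n + 3)) k) = Matrix.transvection 0 1 c}) g} := by
  have h01 : (0 : Fin (n + 3)) ≠ 1 := by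
    intro h
    have := congrArg Fin.val h
    simp at this
  have h02 : (0 : Fin (n + 3)) ≠ 2 := by
    intro h
    have := congrArg Fin.val h
    simp at this
    rw [Nat.mod_eq_of_lt (by omega)] at this
    omega
  have h12 : (1 : Fin (n + 3)) ≠ 2 := by
    intro h
    have := congrArg Fin.val h
    simp at this
    rw [Nat.mod_eq_of_lt (by omega)] at this
    omega
  have : Nontrivial (Fin (n + 3)) := ⟨⟨0, 1, h01⟩⟩
  have hset : {A : Subgroup (Matrix.SpecialLinearGroup (Fin (n + 3)) k) |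
        ∃ g : Matrix.SpecialLinearGroup (Fin (n + 3)) k,
          A = Cfsg.conjBy (Subgroup.closure {t : Matrix.SpecialLinearGroup (Fin (n + 3)) k |
            ∃ c : k, (t : Matrix (Fin (n + 3)) (Fin (n + 3)) k) = Matrix.transvection 0 1 c}) g} =
      SigL (Fin (n + 3)) k := by
    rw [TL_std_eq_closure h01]
    exact sigL_eq_conj h01 h02 h12
  rw [hset]
  exact ⟨⟨isRootSubgroupSet_sigL, isConjClass_sigL h01 h02 h12⟩, isNondegenerate_sigL h01 h02 h12,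
    isKRoot_sigL, isConnected_sigL⟩

end Statement

end Cfsg.Agent.Lib.Helper50
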