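import Mathlib
import Cfsg.Prelude.Def_GeometricClasses
import Cfsg.Prelude.Def_LieClassical
import Cfsg.Agent.Lib.Helper71.Asch0
import Cfsg.Agent.Lib.Helper71.Asch5
import Cfsg.Agent.Lib.Helper82.ASCOREB
import Cfsg.Agent.Lib.Helper21.ASCOREC
import Cfsg.Agent.Lib.Helper46.ASB3s
import Cfsg.Agent.Lib.Helper46.ASB4
import Cfsg.Agent.Lib.Helper61.ASB6
import Cfsg.Agent.Lib.Helper67.ASNL
import Cfsg.Agent.Lib.Helper46.ASB7core
import Cfsg.Agent.Lib.Helper73.SLPC2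
import Cfsg.Agent.Lib.Helper16.SLPC3
import Cfsg.Agent.Lib.Helper1.SUPU3
import Cfsg.Agent.Lib.Helper21.SUPU1
import Cfsg.Agent.Lib.Helper19.SUPU7
import Cfsg.Agent.Lib.Helper89.SUPU8a
import Cfsg.Agent.Lib.Helper46.SUPU8b
import Cfsg.Agent.Lib.Helper39.SUPNU1
import Cfsg.Agent.Lib.Helper39.SUPNU2
import Cfsg.Agent.Lib.Helper28.SUPNU3
import Cfsg.Agent.Lib.Helper79.SUPNU5
import Cfsg.Agent.Lib.Helper86.SPPCAP
import Cfsg.Agent.Lib.Helper83.SPPHOMP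
import Cfsg.Agent.Lib.Helper10.SPPUNIQ
import Cfsg.Agent.Lib.Helper63.SPPSY
import Cfsg.Agent.Lib.Helper28.SPPB8D
import Cfsg.Agent.Lib.Helper88.SUQPERP
import Cfsg.Agent.Lib.Helper93.SUQPAIRa
import Cfsg.Agent.Lib.Helper61.SUQPAIRb
import Cfsg.Agent.Lib.Helper39.SUQPLN
import Cfsg.Agent.Lib.Helper19.SUQQ2
import Cfsg.Agent.Lib.Helper68.SUQADJ
import Cfsg.Agent.Lib.Helper31.SUQFLD2
import Cfsg.Agent.Lib.Helper60.SUQTF
import Cfsg.Agent.Lib.Helper66.SUQTFSW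
import Cfsg.Agent.Lib.Helper50.SUQTFS
import Cfsg.Agent.Lib.Helper90.SUQT2
import Cfsg.Agent.Lib.Helper2.SUQU8E
import Cfsg.Agent.Lib.Helper34.SUQNU2Q
import Cfsg.Agent.Lib.Helper3.SUQNU4Q

/-! Project SUQ (helper50): the maximal subgroups of `SU_{2p}(q)`, `p` an odd prime
(statement S5841 = su10).  Assembly of the landed pieces.
Adapted from helper71's SPP (Sp_{2p}) and SUP (SU_p) skeletons. -/

set_option autoImplicit false

namespace Cfsg.Agent.Lib.Helper50.SUQMain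

open Matrix Cfsg.Geo Cfsg.Agent.Lib.Helper71.Asch
open scoped Kronecker
open Cfsg.Agent.Lib.Helper82.ASCOREB (coreB)
open Cfsg.Agent.Lib.Helper21.ASCOREC (coreC)
open Cfsg.Agent.Lib.Helper46.ASB3s (B3s B3a)
open Cfsg.Agent.Lib.Helper46.ASB4 (not_le_scalars)
open Cfsg.Agent.Lib.Helper61.ASB6 (B6)
open Cfsg.Agent.Lib.Helper67.ASNL (NL_core exists_subfield_aut)
open Cfsg.Agent.Lib.Helper46.ASB7core (B7core)
open Cfsg.Agent.Lib.Helper73.SLPC2 (C2)
open Cfsg.Agent.Lib.Helper16.SLPC3 (C3)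
open Cfsg.Agent.Lib.Helper1.SUPU3 (U3_even)
open Cfsg.Agent.Lib.Helper21.SUPU1 (U1)
open Cfsg.Agent.Lib.Helper19.SUPU7 (U7)
open Cfsg.Agent.Lib.Helper89.SUPU8a (U8a)
open Cfsg.Agent.Lib.Helper46.SUPU8b (U8b)
open Cfsg.Agent.Lib.Helper39.SUPNU1 (NU1)
open Cfsg.Agent.Lib.Helper39.SUPNU2 (NU2)
open Cfsg.Agent.Lib.Helper28.SUPNU3 (NU3)
open Cfsg.Agent.Lib.Helper79.SUPNU5 (NU5)
open Cfsg.Agent.Lib.Helper86.SPPCAP (CAP)
open Cfsg.Agent.Lib.Helper83.SPPHOMP (HOMP)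
open Cfsg.Agent.Lib.Helper10.SPPUNIQ (UNIQ)
open Cfsg.Agent.Lib.Helper63.SPPSY (SY)
open Cfsg.Agent.Lib.Helper28.SPPB8D (B8D)

open Cfsg.Agent.Lib.Helper88.SUQPERP (PERP)
open Cfsg.Agent.Lib.Helper93.SUQPAIRa (PAIRa)
open Cfsg.Agent.Lib.Helper61.SUQPAIRb (PAIRb)
open Cfsg.Agent.Lib.Helper39.SUQPLN (PLN)
open Cfsg.Agent.Lib.Helper19.SUQQ2 (Q2)
open Cfsg.Agent.Lib.Helper68.SUQADJ (ADJ)
open Cfsg.Agent.Lib.Helper31.SUQFLD2 (FLD2)
open Cfsg.Agent.Lib.Helper60.SUQTF (TF)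
open Cfsg.Agent.Lib.Helper66.SUQTFSW (TFSW)
open Cfsg.Agent.Lib.Helper50.SUQTFS (TFS)
open Cfsg.Agent.Lib.Helper90.SUQT2 (T2)
open Cfsg.Agent.Lib.Helper2.SUQU8E (U8E)
open Cfsg.Agent.Lib.Helper34.SUQNU2Q (NU2Q)
open Cfsg.Agent.Lib.Helper3.SUQNU4Q (NU4Q)

variable {n : ℕ} {F : Type*} [Field F] [Fintype F] {q : ℕ}

/-! ## Assembly (helper50, after helper71's genS / genU) -/

/-- `IsMaximalIn K H`, `H ≤ M`, `¬ K ≤ M` give `H = M ⊓ K`. -/
theorem eq_inf_of_max {K H M : Subgroup (GL (Fin n) F)} (hH : IsMaximalIn K H) (hHM : H ≤ M)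
    (hM : ¬ K ≤ M) : H = M ⊓ K := by
  rcases hH.2 (M ⊓ K) (le_inf hHM hH.1.le) inf_le_right with h | h
  · exact h.symm
  · exact absurd (h ▸ inf_le_left) hM

/-- The hermitian form does not vanish identically. -/
theorem not_ts_top (hn : 1 ≤ n) :
    ¬ IsTotallySingularFor (Cfsg.hermForm n F q) (⊤ : Submodule F (Fin n → F)) := by
  intro h
  have h1 := h (Pi.single (⟨0, by omega⟩ : Fin n) 1) Submodule.mem_top
    (Pi.single (⟨0, by omega⟩ : Fin n) 1) Submodule.mem_top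
  unfold Cfsg.hermForm at h1
  rw [Finset.sum_eq_single (⟨0, by omega⟩ : Fin n)] at h1
  · simp at h1
  · intro b _ hb
    simp [hb]
  · simp

/-- a minimal non-scalar normal subgroup of an irreducible group -/
theorem exists_minNS (hn : 2 ≤ n) (H : Subgroup (GL (Fin n) F))
    (hH : ActsIrreducibly (matrixSet H)) : ∃ L, IsMinNS H L := by
  have hHns := not_le_scalars hn H hH
  set 𝒮 : Set (Subgroup (GL (Fin n) F)) :=
    {L | L ≤ H ∧ Nrm H L ∧ ¬ L ≤ scalars (Fin n) F} with h𝒮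
  have hne : 𝒮.Nonempty := by
    refine ⟨H, le_rfl, ?_, hHns⟩
    intro h hh x hx
    exact H.mul_mem (H.mul_mem hh hx) (H.inv_mem hh)
  have hwf : WellFounded ((· < ·) : Subgroup (GL (Fin n) F) → Subgroup (GL (Fin n) F) → Prop) :=
    wellFounded_lt
  obtain ⟨L, hL, hmin⟩ := hwf.has_min 𝒮 hne
  refine ⟨L, hL.1, hL.2.1, hL.2.2, ?_⟩
  intro L' hL' hN'
  by_cases hs : L' ≤ scalars (Fin n) F
  · exact Or.inl hs
  · right
    have hmem : L' ∈ 𝒮 := ⟨hL'.trans hL.1, hN', hs⟩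
    rcases lt_or_eq_of_le hL' with h | h
    · exact absurd h (hmin L' hmem)
    · exact h

/-- the factorisations of `2p` -/
theorem tm_cases {p t m : ℕ} (hp : p.Prime) (h : t * m = 2 * p) (ht : 2 ≤ t) :
    (p = t ∧ 2 = m) ∨ (2 * p = t ∧ 1 = m) ∨ (2 = t ∧ p = m) := by
  have hpp := hp.pos
  have hdvd : p ∣ t * m := ⟨2, by rw [h]; ring⟩
  rcases (Nat.Prime.dvd_mul hp).1 hdvd with ⟨a, rfl⟩ | ⟨b, rfl⟩
  · have h2 : a * m = 2 := by
      have : p * (a * m) = p * 2 := by rw [← mul_assoc, h]; ring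
      exact Nat.eq_of_mul_eq_mul_left hpp this
    have ha : a ∣ 2 := ⟨m, h2.symm⟩
    have ha2 : a ≤ 2 := Nat.le_of_dvd (by norm_num) ha
    interval_cases a
    · omega
    · left; constructor <;> omega
    · right; left; constructor <;> omega
  · have h2 : t * b = 2 := by
      have : p * (t * b) = p * 2 := by
        rw [show p * (t * b) = t * (p * b) by ring, h]; ring
      exact Nat.eq_of_mul_eq_mul_left hpp this
    have htd : t ∣ 2 := ⟨b, h2.symm⟩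
    have ht2 : t ≤ 2 := Nat.le_of_dvd (by norm_num) htd
    have ht' : t = 2 := by omega
    subst ht'
    right; right; constructor <;> omega

/-- `2p` is not a proper power -/
theorem not_pow {p m k : ℕ} (hp : p.Prime) (hp2 : p ≠ 2) (hk : 2 ≤ k) (h : 2 * p = m ^ k) :
    False := by
  have h2 : 2 ∣ m ^ k := ⟨p, h.symm⟩
  have h2m : 2 ∣ m := Nat.Prime.dvd_of_dvd_pow Nat.prime_two h2
  obtain ⟨a, rfl⟩ := h2m
  obtain ⟨j, rfl⟩ : ∃ j, k = 2 + j := ⟨k - 2, by omega⟩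
  have h4 : 4 ∣ 2 * p := by
    rw [h, pow_add]
    exact Dvd.dvd.mul_right ⟨a ^ 2, by ring⟩ _
  have h2p : 2 ∣ p := by omega
  exact hp2 ((Nat.prime_dvd_prime_iff_eq Nat.prime_two hp).1 h2p).symm

/-- The normal form of a subgroup of `GU_n(q)`, `n = 2p`. -/
def GenUQ (p q : ℕ) (H : Subgroup (GL (Fin n) F)) : Prop :=
  (∃ W : Submodule F (Fin n → F), W ≠ ⊥ ∧ IsTotallySingularFor (Cfsg.hermForm n F q) W ∧
    H ≤ subspaceStabilizer W) ∨
  (∃ W : Submodule F (Fin n → F), W ≠ ⊥ ∧ IsNondegenerateOn (Cfsg.hermForm n F q) W ∧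
    2 * Module.finrank F W < n ∧ H ≤ subspaceStabilizer W) ∨
  (∃ D : Fin n → Submodule F (Fin n → F),
    IsNondegenerateMDecomposition (Cfsg.hermForm n F q) 1 D ∧ H ≤ decompositionStabilizer D) ∨
  (3 ≤ q ∧ ∃ D : Fin p → Submodule F (Fin n → F),
    IsNondegenerateMDecomposition (Cfsg.hermForm n F q) 2 D ∧ H ≤ decompositionStabilizer D) ∨
  (∃ D : Fin 2 → Submodule F (Fin n → F),
    IsNondegenerateMDecomposition (Cfsg.hermForm n F q) p D ∧ H ≤ decompositionStabilizer D) ∨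
  (∃ D : Fin 2 → Submodule F (Fin n → F), IsMDecomposition p D ∧
    (∀ i, IsTotallySingularFor (Cfsg.hermForm n F q) (D i)) ∧ H ≤ decompositionStabilizer D) ∨
  (∃ K : Subalgebra F (Matrix (Fin n) (Fin n) F), IsFieldSubalgebra p K ∧
    IsAdjointClosedFor (Cfsg.hermForm n F q) K ∧ H ≤ subalgebraNormalizer K) ∨
  (3 ≤ q ∧ ∃ (e : Fin n ≃ Fin 2 × Fin p) (P : GL (Fin n) F)
    (f₁ : (Fin 2 → F) → (Fin 2 → F) → F) (f₂ : (Fin p → F) → (Fin p → F) → F),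
    IsUnitaryFormPow q f₁ ∧ IsUnitaryFormPow q f₂ ∧
    IsTensorFormStructure (fun x : F => x ^ q) (Cfsg.hermForm n F q) f₁ f₂ e P ∧
    H ≤ tensorProductSubgroup 2 p e P) ∨
  (∃ (F₀ : Subfield F) (r : ℕ) (P : GL (Fin n) F), r.Prime ∧ Odd r ∧
    Fintype.card F = Nat.card F₀ ^ r ∧ IsFormRationalStructure (Cfsg.hermForm n F q) F₀ 1 P ∧
    H ≤ subfieldSubgroup F₀ P) ∨
  (∃ (F₀ : Subfield F) (P : GL (Fin n) F) (ζ : F), Fintype.card F = Nat.card F₀ ^ 2 ∧ ζ ≠ 0 ∧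
    ζ + ζ ^ q = 0 ∧ IsFormRationalStructure (Cfsg.hermForm n F q) F₀ ζ P ∧
    (∀ u : Fin n → F, (∀ i, u i ∈ F₀) →
      (Cfsg.hermForm n F q) (Matrix.mulVec (P : Matrix (Fin n) (Fin n) F) u)
        (Matrix.mulVec (P : Matrix (Fin n) (Fin n) F) u) = 0) ∧
    H ≤ subfieldSubgroup F₀ P) ∨
  (Odd q ∧ ∃ (F₀ : Subfield F) (P : GL (Fin n) F), Fintype.card F = Nat.card F₀ ^ 2 ∧
    IsFormRationalStructure (Cfsg.hermForm n F q) F₀ 1 P ∧ H ≤ subfieldSubgroup F₀ P) ∨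
  InUnitaryResidualClass H

/-- GENUQ: the structure of a subgroup of `GU_{2p}(q)`, `p` an odd prime. -/
theorem genUQ (hF : Fintype.card F = q ^ 2) (p : ℕ) (hp : p.Prime) (hp2 : p ≠ 2)
    (hn : n = 2 * p) (H : Subgroup (GL (Fin n) F)) (hH : H ≤ Cfsg.GU n F q) :
    GenUQ p q H := by
  classical
  subst hn
  have hp3 : 3 ≤ p := by
    have := hp.two_le
    omega
  have hpodd : Odd p := hp.odd_of_ne_two hp2
  have hpne : ¬ Even p := Nat.not_even_iff_odd.mpr hpodd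
  have hq2 : 2 ≤ q := by
    have h1 : 1 < Fintype.card F := Fintype.one_lt_card
    rw [hF] at h1
    by_contra hlt
    have h01 : q = 0 ∨ q = 1 := by omega
    rcases h01 with rfl | rfl <;> simp at h1
  -- non-degenerate decompositions into planes
  have dec2 : ∀ D : Fin p → Submodule F (Fin (2 * p) → F),
      IsNondegenerateMDecomposition (Cfsg.hermForm (2 * p) F q) 2 D →
      H ≤ decompositionStabilizer D → GenUQ p q H := by
    intro D hND hHD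
    by_cases hq : 3 ≤ q
    · exact Or.inr (Or.inr (Or.inr (Or.inl ⟨hq, D, hND, hHD⟩)))
    · have hq2' : q = 2 := by omega
      obtain ⟨D', hD', hHD'⟩ := Q2 hF hq2' H hH D hND hHD
      exact Or.inr (Or.inr (Or.inl ⟨D', hD', hHD'⟩))
  by_cases h1 : ActsIrreducibly (matrixSet H)
  swap
  · rcases U1 hF H hH h1 with ⟨W, h0, hts, hle⟩ | ⟨W, h0, hnd, hdim, hle⟩
    · exact Or.inl ⟨W, h0, hts, hle⟩
    · by_cases hlt : 2 * Module.finrank F W < 2 * p
      · exact Or.inr (Or.inl ⟨W, h0, hnd, hlt, hle⟩)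
      · have hdim' : Module.finrank F W = p := by omega
        obtain ⟨D, hD, hHD⟩ := PERP hF p (by omega) rfl H hH W hnd hdim' hle
        exact Or.inr (Or.inr (Or.inr (Or.inr (Or.inl ⟨D, hD, hHD⟩))))
  obtain ⟨L, hL⟩ := exists_minNS (by omega) H h1
  have hLGU : L ≤ Cfsg.GU (2 * p) F q := hL.le.trans hH
  -- the field alternative
  have fld : ∀ (r : ℕ) (K : Subalgebra F (Matrix (Fin (2 * p)) (Fin (2 * p)) F)), r.Prime →
      IsFieldSubalgebra r K → IsAdjointClosedFor (Cfsg.hermForm (2 * p) F q) K →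
      H ≤ subalgebraNormalizer K → GenUQ p q H := by
    intro r K hr hK hadj hHK
    have hrn : r ∣ 2 * p := C3 (by omega) r K hK
    have hr2p : r = 2 ∨ r = p := by
      rcases (Nat.Prime.dvd_mul hr).1 hrn with h | h
      · exact Or.inl ((Nat.prime_dvd_prime_iff_eq hr Nat.prime_two).1 h)
      · exact Or.inr ((Nat.prime_dvd_prime_iff_eq hr hp).1 h)
    rcases hr2p with hr2 | hrp
    · subst hr2
      exact (FLD2 hF (by omega) K hK hadj).elim
    · subst hrp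
      exact Or.inr (Or.inr (Or.inr (Or.inr (Or.inr (Or.inr (Or.inl ⟨K, hK, hadj, hHK⟩))))))
  -- the tensor alternative
  have tens : ∀ (e : Fin (2 * p) ≃ Fin 2 × Fin p) (P : GL (Fin (2 * p)) F)
      (G₁ : Matrix (Fin 2) (Fin 2) F) (G₂ : Matrix (Fin p) (Fin p) F), G₁.det ≠ 0 → G₂.det ≠ 0 →
      (∀ a b, G₁ a b = (G₁ b a) ^ q) → (∀ a b, G₂ a b = (G₂ b a) ^ q) →
      (∀ x y : Fin 2 × Fin p → F,
        Cfsg.hermForm (2 * p) F q (P.1 *ᵥ (x ∘ e)) (P.1 *ᵥ (y ∘ e)) =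
          formOfGram (fun c : F => c ^ q) (G₁ ⊗ₖ G₂) x y) →
      H ≤ tensorProductSubgroup 2 p e P → GenUQ p q H := by
    intro e P G₁ G₂ hd1 hd2 hh1 hh2 hid hHT
    obtain ⟨f₁, f₂, hf₁, hf₂, ht⟩ := TFS hF e P G₁ G₂ hd1 hd2 hh1 hh2 hid
    by_cases hq : 3 ≤ q
    · exact Or.inr (Or.inr (Or.inr (Or.inr (Or.inr (Or.inr (Or.inr (Or.inl
        ⟨hq, e, P, f₁, f₂, hf₁, hf₂, ht, hHT⟩)))))))
    · have hq2' : q = 2 := by omega
      obtain ⟨D, hD, hHD⟩ := T2 hF hq2' p (by omega) H hH e P f₁ f₂ hf₁ hf₂ ht hHT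
      exact Or.inr (Or.inr (Or.inr (Or.inr (Or.inl ⟨D, hD, hHD⟩))))
  rcases CAP (by omega) H L h1 hL.le hL.nrm with
    ⟨t, m, D, hD, hHD, hiso, hinv, hfull⟩ | ⟨d, k, e, P, R, hR, hR1, hR2⟩
  · -- inhomogeneous
    have htm : t * m = 2 * p := C2 D hD
    have ht2 := hD.two_le
    obtain ⟨τ, hτ, horth, hno⟩ := PAIRa hF L hLGU D hD hiso hinv hfull
    rcases PAIRb hF H hH h1 D hD hHD τ hτ horth hno with hND | ⟨hfp, hcompat⟩
    · rcases tm_cases hp htm ht2 with ⟨rfl, rfl⟩ | ⟨rfl, rfl⟩ | ⟨rfl, rfl⟩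
      · exact dec2 D hND hHD
      · exact Or.inr (Or.inr (Or.inl ⟨D, hND, hHD⟩))
      · exact Or.inr (Or.inr (Or.inr (Or.inr (Or.inl ⟨D, hND, hHD⟩))))
    · have hev : Even t := by
        have := U3_even τ hτ hfp
        simpa using this
      rcases tm_cases hp htm ht2 with ⟨rfl, rfl⟩ | ⟨rfl, rfl⟩ | ⟨rfl, rfl⟩
      · exact absurd hev hpne
      · obtain ⟨s, E, hE, hHE⟩ := PLN hF (by omega) H D hD hHD τ hfp hτ horth hcompat
        have hs : s * 2 = 2 * p := C2 E hE.decomp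
        obtain rfl : p = s := by omega
        exact dec2 E hE hHE
      · have hts : ∀ i, IsTotallySingularFor (Cfsg.hermForm (2 * p) F q) (D i) :=
          fun i => horth i i (hfp i).symm
        exact Or.inr (Or.inr (Or.inr (Or.inr (Or.inr (Or.inl ⟨D, hD, hts, hHD⟩)))))
  · -- homogeneous
    have hcard : 2 * p = d * k := by
      have := Fintype.card_congr e
      simpa using this
    have hd1 : d ≠ 1 := by
      rintro rfl
      exact hL.ns (B3s e P R L hR1)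
    have hd0 : d ≠ 0 := by
      rintro rfl
      simp at hcard
      omega
    have hdk : d * k = 2 * p := hcard.symm
    by_cases hRa : ActsAbsolutelyIrreducibly (matrixSet R)
    swap
    · obtain ⟨r, K, hr, hK, hHK, hKc⟩ := coreB (by omega) H L hL.le hL.nrm e P R hR hR1 hR2 hRa
      have hhom := HOMP e P R L hR hR1 hR2
      have hadj := ADJ hF (by omega) L hLGU hhom
        (fun Z hc hi r K K' hK hK' h1 h2 => UNIQ (by omega) Z hc hi r K K' hK hK' h1 h2) r K hK hKc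
      exact fld r K hr hK hadj hHK
    · have hHT : H ≤ tensorProductSubgroup d k e P := fun h hh =>
        (coreC e P R L hRa hR1 hR2).2 h (fun x hx => hL.nrm h hh x hx)
      rcases tm_cases hp hdk (by omega) with ⟨rfl, rfl⟩ | ⟨rfl, rfl⟩ | ⟨rfl, rfl⟩
      · -- d = p, k = 2
        obtain ⟨G₁, G₂, hd1', hd2', hh1, hh2, hid⟩ := TF hF e P R L hLGU hRa hR1 hR2
        obtain ⟨hid', heq⟩ := TFSW (Cfsg.hermForm (2 * p) F q) (fun c : F => c ^ q) e P G₁ G₂ hid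
        exact tens (e.trans (Equiv.prodComm (Fin p) (Fin 2))) P G₂ G₁ hd2' hd1' hh2 hh1 hid'
          (heq ▸ hHT)
      · -- d = 2p, k = 1: L absolutely irreducible
        have hLa := B3a e P R L hRa hR2
        rcases hL.min ⁅L, L⁆ (commutator_le_self L) hL.nrm.commutator with hc | hc
        · exact (SY p hp hp2 rfl H L ⟨hL, hLa, hc⟩).elim
        · rcases B6 H L hL hc with ⟨hs, hna⟩ | ⟨k', Ps, hk', hns, hcomm, hsup, hperm, htrans⟩
          · by_cases hsubf : ∃ F₀ : Subfield F, F₀ ≠ ⊤ ∧ RealisableOver F₀ (matrixSet L)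
            · obtain ⟨F₀, hF₀, hreal⟩ := hsubf
              obtain ⟨F₁, r, τ', hr, hcardF, hle, hfixτ⟩ := exists_subfield_aut F₀ hF₀
              obtain ⟨B, hB⟩ := hreal
              have hB₁ : ∀ s ∈ matrixSet L, ∀ i j,
                  (B.1 * s * (B⁻¹ : GL (Fin (2 * p)) F).1) i j ∈ F₁ :=
                fun s hs i j => hle (hB s hs i j)
              have hHle : H ≤ subfieldSubgroup F₁ B⁻¹ := by
                intro h hh
                have key := NL_core L hLa F₁ τ' hfixτ B hB₁ h (fun x hx => hL.nrm h hh x hx)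
                unfold subfieldSubgroup
                refine ⟨B * h * B⁻¹, key, ?_⟩
                show B⁻¹ * (B * h * B⁻¹) * B⁻¹⁻¹ = h
                group
              obtain ⟨ζ, hζ, hrat⟩ := U8a hF (by omega) L hLGU hLa F₁ τ' hfixτ B hB₁
              rcases hr.eq_two_or_odd' with h2 | hro
              · subst h2
                rcases U8E hF (by omega) L hLGU hLa F₁ hcardF B hB₁ ζ hζ hrat with
                  ⟨ζ', hζ', htr, hrat', hiso'⟩ | ⟨hqo, hrat1⟩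
                · exact Or.inr (Or.inr (Or.inr (Or.inr (Or.inr (Or.inr (Or.inr (Or.inr (Or.inr
                    (Or.inl ⟨F₁, B⁻¹, ζ', hcardF, hζ', htr, hrat', hiso', hHle⟩)))))))))
                · exact Or.inr (Or.inr (Or.inr (Or.inr (Or.inr (Or.inr (Or.inr (Or.inr (Or.inr
                    (Or.inr (Or.inl ⟨hqo, F₁, B⁻¹, hcardF, hrat1, hHle⟩))))))))))
              · obtain ⟨P', hP', hsub⟩ := U8b hF (by omega) F₁ r hro hcardF B⁻¹ ζ hζ hrat
                exact Or.inr (Or.inr (Or.inr (Or.inr (Or.inr (Or.inr (Or.inr (Or.inr (Or.inl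
                  ⟨F₁, r, P', hr, hro, hcardF, hP', by rw [hsub]; exact hHle⟩))))))))
            · refine Or.inr (Or.inr (Or.inr (Or.inr (Or.inr (Or.inr (Or.inr (Or.inr (Or.inr
                (Or.inr (Or.inr
                  ⟨L, B7core H L hL.le hL.nrm hLa hc hs hna ?_, ?_, ?_⟩))))))))))
              · intro F₀ hF₀ hreal
                exact hsubf ⟨F₀, hF₀, hreal⟩
              · rintro ⟨Q, hQ, hQfix⟩
                apply hsubf
                refine U7 hF (by omega) L hLGU hLa (QuadraticMap.polar Q) hQ.polar_bilinear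
                  hQ.nondegenerate ?_
                intro s hs u v
                unfold QuadraticMap.polar
                rw [← Matrix.mulVec_add, hQfix s hs, hQfix s hs, hQfix s hs]
              · rintro ⟨f, hf, hffix⟩
                exact hsubf (U7 hF (by omega) L hLGU hLa f hf.bilinear hf.nondegenerate hffix)
          · obtain ⟨m', hm', hnm⟩ := B8D (by omega) H L hLa k' Ps hk' hns hcomm hsup hperm htrans
            exact (not_pow hp hp2 hk' hnm).elim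
      · -- d = 2, k = p
        obtain ⟨G₁, G₂, hd1', hd2', hh1, hh2, hid⟩ := TF hF e P R L hLGU hRa hR1 hR2
        exact tens e P G₁ G₂ hd1' hd2' hh1 hh2 hid hHT

/-- FINAL: the maximal subgroups of `SU_10(q)`. -/
theorem finalUQ10 (hF : Fintype.card F = q ^ 2) (H : Subgroup (GL (Fin 10) F))
    (hH : IsMaximalIn (Cfsg.GU 10 F q ⊓ specialLinear (Fin 10) F) H) :
    (∃ W : Submodule F (Fin 10 → F), W ≠ ⊥ ∧ IsTotallySingularFor (Cfsg.hermForm 10 F q) W ∧ H = subspaceStabilizer W ⊓ (Cfsg.GU 10 F q ⊓ specialLinear (Fin 10) F)) ∨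
    (∃ W : Submodule F (Fin 10 → F), W ≠ ⊥ ∧ IsNondegenerateOn (Cfsg.hermForm 10 F q) W ∧ 2 * Module.finrank F W < 10 ∧ H = subspaceStabilizer W ⊓ (Cfsg.GU 10 F q ⊓ specialLinear (Fin 10) F)) ∨
    (∃ D : Fin 10 → Submodule F (Fin 10 → F), IsNondegenerateMDecomposition (Cfsg.hermForm 10 F q) 1 D ∧ H = decompositionStabilizer D ⊓ (Cfsg.GU 10 F q ⊓ specialLinear (Fin 10) F)) ∨
    (3 ≤ q ∧ ∃ D : Fin 5 → Submodule F (Fin 10 → F), IsNondegenerateMDecomposition (Cfsg.hermForm 10 F q) 2 D ∧ H = decompositionStabilizer D ⊓ (Cfsg.GU 10 F q ⊓ specialLinear (Fin 10) F)) ∨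
    (∃ D : Fin 2 → Submodule F (Fin 10 → F), IsNondegenerateMDecomposition (Cfsg.hermForm 10 F q) 5 D ∧ H = decompositionStabilizer D ⊓ (Cfsg.GU 10 F q ⊓ specialLinear (Fin 10) F)) ∨
    (∃ D : Fin 2 → Submodule F (Fin 10 → F), IsMDecomposition 5 D ∧ (∀ i, IsTotallySingularFor (Cfsg.hermForm 10 F q) (D i)) ∧ H = decompositionStabilizer D ⊓ (Cfsg.GU 10 F q ⊓ specialLinear (Fin 10) F)) ∨
    (∃ K : Subalgebra F (Matrix (Fin 10) (Fin 10) F), IsFieldSubalgebra 5 K ∧ IsAdjointClosedFor (Cfsg.hermForm 10 F q) K ∧ H = subalgebraNormalizer K ⊓ (Cfsg.GU 10 F q ⊓ specialLinear (Fin 10) F)) ∨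
    (3 ≤ q ∧ ∃ (e : Fin 10 ≃ Fin 2 × Fin 5) (P : GL (Fin 10) F) (f₁ : (Fin 2 → F) → (Fin 2 → F) → F) (f₂ : (Fin 5 → F) → (Fin 5 → F) → F), IsUnitaryFormPow q f₁ ∧ IsUnitaryFormPow q f₂ ∧ IsTensorFormStructure (fun x : F => x ^ q) (Cfsg.hermForm 10 F q) f₁ f₂ e P ∧ H = tensorProductSubgroup 2 5 e P ⊓ (Cfsg.GU 10 F q ⊓ specialLinear (Fin 10) F)) ∨
    (∃ (F₀ : Subfield F) (r : ℕ) (P : GL (Fin 10) F), r.Prime ∧ Odd r ∧ Fintype.card F = Nat.card F₀ ^ r ∧ IsFormRationalStructure (Cfsg.hermForm 10 F q) F₀ 1 P ∧ H = subfieldSubgroup F₀ P ⊓ (Cfsg.GU 10 F q ⊓ specialLinear (Fin 10) F)) ∨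
    (∃ (F₀ : Subfield F) (P : GL (Fin 10) F) (ζ : F), Fintype.card F = Nat.card F₀ ^ 2 ∧ ζ ≠ 0 ∧ ζ + ζ ^ q = 0 ∧ IsFormRationalStructure (Cfsg.hermForm 10 F q) F₀ ζ P ∧ (∀ u : Fin 10 → F, (∀ i, u i ∈ F₀) → (Cfsg.hermForm 10 F q) (Matrix.mulVec (P : Matrix (Fin 10) (Fin 10) F) u) (Matrix.mulVec (P : Matrix (Fin 10) (Fin 10) F) u) = 0) ∧ H = subfieldSubgroup F₀ P ⊓ (Cfsg.GU 10 F q ⊓ specialLinear (Fin 10) F)) ∨
    (Odd q ∧ ∃ (F₀ : Subfield F) (P : GL (Fin 10) F), Fintype.card F = Nat.card F₀ ^ 2 ∧ IsFormRationalStructure (Cfsg.hermForm 10 F q) F₀ 1 P ∧ H = subfieldSubgroup F₀ P ⊓ (Cfsg.GU 10 F q ⊓ specialLinear (Fin 10) F)) ∨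
    InUnitaryResidualClass H := by
  classical
  have hHS : H ≤ Cfsg.GU 10 F q ⊓ specialLinear (Fin 10) F := hH.1.le
  have hHGU : H ≤ Cfsg.GU 10 F q := hHS.trans inf_le_left
  have hne : ∀ (F₀ : Subfield F) (r : ℕ), r.Prime → Fintype.card F = Nat.card F₀ ^ r →
      F₀ ≠ ⊤ := by
    intro F₁ r hr hcard htop
    rw [htop] at hcard
    have h1 : Nat.card (⊤ : Subfield F) = Fintype.card F := by
      rw [← Nat.card_eq_fintype_card]
      exact Nat.card_congr Subfield.topEquiv.toEquiv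
    rw [h1] at hcard
    have h2 : 1 < Fintype.card F := Fintype.one_lt_card
    have h3 : Fintype.card F ^ 1 < Fintype.card F ^ r :=
      Nat.pow_lt_pow_right h2 hr.one_lt
    rw [pow_one] at h3
    omega
  have hg := genUQ (n := 10) hF 5 (by norm_num) (by norm_num) rfl H hHGU
  unfold GenUQ at hg
  rcases hg with ⟨W, h0, hts, hle⟩ | ⟨W, h0, hnd, hdim, hle⟩ | ⟨D, hD, hle⟩ | ⟨hq, D, hD, hle⟩ |
    ⟨D, hD, hle⟩ | ⟨D, hD, hts, hle⟩ | ⟨K, hK, hadj, hle⟩ |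
    ⟨hq, e, P, f₁, f₂, hf₁, hf₂, ht, hle⟩ | ⟨F₀, r, P, hr, hro, hcard, hrat, hle⟩ |
    ⟨F₀, P, ζ, hcard, hζ, htr, hrat, hiso, hle⟩ | ⟨hqo, F₀, P, hcard, hrat, hle⟩ | hres
  · have htop : W ≠ ⊤ := by
      rintro rfl
      exact not_ts_top (by norm_num) hts
    exact Or.inl ⟨W, h0, hts, eq_inf_of_max hH hle (NU1 hF (by norm_num) W h0 htop)⟩
  · have htop : W ≠ ⊤ := by
      rintro rfl
      rw [finrank_top, Module.finrank_fin_fun] at hdim
      omega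
    exact Or.inr (Or.inl ⟨W, h0, hnd, hdim,
      eq_inf_of_max hH hle (NU1 hF (by norm_num) W h0 htop)⟩)
  · exact Or.inr (Or.inr (Or.inl ⟨D, hD, eq_inf_of_max hH hle (NU2 hF (by norm_num) D hD)⟩))
  · exact Or.inr (Or.inr (Or.inr (Or.inl ⟨hq, D, hD,
      eq_inf_of_max hH hle (NU2Q hF (by norm_num) D hD.decomp (by norm_num))⟩)))
  · exact Or.inr (Or.inr (Or.inr (Or.inr (Or.inl ⟨D, hD,
      eq_inf_of_max hH hle (NU2Q hF (by norm_num) D hD.decomp (by norm_num))⟩))))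
  · exact Or.inr (Or.inr (Or.inr (Or.inr (Or.inr (Or.inl ⟨D, hD, hts,
      eq_inf_of_max hH hle (NU2Q hF (by norm_num) D hD (by norm_num))⟩)))))
  · exact Or.inr (Or.inr (Or.inr (Or.inr (Or.inr (Or.inr (Or.inl ⟨K, hK, hadj,
      eq_inf_of_max hH hle (NU3 hF (by norm_num) 5 (by norm_num) K hK)⟩))))))
  · exact Or.inr (Or.inr (Or.inr (Or.inr (Or.inr (Or.inr (Or.inr (Or.inl
      ⟨hq, e, P, f₁, f₂, hf₁, hf₂, ht,
        eq_inf_of_max hH hle (NU4Q hF (by norm_num) (by norm_num) (by norm_num) e P)⟩)))))))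
  · exact Or.inr (Or.inr (Or.inr (Or.inr (Or.inr (Or.inr (Or.inr (Or.inr (Or.inl
      ⟨F₀, r, P, hr, hro, hcard, hrat,
        eq_inf_of_max hH hle (NU5 hF (by norm_num) F₀ (hne F₀ r hr hcard) P)⟩))))))))
  · exact Or.inr (Or.inr (Or.inr (Or.inr (Or.inr (Or.inr (Or.inr (Or.inr (Or.inr (Or.inl
      ⟨F₀, P, ζ, hcard, hζ, htr, hrat, hiso,
        eq_inf_of_max hH hle (NU5 hF (by norm_num) F₀ (hne F₀ 2 Nat.prime_two hcard) P)⟩)))))))))
  · exact Or.inr (Or.inr (Or.inr (Or.inr (Or.inr (Or.inr (Or.inr (Or.inr (Or.inr (Or.inr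
      (Or.inl ⟨hqo, F₀, P, hcard, hrat,
        eq_inf_of_max hH hle (NU5 hF (by norm_num) F₀ (hne F₀ 2 Nat.prime_two hcard) P)⟩))))))))))
  · exact Or.inr (Or.inr (Or.inr (Or.inr (Or.inr (Or.inr (Or.inr (Or.inr (Or.inr (Or.inr
      (Or.inr hres))))))))))

end Cfsg.Agent.Lib.Helper50.SUQMain
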