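import Mathlib
import Cfsg.Agent.Lib.Helper50.SUQMain
import Cfsg.Agent.Lib.Helper82.ASSA
import Cfsg.Agent.Lib.Helper66.ASSC
import Cfsg.Agent.Lib.Helper88.SUQPERP
import Cfsg.Agent.Lib.Helper93.SUQPAIRa
import Cfsg.Agent.Lib.Helper61.SUQPAIRb
import Cfsg.Agent.Lib.Helper84.SUQPLNM
import Cfsg.Agent.Lib.Helper19.SUQQ2
import Cfsg.Agent.Lib.Helper68.SUQADJ
import Cfsg.Agent.Lib.Helper31.SUQFLD2
import Cfsg.Agent.Lib.Helper60.SUQTF
import Cfsg.Agent.Lib.Helper66.SUQTFSW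
import Cfsg.Agent.Lib.Helper50.SUQTFS
import Cfsg.Agent.Lib.Helper90.SUQT2
import Cfsg.Agent.Lib.Helper2.SUQU8E
import Cfsg.Agent.Lib.Helper34.SUQNU2Q
import Cfsg.Agent.Lib.Helper3.SUQNU4Q

import Cfsg.Agent.Lib.Helper39.SUQPLN
import Cfsg.Agent.Lib.Helper34.SUPU9
import Cfsg.Agent.Lib.Helper65.SUPNU6
import Cfsg.Agent.Lib.Helper71.SUPMain
import Cfsg.Agent.Lib.Helper12.SU8U58
import Cfsg.Agent.Lib.Helper51.SU8SKB
import Cfsg.Agent.Lib.Helper38.SU8B8W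
import Cfsg.Agent.Lib.Helper37.SU8TW2F
import Cfsg.Agent.Lib.Helper13.SU8AU4

/-! Project SU8 (helper50): the maximal subgroups of `SU_8(q)` (statement S5820), on top of
the SUQ pieces; new pieces `U58`, `SKB`, `B8W`, `TW2F`, `AU4` (landed by the team). -/

set_option autoImplicit false

namespace Cfsg.Agent.Lib.Helper50.SU8Main

open Matrix Cfsg.Geo Cfsg.Agent.Lib.Helper71.Asch
open scoped Kronecker
open Cfsg.Agent.Lib.Helper82.ASCOREB (coreB)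
open Cfsg.Agent.Lib.Helper21.ASCOREC (coreC)
open Cfsg.Agent.Lib.Helper46.ASB3s (B3s B3a)
open Cfsg.Agent.Lib.Helper61.ASB6 (B6)
open Cfsg.Agent.Lib.Helper67.ASNL (NL_core exists_subfield_aut)
open Cfsg.Agent.Lib.Helper46.ASB7core (B7core)
open Cfsg.Agent.Lib.Helper73.SLPC2 (C2)
open Cfsg.Agent.Lib.Helper16.SLPC3 (C3)
open Cfsg.Agent.Lib.Helper1.SUPU3 (U3_even)
open Cfsg.Agent.Lib.Helper21.SUPU1 (U1)
open Cfsg.Agent.Lib.Helper19.SUPU7 (U7)
open Cfsg.Agent.Lib.Helper89.SUPU8a (U8a)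
open Cfsg.Agent.Lib.Helper46.SUPU8b (U8b)
open Cfsg.Agent.Lib.Helper39.SUPNU1 (NU1)
open Cfsg.Agent.Lib.Helper39.SUPNU2 (NU2)
open Cfsg.Agent.Lib.Helper28.SUPNU3 (NU3)
open Cfsg.Agent.Lib.Helper79.SUPNU5 (NU5)
open Cfsg.Agent.Lib.Helper86.SPPCAP (CAP)
open Cfsg.Agent.Lib.Helper83.SPPHOMP (HOMP)
open Cfsg.Agent.Lib.Helper10.SPPUNIQ (UNIQ)
open Cfsg.Agent.Lib.Helper28.SPPB8D (B8D)
open Cfsg.Agent.Lib.Helper50.SUQMain (eq_inf_of_max not_ts_top exists_minNS)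

open Cfsg.Agent.Lib.Helper88.SUQPERP (PERP)
open Cfsg.Agent.Lib.Helper93.SUQPAIRa (PAIRa)
open Cfsg.Agent.Lib.Helper61.SUQPAIRb (PAIRb)
open Cfsg.Agent.Lib.Helper84.SUQPLNM (PLNM)
open Cfsg.Agent.Lib.Helper19.SUQQ2 (Q2)
open Cfsg.Agent.Lib.Helper68.SUQADJ (ADJ)
open Cfsg.Agent.Lib.Helper31.SUQFLD2 (FLD2)
open Cfsg.Agent.Lib.Helper60.SUQTF (TF)
open Cfsg.Agent.Lib.Helper66.SUQTFSW (TFSW)
open Cfsg.Agent.Lib.Helper50.SUQTFS (TFS)
open Cfsg.Agent.Lib.Helper90.SUQT2 (T2)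
open Cfsg.Agent.Lib.Helper2.SUQU8E (U8E)
open Cfsg.Agent.Lib.Helper34.SUQNU2Q (NU2Q)
open Cfsg.Agent.Lib.Helper3.SUQNU4Q (NU4Q)

open Cfsg.Agent.Lib.Helper39.SUQPLN (PLN)
open Cfsg.Agent.Lib.Helper34.SUPU9 (U9)
open Cfsg.Agent.Lib.Helper65.SUPNU6 (NU6)

open Cfsg.Agent.Lib.Helper12.SU8U58 (U58)
open Cfsg.Agent.Lib.Helper51.SU8SKB (SKB)
open Cfsg.Agent.Lib.Helper38.SU8B8W (B8W)
open Cfsg.Agent.Lib.Helper37.SU8TW2F (TW2F)
open Cfsg.Agent.Lib.Helper13.SU8AU4 (AU4)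

variable {n : ℕ} {F : Type*} [Field F] [Fintype F] {q : ℕ}

/-! ## Assembly -/

/-- the factorisations of `8` -/
theorem tm_cases8 {t m : ℕ} (h : t * m = 8) (ht : 2 ≤ t) :
    (2 = t ∧ 4 = m) ∨ (4 = t ∧ 2 = m) ∨ (8 = t ∧ 1 = m) := by
  have ht8 : t ≤ 8 := Nat.le_of_dvd (by norm_num) ⟨m, h.symm⟩
  interval_cases t <;> omega

/-- The normal form of a subgroup of `GU_8(q)`. -/
def GenU8 (q : ℕ) (H : Subgroup (GL (Fin 8) F)) : Prop :=
  (∃ W : Submodule F (Fin 8 → F), W ≠ ⊥ ∧ IsTotallySingularFor (Cfsg.hermForm 8 F q) W ∧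
    H ≤ subspaceStabilizer W) ∨
  (∃ W : Submodule F (Fin 8 → F), W ≠ ⊥ ∧ IsNondegenerateOn (Cfsg.hermForm 8 F q) W ∧
    2 * Module.finrank F W < 8 ∧ H ≤ subspaceStabilizer W) ∨
  (∃ D : Fin 8 → Submodule F (Fin 8 → F),
    IsNondegenerateMDecomposition (Cfsg.hermForm 8 F q) 1 D ∧ H ≤ decompositionStabilizer D) ∨
  (3 ≤ q ∧ ∃ D : Fin 4 → Submodule F (Fin 8 → F),
    IsNondegenerateMDecomposition (Cfsg.hermForm 8 F q) 2 D ∧ H ≤ decompositionStabilizer D) ∨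
  (∃ D : Fin 2 → Submodule F (Fin 8 → F),
    IsNondegenerateMDecomposition (Cfsg.hermForm 8 F q) 4 D ∧ H ≤ decompositionStabilizer D) ∨
  (∃ D : Fin 2 → Submodule F (Fin 8 → F), IsMDecomposition 4 D ∧
    (∀ i, IsTotallySingularFor (Cfsg.hermForm 8 F q) (D i)) ∧ H ≤ decompositionStabilizer D) ∨
  (3 ≤ q ∧ ∃ (e : Fin 8 ≃ Fin 2 × Fin 4) (P : GL (Fin 8) F)
    (f₁ : (Fin 2 → F) → (Fin 2 → F) → F) (f₂ : (Fin 4 → F) → (Fin 4 → F) → F),
    IsUnitaryFormPow q f₁ ∧ IsUnitaryFormPow q f₂ ∧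
    IsTensorFormStructure (fun x : F => x ^ q) (Cfsg.hermForm 8 F q) f₁ f₂ e P ∧
    H ≤ tensorProductSubgroup 2 4 e P) ∨
  (∃ (F₀ : Subfield F) (r : ℕ) (P : GL (Fin 8) F), r.Prime ∧ Odd r ∧
    Fintype.card F = Nat.card F₀ ^ r ∧ IsFormRationalStructure (Cfsg.hermForm 8 F q) F₀ 1 P ∧
    H ≤ subfieldSubgroup F₀ P) ∨
  (∃ (F₀ : Subfield F) (P : GL (Fin 8) F) (ζ : F), Fintype.card F = Nat.card F₀ ^ 2 ∧ ζ ≠ 0 ∧
    ζ + ζ ^ q = 0 ∧ IsFormRationalStructure (Cfsg.hermForm 8 F q) F₀ ζ P ∧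
    (∀ u : Fin 8 → F, (∀ i, u i ∈ F₀) →
      (Cfsg.hermForm 8 F q) (Matrix.mulVec (P : Matrix (Fin 8) (Fin 8) F) u)
        (Matrix.mulVec (P : Matrix (Fin 8) (Fin 8) F) u) = 0) ∧
    H ≤ subfieldSubgroup F₀ P) ∨
  (Odd q ∧ ∃ (F₀ : Subfield F) (P : GL (Fin 8) F), Fintype.card F = Nat.card F₀ ^ 2 ∧
    IsFormRationalStructure (Cfsg.hermForm 8 F q) F₀ 1 P ∧ H ≤ subfieldSubgroup F₀ P) ∨
  (∃ (p e : ℕ) (R : Subgroup (GL (Fin 8) F)), IsMinimalFieldFor 4 p e F ∧ 2 ≠ p ∧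
    IsSymplecticTypeGroup 2 R ∧ ActsAbsolutelyIrreducibly (matrixSet R) ∧
    R ≤ Cfsg.GU 8 F q ∧ ⁅R, R⁆ ≤ scalars (Fin 8) F ∧ ¬ R ≤ scalars (Fin 8) F ∧
    Nat.card R = 256 ∧ Nat.card (Subgroup.center R) = 4 ∧ H ≤ subgroupNormalizer R) ∨
  InUnitaryResidualClass H

/-- GENU8: the structure of a subgroup of `GU_8(q)`. -/
theorem genU8 (hF : Fintype.card F = q ^ 2) (H : Subgroup (GL (Fin 8) F))
    (hH : H ≤ Cfsg.GU 8 F q) : GenU8 q H := by
  classical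
  have hq2 : 2 ≤ q := by
    have h1 : 1 < Fintype.card F := Fintype.one_lt_card
    rw [hF] at h1
    by_contra hlt
    have h01 : q = 0 ∨ q = 1 := by omega
    rcases h01 with rfl | rfl <;> simp at h1
  -- non-degenerate decompositions into planes
  have dec2 : ∀ D : Fin 4 → Submodule F (Fin 8 → F),
      IsNondegenerateMDecomposition (Cfsg.hermForm 8 F q) 2 D →
      H ≤ decompositionStabilizer D → GenU8 q H := by
    intro D hND hHD
    by_cases hq : 3 ≤ q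
    · exact Or.inr (Or.inr (Or.inr (Or.inl ⟨hq, D, hND, hHD⟩)))
    · have hq2' : q = 2 := by omega
      obtain ⟨D', hD', hHD'⟩ := Q2 hF hq2' H hH D hND hHD
      exact Or.inr (Or.inr (Or.inl ⟨D', hD', hHD'⟩))
  by_cases h1 : ActsIrreducibly (matrixSet H)
  swap
  · rcases U1 hF H hH h1 with ⟨W, h0, hts, hle⟩ | ⟨W, h0, hnd, hdim, hle⟩
    · exact Or.inl ⟨W, h0, hts, hle⟩
    · by_cases hlt : 2 * Module.finrank F W < 8
      · exact Or.inr (Or.inl ⟨W, h0, hnd, hlt, hle⟩)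
      · have hdim' : Module.finrank F W = 4 := by omega
        obtain ⟨D, hD, hHD⟩ := PERP hF 4 (by norm_num) rfl H hH W hnd hdim' hle
        exact Or.inr (Or.inr (Or.inr (Or.inr (Or.inl ⟨D, hD, hHD⟩))))
  obtain ⟨L, hL⟩ := exists_minNS (by norm_num) H h1
  have hLGU : L ≤ Cfsg.GU 8 F q := hL.le.trans hH
  -- the tensor alternative
  have tens24 : ∀ (e : Fin 8 ≃ Fin 2 × Fin 4) (P : GL (Fin 8) F)
      (G₁ : Matrix (Fin 2) (Fin 2) F) (G₂ : Matrix (Fin 4) (Fin 4) F), G₁.det ≠ 0 → G₂.det ≠ 0 →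
      (∀ a b, G₁ a b = (G₁ b a) ^ q) → (∀ a b, G₂ a b = (G₂ b a) ^ q) →
      (∀ x y : Fin 2 × Fin 4 → F,
        Cfsg.hermForm 8 F q (P.1 *ᵥ (x ∘ e)) (P.1 *ᵥ (y ∘ e)) =
          formOfGram (fun c : F => c ^ q) (G₁ ⊗ₖ G₂) x y) →
      H ≤ tensorProductSubgroup 2 4 e P → GenU8 q H := by
    intro e P G₁ G₂ hd1 hd2 hh1 hh2 hid hHT
    obtain ⟨f₁, f₂, hf₁, hf₂, ht⟩ := TFS hF e P G₁ G₂ hd1 hd2 hh1 hh2 hid
    by_cases hq : 3 ≤ q
    · exact Or.inr (Or.inr (Or.inr (Or.inr (Or.inr (Or.inr (Or.inl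
        ⟨hq, e, P, f₁, f₂, hf₁, hf₂, ht, hHT⟩))))))
    · have hq2' : q = 2 := by omega
      obtain ⟨D, hD, hHD⟩ := T2 hF hq2' 4 (by norm_num) H hH e P f₁ f₂ hf₁ hf₂ ht hHT
      exact Or.inr (Or.inr (Or.inr (Or.inr (Or.inl ⟨D, hD, hHD⟩))))
  rcases CAP (by norm_num) H L h1 hL.le hL.nrm with
    ⟨t, m, D, hD, hHD, hiso, hinv, hfull⟩ | ⟨d, k, e, P, R, hR, hR1, hR2⟩
  · -- inhomogeneous
    have htm : t * m = 8 := C2 D hD
    have ht2 := hD.two_le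
    obtain ⟨τ, hτ, horth, hno⟩ := PAIRa hF L hLGU D hD hiso hinv hfull
    rcases PAIRb hF H hH h1 D hD hHD τ hτ horth hno with hND | ⟨hfp, hcompat⟩
    · rcases tm_cases8 htm ht2 with ⟨rfl, rfl⟩ | ⟨rfl, rfl⟩ | ⟨rfl, rfl⟩
      · exact Or.inr (Or.inr (Or.inr (Or.inr (Or.inl ⟨D, hND, hHD⟩))))
      · exact dec2 D hND hHD
      · exact Or.inr (Or.inr (Or.inl ⟨D, hND, hHD⟩))
    · rcases tm_cases8 htm ht2 with ⟨rfl, rfl⟩ | ⟨rfl, rfl⟩ | ⟨rfl, rfl⟩
      · have hts : ∀ i, IsTotallySingularFor (Cfsg.hermForm 8 F q) (D i) :=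
          fun i => horth i i (hfp i).symm
        exact Or.inr (Or.inr (Or.inr (Or.inr (Or.inr (Or.inl ⟨D, hD, hts, hHD⟩)))))
      · obtain ⟨s, E, hE, hHE⟩ := PLNM hF H D hD (by norm_num) hHD τ hfp hτ horth hcompat
        have hs : s * (2 * 2) = 8 := C2 E hE.decomp
        obtain rfl : 2 = s := by omega
        exact Or.inr (Or.inr (Or.inr (Or.inr (Or.inl ⟨E, hE, hHE⟩))))
      · obtain ⟨s, E, hE, hHE⟩ := PLN hF (by norm_num) H D hD hHD τ hfp hτ horth hcompat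
        have hs : s * 2 = 8 := C2 E hE.decomp
        obtain rfl : 4 = s := by omega
        exact dec2 E hE hHE
  · -- homogeneous
    have hcard : 8 = d * k := by
      have := Fintype.card_congr e
      simpa using this
    have hd1 : d ≠ 1 := by
      rintro rfl
      exact hL.ns (B3s e P R L hR1)
    have hd0 : d ≠ 0 := by
      rintro rfl
      simp at hcard
    have hdk : d * k = 8 := hcard.symm
    by_cases hRa : ActsAbsolutelyIrreducibly (matrixSet R)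
    swap
    · obtain ⟨r, K, hr, hK, hHK, hKc⟩ :=
        coreB (by norm_num) H L hL.le hL.nrm e P R hR hR1 hR2 hRa
      have hhom := HOMP e P R L hR hR1 hR2
      have hadj := ADJ hF (by norm_num) L hLGU hhom
        (fun Z hc hi r K K' hK hK' h1 h2 => UNIQ (by norm_num) Z hc hi r K K' hK hK' h1 h2)
        r K hK hKc
      have hrn : r ∣ 8 := C3 (by norm_num) r K hK
      have hr2 : r = 2 := by
        have h8 : (8 : ℕ) = 2 ^ 3 := by norm_num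
        rw [h8] at hrn
        exact (Nat.prime_dvd_prime_iff_eq hr Nat.prime_two).1 (hr.dvd_of_dvd_pow hrn)
      subst hr2
      exact (FLD2 hF (by norm_num) K hK hadj).elim
    · have hHT : H ≤ tensorProductSubgroup d k e P := fun h hh =>
        (coreC e P R L hRa hR1 hR2).2 h (fun x hx => hL.nrm h hh x hx)
      rcases tm_cases8 hdk (by omega) with ⟨rfl, rfl⟩ | ⟨rfl, rfl⟩ | ⟨rfl, rfl⟩
      · -- d = 2, k = 4
        obtain ⟨G₁, G₂, hd1', hd2', hh1, hh2, hid⟩ := TF hF e P R L hLGU hRa hR1 hR2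
        exact tens24 e P G₁ G₂ hd1' hd2' hh1 hh2 hid hHT
      · -- d = 4, k = 2
        obtain ⟨G₁, G₂, hd1', hd2', hh1, hh2, hid⟩ := TF hF e P R L hLGU hRa hR1 hR2
        obtain ⟨hid', heq⟩ := TFSW (Cfsg.hermForm 8 F q) (fun c : F => c ^ q) e P G₁ G₂ hid
        exact tens24 (e.trans (Equiv.prodComm (Fin 4) (Fin 2))) P G₂ G₁ hd2' hd1' hh2 hh1 hid'
          (heq ▸ hHT)
      · -- d = 8, k = 1: L absolutely irreducible
        have hLa := B3a e P R L hRa hR2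
        -- the subfield alternative
        have sub : ∀ F₀ : Subfield F, F₀ ≠ ⊤ → RealisableOver F₀ (matrixSet L) → GenU8 q H := by
          intro F₀ hF₀ hreal
          obtain ⟨F₁, r, τ', hr, hcardF, hle, hfixτ⟩ := exists_subfield_aut F₀ hF₀
          obtain ⟨B, hB⟩ := hreal
          have hB₁ : ∀ s ∈ matrixSet L, ∀ i j,
              (B.1 * s * (B⁻¹ : GL (Fin 8) F).1) i j ∈ F₁ :=
            fun s hs i j => hle (hB s hs i j)
          have hHle : H ≤ subfieldSubgroup F₁ B⁻¹ := by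
            intro h hh
            have key := NL_core L hLa F₁ τ' hfixτ B hB₁ h (fun x hx => hL.nrm h hh x hx)
            unfold subfieldSubgroup
            refine ⟨B * h * B⁻¹, key, ?_⟩
            show B⁻¹ * (B * h * B⁻¹) * B⁻¹⁻¹ = h
            group
          obtain ⟨ζ, hζ, hrat⟩ := U8a hF (by norm_num) L hLGU hLa F₁ τ' hfixτ B hB₁
          rcases hr.eq_two_or_odd' with h2 | hro
          · subst h2
            rcases U8E hF (by norm_num) L hLGU hLa F₁ hcardF B hB₁ ζ hζ hrat with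
              ⟨ζ', hζ', htr, hrat', hiso'⟩ | ⟨hqo, hrat1⟩
            · exact Or.inr (Or.inr (Or.inr (Or.inr (Or.inr (Or.inr (Or.inr (Or.inr (Or.inl
                ⟨F₁, B⁻¹, ζ', hcardF, hζ', htr, hrat', hiso', hHle⟩))))))))
            · exact Or.inr (Or.inr (Or.inr (Or.inr (Or.inr (Or.inr (Or.inr (Or.inr (Or.inr
                (Or.inl ⟨hqo, F₁, B⁻¹, hcardF, hrat1, hHle⟩)))))))))
          · obtain ⟨P', hP', hsub⟩ := U8b hF (by norm_num) F₁ r hro hcardF B⁻¹ ζ hζ hrat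
            exact Or.inr (Or.inr (Or.inr (Or.inr (Or.inr (Or.inr (Or.inr (Or.inl
              ⟨F₁, r, P', hr, hro, hcardF, hP', by rw [hsub]; exact hHle⟩)))))))
        -- the bilinear alternative
        have bil : ∀ f : (Fin 8 → F) → (Fin 8 → F) → F, IsBilinearForm f →
            IsNondegenerateForm f → FixesForm (matrixSet L) f → GenU8 q H := by
          intro f hb hnd hfix
          obtain ⟨F₀, hF₀, hreal⟩ := U7 hF (by norm_num) L hLGU hLa f hb hnd hfix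
          exact sub F₀ hF₀ hreal
        rcases hL.min ⁅L, L⁆ (commutator_le_self L) hL.nrm.commutator with hc | hc
        · -- symplectic type
          have hsym : SymT H L := ⟨hL, hLa, hc⟩
          rcases U58 H L hsym with ⟨F₁, hF₁, hreal⟩ | ⟨hz, h2, h8, htr⟩ |
            ⟨p, e', hst, hnp, hmin, hcardL, hcen⟩
          · exact sub F₁ hF₁ hreal
          · obtain ⟨f, hb, hnd, hfix⟩ := SKB (by norm_num) H L hsym h2 h8 htr hz
            exact bil f hb hnd hfix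
          · refine Or.inr (Or.inr (Or.inr (Or.inr (Or.inr (Or.inr (Or.inr (Or.inr (Or.inr
              (Or.inr (Or.inl
                ⟨p, e', L, hmin, hnp, hst, hLa, hLGU, hc, hL.ns, hcardL, hcen, ?_⟩))))))))))
            intro h hh
            unfold subgroupNormalizer
            rw [Subgroup.mem_normalizer_iff]
            intro x
            constructor
            · intro hx
              exact hL.nrm h hh x hx
            · intro hx
              have := hL.nrm h⁻¹ (H.inv_mem hh) _ hx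
              have h3 : h⁻¹ * (h * x * h⁻¹) * h⁻¹⁻¹ = x := by group
              rwa [h3] at this
        · rcases B6 H L hL hc with ⟨hs, hna⟩ | ⟨k', Ps, hk', hns, hcomm, hsup, hperm, htrans⟩
          · by_cases hsubf : ∃ F₀ : Subfield F, F₀ ≠ ⊤ ∧ RealisableOver F₀ (matrixSet L)
            · obtain ⟨F₀, hF₀, hreal⟩ := hsubf
              exact sub F₀ hF₀ hreal
            · refine Or.inr (Or.inr (Or.inr (Or.inr (Or.inr (Or.inr (Or.inr (Or.inr (Or.inr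
                (Or.inr (Or.inr
                  ⟨L, B7core H L hL.le hL.nrm hLa hc hs hna ?_, ?_, ?_⟩))))))))))
              · intro F₀ hF₀ hreal
                exact hsubf ⟨F₀, hF₀, hreal⟩
              · rintro ⟨Q, hQ, hQfix⟩
                apply hsubf
                refine U7 hF (by norm_num) L hLGU hLa (QuadraticMap.polar Q) hQ.polar_bilinear
                  hQ.nondegenerate ?_
                intro s hs u v
                unfold QuadraticMap.polar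
                rw [← Matrix.mulVec_add, hQfix s hs, hQfix s hs, hQfix s hs]
              · rintro ⟨f, hf, hffix⟩
                exact hsubf (U7 hF (by norm_num) L hLGU hLa f hf.bilinear hf.nondegenerate hffix)
          · obtain ⟨m', e', P', hm', hHW⟩ :=
              B8W (by norm_num) H L hLa k' Ps hk' hns hcomm hsup hperm htrans
            have hcard' : 8 = m' ^ k' := by
              have := Fintype.card_congr e'
              simpa using this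
            have hm2 : m' = 2 := by
              by_contra hne
              have h3 : 3 ≤ m' := by omega
              have h9 : 3 ^ 2 ≤ m' ^ k' :=
                (Nat.pow_le_pow_left h3 2).trans (Nat.pow_le_pow_right (by omega) hk')
              omega
            subst hm2
            obtain ⟨f, hb, hnd, hfix⟩ := TW2F (by omega) e' P' L (hL.le.trans hHW) hc
            exact bil f hb hnd hfix

/-- FINAL: the maximal subgroups of `SU_8(q)`. -/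
theorem finalU8 (hF : Fintype.card F = q ^ 2) (H : Subgroup (GL (Fin 8) F))
    (hH : IsMaximalIn (Cfsg.GU 8 F q ⊓ specialLinear (Fin 8) F) H) :
    (∃ W : Submodule F (Fin 8 → F), W ≠ ⊥ ∧ IsTotallySingularFor (Cfsg.hermForm 8 F q) W ∧ H = subspaceStabilizer W ⊓ (Cfsg.GU 8 F q ⊓ specialLinear (Fin 8) F)) ∨
    (∃ W : Submodule F (Fin 8 → F), W ≠ ⊥ ∧ IsNondegenerateOn (Cfsg.hermForm 8 F q) W ∧ 2 * Module.finrank F W < 8 ∧ H = subspaceStabilizer W ⊓ (Cfsg.GU 8 F q ⊓ specialLinear (Fin 8) F)) ∨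
    (∃ D : Fin 8 → Submodule F (Fin 8 → F), IsNondegenerateMDecomposition (Cfsg.hermForm 8 F q) 1 D ∧ H = decompositionStabilizer D ⊓ (Cfsg.GU 8 F q ⊓ specialLinear (Fin 8) F)) ∨
    (3 ≤ q ∧ ∃ D : Fin 4 → Submodule F (Fin 8 → F), IsNondegenerateMDecomposition (Cfsg.hermForm 8 F q) 2 D ∧ H = decompositionStabilizer D ⊓ (Cfsg.GU 8 F q ⊓ specialLinear (Fin 8) F)) ∨
    (∃ D : Fin 2 → Submodule F (Fin 8 → F), IsNondegenerateMDecomposition (Cfsg.hermForm 8 F q) 4 D ∧ H = decompositionStabilizer D ⊓ (Cfsg.GU 8 F q ⊓ specialLinear (Fin 8) F)) ∨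
    (∃ D : Fin 2 → Submodule F (Fin 8 → F), IsMDecomposition 4 D ∧ (∀ i, IsTotallySingularFor (Cfsg.hermForm 8 F q) (D i)) ∧ H = decompositionStabilizer D ⊓ (Cfsg.GU 8 F q ⊓ specialLinear (Fin 8) F)) ∨
    (3 ≤ q ∧ ∃ (e : Fin 8 ≃ Fin 2 × Fin 4) (P : GL (Fin 8) F) (f₁ : (Fin 2 → F) → (Fin 2 → F) → F) (f₂ : (Fin 4 → F) → (Fin 4 → F) → F), IsUnitaryFormPow q f₁ ∧ IsUnitaryFormPow q f₂ ∧ IsTensorFormStructure (fun x : F => x ^ q) (Cfsg.hermForm 8 F q) f₁ f₂ e P ∧ H = tensorProductSubgroup 2 4 e P ⊓ (Cfsg.GU 8 F q ⊓ specialLinear (Fin 8) F)) ∨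
    (∃ (F₀ : Subfield F) (r : ℕ) (P : GL (Fin 8) F), r.Prime ∧ Odd r ∧ Fintype.card F = Nat.card F₀ ^ r ∧ IsFormRationalStructure (Cfsg.hermForm 8 F q) F₀ 1 P ∧ H = subfieldSubgroup F₀ P ⊓ (Cfsg.GU 8 F q ⊓ specialLinear (Fin 8) F)) ∨
    (∃ (F₀ : Subfield F) (P : GL (Fin 8) F) (ζ : F), Fintype.card F = Nat.card F₀ ^ 2 ∧ ζ ≠ 0 ∧ ζ + ζ ^ q = 0 ∧ IsFormRationalStructure (Cfsg.hermForm 8 F q) F₀ ζ P ∧ (∀ u : Fin 8 → F, (∀ i, u i ∈ F₀) → (Cfsg.hermForm 8 F q) (Matrix.mulVec (P : Matrix (Fin 8) (Fin 8) F) u) (Matrix.mulVec (P : Matrix (Fin 8) (Fin 8) F) u) = 0) ∧ H = subfieldSubgroup F₀ P ⊓ (Cfsg.GU 8 F q ⊓ specialLinear (Fin 8) F)) ∨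
    (Odd q ∧ ∃ (F₀ : Subfield F) (P : GL (Fin 8) F), Fintype.card F = Nat.card F₀ ^ 2 ∧ IsFormRationalStructure (Cfsg.hermForm 8 F q) F₀ 1 P ∧ H = subfieldSubgroup F₀ P ⊓ (Cfsg.GU 8 F q ⊓ specialLinear (Fin 8) F)) ∨
    (∃ (p : ℕ) (R : Subgroup (GL (Fin 8) F)), p.Prime ∧ q = p ∧ p % 4 = 3 ∧ IsSymplecticTypeGroup 2 R ∧ ActsAbsolutelyIrreducibly (matrixSet R) ∧ R ≤ similarityGroup (Cfsg.hermForm 8 F q) ∧ Nat.card R = 256 ∧ Nat.card (Subgroup.center R) = 4 ∧ H = subgroupNormalizer R ⊓ (Cfsg.GU 8 F q ⊓ specialLinear (Fin 8) F)) ∨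
    InUnitaryResidualClass H := by
  classical
  have hHS : H ≤ Cfsg.GU 8 F q ⊓ specialLinear (Fin 8) F := hH.1.le
  have hHGU : H ≤ Cfsg.GU 8 F q := hHS.trans inf_le_left
  have hne : ∀ (F₀ : Subfield F) (r : ℕ), r.Prime → Fintype.card F = Nat.card F₀ ^ r →
      F₀ ≠ ⊤ := by
    intro F₁ r hr hcard htop
    rw [htop] at hcard
    have h1 : Nat.card (⊤ : Subfield F) = Fintype.card F := by
      rw [← Nat.card_eq_fintype_card]
      exact Nat.card_congr Subfield.topEquiv.toEquiv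
    rw [h1] at hcard
    have h2 : 1 < Fintype.card F := Fintype.one_lt_card
    have h3 : Fintype.card F ^ 1 < Fintype.card F ^ r :=
      Nat.pow_lt_pow_right h2 hr.one_lt
    rw [pow_one] at h3
    omega
  have hg := genU8 hF H hHGU
  unfold GenU8 at hg
  rcases hg with ⟨W, h0, hts, hle⟩ | ⟨W, h0, hnd, hdim, hle⟩ | ⟨D, hD, hle⟩ | ⟨hq, D, hD, hle⟩ |
    ⟨D, hD, hle⟩ | ⟨D, hD, hts, hle⟩ |
    ⟨hq, e, P, f₁, f₂, hf₁, hf₂, ht, hle⟩ | ⟨F₀, r, P, hr, hro, hcard, hrat, hle⟩ |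
    ⟨F₀, P, ζ, hcard, hζ, htr, hrat, hiso, hle⟩ | ⟨hqo, F₀, P, hcard, hrat, hle⟩ |
    ⟨p, e, R, hmin, hnp, hst, hRa, hRGU, hc, hns, hcardR, hcen, hle⟩ | hres
  · have htop : W ≠ ⊤ := by
      rintro rfl
      exact not_ts_top (by norm_num) hts
    exact Or.inl ⟨W, h0, hts, eq_inf_of_max hH hle (NU1 hF (by norm_num) W h0 htop)⟩
  · have htop : W ≠ ⊤ := by
      rintro rfl
      rw [finrank_top, Module.finrank_fin_fun] at hdim
      omega
    exact Or.inr (Or.inl ⟨W, h0, hnd, hdim,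
      eq_inf_of_max hH hle (NU1 hF (by norm_num) W h0 htop)⟩)
  · exact Or.inr (Or.inr (Or.inl ⟨D, hD, eq_inf_of_max hH hle (NU2 hF (by norm_num) D hD)⟩))
  · exact Or.inr (Or.inr (Or.inr (Or.inl ⟨hq, D, hD,
      eq_inf_of_max hH hle (NU2Q hF (by norm_num) D hD.decomp (by norm_num))⟩)))
  · exact Or.inr (Or.inr (Or.inr (Or.inr (Or.inl ⟨D, hD,
      eq_inf_of_max hH hle (NU2Q hF (by norm_num) D hD.decomp (by norm_num))⟩))))
  · exact Or.inr (Or.inr (Or.inr (Or.inr (Or.inr (Or.inl ⟨D, hD, hts,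
      eq_inf_of_max hH hle (NU2Q hF (by norm_num) D hD (by norm_num))⟩)))))
  · exact Or.inr (Or.inr (Or.inr (Or.inr (Or.inr (Or.inr (Or.inl
      ⟨hq, e, P, f₁, f₂, hf₁, hf₂, ht,
        eq_inf_of_max hH hle (NU4Q hF (by norm_num) (by norm_num) (by norm_num) e P)⟩))))))
  · exact Or.inr (Or.inr (Or.inr (Or.inr (Or.inr (Or.inr (Or.inr (Or.inl
      ⟨F₀, r, P, hr, hro, hcard, hrat,
        eq_inf_of_max hH hle (NU5 hF (by norm_num) F₀ (hne F₀ r hr hcard) P)⟩)))))))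
  · exact Or.inr (Or.inr (Or.inr (Or.inr (Or.inr (Or.inr (Or.inr (Or.inr (Or.inl
      ⟨F₀, P, ζ, hcard, hζ, htr, hrat, hiso,
        eq_inf_of_max hH hle (NU5 hF (by norm_num) F₀ (hne F₀ 2 Nat.prime_two hcard) P)⟩))))))))
  · exact Or.inr (Or.inr (Or.inr (Or.inr (Or.inr (Or.inr (Or.inr (Or.inr (Or.inr
      (Or.inl ⟨hqo, F₀, P, hcard, hrat,
        eq_inf_of_max hH hle (NU5 hF (by norm_num) F₀ (hne F₀ 2 Nat.prime_two hcard) P)⟩)))))))))
  · obtain ⟨hqp, hp4⟩ := AU4 hF p e hmin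
    have hu := U9 R 2 p hst.pGroup hmin.1 Nat.prime_two hmin.2.1 hnp
    exact Or.inr (Or.inr (Or.inr (Or.inr (Or.inr (Or.inr (Or.inr (Or.inr (Or.inr (Or.inr
      (Or.inl ⟨p, R, hmin.1, hqp, hp4, hst, hRa,
        hRGU.trans Cfsg.Agent.Lib.Helper71.SUPMain.GU_le_sim, hcardR, hcen,
        eq_inf_of_max hH hle (NU6 hF (by norm_num) R hRGU hc hns hu)⟩))))))))))
  · exact Or.inr (Or.inr (Or.inr (Or.inr (Or.inr (Or.inr (Or.inr (Or.inr (Or.inr (Or.inr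
      (Or.inr hres))))))))))

end Cfsg.Agent.Lib.Helper50.SU8Main
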