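import Mathlib

/-!
# `SL₂` calculus for S5060 (helper50)

Elementary matrices `uK a`, `lK b` of `SL₂(K)`, conjugation by an invertible `2 × 2` matrix as an
endomorphism of `SL₂(K)`, the subgroup of matrices with entries in a subfield, and the reduction
of "`H` contains all matrices with entries in `E`" to "`H` contains `uK a` for `a ∈ E`".
-/

set_option autoImplicit false

namespace Cfsg.Agent.Lib.Helper50.AG

section SL

variable {K : Type*} [Field K]

/-- upper unitriangular matrix -/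
def uK (a : K) : Matrix.SpecialLinearGroup (Fin 2) K :=
  ⟨!![1, a; 0, 1], by simp [Matrix.det_fin_two]⟩

/-- lower unitriangular matrix -/
def lK (b : K) : Matrix.SpecialLinearGroup (Fin 2) K :=
  ⟨!![1, 0; b, 1], by simp [Matrix.det_fin_two]⟩

theorem ext2 {g h : Matrix.SpecialLinearGroup (Fin 2) K} (h00 : g.1 0 0 = h.1 0 0)
    (h01 : g.1 0 1 = h.1 0 1) (h10 : g.1 1 0 = h.1 1 0) (h11 : g.1 1 1 = h.1 1 1) : g = h := by
  apply Subtype.ext
  ext i j
  fin_cases i <;> fin_cases j <;> assumption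

theorem mul00 (g h : Matrix.SpecialLinearGroup (Fin 2) K) :
    (g * h).1 0 0 = g.1 0 0 * h.1 0 0 + g.1 0 1 * h.1 1 0 := by
  show (g.1 * h.1) 0 0 = _
  rw [Matrix.mul_apply, Fin.sum_univ_two]

theorem mul01 (g h : Matrix.SpecialLinearGroup (Fin 2) K) :
    (g * h).1 0 1 = g.1 0 0 * h.1 0 1 + g.1 0 1 * h.1 1 1 := by
  show (g.1 * h.1) 0 1 = _
  rw [Matrix.mul_apply, Fin.sum_univ_two]

theorem mul10 (g h : Matrix.SpecialLinearGroup (Fin 2) K) :
    (g * h).1 1 0 = g.1 1 0 * h.1 0 0 + g.1 1 1 * h.1 1 0 := by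
  show (g.1 * h.1) 1 0 = _
  rw [Matrix.mul_apply, Fin.sum_univ_two]

theorem mul11 (g h : Matrix.SpecialLinearGroup (Fin 2) K) :
    (g * h).1 1 1 = g.1 1 0 * h.1 0 1 + g.1 1 1 * h.1 1 1 := by
  show (g.1 * h.1) 1 1 = _
  rw [Matrix.mul_apply, Fin.sum_univ_two]

theorem inv_val (g : Matrix.SpecialLinearGroup (Fin 2) K) :
    (g⁻¹).1 = !![g.1 1 1, -g.1 0 1; -g.1 1 0, g.1 0 0] := by
  show ((g⁻¹ : Matrix.SpecialLinearGroup (Fin 2) K) : Matrix (Fin 2) (Fin 2) K) = _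
  rw [Matrix.SpecialLinearGroup.coe_inv, Matrix.adjugate_fin_two]

theorem inv00 (g : Matrix.SpecialLinearGroup (Fin 2) K) : (g⁻¹).1 0 0 = g.1 1 1 := by
  rw [inv_val]; rfl

theorem inv01 (g : Matrix.SpecialLinearGroup (Fin 2) K) : (g⁻¹).1 0 1 = -g.1 0 1 := by
  rw [inv_val]; rfl

theorem inv10 (g : Matrix.SpecialLinearGroup (Fin 2) K) : (g⁻¹).1 1 0 = -g.1 1 0 := by
  rw [inv_val]; rfl

theorem inv11 (g : Matrix.SpecialLinearGroup (Fin 2) K) : (g⁻¹).1 1 1 = g.1 0 0 := by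
  rw [inv_val]; rfl

theorem det_eq (g : Matrix.SpecialLinearGroup (Fin 2) K) :
    g.1 0 0 * g.1 1 1 - g.1 0 1 * g.1 1 0 = 1 := by
  have h := g.2
  rw [Matrix.det_fin_two] at h
  exact h

theorem one00 : (1 : Matrix.SpecialLinearGroup (Fin 2) K).1 0 0 = 1 := rfl
theorem one01 : (1 : Matrix.SpecialLinearGroup (Fin 2) K).1 0 1 = 0 := rfl
theorem one10 : (1 : Matrix.SpecialLinearGroup (Fin 2) K).1 1 0 = 0 := rfl
theorem one11 : (1 : Matrix.SpecialLinearGroup (Fin 2) K).1 1 1 = 1 := rfl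

theorem uK00 (a : K) : (uK a).1 0 0 = 1 := rfl
theorem uK01 (a : K) : (uK a).1 0 1 = a := rfl
theorem uK10 (a : K) : (uK a).1 1 0 = 0 := rfl
theorem uK11 (a : K) : (uK a).1 1 1 = 1 := rfl
theorem lK00 (a : K) : (lK a).1 0 0 = 1 := rfl
theorem lK01 (a : K) : (lK a).1 0 1 = 0 := rfl
theorem lK10 (a : K) : (lK a).1 1 0 = a := rfl
theorem lK11 (a : K) : (lK a).1 1 1 = 1 := rfl

theorem uK_zero : uK (0 : K) = 1 := by
  apply ext2 <;> simp only [uK00, uK01, uK10, uK11, one00, one01, one10, one11]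

theorem uK_add (a b : K) : uK (a + b) = uK a * uK b := by
  apply ext2 <;> simp only [mul00, mul01, mul10, mul11, uK00, uK01, uK10, uK11] <;> ring

theorem uK_neg (a : K) : uK (-a) = (uK a)⁻¹ := by
  rw [eq_inv_iff_mul_eq_one, ← uK_add, neg_add_cancel, uK_zero]

theorem uK_sub (a b : K) : uK (a - b) = uK a * (uK b)⁻¹ := by
  rw [sub_eq_add_neg, uK_add, uK_neg]

theorem lK_zero : lK (0 : K) = 1 := by
  apply ext2 <;> simp only [lK00, lK01, lK10, lK11, one00, one01, one10, one11]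

theorem lK_add (a b : K) : lK (a + b) = lK a * lK b := by
  apply ext2 <;> simp only [mul00, mul01, mul10, mul11, lK00, lK01, lK10, lK11] <;> ring

theorem lK_neg (a : K) : lK (-a) = (lK a)⁻¹ := by
  rw [eq_inv_iff_mul_eq_one, ← lK_add, neg_add_cancel, lK_zero]

/-- conjugation by an invertible matrix, as an endomorphism of `SL₂(K)` -/
def cj (P Q : Matrix (Fin 2) (Fin 2) K) (h1 : P * Q = 1) (h2 : Q * P = 1) :
    Matrix.SpecialLinearGroup (Fin 2) K →* Matrix.SpecialLinearGroup (Fin 2) K where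
  toFun g := ⟨P * g.1 * Q, by
    rw [Matrix.det_mul, Matrix.det_mul, mul_right_comm, ← Matrix.det_mul, h1, Matrix.det_one,
      one_mul, g.2]⟩
  map_one' := by
    apply Subtype.ext
    show P * (1 : Matrix (Fin 2) (Fin 2) K) * Q = 1
    rw [Matrix.mul_one, h1]
  map_mul' g h := by
    apply Subtype.ext
    show P * (g.1 * h.1) * Q = (P * g.1 * Q) * (P * h.1 * Q)
    simp only [Matrix.mul_assoc]
    rw [← Matrix.mul_assoc Q P, h2, Matrix.one_mul]

theorem cj_val (P Q : Matrix (Fin 2) (Fin 2) K) (h1 : P * Q = 1) (h2 : Q * P = 1)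
    (g : Matrix.SpecialLinearGroup (Fin 2) K) : (cj P Q h1 h2 g).1 = P * g.1 * Q := rfl

/-- conjugation by `diag(s, 1)` -/
def dK (s : K) (hs : s ≠ 0) :
    Matrix.SpecialLinearGroup (Fin 2) K →* Matrix.SpecialLinearGroup (Fin 2) K :=
  cj !![s, 0; 0, 1] !![s⁻¹, 0; 0, 1]
    (by
      ext i j
      fin_cases i <;> fin_cases j <;> simp [Matrix.mul_apply, Fin.sum_univ_two, hs])
    (by
      ext i j
      fin_cases i <;> fin_cases j <;> simp [Matrix.mul_apply, Fin.sum_univ_two, hs])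

/-- conjugation by `[0, 1; α, 0]` -/
def wK (α : K) (hα : α ≠ 0) :
    Matrix.SpecialLinearGroup (Fin 2) K →* Matrix.SpecialLinearGroup (Fin 2) K :=
  cj !![0, 1; α, 0] !![0, α⁻¹; 1, 0]
    (by
      ext i j
      fin_cases i <;> fin_cases j <;> simp [Matrix.mul_apply, Fin.sum_univ_two, hα])
    (by
      ext i j
      fin_cases i <;> fin_cases j <;> simp [Matrix.mul_apply, Fin.sum_univ_two, hα])

theorem dK_uK (s : K) (hs : s ≠ 0) (t : K) : dK s hs (uK t) = uK (s * t) := by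
  apply Subtype.ext
  show !![s, 0; 0, 1] * !![1, t; 0, 1] * !![s⁻¹, 0; 0, 1] = !![1, s * t; 0, 1]
  ext i j
  fin_cases i <;> fin_cases j <;> simp [Matrix.mul_apply, Fin.sum_univ_two, hs]

theorem dK_lK (s : K) (hs : s ≠ 0) (t : K) : dK s hs (lK t) = lK (t / s) := by
  apply Subtype.ext
  show !![s, 0; 0, 1] * !![1, 0; t, 1] * !![s⁻¹, 0; 0, 1] = !![1, 0; t / s, 1]
  ext i j
  fin_cases i <;> fin_cases j <;>
    simp [Matrix.mul_apply, Fin.sum_univ_two, hs, div_eq_mul_inv]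

theorem wK_uK (α : K) (hα : α ≠ 0) (t : K) : wK α hα (uK t) = lK (α * t) := by
  apply Subtype.ext
  show !![0, 1; α, 0] * !![1, t; 0, 1] * !![0, α⁻¹; 1, 0] = !![1, 0; α * t, 1]
  ext i j
  fin_cases i <;> fin_cases j <;> simp [Matrix.mul_apply, Fin.sum_univ_two, hα]

theorem wK_lK (α : K) (hα : α ≠ 0) (t : K) : wK α hα (lK t) = uK (t * α⁻¹) := by
  apply Subtype.ext
  show !![0, 1; α, 0] * !![1, 0; t, 1] * !![0, α⁻¹; 1, 0] = !![1, t * α⁻¹; 0, 1]
  ext i j
  fin_cases i <;> fin_cases j <;> simp [Matrix.mul_apply, Fin.sum_univ_two, hα]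

/-- the subgroup of matrices with entries in a subfield -/
def entSub (E : Subfield K) : Subgroup (Matrix.SpecialLinearGroup (Fin 2) K) where
  carrier := {g | ∀ i j, g.1 i j ∈ E}
  one_mem' := by
    intro i j
    show (1 : Matrix (Fin 2) (Fin 2) K) i j ∈ E
    rw [Matrix.one_apply]
    split_ifs
    · exact E.one_mem
    · exact E.zero_mem
  mul_mem' := by
    intro g h hg hh i j
    show (g.1 * h.1) i j ∈ E
    rw [Matrix.mul_apply]
    exact sum_mem (fun l _ => E.mul_mem (hg i l) (hh l j))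
  inv_mem' := by
    intro g hg i j
    rw [inv_val]
    fin_cases i <;> fin_cases j
    · exact hg 1 1
    · exact E.neg_mem (hg 0 1)
    · exact E.neg_mem (hg 1 0)
    · exact hg 0 0

theorem mem_entSub (E : Subfield K) (g : Matrix.SpecialLinearGroup (Fin 2) K) :
    g ∈ entSub E ↔ ∀ i j, g.1 i j ∈ E := Iff.rfl

theorem uK_mem_entSub (E : Subfield K) {a : K} (ha : a ∈ E) : uK a ∈ entSub E := by
  intro i j
  fin_cases i <;> fin_cases j
  · exact E.one_mem
  · exact ha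
  · exact E.zero_mem
  · exact E.one_mem

theorem lK_mem_entSub (E : Subfield K) {a : K} (ha : a ∈ E) : lK a ∈ entSub E := by
  intro i j
  fin_cases i <;> fin_cases j
  · exact E.one_mem
  · exact E.zero_mem
  · exact ha
  · exact E.one_mem

theorem mem_of_entries_ne (E : Subfield K) (H : Subgroup (Matrix.SpecialLinearGroup (Fin 2) K))
    (hU : ∀ a ∈ E, uK a ∈ H) (hL : ∀ b ∈ E, lK b ∈ H)
    (g : Matrix.SpecialLinearGroup (Fin 2) K) (hg : ∀ i j, g.1 i j ∈ E) (hc : g.1 1 0 ≠ 0) :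
    g ∈ H := by
  have e : g = uK ((g.1 0 0 - 1) / g.1 1 0) * lK (g.1 1 0) * uK ((g.1 1 1 - 1) / g.1 1 0) := by
    have hd := det_eq g
    apply ext2 <;>
      simp only [mul00, mul01, mul10, mul11, uK00, uK01, uK10, uK11, lK00, lK01, lK10, lK11]
    · field_simp
      ring
    · field_simp
      linear_combination (-1 : K) * hd
    · ring
    · field_simp
      ring
  rw [e]
  exact H.mul_mem (H.mul_mem
    (hU _ (E.div_mem (E.sub_mem (hg 0 0) E.one_mem) (hg 1 0))) (hL _ (hg 1 0)))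
    (hU _ (E.div_mem (E.sub_mem (hg 1 1) E.one_mem) (hg 1 0)))

theorem mem_of_entries (E : Subfield K) (H : Subgroup (Matrix.SpecialLinearGroup (Fin 2) K))
    (hU : ∀ a ∈ E, uK a ∈ H) (hL : ∀ b ∈ E, lK b ∈ H)
    (g : Matrix.SpecialLinearGroup (Fin 2) K) (hg : ∀ i j, g.1 i j ∈ E) : g ∈ H := by
  by_cases hc : g.1 1 0 = 0
  · have h00 : g.1 0 0 ≠ 0 := by
      intro h
      have hd := det_eq g
      rw [h, hc] at hd
      simp at hd
    have h1 : lK 1 * g ∈ H := by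
      apply mem_of_entries_ne E H hU hL
      · exact (entSub E).mul_mem (lK_mem_entSub E E.one_mem) hg
      · rw [mul10, lK10, lK11, hc]
        simpa using h00
    have h2 : g = (lK 1)⁻¹ * (lK 1 * g) := by group
    rw [h2]
    exact H.mul_mem (H.inv_mem (hL 1 E.one_mem)) h1
  · exact mem_of_entries_ne E H hU hL g hg hc

theorem sq_mul_mem (H : Subgroup (Matrix.SpecialLinearGroup (Fin 2) K))
    (g : Matrix.SpecialLinearGroup (Fin 2) K) (hg : g ∈ H) (h10 : g.1 1 0 = 0) (a : K)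
    (ha : uK a ∈ H) : uK (g.1 0 0 ^ 2 * a) ∈ H := by
  have e : uK (g.1 0 0 ^ 2 * a) = g * uK a * g⁻¹ := by
    rw [eq_mul_inv_iff_mul_eq]
    have hd := det_eq g
    rw [h10] at hd
    apply ext2 <;>
      simp only [mul00, mul01, mul10, mul11, uK00, uK01, uK10, uK11, h10]
    · ring
    · linear_combination (g.1 0 0 * a) * hd
    · ring
    · ring
  rw [e]
  exact H.mul_mem (H.mul_mem hg ha) (H.inv_mem hg)

theorem col_scale (H : Subgroup (Matrix.SpecialLinearGroup (Fin 2) K))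
    (g₁ g₂ : Matrix.SpecialLinearGroup (Fin 2) K) (h₁ : g₁ ∈ H) (h₂ : g₂ ∈ H) (x : K)
    (h0 : g₂.1 0 0 = x * g₁.1 0 0) (h1 : g₂.1 1 0 = x * g₁.1 1 0) :
    ∃ g ∈ H, g.1 1 0 = 0 ∧ g.1 0 0 = x := by
  refine ⟨g₁⁻¹ * g₂, H.mul_mem (H.inv_mem h₁) h₂, ?_, ?_⟩
  · rw [mul10, inv10, inv11, h0, h1]
    ring
  · rw [mul00, inv00, inv01, h0, h1]
    linear_combination x * det_eq g₁

theorem all_U_of_scale (E : Subfield K) (H : Subgroup (Matrix.SpecialLinearGroup (Fin 2) K))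
    (h2 : (2 : K) ≠ 0) (hU1 : uK (1 : K) ∈ H)
    (hstar : ∀ x ∈ E, x ≠ 0 → ∃ g ∈ H, g.1 1 0 = 0 ∧ g.1 0 0 = x) :
    ∀ a ∈ E, uK a ∈ H := by
  have hsq : ∀ x ∈ E, uK (x ^ 2) ∈ H := by
    intro x hx
    by_cases hx0 : x = 0
    · rw [hx0]
      simp only [ne_eq, OfNat.ofNat_ne_zero, not_false_eq_true, zero_pow, uK_zero]
      exact H.one_mem
    · obtain ⟨g, hg, h10, h00⟩ := hstar x hx hx0
      have h := sq_mul_mem H g hg h10 1 hU1
      rw [h00, mul_one] at h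
      exact h
  have h2E : (2 : K) ∈ E := by
    rw [← one_add_one_eq_two]
    exact E.add_mem E.one_mem E.one_mem
  intro a ha
  have e : a = ((a + 1) / 2) ^ 2 - ((a - 1) / 2) ^ 2 := by
    field_simp
    ring
  rw [e, uK_sub]
  exact H.mul_mem (hsq _ (E.div_mem (E.add_mem ha E.one_mem) h2E))
    (H.inv_mem (hsq _ (E.div_mem (E.sub_mem ha E.one_mem) h2E)))

end SL

end Cfsg.Agent.Lib.Helper50.AG
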