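import Mathlib

/-!
# A fraction-free Euclidean recursion (helper50)

Pure polynomial algebra used for S5060 (generation of `SL₂(k(α))` by `U(k)` and `L(kα)`):
the recursion `s1, s2, s3` on triples `(P, Q, d)`, the "discriminant" `Del`, its naturality
under ring homomorphisms, homogeneity, a good point, and the line argument over an infinite
field.
-/

set_option autoImplicit false

namespace Cfsg.Agent.Lib.Helper50.AG

open Polynomial

section Rec

variable {R : Type*} [CommRing R]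

/-- all coefficients from `j` on vanish -/
def Low (j : ℕ) (P : R[X]) : Prop := ∀ m, j ≤ m → P.coeff m = 0

theorem low_zero_eq {P : R[X]} (h : Low 0 P) : P = 0 := by
  ext m
  rw [h m (Nat.zero_le m), coeff_zero]

theorem low_zero (j : ℕ) : Low j (0 : R[X]) := fun m _ => coeff_zero m

theorem Low.mono {j : ℕ} {P : R[X]} (h : Low j P) : Low (j + 1) P :=
  fun m hm => h m (by omega)

theorem Low.add {j : ℕ} {P Q : R[X]} (hP : Low j P) (hQ : Low j Q) : Low j (P + Q) := by
  intro m hm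
  rw [coeff_add, hP m hm, hQ m hm, add_zero]

theorem Low.sub {j : ℕ} {P Q : R[X]} (hP : Low j P) (hQ : Low j Q) : Low j (P - Q) := by
  intro m hm
  rw [coeff_sub, hP m hm, hQ m hm, sub_zero]

theorem Low.C_mul {j : ℕ} {P : R[X]} (hP : Low j P) (a : R) : Low j (C a * P) := by
  intro m hm
  rw [coeff_C_mul, hP m hm, mul_zero]

theorem Low.C_add_X_mul {j : ℕ} {P : R[X]} (hP : Low j P) (a : R) :
    Low (j + 1) (C a + X * P) := by
  intro m hm
  obtain ⟨m', rfl⟩ : ∃ m', m = m' + 1 := ⟨m - 1, by omega⟩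
  rw [coeff_add, coeff_C_succ, coeff_X_mul, hP m' (by omega), add_zero]

/-- the first elimination -/
noncomputable def sP (j : ℕ) (P Q : R[X]) : R[X] := C (Q.coeff j) * P - C (P.coeff j) * Q

/-- the polynomial representing `1 + α p'` -/
noncomputable def sN (j : ℕ) (P Q : R[X]) (d : R) : R[X] := C (d * Q.coeff j) + X * sP j P Q

/-- its leading coefficient -/
noncomputable def sM (j : ℕ) (P Q : R[X]) (d : R) : R := (sN j P Q d).coeff j

/-- the new `P` -/
noncomputable def s1 (j : ℕ) (P Q : R[X]) (d : R) : R[X] := C (sM j P Q d) * sP j P Q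

/-- the new `Q` -/
noncomputable def s2 (j : ℕ) (P Q : R[X]) (d : R) : R[X] :=
  C (Q.coeff j) * (C (sM j P Q d) * Q - C (Q.coeff j) * sN j P Q d)

/-- the new denominator -/
noncomputable def s3 (j : ℕ) (P Q : R[X]) (d : R) : R := d * Q.coeff j * sM j P Q d

/-- the discriminant of the recursion -/
noncomputable def Del : ℕ → R[X] → R[X] → R → R
  | 0, _, _, d => d
  | (j + 1), P, Q, d => Del j (s1 j P Q d) (s2 j P Q d) (s3 j P Q d)

theorem del_zero (P Q : R[X]) (d : R) : Del 0 P Q d = d := rfl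

theorem del_succ (j : ℕ) (P Q : R[X]) (d : R) :
    Del (j + 1) P Q d = Del j (s1 j P Q d) (s2 j P Q d) (s3 j P Q d) := rfl

theorem low_sP {j : ℕ} {P Q : R[X]} (hP : Low (j + 1) P) (hQ : Low (j + 1) Q) :
    Low j (sP j P Q) := by
  intro m hm
  rw [sP, coeff_sub, coeff_C_mul, coeff_C_mul]
  rcases Nat.eq_or_lt_of_le hm with h | h
  · subst h
    ring
  · rw [hP m (by omega), hQ m (by omega)]
    ring

theorem low_sN {j : ℕ} {P Q : R[X]} (hP : Low (j + 1) P) (hQ : Low (j + 1) Q) (d : R) :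
    Low (j + 1) (sN j P Q d) :=
  (low_sP hP hQ).C_add_X_mul _

theorem low_s1 {j : ℕ} {P Q : R[X]} (hP : Low (j + 1) P) (hQ : Low (j + 1) Q) (d : R) :
    Low j (s1 j P Q d) :=
  (low_sP hP hQ).C_mul _

theorem low_s2 {j : ℕ} {P Q : R[X]} (hP : Low (j + 1) P) (hQ : Low (j + 1) Q) (d : R) :
    Low j (s2 j P Q d) := by
  intro m hm
  rw [s2, coeff_C_mul, coeff_sub, coeff_C_mul, coeff_C_mul]
  rcases Nat.eq_or_lt_of_le hm with h | h
  · subst h
    rw [sM]
    ring
  · rw [hQ m (by omega), low_sN hP hQ d m (by omega)]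
    ring

/-! ### naturality -/

variable {S : Type*} [CommRing S] (φ : R →+* S)

theorem sP_map (j : ℕ) (P Q : R[X]) : sP j (P.map φ) (Q.map φ) = (sP j P Q).map φ := by
  simp only [sP, coeff_map, Polynomial.map_sub, Polynomial.map_mul, map_C]

theorem sN_map (j : ℕ) (P Q : R[X]) (d : R) :
    sN j (P.map φ) (Q.map φ) (φ d) = (sN j P Q d).map φ := by
  simp only [sN, sP_map, coeff_map, Polynomial.map_add, Polynomial.map_mul, map_C, map_X,
    map_mul]

theorem sM_map (j : ℕ) (P Q : R[X]) (d : R) :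
    sM j (P.map φ) (Q.map φ) (φ d) = φ (sM j P Q d) := by
  simp only [sM, sN_map, coeff_map]

theorem s1_map (j : ℕ) (P Q : R[X]) (d : R) :
    s1 j (P.map φ) (Q.map φ) (φ d) = (s1 j P Q d).map φ := by
  simp only [s1, sM_map, sP_map, Polynomial.map_mul, map_C]

theorem s2_map (j : ℕ) (P Q : R[X]) (d : R) :
    s2 j (P.map φ) (Q.map φ) (φ d) = (s2 j P Q d).map φ := by
  simp only [s2, sM_map, sN_map, coeff_map, Polynomial.map_mul, Polynomial.map_sub, map_C]

theorem s3_map (j : ℕ) (P Q : R[X]) (d : R) :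
    s3 j (P.map φ) (Q.map φ) (φ d) = φ (s3 j P Q d) := by
  simp only [s3, sM_map, coeff_map, map_mul]

theorem del_map (j : ℕ) (P Q : R[X]) (d : R) :
    Del j (P.map φ) (Q.map φ) (φ d) = φ (Del j P Q d) := by
  induction j generalizing P Q d with
  | zero => rfl
  | succ j ih =>
    rw [del_succ, del_succ, s1_map, s2_map, s3_map, ih]

/-! ### homogeneity -/

theorem sP_smul (j : ℕ) (s : R) (P Q : R[X]) :
    sP j (C s * P) (C s * Q) = C (s ^ 2) * sP j P Q := by
  simp only [sP, coeff_C_mul, C_mul, C_pow]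
  ring

theorem sN_smul (j : ℕ) (s : R) (P Q : R[X]) (d : R) :
    sN j (C s * P) (C s * Q) (s * d) = C (s ^ 2) * sN j P Q d := by
  simp only [sN, sP_smul, coeff_C_mul, C_mul, C_pow]
  ring

theorem sM_smul (j : ℕ) (s : R) (P Q : R[X]) (d : R) :
    sM j (C s * P) (C s * Q) (s * d) = s ^ 2 * sM j P Q d := by
  simp only [sM, sN_smul, coeff_C_mul]

theorem s1_smul (j : ℕ) (s : R) (P Q : R[X]) (d : R) :
    s1 j (C s * P) (C s * Q) (s * d) = C (s ^ 4) * s1 j P Q d := by
  simp only [s1, sM_smul, sP_smul, C_mul, C_pow]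
  ring

theorem s2_smul (j : ℕ) (s : R) (P Q : R[X]) (d : R) :
    s2 j (C s * P) (C s * Q) (s * d) = C (s ^ 4) * s2 j P Q d := by
  simp only [s2, sM_smul, sN_smul, coeff_C_mul, C_mul, C_pow]
  ring

theorem s3_smul (j : ℕ) (s : R) (P Q : R[X]) (d : R) :
    s3 j (C s * P) (C s * Q) (s * d) = s ^ 4 * s3 j P Q d := by
  simp only [s3, sM_smul, coeff_C_mul]
  ring

theorem del_smul (j : ℕ) (s : R) (P Q : R[X]) (d : R) :
    Del j (C s * P) (C s * Q) (s * d) = s ^ (4 ^ j) * Del j P Q d := by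
  induction j generalizing s P Q d with
  | zero => simp [del_zero]
  | succ j ih =>
    rw [del_succ, del_succ, s1_smul, s2_smul, s3_smul, ih, ← pow_mul, ← pow_succ']

theorem del_d_zero (j : ℕ) (P Q : R[X]) : Del j P Q 0 = 0 := by
  induction j generalizing P Q with
  | zero => rfl
  | succ j ih =>
    rw [del_succ]
    have : s3 j P Q 0 = 0 := by simp [s3]
    rw [this, ih]

theorem d_ne_zero_of_del {j : ℕ} {P Q : R[X]} {d : R} (h : Del j P Q d ≠ 0) : d ≠ 0 := by
  rintro rfl
  exact h (del_d_zero j P Q)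

end Rec

section Good

variable (k : Type*) [Field k]

/-- a point of level `j` where the recursion runs to the end -/
theorem exists_good (j : ℕ) :
    ∃ P Q : k[X], Low j P ∧ Low j Q ∧ (C 1 + X * P).coeff j ≠ 0 ∧ Del j P Q 1 ≠ 0 := by
  induction j with
  | zero =>
    refine ⟨0, 0, low_zero 0, low_zero 0, ?_, ?_⟩
    · simp
    · rw [del_zero]
      exact one_ne_zero
  | succ j ih =>
    obtain ⟨P', Q', hP', hQ', hμ, hD⟩ := ih
    obtain ⟨μ, hμd⟩ : ∃ μ : k, μ = (C 1 + X * P').coeff j := ⟨_, rfl⟩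
    rw [← hμd] at hμ
    obtain ⟨Q, hQd⟩ : ∃ Q : k[X], Q = Q' + (C 1 + X * P') := ⟨_, rfl⟩
    obtain ⟨P, hPd⟩ : ∃ P : k[X], P = P' + Q := ⟨_, rfl⟩
    have hQl : Low (j + 1) Q := by
      rw [hQd]
      exact hQ'.mono.add (hP'.C_add_X_mul 1)
    have hPl : Low (j + 1) P := by
      rw [hPd]
      exact hP'.mono.add hQl
    have hQj : Q.coeff j = μ := by
      rw [hQd, coeff_add, hQ' j le_rfl, zero_add, hμd]
    have hPj : P.coeff j = μ := by
      rw [hPd, coeff_add, hP' j le_rfl, zero_add, hQj]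
    have h1 : sP j P Q = C μ * P' := by
      rw [sP, hQj, hPj, hPd]
      ring
    have h2 : sN j P Q 1 = C μ * (C 1 + X * P') := by
      rw [sN, h1, hQj, one_mul]
      simp only [C_1]
      ring
    have h3 : sM j P Q 1 = μ * μ := by
      rw [sM, h2, coeff_C_mul, ← hμd]
    have e1 : s1 j P Q 1 = C (μ ^ 3) * P' := by
      rw [s1, h3, h1]
      simp only [C_mul, C_pow]
      ring
    have e2 : s2 j P Q 1 = C (μ ^ 3) * Q' := by
      rw [s2, h3, h2, hQj, hQd]
      simp only [C_mul, C_pow]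
      ring
    have e3 : s3 j P Q 1 = μ ^ 3 * 1 := by
      rw [s3, h3, hQj]
      ring
    refine ⟨P, Q, hPl, hQl, ?_, ?_⟩
    · rw [coeff_add, coeff_C_succ, coeff_X_mul, zero_add, hPj]
      exact hμ
    · rw [del_succ, e1, e2, e3, del_smul]
      exact mul_ne_zero (pow_ne_zero _ (pow_ne_zero _ hμ)) hD

/-- the discriminant along a line is a polynomial function of the parameter -/
theorem del_line (j : ℕ) (P₀ P₁ Q₀ Q₁ : k[X]) (d₀ d₁ : k) :
    ∃ δ : k[X], ∀ t : k,
      δ.eval t = Del j (P₀ + C t * P₁) (Q₀ + C t * Q₁) (d₀ + t * d₁) := by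
  refine ⟨Del j (P₀.map C + C (X : k[X]) * P₁.map C) (Q₀.map C + C (X : k[X]) * Q₁.map C)
    (C d₀ + X * C d₁), fun t => ?_⟩
  have hc : (evalRingHom t).comp (C : k →+* k[X]) = RingHom.id k := by
    ext a
    simp
  have h := del_map (evalRingHom t) j (P₀.map C + C (X : k[X]) * P₁.map C)
    (Q₀.map C + C (X : k[X]) * Q₁.map C) (C d₀ + X * C d₁)
  rw [coe_evalRingHom] at h
  rw [← h]
  congr 1
  · rw [Polynomial.map_add, Polynomial.map_mul, Polynomial.map_map, Polynomial.map_map, hc,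
      Polynomial.map_id, Polynomial.map_id, map_C, coe_evalRingHom, eval_X]
  · rw [Polynomial.map_add, Polynomial.map_mul, Polynomial.map_map, Polynomial.map_map, hc,
      Polynomial.map_id, Polynomial.map_id, map_C, coe_evalRingHom, eval_X]
  · rw [eval_add, eval_mul, eval_C, eval_C, eval_X]

theorem exists_both [Infinite k] (δA δB : k[X]) (hA : δA.eval 0 ≠ 0) (hB : δB.eval 1 ≠ 0) :
    ∃ t : k, δA.eval t ≠ 0 ∧ δB.eval t ≠ 0 := by
  by_contra h
  push Not at h
  have h0 : δA * δB = 0 := by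
    apply Polynomial.funext
    intro r
    rw [eval_mul, eval_zero]
    by_cases hr : δA.eval r = 0
    · rw [hr, zero_mul]
    · rw [h r hr, mul_zero]
  rcases mul_eq_zero.mp h0 with h1 | h1
  · exact hA (by rw [h1, eval_zero])
  · exact hB (by rw [h1, eval_zero])

end Good

end Cfsg.Agent.Lib.Helper50.AG
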