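import Cfsg.Agent.Lib.Helper50.AlgGenB

/-!
# Soundness of the fraction-free recursion for orbit sets (helper50)

`O ⊆ K × K` is an abstract set containing `(1, 0)` and closed under the two elementary moves
`(v₀, v₁) ↦ (v₀ + c v₁, v₁)` and `(v₀, v₁) ↦ (v₀, v₁ + c α v₀)` (`c ∈ k`).  We show that it
contains `(1 + α P(α)/d, α Q(α)/d)` whenever the recursion runs through, and, for infinite `k`
and algebraic `α`, that for every `x ∈ k(α)ˣ` there is `v ∈ O` with `x v ∈ O`.
-/

set_option autoImplicit false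

namespace Cfsg.Agent.Lib.Helper50.AG

open Polynomial

section Sound

variable {k K : Type*} [Field k] [Field K] [Algebra k K]

theorem vec_step (α p q D A B M : K) (hD : D ≠ 0) (hB : B ≠ 0) (hM : M ≠ 0) :
    (1 + α * (M * (B * p - A * q)) / (D * B * M)) +
        A / B * (α * (B * (M * q - B * (D * B + α * (B * p - A * q)))) / (D * B * M) +
          B ^ 2 / M * α * (1 + α * (M * (B * p - A * q)) / (D * B * M))) = 1 + α * p / D ∧
      α * (B * (M * q - B * (D * B + α * (B * p - A * q)))) / (D * B * M) +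
          B ^ 2 / M * α * (1 + α * (M * (B * p - A * q)) / (D * B * M)) = α * q / D := by
  constructor
  · field_simp
    ring
  · field_simp
    ring

theorem sound_step (α : K) (O : Set (K × K))
    (hU : ∀ (c : k) (v : K × K), v ∈ O → (v.1 + algebraMap k K c * v.2, v.2) ∈ O)
    (hL : ∀ (c : k) (v : K × K), v ∈ O → (v.1, v.2 + algebraMap k K c * α * v.1) ∈ O)
    (a b : k) (p' q' D' p q D : K) (hv : (1 + α * p' / D', α * q' / D') ∈ O)
    (h1 : 1 + α * p' / D' + algebraMap k K a *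
      (α * q' / D' + algebraMap k K b * α * (1 + α * p' / D')) = 1 + α * p / D)
    (h2 : α * q' / D' + algebraMap k K b * α * (1 + α * p' / D') = α * q / D) :
    (1 + α * p / D, α * q / D) ∈ O := by
  have h := hU a _ (hL b _ hv)
  rw [← h1, ← h2]
  exact h

theorem sound (α : K) (O : Set (K × K)) (h1 : ((1 : K), (0 : K)) ∈ O)
    (hU : ∀ (c : k) (v : K × K), v ∈ O → (v.1 + algebraMap k K c * v.2, v.2) ∈ O)
    (hL : ∀ (c : k) (v : K × K), v ∈ O → (v.1, v.2 + algebraMap k K c * α * v.1) ∈ O)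
    (j : ℕ) (P Q : k[X]) (d : k) (hP : Low j P) (hQ : Low j Q) (hD : Del j P Q d ≠ 0) :
    (1 + α * aeval α P / algebraMap k K d, α * aeval α Q / algebraMap k K d) ∈ O := by
  induction j generalizing P Q d with
  | zero =>
    rw [low_zero_eq hP, low_zero_eq hQ]
    simpa using h1
  | succ j ih =>
    rw [del_succ] at hD
    have hd' := d_ne_zero_of_del hD
    have hd : d ≠ 0 := by
      rintro rfl
      exact hd' (by simp [s3])
    have hq : Q.coeff j ≠ 0 := by
      intro h
      exact hd' (by simp [s3, h])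
    have hm : sM j P Q d ≠ 0 := by
      intro h
      exact hd' (by simp [s3, h])
    have hv := ih (s1 j P Q d) (s2 j P Q d) (s3 j P Q d) (low_s1 hP hQ d) (low_s2 hP hQ d) hD
    have inj : ∀ c : k, c ≠ 0 → algebraMap k K c ≠ 0 := fun c hc =>
      (map_ne_zero (algebraMap k K)).mpr hc
    have key := vec_step α (aeval α P) (aeval α Q) (algebraMap k K d)
      (algebraMap k K (P.coeff j)) (algebraMap k K (Q.coeff j)) (algebraMap k K (sM j P Q d))
      (inj _ hd) (inj _ hq) (inj _ hm)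
    have e1 : aeval α (s1 j P Q d) = algebraMap k K (sM j P Q d) *
        (algebraMap k K (Q.coeff j) * aeval α P - algebraMap k K (P.coeff j) * aeval α Q) := by
      simp only [s1, sP, map_mul, map_sub, aeval_C]
    have e2 : aeval α (s2 j P Q d) = algebraMap k K (Q.coeff j) *
        (algebraMap k K (sM j P Q d) * aeval α Q - algebraMap k K (Q.coeff j) *
          (algebraMap k K d * algebraMap k K (Q.coeff j) + α *
            (algebraMap k K (Q.coeff j) * aeval α P
              - algebraMap k K (P.coeff j) * aeval α Q))) := by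
      simp only [s2, sN, sP, map_mul, map_sub, map_add, aeval_C, aeval_X]
    have e3 : algebraMap k K (s3 j P Q d) = algebraMap k K d * algebraMap k K (Q.coeff j) *
        algebraMap k K (sM j P Q d) := by
      simp only [s3, map_mul]
    have e4 : algebraMap k K (P.coeff j / Q.coeff j)
        = algebraMap k K (P.coeff j) / algebraMap k K (Q.coeff j) := map_div₀ _ _ _
    have e5 : algebraMap k K (Q.coeff j ^ 2 / sM j P Q d)
        = algebraMap k K (Q.coeff j) ^ 2 / algebraMap k K (sM j P Q d) := by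
      rw [map_div₀, map_pow]
    refine sound_step α O hU hL (P.coeff j / Q.coeff j) (Q.coeff j ^ 2 / sM j P Q d)
      _ _ _ _ _ _ hv ?_ ?_
    · rw [e1, e2, e3, e4, e5]
      exact key.1
    · rw [e1, e2, e3, e5]
      exact key.2

theorem aeval_mem_adjoin (α : K) (P : k[X]) :
    aeval α P ∈ IntermediateField.adjoin k ({α} : Set K) :=
  IntermediateField.algebra_adjoin_le_adjoin k _ (aeval_mem_adjoin_singleton k α)

theorem exists_scaled [Infinite k] (α : K) (hα : IsIntegral k α) (hα0 : α ≠ 0)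
    (O : Set (K × K)) (h1 : ((1 : K), (0 : K)) ∈ O)
    (hU : ∀ (c : k) (v : K × K), v ∈ O → (v.1 + algebraMap k K c * v.2, v.2) ∈ O)
    (hL : ∀ (c : k) (v : K × K), v ∈ O → (v.1, v.2 + algebraMap k K c * α * v.1) ∈ O)
    (x : K) (hx : x ∈ IntermediateField.adjoin k ({α} : Set K)) (hx0 : x ≠ 0) :
    ∃ v ∈ O, (x * v.1, x * v.2) ∈ O := by
  obtain ⟨n, hn⟩ : ∃ n, n = (minpoly k α).natDegree := ⟨_, rfl⟩
  have repr : ∀ y ∈ IntermediateField.adjoin k ({α} : Set K),
      ∃ R : k[X], Low n R ∧ aeval α R = y := by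
    intro y hy
    have hy' : y ∈ (IntermediateField.adjoin k ({α} : Set K)).toSubalgebra := hy
    rw [IntermediateField.adjoin_simple_toSubalgebra_of_isAlgebraic hα.isAlgebraic,
      Algebra.adjoin_singleton_eq_range_aeval] at hy'
    obtain ⟨R₀, rfl⟩ := hy'
    refine ⟨R₀ %ₘ minpoly k α, ?_, minpoly.aeval_modByMonic_minpoly R₀ α⟩
    intro m hm
    apply coeff_eq_zero_of_degree_lt
    calc (R₀ %ₘ minpoly k α).degree < (minpoly k α).degree :=
          degree_modByMonic_lt _ (minpoly.monic hα)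
      _ = ((minpoly k α).natDegree : WithBot ℕ) := degree_eq_natDegree (minpoly.ne_zero hα)
      _ ≤ m := by
          rw [← hn]
          exact_mod_cast hm
  obtain ⟨E, hE⟩ : ∃ E : IntermediateField k K, E = IntermediateField.adjoin k ({α} : Set K) :=
    ⟨_, rfl⟩
  rw [← hE] at hx repr
  have hαE : α ∈ E := by
    rw [hE]
    exact IntermediateField.mem_adjoin_simple_self k α
  obtain ⟨P₀, Q₀, hP₀, hQ₀, -, hD₀⟩ := exists_good k n
  have hp₀ : aeval α P₀ ∈ E := by
    rw [hE]
    exact aeval_mem_adjoin α P₀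
  have hq₀ : aeval α Q₀ ∈ E := by
    rw [hE]
    exact aeval_mem_adjoin α Q₀
  have hw : 1 + α * aeval α P₀ ∈ E := E.add_mem E.one_mem (E.mul_mem hαE hp₀)
  obtain ⟨P₁, hP₁, hp₁⟩ := repr ((x⁻¹ * (1 + α * aeval α P₀) - 1) / α)
    (E.div_mem (E.sub_mem (E.mul_mem (E.inv_mem hx) hw) E.one_mem) hαE)
  obtain ⟨Q₁, hQ₁, hq₁⟩ := repr (x⁻¹ * aeval α Q₀) (E.mul_mem (E.inv_mem hx) hq₀)
  obtain ⟨P₂, hP₂, hp₂⟩ := repr ((x * (1 + α * aeval α P₀) - 1) / α)
    (E.div_mem (E.sub_mem (E.mul_mem hx hw) E.one_mem) hαE)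
  obtain ⟨Q₂, hQ₂, hq₂⟩ := repr (x * aeval α Q₀) (E.mul_mem hx hq₀)
  obtain ⟨δA, hδA⟩ := del_line k n P₀ (P₁ - P₀) Q₀ (Q₁ - Q₀) 1 0
  obtain ⟨δB, hδB⟩ := del_line k n P₂ (P₀ - P₂) Q₂ (Q₀ - Q₂) 1 0
  have hA0 : δA.eval 0 ≠ 0 := by
    rw [hδA]
    simpa using hD₀
  have hB1 : δB.eval 1 ≠ 0 := by
    rw [hδB]
    simpa using hD₀
  obtain ⟨t, htA, htB⟩ := exists_both k δA δB hA0 hB1
  rw [hδA] at htA
  rw [hδB] at htB
  have vA := sound α O h1 hU hL n _ _ _ (hP₀.add ((hP₁.sub hP₀).C_mul t))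
    (hQ₀.add ((hQ₁.sub hQ₀).C_mul t)) htA
  have vB := sound α O h1 hU hL n _ _ _ (hP₂.add ((hP₀.sub hP₂).C_mul t))
    (hQ₂.add ((hQ₀.sub hQ₂).C_mul t)) htB
  refine ⟨_, vA, ?_⟩
  have e : ∀ a b c d : K, a = c → b = d → (a, b) = (c, d) := by
    intro a b c d h h'
    rw [h, h']
  rw [e _ _ _ _ ?_ ?_]
  · exact vB
  · simp only [map_add, map_mul, map_sub, aeval_C, hp₁, hp₂, mul_zero, add_zero,
      map_one, div_one]
    field_simp
    ring
  · simp only [map_add, map_mul, map_sub, aeval_C, hq₁, hq₂, mul_zero, add_zero,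
      map_one, div_one]
    field_simp

end Sound

end Cfsg.Agent.Lib.Helper50.AG
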