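import Cfsg.Agent.S0801
import Cfsg.Agent.Lib.Helper50.AlgGenA
import Cfsg.Agent.Lib.Helper50.AlgGenC

/-!
# `⟨U(k), L(kα)⟩ = SL₂(k(α))` for algebraic `α` (helper50)

The subgroup `genY k α` of `SL₂(K)` generated by the upper unitriangular matrices with entry in
`k` and the lower unitriangular matrices with entry in `kα` consists of all matrices with
entries in `k(α)` (characteristic of `k` not `2`, `|k| ≠ 3`).  Finite `k`: via S0801 (two
unitriangular matrices generate `SL₂(𝔽_p(λ))`); infinite `k`: via the fraction-free Euclidean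
recursion of `AlgGenB`/`AlgGenC`.
-/

set_option autoImplicit false

namespace Cfsg.Agent.Lib.Helper50.AG

open Polynomial

section Gen

variable (k : Type*) {K : Type*} [Field k] [Field K] [Algebra k K]

/-- the subgroup generated by `U(k)` and `L(kα)` -/
def genY (α : K) : Subgroup (Matrix.SpecialLinearGroup (Fin 2) K) :=
  Subgroup.closure
    ({g : Matrix.SpecialLinearGroup (Fin 2) K |
        ∃ c : k, (g : Matrix (Fin 2) (Fin 2) K) = !![1, algebraMap k K c; 0, 1]} ∪
      {g : Matrix.SpecialLinearGroup (Fin 2) K |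
        ∃ c : k, (g : Matrix (Fin 2) (Fin 2) K) = !![1, 0; algebraMap k K c * α, 1]})

theorem uK_alg_mem (α : K) (c : k) : uK (algebraMap k K c) ∈ genY k α :=
  Subgroup.subset_closure (Or.inl ⟨c, rfl⟩)

theorem lK_alg_mem (α : K) (c : k) : lK (algebraMap k K c * α) ∈ genY k α :=
  Subgroup.subset_closure (Or.inr ⟨c, rfl⟩)

theorem genY_map_le (α : K)
    (Φ : Matrix.SpecialLinearGroup (Fin 2) K →* Matrix.SpecialLinearGroup (Fin 2) K)
    (hu : ∀ c : k, Φ (uK (algebraMap k K c)) ∈ genY k α)
    (hl : ∀ c : k, Φ (lK (algebraMap k K c * α)) ∈ genY k α)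
    (g : Matrix.SpecialLinearGroup (Fin 2) K) (hg : g ∈ genY k α) : Φ g ∈ genY k α := by
  have h : genY k α ≤ (genY k α).comap Φ := by
    refine (Subgroup.closure_le _).mpr ?_
    rintro g (⟨c, hc⟩ | ⟨c, hc⟩)
    · have e : g = uK (algebraMap k K c) := Subtype.ext hc
      rw [e]
      exact hu c
    · have e : g = lK (algebraMap k K c * α) := Subtype.ext hc
      rw [e]
      exact hl c
  exact h hg

theorem genY_le_entSub (α : K) :
    genY k α ≤ entSub (IntermediateField.adjoin k ({α} : Set K)).toSubfield := by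
  refine (Subgroup.closure_le _).mpr ?_
  rintro g (⟨c, hc⟩ | ⟨c, hc⟩)
  · have e : g = uK (algebraMap k K c) := Subtype.ext hc
    rw [e]
    exact uK_mem_entSub _ (IntermediateField.algebraMap_mem _ c)
  · have e : g = lK (algebraMap k K c * α) := Subtype.ext hc
    rw [e]
    exact lK_mem_entSub _ (IntermediateField.mul_mem _ (IntermediateField.algebraMap_mem _ c)
      (IntermediateField.mem_adjoin_simple_self k α))

theorem genY_eq_of_U (α : K) (hα0 : α ≠ 0)
    (hA : ∀ a ∈ IntermediateField.adjoin k ({α} : Set K), uK a ∈ genY k α) :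
    (genY k α : Set (Matrix.SpecialLinearGroup (Fin 2) K)) =
      {g : Matrix.SpecialLinearGroup (Fin 2) K | ∀ i j : Fin 2,
        (g : Matrix (Fin 2) (Fin 2) K) i j ∈ IntermediateField.adjoin k ({α} : Set K)} := by
  have hαE := IntermediateField.mem_adjoin_simple_self k α
  have hw : ∀ g ∈ genY k α, wK α hα0 g ∈ genY k α :=
    genY_map_le k α (wK α hα0)
      (fun c => by
        rw [wK_uK, mul_comm]
        exact lK_alg_mem k α c)
      (fun c => by
        rw [wK_lK, mul_assoc, mul_inv_cancel₀ hα0, mul_one]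
        exact uK_alg_mem k α c)
  have hB : ∀ b ∈ IntermediateField.adjoin k ({α} : Set K), lK b ∈ genY k α := by
    intro b hb
    have h := hw _ (hA (b / α) (IntermediateField.div_mem _ hb hαE))
    have e : α * (b / α) = b := by field_simp
    rw [wK_uK, e] at h
    exact h
  ext g
  constructor
  · intro hg
    exact genY_le_entSub k α hg
  · intro hg
    exact mem_of_entries (IntermediateField.adjoin k ({α} : Set K)).toSubfield (genY k α)
      hA hB g hg

theorem two_ne_K (hk2 : ringChar k ≠ 2) : (2 : K) ≠ 0 := by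
  have h := Ring.two_ne_zero hk2
  have h' : algebraMap k K 2 ≠ 0 := (_root_.map_ne_zero _).mpr h
  rwa [map_ofNat] at h'

/-! ### infinite `k` -/

theorem infinite_U [Infinite k] (h2 : (2 : K) ≠ 0) (α : K) (hα : IsAlgebraic k α)
    (hα0 : α ≠ 0) :
    ∀ a ∈ IntermediateField.adjoin k ({α} : Set K), uK a ∈ genY k α := by
  obtain ⟨O, hO⟩ : ∃ O : Set (K × K),
      O = {v | ∃ g ∈ genY k α, v = (g.1 0 0, g.1 1 0)} := ⟨_, rfl⟩
  have h1 : ((1 : K), (0 : K)) ∈ O := by
    rw [hO]
    exact ⟨1, (genY k α).one_mem, rfl⟩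
  have hU : ∀ (c : k) (v : K × K), v ∈ O → (v.1 + algebraMap k K c * v.2, v.2) ∈ O := by
    intro c v hv
    rw [hO] at hv ⊢
    obtain ⟨g, hg, rfl⟩ := hv
    refine ⟨uK (algebraMap k K c) * g, (genY k α).mul_mem (uK_alg_mem k α c) hg, ?_⟩
    rw [mul00, mul10, uK00, uK01, uK10, uK11, one_mul, zero_mul, one_mul, zero_add]
  have hL : ∀ (c : k) (v : K × K), v ∈ O → (v.1, v.2 + algebraMap k K c * α * v.1) ∈ O := by
    intro c v hv
    rw [hO] at hv ⊢
    obtain ⟨g, hg, rfl⟩ := hv
    refine ⟨lK (algebraMap k K c * α) * g, (genY k α).mul_mem (lK_alg_mem k α c) hg, ?_⟩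
    rw [mul00, mul10, lK00, lK01, lK10, lK11, one_mul, zero_mul, one_mul, add_zero,
      add_comm (g.1 1 0)]
  refine all_U_of_scale (IntermediateField.adjoin k ({α} : Set K)).toSubfield (genY k α) h2
    (by
      have h := uK_alg_mem k α 1
      rwa [map_one] at h) ?_
  intro x hx hx0
  obtain ⟨v, hv, hxv⟩ := exists_scaled α hα.isIntegral hα0 O h1 hU hL x hx hx0
  rw [hO] at hv hxv
  obtain ⟨g₁, hg₁, rfl⟩ := hv
  obtain ⟨g₂, hg₂, h⟩ := hxv
  have h' := Prod.ext_iff.mp h
  exact col_scale (genY k α) g₁ g₂ hg₁ hg₂ x h'.1.symm h'.2.symm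

/-! ### finite `k` -/

theorem map_uK {F : Type*} [Field F] (f : F →+* K) (t : F) :
    Matrix.SpecialLinearGroup.map f (uK t) = uK (f t) := by
  apply Subtype.ext
  show (!![1, t; 0, 1] : Matrix (Fin 2) (Fin 2) F).map f = !![1, f t; 0, 1]
  ext i j
  fin_cases i <;> fin_cases j <;> simp

theorem map_lK {F : Type*} [Field F] (f : F →+* K) (t : F) :
    Matrix.SpecialLinearGroup.map f (lK t) = lK (f t) := by
  apply Subtype.ext
  show (!![1, 0; t, 1] : Matrix (Fin 2) (Fin 2) F).map f = !![1, 0; f t, 1]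
  ext i j
  fin_cases i <;> fin_cases j <;> simp

theorem exists_e [Finite k] (hk2 : ringChar k ≠ 2) (hk3 : Nat.card k ≠ 3) (α : K) :
    ∃ e : k, e ≠ 0 ∧ (algebraMap k K e * α) ^ 2 ≠ -1 := by
  by_cases h : α ^ 2 = -1
  · have h2k : (2 : k) ≠ 0 := Ring.two_ne_zero hk2
    have hex : ∃ e : k, e ≠ 0 ∧ e ^ 2 ≠ 1 := by
      by_contra hno
      push Not at hno
      classical
      let _ : Fintype k := Fintype.ofFinite k
      apply hk3
      rw [Nat.card_eq_fintype_card, ← Finset.card_univ, Finset.card_eq_three]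
      refine ⟨0, 1, -1, zero_ne_one, ?_, ?_, ?_⟩
      · exact (neg_ne_zero.mpr one_ne_zero).symm
      · intro h1
        apply h2k
        linear_combination h1
      · ext e
        simp only [Finset.mem_univ, Finset.mem_insert, Finset.mem_singleton, true_iff]
        by_cases he : e = 0
        · left
          exact he
        · right
          have h3 := hno e he
          have h4 : (e - 1) * (e + 1) = 0 := by linear_combination h3
          rcases mul_eq_zero.mp h4 with h5 | h5
          · left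
            linear_combination h5
          · right
            linear_combination h5
    obtain ⟨e, he, he2⟩ := hex
    refine ⟨e, he, ?_⟩
    rw [mul_pow, h, ← map_pow]
    intro h6
    apply he2
    have h7 : algebraMap k K (e ^ 2) = algebraMap k K 1 := by
      rw [map_one]
      linear_combination (-1 : K) * h6
    exact (algebraMap k K).injective h7
  · refine ⟨1, one_ne_zero, ?_⟩
    rw [map_one, one_mul]
    exact h

theorem finite_U [Finite k] (h2 : (2 : K) ≠ 0) (α : K) (hα : IsAlgebraic k α) (hα0 : α ≠ 0)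
    (e : k) (he : e ≠ 0) (hne : (algebraMap k K e * α) ^ 2 ≠ -1) (c : k) (hc : c ≠ 0) (j : ℕ) :
    uK (algebraMap k K c * (algebraMap k K e * α) ^ j) ∈ genY k α := by
  obtain ⟨lamK, hlamK⟩ : ∃ l : K, l = algebraMap k K e * α := ⟨_, rfl⟩
  rw [← hlamK] at hne ⊢
  have hl0 : lamK ≠ 0 := by
    rw [hlamK]
    exact mul_ne_zero ((_root_.map_ne_zero _).mpr he) hα0
  obtain ⟨E, hE⟩ : ∃ E : IntermediateField k K, E = IntermediateField.adjoin k ({α} : Set K) :=
    ⟨_, rfl⟩
  have : FiniteDimensional k E := by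
    rw [hE]
    exact IntermediateField.adjoin.finiteDimensional hα.isIntegral
  have : Finite E := Module.finite_of_finite k
  obtain ⟨F, hF⟩ : ∃ F : Subfield K, F = Subfield.closure ({lamK} : Set K) := ⟨_, rfl⟩
  have hle : ∀ x ∈ F, x ∈ E := by
    intro x hx
    rw [hF] at hx
    have h3 : Subfield.closure ({lamK} : Set K) ≤ E.toSubfield := by
      rw [Subfield.closure_le]
      intro y hy
      rw [Set.mem_singleton_iff] at hy
      rw [hy, hlamK, hE]
      exact IntermediateField.mul_mem _ (IntermediateField.algebraMap_mem _ e)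
        (IntermediateField.mem_adjoin_simple_self k α)
    exact h3 hx
  have : Finite F := Finite.of_injective (fun x : F => (⟨x.1, hle x.1 x.2⟩ : E))
    (fun x y h => by
      have h' := congrArg Subtype.val h
      exact Subtype.ext h')
  let _ : Fintype F := Fintype.ofFinite F
  have hlF : lamK ∈ F := by
    rw [hF]
    exact Subfield.subset_closure (Set.mem_singleton _)
  have h2F : (2 : F) ≠ 0 := by
    intro h
    apply h2
    have h4 : F.subtype 2 = F.subtype 0 := congrArg F.subtype h
    rw [map_ofNat, map_zero] at h4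
    exact h4
  have hgen : Subfield.closure ({(⟨lamK, hlF⟩ : F)} : Set F) = ⊤ := by
    rw [eq_top_iff]
    intro x _
    have hx : x.1 ∈ Subfield.closure ({lamK} : Set K) := by
      rw [← hF]
      exact x.2
    have h5 : (Subfield.closure ({(⟨lamK, hlF⟩ : F)} : Set F)).map F.subtype
        = Subfield.closure ({lamK} : Set K) := by
      rw [RingHom.map_field_closure, Set.image_singleton]
      rfl
    rw [← h5] at hx
    obtain ⟨y, hy, hyx⟩ := Subfield.mem_map.mp hx
    have h6 : y = x := Subtype.ext hyx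
    rw [← h6]
    exact hy
  rcases Cfsg.Agent.S0801.result h2F ⟨lamK, hlF⟩ (fun h => hl0 (congrArg Subtype.val h)) hgen
    with ⟨htop, -⟩ | ⟨-, hsq, -⟩
  swap
  · exfalso
    apply hne
    have h7 : F.subtype ((⟨lamK, hlF⟩ : F) ^ 2) = F.subtype (-1) := congrArg F.subtype hsq
    rw [map_pow, map_neg, map_one] at h7
    exact h7
  obtain ⟨c', hc'⟩ : ∃ c' : k, c' = c⁻¹ * e := ⟨_, rfl⟩
  have hc'0 : c' ≠ 0 := by
    rw [hc']
    exact mul_ne_zero (inv_ne_zero hc) he
  have hs : (algebraMap k K c' * α)⁻¹ ≠ 0 :=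
    inv_ne_zero (mul_ne_zero ((_root_.map_ne_zero _).mpr hc'0) hα0)
  have hsl : (algebraMap k K c' * α)⁻¹ * lamK = algebraMap k K c := by
    rw [hlamK, hc', map_mul, map_inv₀]
    have h8 : algebraMap k K c ≠ 0 := (_root_.map_ne_zero _).mpr hc
    have h9 : algebraMap k K e ≠ 0 := (_root_.map_ne_zero _).mpr he
    field_simp
  have hmem : ∀ g : Matrix.SpecialLinearGroup (Fin 2) F,
      dK _ hs (Matrix.SpecialLinearGroup.map F.subtype g) ∈ genY k α := by
    have hle2 : (⊤ : Subgroup (Matrix.SpecialLinearGroup (Fin 2) F)) ≤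
        (genY k α).comap ((dK _ hs).comp (Matrix.SpecialLinearGroup.map F.subtype)) := by
      rw [← htop, Subgroup.closure_le]
      rintro g (hg | hg)
      · have e1 : g = lK 1 := Subtype.ext hg
        show dK _ hs (Matrix.SpecialLinearGroup.map F.subtype g) ∈ genY k α
        rw [e1, map_lK, map_one, dK_lK, one_div, inv_inv]
        exact lK_alg_mem k α c'
      · have e1 : g = uK ⟨lamK, hlF⟩ := Subtype.ext hg
        show dK _ hs (Matrix.SpecialLinearGroup.map F.subtype g) ∈ genY k α
        rw [e1, map_uK, dK_uK]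
        show uK ((algebraMap k K c' * α)⁻¹ * lamK) ∈ _
        rw [hsl]
        exact uK_alg_mem k α c
    intro g
    exact hle2 (Subgroup.mem_top g)
  have h := hmem (uK ((⟨lamK, hlF⟩ : F) ^ (j + 1)))
  rw [map_uK, dK_uK] at h
  have e2 : (algebraMap k K c' * α)⁻¹ * F.subtype ((⟨lamK, hlF⟩ : F) ^ (j + 1))
      = algebraMap k K c * lamK ^ j := by
    rw [map_pow]
    show _ * lamK ^ (j + 1) = _
    rw [pow_succ', ← mul_assoc, hsl]
  rw [e2] at h
  exact h

theorem finite_all_U [Finite k] (hk2 : ringChar k ≠ 2) (hk3 : Nat.card k ≠ 3) (α : K)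
    (hα : IsAlgebraic k α) (hα0 : α ≠ 0) :
    ∀ a ∈ IntermediateField.adjoin k ({α} : Set K), uK a ∈ genY k α := by
  have h2 : (2 : K) ≠ 0 := two_ne_K k hk2
  obtain ⟨e, he, hne⟩ := exists_e k hk2 hk3 α
  have hpoly : ∀ R : k[X], uK (aeval α R) ∈ genY k α := by
    intro R
    induction R using Polynomial.induction_on' with
    | add p q hp hq =>
      rw [map_add, uK_add]
      exact (genY k α).mul_mem hp hq
    | monomial n c =>
      rw [aeval_monomial]
      by_cases hc : c = 0
      · rw [hc, map_zero, zero_mul, uK_zero]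
        exact (genY k α).one_mem
      · have e1 : algebraMap k K c * α ^ n
            = algebraMap k K (c / e ^ n) * (algebraMap k K e * α) ^ n := by
          rw [mul_pow, ← map_pow, ← mul_assoc, ← map_mul]
          congr 2
          field_simp
        rw [e1]
        exact finite_U k h2 α hα hα0 e he hne _ (div_ne_zero hc (pow_ne_zero _ he)) n
  intro a ha
  have ha' : a ∈ (IntermediateField.adjoin k ({α} : Set K)).toSubalgebra := ha
  rw [IntermediateField.adjoin_simple_toSubalgebra_of_isAlgebraic hα,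
    Algebra.adjoin_singleton_eq_range_aeval] at ha'
  obtain ⟨R, rfl⟩ := ha'
  exact hpoly R

/-- **S5060**: `⟨U(k), L(kα)⟩` is the group of matrices of `SL₂(K)` with entries in `k(α)`. -/
theorem genY_eq (hk2 : ringChar k ≠ 2) (hk3 : Nat.card k ≠ 3) (α : K) (hα : IsAlgebraic k α)
    (hα0 : α ≠ 0) :
    (genY k α : Set (Matrix.SpecialLinearGroup (Fin 2) K)) =
      {g : Matrix.SpecialLinearGroup (Fin 2) K | ∀ i j : Fin 2,
        (g : Matrix (Fin 2) (Fin 2) K) i j ∈ IntermediateField.adjoin k ({α} : Set K)} := by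
  apply genY_eq_of_U k α hα0
  cases finite_or_infinite k
  · exact finite_all_U k hk2 hk3 α hα hα0
  · exact infinite_U k (two_ne_K k hk2) α hα hα0

end Gen

end Cfsg.Agent.Lib.Helper50.AG
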