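import Mathlib
import Cfsg.Prelude.Def_Classical

set_option autoImplicit false

namespace Cfsg.Agent.Lib.Helper50

/-- the sign character of `ZMod 2` -/
def χ (a : ZMod 2) : ℤ := if a = 0 then 1 else -1

theorem χ_add : ∀ a b : ZMod 2, χ (a + b) = χ a * χ b := by decide

theorem χ_zero : χ 0 = 1 := by decide

theorem χ_one : χ 1 = -1 := by decide

theorem zmod2_cases : ∀ x : ZMod 2, x = 0 ∨ x = 1 := by decide

theorem zmod2_add_self : ∀ x : ZMod 2, x + x = 0 := by decide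

theorem zmod2_eq_one : ∀ x : ZMod 2, x ≠ 0 → x = 1 := by decide

section general

open scoped Classical

variable {ι : Type} [Fintype ι] [DecidableEq ι]
variable (q : (ι → ZMod 2) → ZMod 2) (B : (ι → ZMod 2) → (ι → ZMod 2) → ZMod 2)

theorem sum_χ_B (hBl : ∀ u u' v, B (u + u') v = B u v + B u' v)
    (hnd : ∀ t, t ≠ 0 → ∃ e, B e t = 1) (t : ι → ZMod 2) (ht : t ≠ 0) :
    ∑ u : ι → ZMod 2, χ (B u t) = 0 := by
  obtain ⟨e, he⟩ := hnd t ht
  have h1 : ∑ u : ι → ZMod 2, χ (B u t) = ∑ u : ι → ZMod 2, χ (B (u + e) t) :=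
    (Equiv.sum_comp (Equiv.addRight e) (fun u => χ (B u t))).symm
  have h2 : ∑ u : ι → ZMod 2, χ (B (u + e) t) = - ∑ u : ι → ZMod 2, χ (B u t) := by
    rw [← Finset.sum_neg_distrib]
    apply Finset.sum_congr rfl
    intro u _
    rw [hBl, he, χ_add, χ_one]
    ring
  linarith

omit [Fintype ι] [DecidableEq ι] in
theorem B_zero_right (hBr : ∀ u v v', B u (v + v') = B u v + B u v') (u : ι → ZMod 2) :
    B u 0 = 0 := by
  have h := hBr u 0 0
  rw [add_zero] at h
  have : ∀ x : ZMod 2, x = x + x → x = 0 := by decide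
  exact this _ h

theorem inner_sum (hBr : ∀ u v v', B u (v + v') = B u v + B u v')
    (U : Submodule (ZMod 2) (ι → ZMod 2)) (v : ι → ZMod 2) :
    ∑ u ∈ Finset.univ.filter (· ∈ U), χ (B v u) =
      if ∀ u ∈ U, B v u = 0 then ((Finset.univ.filter (· ∈ U)).card : ℤ) else 0 := by
  split_ifs with h
  · rw [Finset.sum_congr rfl (g := fun _ => (1 : ℤ))]
    · simp
    · intro u hu
      rw [h u (by simpa using hu), χ_zero]
  · simp only [not_forall] at h
    obtain ⟨u₀, hu₀, hne⟩ := h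
    have h1 : B v u₀ = 1 := zmod2_eq_one _ hne
    have h2 : ∑ u ∈ Finset.univ.filter (· ∈ U), χ (B v (u + u₀))
        = ∑ u ∈ Finset.univ.filter (· ∈ U), χ (B v u) := by
      apply Finset.sum_nbij' (fun u => u + u₀) (fun u => u - u₀)
      · intro a ha
        simp only [Finset.mem_filter, Finset.mem_univ, true_and] at ha ⊢
        exact U.add_mem ha hu₀
      · intro a ha
        simp only [Finset.mem_filter, Finset.mem_univ, true_and] at ha ⊢
        exact U.sub_mem ha hu₀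
      · intro a _
        simp
      · intro a _
        simp
      · intro a _
        rfl
    have h3 : ∑ u ∈ Finset.univ.filter (· ∈ U), χ (B v (u + u₀))
        = - ∑ u ∈ Finset.univ.filter (· ∈ U), χ (B v u) := by
      rw [← Finset.sum_neg_distrib]
      apply Finset.sum_congr rfl
      intro u _
      rw [hBr, h1, χ_add, χ_one]
      ring
    linarith

theorem card_perp (hBl : ∀ u u' v, B (u + u') v = B u v + B u' v)
    (hBr : ∀ u v v', B u (v + v') = B u v + B u v')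
    (hnd : ∀ t, t ≠ 0 → ∃ e, B e t = 1) (U : Submodule (ZMod 2) (ι → ZMod 2)) :
    ((Finset.univ.filter (fun v : ι → ZMod 2 => ∀ u ∈ U, B v u = 0)).card : ℤ)
        * ((Finset.univ.filter (· ∈ U)).card : ℤ)
      = Fintype.card (ι → ZMod 2) := by
  have h1 : ∑ v : ι → ZMod 2, ∑ u ∈ Finset.univ.filter (· ∈ U), χ (B v u)
      = Fintype.card (ι → ZMod 2) := by
    rw [Finset.sum_comm]
    rw [Finset.sum_eq_single (0 : ι → ZMod 2)]
    · simp [B_zero_right B hBr, χ_zero]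
    · intro t _ ht
      exact sum_χ_B B hBl hnd t ht
    · intro h
      exact absurd (by simp) h
  rw [← h1]
  simp_rw [inner_sum B hBr U]
  rw [Finset.sum_ite, Finset.sum_const_zero, add_zero, Finset.sum_const]
  simp

theorem gauss_perp (hq : ∀ u v, q (u + v) = q u + q v + B u v)
    (hBr : ∀ u v v', B u (v + v') = B u v + B u v')
    (U : Submodule (ZMod 2) (ι → ZMod 2)) (hU : ∀ u ∈ U, q u = 0) :
    ((Finset.univ.filter (· ∈ U)).card : ℤ) * ∑ v : ι → ZMod 2, χ (q v)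
      = ((Finset.univ.filter (· ∈ U)).card : ℤ)
        * ∑ v ∈ Finset.univ.filter (fun v : ι → ZMod 2 => ∀ u ∈ U, B v u = 0), χ (q v) := by
  have h1 : ∑ u ∈ Finset.univ.filter (· ∈ U), ∑ v : ι → ZMod 2, χ (q (v + u))
      = ((Finset.univ.filter (· ∈ U)).card : ℤ) * ∑ v : ι → ZMod 2, χ (q v) := by
    rw [Finset.sum_congr rfl (g := fun _ => ∑ v : ι → ZMod 2, χ (q v))]
    · simp
    · intro u _
      exact Equiv.sum_comp (Equiv.addRight u) (fun v => χ (q v))
  rw [← h1, Finset.sum_comm]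
  have h2 : ∀ v : ι → ZMod 2, ∑ u ∈ Finset.univ.filter (· ∈ U), χ (q (v + u))
      = χ (q v) * (if ∀ u ∈ U, B v u = 0 then ((Finset.univ.filter (· ∈ U)).card : ℤ) else 0) := by
    intro v
    rw [← inner_sum B hBr U v, Finset.mul_sum]
    apply Finset.sum_congr rfl
    intro u hu
    rw [hq v u, hU u (by simpa using hu), add_zero, χ_add]
  simp_rw [h2]
  simp only [mul_ite, mul_zero]
  rw [Finset.sum_ite, Finset.sum_const_zero, add_zero, Finset.mul_sum]
  apply Finset.sum_congr rfl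
  intro v _
  ring

theorem sub_perp (hq : ∀ u v, q (u + v) = q u + q v + B u v)
    (U : Submodule (ZMod 2) (ι → ZMod 2)) (hU : ∀ u ∈ U, q u = 0) :
    Finset.univ.filter (· ∈ U) ⊆ Finset.univ.filter (fun v : ι → ZMod 2 => ∀ u ∈ U, B v u = 0) := by
  intro v hv
  simp only [Finset.mem_filter, Finset.mem_univ, true_and] at hv ⊢
  intro u hu
  have h := hq v u
  rw [hU _ (U.add_mem hv hu), hU v hv, hU u hu] at h
  simpa using h.symm

theorem card_sq_le (hq : ∀ u v, q (u + v) = q u + q v + B u v)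
    (hBl : ∀ u u' v, B (u + u') v = B u v + B u' v)
    (hBr : ∀ u v v', B u (v + v') = B u v + B u v')
    (hnd : ∀ t, t ≠ 0 → ∃ e, B e t = 1)
    (U : Submodule (ZMod 2) (ι → ZMod 2)) (hU : ∀ u ∈ U, q u = 0) :
    (Finset.univ.filter (· ∈ U)).card ^ 2 ≤ Fintype.card (ι → ZMod 2) := by
  have h1 := card_perp B hBl hBr hnd U
  have h2 := Finset.card_le_card (sub_perp q B hq U hU)
  have h3 : (Finset.univ.filter (fun v : ι → ZMod 2 => ∀ u ∈ U, B v u = 0)).card
      * (Finset.univ.filter (· ∈ U)).card = Fintype.card (ι → ZMod 2) := by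
    exact_mod_cast h1
  rw [← h3, sq]
  exact Nat.mul_le_mul_right _ h2

theorem gauss_eq_card (hq : ∀ u v, q (u + v) = q u + q v + B u v)
    (hBl : ∀ u u' v, B (u + u') v = B u v + B u' v)
    (hBr : ∀ u v v', B u (v + v') = B u v + B u v')
    (hnd : ∀ t, t ≠ 0 → ∃ e, B e t = 1)
    (U : Submodule (ZMod 2) (ι → ZMod 2)) (hU : ∀ u ∈ U, q u = 0)
    (hcard : Fintype.card (ι → ZMod 2) ≤ (Finset.univ.filter (· ∈ U)).card ^ 2) :
    ∑ v : ι → ZMod 2, χ (q v) = (Finset.univ.filter (· ∈ U)).card := by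
  have h1 := card_perp B hBl hBr hnd U
  have hsub := sub_perp q B hq U hU
  have h3 : (Finset.univ.filter (fun v : ι → ZMod 2 => ∀ u ∈ U, B v u = 0)).card
      * (Finset.univ.filter (· ∈ U)).card = Fintype.card (ι → ZMod 2) := by
    exact_mod_cast h1
  have hpos : 0 < (Finset.univ.filter (· ∈ U)).card :=
    Finset.card_pos.2 ⟨0, by simp⟩
  have h4 : (Finset.univ.filter (fun v : ι → ZMod 2 => ∀ u ∈ U, B v u = 0)).card
      ≤ (Finset.univ.filter (· ∈ U)).card := by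
    rw [← h3, sq] at hcard
    exact Nat.le_of_mul_le_mul_right hcard hpos
  have heq := Finset.eq_of_subset_of_card_le hsub h4
  have h5 := gauss_perp q B hq hBr U hU
  rw [← heq] at h5
  have h6 : ∑ v ∈ Finset.univ.filter (· ∈ U), χ (q v) = ((Finset.univ.filter (· ∈ U)).card : ℤ) := by
    rw [Finset.sum_congr rfl (g := fun _ => (1 : ℤ))]
    · simp
    · intro u hu
      rw [hU u (by simpa using hu), χ_zero]
  rw [h6] at h5
  have hpos' : ((Finset.univ.filter (· ∈ U)).card : ℤ) ≠ 0 := by exact_mod_cast hpos.ne'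
  exact mul_left_cancel₀ hpos' h5

theorem card_filter_mem (U : Submodule (ZMod 2) (ι → ZMod 2)) :
    (Finset.univ.filter (· ∈ U)).card = 2 ^ Module.finrank (ZMod 2) U := by
  have h1 : Nat.card U = 2 ^ Module.finrank (ZMod 2) U := by
    rw [Module.natCard_eq_pow_finrank (K := ZMod 2) (V := U), Nat.card_zmod]
  rw [← h1, Nat.card_eq_fintype_card, Fintype.card_subtype]

end general

section plus

/-- the polar form of the plus-type form -/
def Bp (m : ℕ) (u v : Fin m ⊕ Fin m → ZMod 2) : ZMod 2 :=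
  ∑ i : Fin m, (u (.inl i) * v (.inr i) + v (.inl i) * u (.inr i))

theorem qfp_eq (m : ℕ) (v : Fin m ⊕ Fin m → ZMod 2) :
    Cfsg.quadFormPlus m (ZMod 2) v = ∑ i : Fin m, v (.inl i) * v (.inr i) := rfl

theorem qfp_polar (m : ℕ) (u v : Fin m ⊕ Fin m → ZMod 2) :
    Cfsg.quadFormPlus m (ZMod 2) (u + v)
      = Cfsg.quadFormPlus m (ZMod 2) u + Cfsg.quadFormPlus m (ZMod 2) v + Bp m u v := by
  rw [qfp_eq, qfp_eq, qfp_eq, Bp, ← Finset.sum_add_distrib, ← Finset.sum_add_distrib]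
  apply Finset.sum_congr rfl
  intro i _
  simp only [Pi.add_apply]
  ring

theorem Bp_add_left (m : ℕ) (u u' v : Fin m ⊕ Fin m → ZMod 2) :
    Bp m (u + u') v = Bp m u v + Bp m u' v := by
  rw [Bp, Bp, Bp, ← Finset.sum_add_distrib]
  apply Finset.sum_congr rfl
  intro i _
  simp only [Pi.add_apply]
  ring

theorem Bp_add_right (m : ℕ) (u v v' : Fin m ⊕ Fin m → ZMod 2) :
    Bp m u (v + v') = Bp m u v + Bp m u v' := by
  rw [Bp, Bp, Bp, ← Finset.sum_add_distrib]
  apply Finset.sum_congr rfl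
  intro i _
  simp only [Pi.add_apply]
  ring

theorem Bp_comm (m : ℕ) (u v : Fin m ⊕ Fin m → ZMod 2) : Bp m u v = Bp m v u := by
  rw [Bp, Bp]
  apply Finset.sum_congr rfl
  intro i _
  ring

theorem Bp_self (m : ℕ) (u : Fin m ⊕ Fin m → ZMod 2) : Bp m u u = 0 := by
  rw [Bp]
  apply Finset.sum_eq_zero
  intro i _
  exact zmod2_add_self _

theorem Bp_nondeg (m : ℕ) (t : Fin m ⊕ Fin m → ZMod 2) (ht : t ≠ 0) :
    ∃ e : Fin m ⊕ Fin m → ZMod 2, Bp m e t = 1 := by
  obtain ⟨j, hj⟩ : ∃ j, t j ≠ 0 := by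
    by_contra h
    simp only [not_exists, not_not] at h
    exact ht (funext h)
  have hj1 : t j = 1 := zmod2_eq_one _ hj
  rcases j with i | i
  · refine ⟨Pi.single (Sum.inr i) 1, ?_⟩
    rw [Bp, Finset.sum_eq_single i]
    · simp [hj1]
    · intro k _ hk
      simp [hk]
    · simp
  · refine ⟨Pi.single (Sum.inl i) 1, ?_⟩
    rw [Bp, Finset.sum_eq_single i]
    · simp [hj1]
    · intro k _ hk
      simp [hk]
    · simp

/-- the standard maximal totally singular subspace, as the range of this map -/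
def ιp (m : ℕ) : (Fin m → ZMod 2) →ₗ[ZMod 2] (Fin m ⊕ Fin m → ZMod 2) where
  toFun x := Sum.elim x 0
  map_add' x y := by ext (i | i) <;> simp
  map_smul' c x := by ext (i | i) <;> simp

theorem ιp_inj (m : ℕ) : Function.Injective (ιp m) := by
  intro x y h
  ext i
  exact congrFun h (Sum.inl i)

theorem finrank_range_ιp (m : ℕ) : Module.finrank (ZMod 2) (LinearMap.range (ιp m)) = m := by
  rw [LinearMap.finrank_range_of_inj (ιp_inj m)]
  simp

theorem qfp_ιp (m : ℕ) (u : Fin m ⊕ Fin m → ZMod 2) (hu : u ∈ LinearMap.range (ιp m)) :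
    Cfsg.quadFormPlus m (ZMod 2) u = 0 := by
  obtain ⟨x, rfl⟩ := hu
  rw [qfp_eq]
  apply Finset.sum_eq_zero
  intro i _
  show x i * 0 = 0
  exact mul_zero _

theorem card_plus (m : ℕ) : Fintype.card (Fin m ⊕ Fin m → ZMod 2) = 2 ^ (2 * m) := by
  simp [two_mul]

theorem gauss_plus (m : ℕ) :
    ∑ v : Fin m ⊕ Fin m → ZMod 2, χ (Cfsg.quadFormPlus m (ZMod 2) v) = 2 ^ m := by
  classical
  have h := gauss_eq_card (Cfsg.quadFormPlus m (ZMod 2)) (Bp m) (qfp_polar m) (Bp_add_left m)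
    (Bp_add_right m) (Bp_nondeg m) (LinearMap.range (ιp m)) (qfp_ιp m) (by
      rw [card_filter_mem, finrank_range_ιp, card_plus, ← pow_mul, mul_comm])
  rw [h, card_filter_mem, finrank_range_ιp]
  norm_cast

end plus

section minus

/-- the polar form of the minus-type form -/
def Bm (k : ℕ) (u v : (Fin k ⊕ Fin k) ⊕ Fin 2 → ZMod 2) : ZMod 2 :=
  (∑ i : Fin k, (u (.inl (.inl i)) * v (.inl (.inr i)) + v (.inl (.inl i)) * u (.inl (.inr i))))
    + (u (.inr 0) * v (.inr 1) + v (.inr 0) * u (.inr 1))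

theorem qfm_eq (k : ℕ) (v : (Fin k ⊕ Fin k) ⊕ Fin 2 → ZMod 2) :
    Cfsg.quadFormMinus k (ZMod 2) 1 1 v
      = (∑ i : Fin k, v (.inl (.inl i)) * v (.inl (.inr i)))
        + (v (.inr 0) ^ 2 + 1 * v (.inr 0) * v (.inr 1) + 1 * v (.inr 1) ^ 2) := rfl

theorem qfm_polar (k : ℕ) (u v : (Fin k ⊕ Fin k) ⊕ Fin 2 → ZMod 2) :
    Cfsg.quadFormMinus k (ZMod 2) 1 1 (u + v)
      = Cfsg.quadFormMinus k (ZMod 2) 1 1 u + Cfsg.quadFormMinus k (ZMod 2) 1 1 v + Bm k u v := by
  rw [qfm_eq, qfm_eq, qfm_eq, Bm]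
  simp only [Pi.add_apply]
  have hs : ∑ i : Fin k, (u (.inl (.inl i)) + v (.inl (.inl i))) * (u (.inl (.inr i)) + v (.inl (.inr i)))
      = (∑ i : Fin k, u (.inl (.inl i)) * u (.inl (.inr i)))
        + (∑ i : Fin k, v (.inl (.inl i)) * v (.inl (.inr i)))
        + ∑ i : Fin k, (u (.inl (.inl i)) * v (.inl (.inr i)) + v (.inl (.inl i)) * u (.inl (.inr i))) := by
    rw [← Finset.sum_add_distrib, ← Finset.sum_add_distrib]
    apply Finset.sum_congr rfl
    intro i _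
    ring
  rw [hs]
  have h2 : (2 : ZMod 2) = 0 := by decide
  linear_combination (u (.inr 0) * v (.inr 0) + u (.inr 1) * v (.inr 1)) * h2

theorem Bm_add_left (k : ℕ) (u u' v : (Fin k ⊕ Fin k) ⊕ Fin 2 → ZMod 2) :
    Bm k (u + u') v = Bm k u v + Bm k u' v := by
  rw [Bm, Bm, Bm]
  simp only [Pi.add_apply]
  have hs : ∑ i : Fin k, ((u (.inl (.inl i)) + u' (.inl (.inl i))) * v (.inl (.inr i))
        + v (.inl (.inl i)) * (u (.inl (.inr i)) + u' (.inl (.inr i))))
      = (∑ i : Fin k, (u (.inl (.inl i)) * v (.inl (.inr i)) + v (.inl (.inl i)) * u (.inl (.inr i))))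
        + ∑ i : Fin k, (u' (.inl (.inl i)) * v (.inl (.inr i)) + v (.inl (.inl i)) * u' (.inl (.inr i))) := by
    rw [← Finset.sum_add_distrib]
    apply Finset.sum_congr rfl
    intro i _
    ring
  rw [hs]
  ring

theorem Bm_add_right (k : ℕ) (u v v' : (Fin k ⊕ Fin k) ⊕ Fin 2 → ZMod 2) :
    Bm k u (v + v') = Bm k u v + Bm k u v' := by
  rw [Bm, Bm, Bm]
  simp only [Pi.add_apply]
  have hs : ∑ i : Fin k, (u (.inl (.inl i)) * (v (.inl (.inr i)) + v' (.inl (.inr i)))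
        + (v (.inl (.inl i)) + v' (.inl (.inl i))) * u (.inl (.inr i)))
      = (∑ i : Fin k, (u (.inl (.inl i)) * v (.inl (.inr i)) + v (.inl (.inl i)) * u (.inl (.inr i))))
        + ∑ i : Fin k, (u (.inl (.inl i)) * v' (.inl (.inr i)) + v' (.inl (.inl i)) * u (.inl (.inr i))) := by
    rw [← Finset.sum_add_distrib]
    apply Finset.sum_congr rfl
    intro i _
    ring
  rw [hs]
  ring

theorem Bm_nondeg (k : ℕ) (t : (Fin k ⊕ Fin k) ⊕ Fin 2 → ZMod 2) (ht : t ≠ 0) :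
    ∃ e : (Fin k ⊕ Fin k) ⊕ Fin 2 → ZMod 2, Bm k e t = 1 := by
  obtain ⟨j, hj⟩ : ∃ j, t j ≠ 0 := by
    by_contra h
    simp only [not_exists, not_not] at h
    exact ht (funext h)
  have hj1 : t j = 1 := zmod2_eq_one _ hj
  rcases j with (i | i) | i
  · refine ⟨Pi.single (Sum.inl (Sum.inr i)) 1, ?_⟩
    rw [Bm, Finset.sum_eq_single i]
    · simp [hj1]
    · intro k _ hk
      simp [hk]
    · simp
  · refine ⟨Pi.single (Sum.inl (Sum.inl i)) 1, ?_⟩
    rw [Bm, Finset.sum_eq_single i]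
    · simp [hj1]
    · intro k _ hk
      simp [hk]
    · simp
  · fin_cases i
    · refine ⟨Pi.single (Sum.inr 1) 1, ?_⟩
      rw [Bm]
      simp at hj1
      simp [hj1]
    · refine ⟨Pi.single (Sum.inr 0) 1, ?_⟩
      rw [Bm]
      simp at hj1
      simp [hj1]

/-- a totally singular subspace of dimension `k` for the minus form, as the range of this map -/
def ιm (k : ℕ) : (Fin k → ZMod 2) →ₗ[ZMod 2] ((Fin k ⊕ Fin k) ⊕ Fin 2 → ZMod 2) where
  toFun x := Sum.elim (Sum.elim x 0) 0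
  map_add' x y := by ext ((i | i) | i) <;> simp
  map_smul' c x := by ext ((i | i) | i) <;> simp

theorem ιm_inj (k : ℕ) : Function.Injective (ιm k) := by
  intro x y h
  ext i
  exact congrFun h (Sum.inl (Sum.inl i))

theorem finrank_range_ιm (k : ℕ) : Module.finrank (ZMod 2) (LinearMap.range (ιm k)) = k := by
  rw [LinearMap.finrank_range_of_inj (ιm_inj k)]
  simp

theorem qfm_ιm (k : ℕ) (u : (Fin k ⊕ Fin k) ⊕ Fin 2 → ZMod 2) (hu : u ∈ LinearMap.range (ιm k)) :
    Cfsg.quadFormMinus k (ZMod 2) 1 1 u = 0 := by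
  obtain ⟨x, rfl⟩ := hu
  rw [qfm_eq]
  have h1 : ∑ i : Fin k, (ιm k x) (.inl (.inl i)) * (ιm k x) (.inl (.inr i)) = 0 := by
    apply Finset.sum_eq_zero
    intro i _
    show x i * 0 = 0
    exact mul_zero _
  rw [h1]
  show (0 : ZMod 2) + ((0 : ZMod 2) ^ 2 + 1 * 0 * 0 + 1 * (0 : ZMod 2) ^ 2) = 0
  decide

theorem card_minus (k : ℕ) :
    Fintype.card ((Fin k ⊕ Fin k) ⊕ Fin 2 → ZMod 2) = 2 ^ (2 * (k + 1)) := by
  simp
  ring

theorem gauss_binary :
    ∑ z : Fin 2 → ZMod 2, χ (z 0 ^ 2 + 1 * z 0 * z 1 + 1 * z 1 ^ 2) = -2 := by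
  decide

theorem gauss_minus (k : ℕ) :
    ∑ v : (Fin k ⊕ Fin k) ⊕ Fin 2 → ZMod 2, χ (Cfsg.quadFormMinus k (ZMod 2) 1 1 v)
      = - 2 ^ (k + 1) := by
  rw [← Equiv.sum_comp (Equiv.sumArrowEquivProdArrow (Fin k ⊕ Fin k) (Fin 2) (ZMod 2)).symm]
  rw [Fintype.sum_prod_type]
  have h1 : ∀ (x : Fin k ⊕ Fin k → ZMod 2) (z : Fin 2 → ZMod 2),
      χ (Cfsg.quadFormMinus k (ZMod 2) 1 1
        ((Equiv.sumArrowEquivProdArrow (Fin k ⊕ Fin k) (Fin 2) (ZMod 2)).symm (x, z)))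
      = χ (Cfsg.quadFormPlus k (ZMod 2) x) * χ (z 0 ^ 2 + 1 * z 0 * z 1 + 1 * z 1 ^ 2) := by
    intro x z
    rw [← χ_add]
    rfl
  simp_rw [h1]
  rw [← Finset.sum_mul_sum, gauss_plus, gauss_binary]
  ring

end minus

end Cfsg.Agent.Lib.Helper50
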