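import Mathlib
import Cfsg.Agent.Lib.Helper22.HPDefs
import Cfsg.Agent.Lib.Helper83.IrrBasic
import Cfsg.Agent.Lib.Helper83.Twist
import Cfsg.Agent.Lib.Helper83.Central
import Cfsg.Agent.Lib.Helper83.Ortho
import Cfsg.Agent.Lib.Helper82.CharCore
import Cfsg.Agent.S0840

/-!
# S4504 project (helper22), piece HP-ZF (helper50)

Class multiplication constants are nonnegative reals (S0840), and averaging them over the centre
against a central character picks out the irreducible characters with that central character.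
-/

set_option autoImplicit false

namespace Cfsg.Agent.Lib.Helper50.HPT

open Cfsg Cfsg.Agent.Lib.Helper22.BFD Cfsg.Agent.Lib.Helper22.HPD
open scoped ComplexConjugate

universe u

section

variable {G : Type u} [Group G] [Fintype G]

/-- The character sum of the class multiplication constant is a nonnegative real. -/
theorem zf_nonneg [Fintype (IrrCharacter G)] (a b h : G) :
    ∃ r : ℝ, 0 ≤ r ∧
      ∑ φ : IrrCharacter G, φ.1 a * φ.1 b * conj (φ.1 h) / φ.1 1 = (r : ℂ) := by
  have hS := Cfsg.Agent.S0840.result a b h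
  rw [finsum_eq_sum_of_fintype] at hS
  have hca := Cfsg.Agent.Lib.Helper83.card_conj_mul_card_centralizer a
  have hcb := Cfsg.Agent.Lib.Helper83.card_conj_mul_card_centralizer b
  have hG : 0 < Nat.card G := Nat.card_pos
  have hca0 : Nat.card {x : G // IsConj a x} ≠ 0 := by
    intro h0
    rw [h0, zero_mul] at hca
    omega
  have hcb0 : Nat.card {x : G // IsConj b x} ≠ 0 := by
    intro h0
    rw [h0, zero_mul] at hcb
    omega
  have hG' : (Nat.card G : ℂ) ≠ 0 := by exact_mod_cast hG.ne'
  have hca' : (Nat.card {x : G // IsConj a x} : ℂ) ≠ 0 := by exact_mod_cast hca0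
  have hcb' : (Nat.card {x : G // IsConj b x} : ℂ) ≠ 0 := by exact_mod_cast hcb0
  refine ⟨(Nat.card {p : G × G // IsConj a p.1 ∧ IsConj b p.2 ∧ p.1 * p.2 = h} : ℝ) *
    (Nat.card G : ℝ) / ((Nat.card {x : G // IsConj a x} : ℝ) *
      (Nat.card {x : G // IsConj b x} : ℝ)), by positivity, ?_⟩
  push_cast
  rw [hS]
  field_simp

/-- A central element multiplies the value of an irreducible character by its central
character. -/
theorem zf_tau_mul (φ : IrrCharacter G) (u : G) (hu : u ∈ Subgroup.center G) (g : G) :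
    φ.1 (g * u) = φ.1 u / φ.1 1 * φ.1 g := by
  have h := Cfsg.Agent.Lib.Helper83.irr_central_mul φ u hu g
  have h1 := Cfsg.Agent.Lib.Helper82.irr_one_ne_zero φ
  rw [Subgroup.mem_center_iff.mp hu g]
  field_simp
  linear_combination h

/-- The central character has norm one. -/
theorem zf_tau_norm (φ : IrrCharacter G) (u : G) (hu : u ∈ Subgroup.center G) :
    ‖φ.1 u / φ.1 1‖ = 1 := by
  have h := Cfsg.Agent.Lib.Helper83.irr_central_norm φ u hu
  obtain ⟨hd1, hd0⟩ := Cfsg.Agent.Lib.Helper82.irr_charDegree φ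
  rw [norm_div, h, ← hd1, Complex.norm_natCast]
  exact div_self (by exact_mod_cast hd0)

theorem zf_tau_conj (φ : IrrCharacter G) (u : G) (hu : u ∈ Subgroup.center G) :
    φ.1 u / φ.1 1 * conj (φ.1 u / φ.1 1) = 1 := by
  rw [Complex.mul_conj, Complex.normSq_eq_norm_sq, zf_tau_norm φ u hu]
  simp

open Classical in
/-- Averaging over the centre against a multiplicative weight of norm one. -/
theorem zf_avg [Fintype (IrrCharacter G)] (w : G → ℂ)
    (hw1 : ∀ u ∈ Subgroup.center G, ‖w u‖ = 1)
    (hwm : ∀ u ∈ Subgroup.center G, ∀ v ∈ Subgroup.center G, w (u * v) = w u * w v)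
    (a b g : G) :
    ∑ u : Subgroup.center G, w u * ∑ φ : IrrCharacter G,
        φ.1 a * φ.1 b * conj (φ.1 (g * u)) / φ.1 1 =
      (Nat.card (Subgroup.center G) : ℂ) *
        ∑ φ ∈ Finset.univ.filter (fun φ : IrrCharacter G =>
          ∀ u ∈ Subgroup.center G, φ.1 u = w u * φ.1 1),
          φ.1 a * φ.1 b * conj (φ.1 g) / φ.1 1 := by
  have key : ∀ φ : IrrCharacter G,
      ∑ u : Subgroup.center G, w u * conj (φ.1 u / φ.1 1) =
        if (∀ u ∈ Subgroup.center G, φ.1 u = w u * φ.1 1) then
          (Nat.card (Subgroup.center G) : ℂ) else 0 := by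
    intro φ
    have h1 := Cfsg.Agent.Lib.Helper82.irr_one_ne_zero φ
    split_ifs with hP
    · have h2 : ∀ u : Subgroup.center G, w u * conj (φ.1 u / φ.1 1) = 1 := by
        intro u
        rw [hP u u.2, mul_div_assoc, div_self h1, mul_one, Complex.mul_conj,
          Complex.normSq_eq_norm_sq, hw1 u u.2]
        simp
      simp only [h2]
      simp [Nat.card_eq_fintype_card]
    · push Not at hP
      obtain ⟨v, hv, hne⟩ := hP
      set σ : Subgroup.center G → ℂ := fun u => w u * conj (φ.1 u / φ.1 1) with hσ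
      have hσm : ∀ u : Subgroup.center G, σ (⟨v, hv⟩ * u) = σ ⟨v, hv⟩ * σ u := by
        intro u
        simp only [hσ, Subgroup.coe_mul]
        rw [hwm v hv u u.2, zf_tau_mul φ u u.2 v]
        have h3 : φ.1 (u : G) / φ.1 1 * φ.1 v / φ.1 1 =
            (φ.1 v / φ.1 1) * (φ.1 (u : G) / φ.1 1) := by ring
        rw [h3, map_mul]
        ring
      have hσv : σ ⟨v, hv⟩ ≠ 1 := by
        intro h
        apply hne
        have h2 : φ.1 v / φ.1 1 * conj (φ.1 v / φ.1 1) = 1 := zf_tau_conj φ v hv
        have h3 : w v = φ.1 v / φ.1 1 := by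
          have h5 : (w v - φ.1 v / φ.1 1) * conj (φ.1 v / φ.1 1) = 0 := by
            simp only [hσ] at h
            rw [sub_mul, h, h2, sub_self]
          rcases mul_eq_zero.mp h5 with h4 | h4
          · exact sub_eq_zero.mp h4
          · rw [h4, mul_zero] at h2
            exact absurd h2 zero_ne_one
        rw [h3, div_mul_cancel₀ _ h1]
      have hsum : ∑ u : Subgroup.center G, σ u =
          σ ⟨v, hv⟩ * ∑ u : Subgroup.center G, σ u := by
        rw [Finset.mul_sum, ← Fintype.sum_equiv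
          (Equiv.mulLeft (⟨v, hv⟩ : Subgroup.center G)) (fun u => σ (⟨v, hv⟩ * u)) σ
          (fun u => rfl)]
        exact Finset.sum_congr rfl fun u _ => hσm u
      have h6 : (1 - σ ⟨v, hv⟩) * ∑ u : Subgroup.center G, σ u = 0 := by
        rw [sub_mul, one_mul, ← hsum, sub_self]
      rcases mul_eq_zero.mp h6 with h4 | h4
      · exact absurd (sub_eq_zero.mp h4).symm hσv
      · exact h4
  have hT : ∀ (φ : IrrCharacter G) (u : Subgroup.center G),
      φ.1 a * φ.1 b * conj (φ.1 (g * u)) / φ.1 1 =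
        conj (φ.1 u / φ.1 1) * (φ.1 a * φ.1 b * conj (φ.1 g) / φ.1 1) := by
    intro φ u
    rw [zf_tau_mul φ u u.2 g, map_mul]
    ring
  calc ∑ u : Subgroup.center G, w u * ∑ φ : IrrCharacter G,
        φ.1 a * φ.1 b * conj (φ.1 (g * u)) / φ.1 1
      = ∑ u : Subgroup.center G, ∑ φ : IrrCharacter G,
          (φ.1 a * φ.1 b * conj (φ.1 g) / φ.1 1) * (w u * conj (φ.1 u / φ.1 1)) := by
        refine Finset.sum_congr rfl fun u _ => ?_
        rw [Finset.mul_sum]
        refine Finset.sum_congr rfl fun φ _ => ?_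
        rw [hT φ u]
        ring
    _ = ∑ φ : IrrCharacter G, (φ.1 a * φ.1 b * conj (φ.1 g) / φ.1 1) *
          ∑ u : Subgroup.center G, w u * conj (φ.1 u / φ.1 1) := by
        rw [Finset.sum_comm]
        refine Finset.sum_congr rfl fun φ _ => ?_
        rw [Finset.mul_sum]
    _ = _ := by
        rw [Finset.mul_sum, Finset.sum_filter]
        refine Finset.sum_congr rfl fun φ _ => ?_
        rw [key φ]
        split_ifs <;> ring

end

open Classical in
/-- TOP PIECE ZF (structure constants of two classes are `≥ 0`; Fourier analysis over the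
centre) -/
theorem hp_zf {G : Type u} [Group G] [Fintype G] [Fintype (IrrCharacter G)]
    (χ : IrrCharacter G) (a b g : G) :
    ∃ r : ℝ, ∑ φ ∈ Finset.univ.filter (fun φ : IrrCharacter G => TrivZ φ.1),
        φ.1 a * φ.1 b * conj (φ.1 g) / φ.1 1 = (r : ℂ) ∧
      ‖∑ φ ∈ Finset.univ.filter (fun φ : IrrCharacter G => SameZ χ.1 φ.1),
        φ.1 a * φ.1 b * conj (φ.1 g) / φ.1 1‖ ≤ r := by
  choose rr hrr0 hrr using fun h : G => zf_nonneg a b h
  have hχ1 := Cfsg.Agent.Lib.Helper82.irr_one_ne_zero χ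
  have hA := zf_avg (fun _ => (1 : ℂ)) (fun _ _ => by simp) (fun _ _ _ _ => by simp) a b g
  have hB := zf_avg (fun u => χ.1 u / χ.1 1) (fun u hu => zf_tau_norm χ u hu)
    (fun u hu v hv => by rw [zf_tau_mul χ v hv u]; ring) a b g
  have hZ0 : (Nat.card (Subgroup.center G) : ℂ) ≠ 0 := by
    exact_mod_cast (Nat.card_pos (α := Subgroup.center G)).ne'
  have hZR : (0 : ℝ) < (Nat.card (Subgroup.center G) : ℝ) := by exact_mod_cast Nat.card_pos
  have hfA : (Finset.univ.filter (fun φ : IrrCharacter G => TrivZ φ.1)) =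
      Finset.univ.filter (fun φ : IrrCharacter G =>
        ∀ u ∈ Subgroup.center G, φ.1 u = (1 : ℂ) * φ.1 1) := by
    refine Finset.filter_congr fun φ _ => ?_
    simp only [TrivZ, one_mul]
  have hfB : (Finset.univ.filter (fun φ : IrrCharacter G => SameZ χ.1 φ.1)) =
      Finset.univ.filter (fun φ : IrrCharacter G =>
        ∀ u ∈ Subgroup.center G, φ.1 u = χ.1 u / χ.1 1 * φ.1 1) := by
    refine Finset.filter_congr fun φ _ => ?_
    unfold SameZ
    refine forall₂_congr fun u hu => ?_
    constructor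
    · intro h
      field_simp
      linear_combination h
    · intro h
      rw [h]
      field_simp
  refine ⟨(∑ u : Subgroup.center G, rr (g * u)) / (Nat.card (Subgroup.center G) : ℝ), ?_, ?_⟩
  · rw [hfA]
    have h1 : (Nat.card (Subgroup.center G) : ℂ) *
        ∑ φ ∈ Finset.univ.filter (fun φ : IrrCharacter G =>
          ∀ u ∈ Subgroup.center G, φ.1 u = (1 : ℂ) * φ.1 1),
          φ.1 a * φ.1 b * conj (φ.1 g) / φ.1 1 =
        ((∑ u : Subgroup.center G, rr (g * u) : ℝ) : ℂ) := by
      rw [← hA]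
      push_cast
      refine Finset.sum_congr rfl fun u _ => ?_
      rw [one_mul, hrr]
    push_cast
    rw [eq_div_iff hZ0, mul_comm, h1]
    push_cast
    rfl
  · rw [hfB, le_div_iff₀ hZR]
    have h2 : ‖∑ φ ∈ Finset.univ.filter (fun φ : IrrCharacter G =>
          ∀ u ∈ Subgroup.center G, φ.1 u = χ.1 u / χ.1 1 * φ.1 1),
          φ.1 a * φ.1 b * conj (φ.1 g) / φ.1 1‖ * (Nat.card (Subgroup.center G) : ℝ) =
        ‖(Nat.card (Subgroup.center G) : ℂ) *
          ∑ φ ∈ Finset.univ.filter (fun φ : IrrCharacter G =>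
          ∀ u ∈ Subgroup.center G, φ.1 u = χ.1 u / χ.1 1 * φ.1 1),
          φ.1 a * φ.1 b * conj (φ.1 g) / φ.1 1‖ := by
      rw [norm_mul, Complex.norm_natCast, mul_comm]
    rw [h2, ← hB]
    refine (norm_sum_le _ _).trans ?_
    refine Finset.sum_le_sum fun u _ => ?_
    rw [norm_mul, zf_tau_norm χ u u.2, one_mul, hrr, Complex.norm_real,
      Real.norm_of_nonneg (hrr0 _)]

end Cfsg.Agent.Lib.Helper50.HPT
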