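import Mathlib
import Cfsg.Prelude.Def_SporadicB
import Cfsg.Agent.Lib.Helper52.ReflChar2
import Cfsg.Agent.S0440

/-!
Orthogonal transvections over the field with two elements: for a quadratic form `Q` on
`(ZMod 2)^ι` with non-degenerate polar form (dimension ≠ 4), the isometries `g` with
`rank (g - 1) = 1` are exactly the reflections (orthogonal transvections), and they form a
generating conjugacy class of 3-transpositions.
-/

set_option autoImplicit false

namespace Cfsg.Agent.Lib.Helper50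

open Matrix QuadraticMap
open Cfsg.Agent.Lib.Helper51 Cfsg.Agent.Lib.Helper52

section OrthTransv

variable {ι : Type} [Fintype ι] [DecidableEq ι]
variable (Q : QuadraticForm (ZMod 2) (ι → ZMod 2))

theorem z2_eq_one {c : ZMod 2} (h : c ≠ 0) : c = 1 := by
  revert c
  decide

theorem z2_neg (c : ZMod 2) : -c = c := by
  revert c
  decide

/-- Over the field with two elements, the reflection in a non-singular vector `v` is
`x ↦ x + polar(v, x) v`. -/
theorem reflMat_mulVec_two (v x : ι → ZMod 2) (hv : Q v ≠ 0) :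
    (Cfsg.reflectionMatrix ⇑Q v) *ᵥ x = x + QuadraticMap.polar ⇑Q v x • v := by
  rw [reflectionMatrix_mulVec, z2_eq_one hv, inv_one, one_mul]
  funext i
  simp only [Pi.sub_apply, Pi.add_apply, Pi.smul_apply, smul_eq_mul]
  rw [sub_eq_add_neg, z2_neg]

omit [Fintype ι] [DecidableEq ι] in
theorem ne_zero_of_Q_ne_zero (v : ι → ZMod 2) (hv : Q v ≠ 0) : v ≠ 0 := by
  rintro rfl
  exact hv (map_zero Q)

theorem polarVec_ne_zero (hQ : (polarBilin Q).Nondegenerate) (v : ι → ZMod 2) (hv : v ≠ 0) :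
    Cfsg.polarVec ⇑Q v ≠ 0 := by
  intro h0
  apply hv
  apply hQ.1 v
  intro x
  rw [polarBilin_apply_apply, ← polarVec_dotProduct, h0, zero_dotProduct]

theorem rank_reflMat (hQ : (polarBilin Q).Nondegenerate) (v : ι → ZMod 2) (hv : Q v ≠ 0) :
    (Cfsg.reflectionMatrix ⇑Q v - 1).rank = 1 := by
  have h1 : Cfsg.reflectionMatrix ⇑Q v - 1 = vecMulVec v (Cfsg.polarVec ⇑Q v) := by
    have h0 : Cfsg.reflectionMatrix ⇑Q v
        = 1 - (Q v)⁻¹ • Matrix.vecMulVec v (Cfsg.polarVec ⇑Q v) := rfl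
    rw [h0, z2_eq_one hv, inv_one, one_smul, sub_sub_cancel_left]
    ext i j
    exact z2_neg _
  rw [h1]
  exact Cfsg.Agent.S0440.rank_vecMulVec_eq_one _ _ (ne_zero_of_Q_ne_zero Q v hv)
    (polarVec_ne_zero Q hQ v (ne_zero_of_Q_ne_zero Q v hv))

theorem refl_congr {v v' : ι → ZMod 2} (h : v = v') (hv : Q v ≠ 0) (hv' : Q v' ≠ 0) :
    refl Q v hv = refl Q v' hv' := by
  subst h
  rfl

/-- An isometry `g` with `rank (g - 1) = 1` is a reflection. -/
theorem eq_refl_of_rank (hQ : (polarBilin Q).Nondegenerate)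
    (g : ↥(Cfsg.isometryGroup (ZMod 2) ⇑Q))
    (h : (((g : Matrix.GeneralLinearGroup ι (ZMod 2)) : Matrix ι ι (ZMod 2)) - 1).rank = 1) :
    ∃ (v : ι → ZMod 2) (hv : Q v ≠ 0), g = refl Q v hv := by
  obtain ⟨a, b, ha, hb, hab⟩ := Cfsg.Agent.S0440.exists_vecMulVec_of_rank_eq_one _ h
  have hg : ∀ x : ι → ZMod 2,
      ((g : Matrix.GeneralLinearGroup ι (ZMod 2)) : Matrix ι ι (ZMod 2)) *ᵥ x
        = x + (b ⬝ᵥ x) • a := by
    intro x
    have h1 : ((g : Matrix.GeneralLinearGroup ι (ZMod 2)) : Matrix ι ι (ZMod 2))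
        = 1 + vecMulVec a b := by rw [← hab]; abel
    rw [h1, Matrix.add_mulVec, Matrix.one_mulVec, vecMulVec_mulVec, op_smul_eq_smul]
  -- the isometry condition
  have key : ∀ x : ι → ZMod 2, b ⬝ᵥ x = 1 → QuadraticMap.polar ⇑Q x a = Q a := by
    intro x hx
    have h1 := isometry_apply Q g x
    rw [hg x, hx, one_smul] at h1
    have h2 : QuadraticMap.polar ⇑Q x a = Q (x + a) - Q x - Q a := rfl
    rw [h2, h1, sub_self, zero_sub, z2_neg]
  have hex : ∃ j, b j ≠ 0 := by
    by_contra hcon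
    push Not at hcon
    exact hb (funext hcon)
  obtain ⟨j, hj⟩ := hex
  have hj1 : b j = 1 := z2_eq_one hj
  have hy0 : b ⬝ᵥ (Pi.single j 1 : ι → ZMod 2) = 1 := by rw [dotProduct_single_one, hj1]
  have key2 : ∀ x : ι → ZMod 2, QuadraticMap.polar ⇑Q x a = (b ⬝ᵥ x) * Q a := by
    intro x
    by_cases hx : b ⬝ᵥ x = 0
    · have h1 : b ⬝ᵥ (x + Pi.single j 1) = 1 := by rw [dotProduct_add, hx, hy0, zero_add]
      have h2 := key _ h1
      rw [QuadraticMap.polar_add_left, key _ hy0] at h2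
      rw [hx, zero_mul]
      have h3 : ∀ u c : ZMod 2, u + c = c → u = 0 := by decide
      exact h3 _ _ h2
    · rw [z2_eq_one hx, one_mul]
      exact key x (z2_eq_one hx)
  have hQa : Q a ≠ 0 := by
    intro h0
    apply ha
    apply hQ.1 a
    intro x
    rw [polarBilin_apply_apply, QuadraticMap.polar_comm, key2 x, h0, mul_zero]
  refine ⟨a, hQa, ?_⟩
  apply isometry_ext
  apply matrix_ext_mulVec
  intro x
  rw [coe_refl]
  show ((g : Matrix.GeneralLinearGroup ι (ZMod 2)) : Matrix ι ι (ZMod 2)) *ᵥ x = _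
  rw [reflMat_mulVec_two Q a x hQa, hg x, QuadraticMap.polar_comm, key2 x, z2_eq_one hQa,
    mul_one]

theorem rank_refl (hQ : (polarBilin Q).Nondegenerate) (v : ι → ZMod 2) (hv : Q v ≠ 0) :
    ((((refl Q v hv : ↥(Cfsg.isometryGroup (ZMod 2) ⇑Q)) : Matrix.GeneralLinearGroup ι (ZMod 2))
      : Matrix ι ι (ZMod 2)) - 1).rank = 1 :=
  rank_reflMat Q hQ v hv

/-- The orthogonal transvections of a non-degenerate quadratic form over the field with two
elements (dimension ≠ 4, nonzero) form a generating conjugacy class of 3-transpositions. -/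
theorem orth_threeTransposition [Nonempty ι] (hQ : (polarBilin Q).Nondegenerate)
    (h4 : Fintype.card ι ≠ 4) :
    Cfsg.IsThreeTranspositionClass {g : ↥(Cfsg.isometryGroup (ZMod 2) ⇑Q) |
      (((g : Matrix.GeneralLinearGroup ι (ZMod 2)) : Matrix ι ι (ZMod 2)) - 1).rank = 1} := by
  have h2 : (2 : ZMod 2) = 0 := by decide
  have hcard : Fintype.card (ZMod 2) ≠ 2 ∨ Fintype.card ι ≠ 4 := Or.inr h4
  refine ⟨⟨?_, ?_⟩, ?_, ?_⟩
  · intro d hd
    obtain ⟨v, hv, rfl⟩ := eq_refl_of_rank Q hQ d hd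
    apply orderOf_eq_prime
    · rw [pow_two]
      exact refl_mul_self Q v hv
    · intro h1
      have hd' : (((refl Q v hv : ↥(Cfsg.isometryGroup (ZMod 2) ⇑Q)) :
          Matrix.GeneralLinearGroup ι (ZMod 2)) : Matrix ι ι (ZMod 2)) = 1 := by
        rw [h1]; rfl
      have hr := rank_refl Q hQ v hv
      rw [hd', sub_self, Matrix.rank_zero] at hr
      exact zero_ne_one hr
  · intro d hd e he
    obtain ⟨u, hu, rfl⟩ := eq_refl_of_rank Q hQ d hd
    obtain ⟨w, hw, rfl⟩ := eq_refl_of_rank Q hQ e he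
    have huw : Q ((((refl Q u hu : ↥(Cfsg.isometryGroup (ZMod 2) ⇑Q)) :
        Matrix.GeneralLinearGroup ι (ZMod 2)) : Matrix ι ι (ZMod 2)) *ᵥ w) ≠ 0 := by
      rw [isometry_apply]; exact hw
    have hwu : Q ((((refl Q w hw : ↥(Cfsg.isometryGroup (ZMod 2) ⇑Q)) :
        Matrix.GeneralLinearGroup ι (ZMod 2)) : Matrix ι ι (ZMod 2)) *ᵥ u) ≠ 0 := by
      rw [isometry_apply]; exact hu
    have c1 := conj_refl Q (refl Q u hu) w hw huw
    have c2 := conj_refl Q (refl Q w hw) u hu hwu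
    have e1 : (((refl Q u hu : ↥(Cfsg.isometryGroup (ZMod 2) ⇑Q)) :
        Matrix.GeneralLinearGroup ι (ZMod 2)) : Matrix ι ι (ZMod 2)) *ᵥ w
          = w + QuadraticMap.polar ⇑Q u w • u := by
      rw [coe_refl, reflMat_mulVec_two Q u w hu]
    have e2 : (((refl Q w hw : ↥(Cfsg.isometryGroup (ZMod 2) ⇑Q)) :
        Matrix.GeneralLinearGroup ι (ZMod 2)) : Matrix ι ι (ZMod 2)) *ᵥ u
          = u + QuadraticMap.polar ⇑Q u w • w := by
      rw [coe_refl, reflMat_mulVec_two Q w u hw, QuadraticMap.polar_comm]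
    by_cases h0 : QuadraticMap.polar ⇑Q u w = 0
    · left
      apply Cfsg.Agent.S0440.comm_sq _ _ (refl_mul_self Q u hu) (refl_mul_self Q w hw)
      have h3 : refl Q _ huw = refl Q w hw :=
        refl_congr Q (by rw [e1, h0, zero_smul, add_zero]) _ _
      rw [h3] at c1
      calc refl Q u hu * refl Q w hw
          = refl Q u hu * refl Q w hw * (refl Q u hu)⁻¹ * refl Q u hu := by group
        _ = refl Q w hw * refl Q u hu := by rw [c1]
    · right
      have h1 : QuadraticMap.polar ⇑Q u w = 1 := z2_eq_one h0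
      have h3 : refl Q _ hwu = refl Q _ huw :=
        refl_congr Q (by rw [e1, e2, h1, one_smul, one_smul, add_comm]) _ _
      rw [h3] at c2
      apply Cfsg.Agent.S0440.braid_cube _ _ (refl Q _ huw) (refl_mul_self Q u hu)
        (refl_mul_self Q w hw) (refl_mul_self Q _ huw)
      · rw [← c1]; group
      · rw [← c2]; group
  · -- a single conjugacy class
    have hex : ∃ v0 : ι → ZMod 2, Q v0 ≠ 0 := by
      by_contra hcon
      push Not at hcon
      obtain ⟨i⟩ := (inferInstance : Nonempty ι)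
      have hs : (Pi.single i 1 : ι → ZMod 2) = 0 := by
        apply hQ.1
        intro y
        rw [polarBilin_apply_apply]
        show Q (Pi.single i 1 + y) - Q (Pi.single i 1) - Q y = 0
        rw [hcon, hcon, hcon]
        decide
      have := congrFun hs i
      simp at this
    obtain ⟨v0, hv0⟩ := hex
    refine ⟨refl Q v0 hv0, rank_refl Q hQ v0 hv0, ?_⟩
    ext g
    have hmem : g ∈ conjugatesOf (refl Q v0 hv0) ↔ IsConj (refl Q v0 hv0) g := Iff.rfl
    rw [hmem, isConj_iff]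
    constructor
    · intro hg
      obtain ⟨w, hw, rfl⟩ := eq_refl_of_rank Q hQ g hg
      obtain ⟨k, c, hc0, hk⟩ := exists_isometry_smul_two Q h2 hQ hcard v0 w hv0 hw
      rw [z2_eq_one hc0, one_smul] at hk
      have hkv : Q (((k : Matrix.GeneralLinearGroup ι (ZMod 2)) : Matrix ι ι (ZMod 2)) *ᵥ v0)
          ≠ 0 := by
        rw [isometry_apply]; exact hv0
      refine ⟨k, ?_⟩
      rw [conj_refl Q k v0 hv0 hkv]
      exact refl_congr Q hk _ _
    · rintro ⟨k, rfl⟩
      have hkv : Q (((k : Matrix.GeneralLinearGroup ι (ZMod 2)) : Matrix ι ι (ZMod 2)) *ᵥ v0)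
          ≠ 0 := by
        rw [isometry_apply]; exact hv0
      rw [conj_refl Q k v0 hv0 hkv]
      exact rank_refl Q hQ _ hkv
  · -- generation
    have hgen := closure_reflSet_eq_top_of_finite Q hQ hcard
    rw [eq_top_iff, ← hgen]
    apply Subgroup.closure_mono
    rintro g ⟨v, hv, hg⟩
    show (((g : Matrix.GeneralLinearGroup ι (ZMod 2)) : Matrix ι ι (ZMod 2)) - 1).rank = 1
    rw [hg]
    exact rank_reflMat Q hQ v hv

/-- Transport along an equality of functions. -/
theorem orth_threeTransposition' [Nonempty ι] (hQ : (polarBilin Q).Nondegenerate)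
    (h4 : Fintype.card ι ≠ 4) (Q' : (ι → ZMod 2) → ZMod 2) (hQ' : ⇑Q = Q') :
    Cfsg.IsThreeTranspositionClass {g : ↥(Cfsg.isometryGroup (ZMod 2) Q') |
      (((g : Matrix.GeneralLinearGroup ι (ZMod 2)) : Matrix ι ι (ZMod 2)) - 1).rank = 1} := by
  subst hQ'
  exact orth_threeTransposition Q hQ h4

end OrthTransv

end Cfsg.Agent.Lib.Helper50
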