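import Cfsg.Agent.Lib.Helper50.QpDefs

set_option autoImplicit false
set_option linter.style.haveILetI false
set_option linter.unusedSimpArgs false

namespace Cfsg.Agent.Lib.Helper50.QP.Basic

open Polynomial Cfsg Cfsg.Agent.Lib.Helper50.QR

universe u v

variable {k : Type u} [Field k] {M : Type v} [AddCommGroup M] [Module k M]

theorem bind_pure_map {α β : Type u} {γ : Type v} (l : List α) (f : α → β) (g : β → γ) :
    List.map g (do let a ← l; pure (f a)) = l.map (fun a => g (f a)) := by
  induction l with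
  | nil => rfl
  | cons a l ih =>
    simp only [List.bind_eq_flatMap, List.flatMap_cons, List.map_append, List.map_cons] at ih ⊢
    rw [ih]
    rfl

/-- A 3-periodic chain of subspaces: `T`, `AT + BT`, `ABT + BAT`, `zT`, ... -/
def chain (A B : Module.End k M) (T : Submodule k M) : ℕ → Submodule k M
  | 0 => T
  | 1 => T.map A ⊔ T.map B
  | 2 => T.map (A * B) ⊔ T.map (B * A)
  | (n + 3) => (chain A B T n).map (zz A B)

theorem chain_swap (A B : Module.End k M) (T : Submodule k M) :
    ∀ n, chain B A T n = chain A B T n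
  | 0 => rfl
  | 1 => sup_comm _ _
  | 2 => sup_comm _ _
  | (n + 3) => by
    show (chain B A T n).map (zz B A) = (chain A B T n).map (zz A B)
    rw [chain_swap A B T n, zz_comm]

theorem sq_apply {A : Module.End k M} (hA : A * A = 0) (x : M) : A (A x) = 0 :=
  congrArg (fun f : Module.End k M => f x) hA

theorem z_A_apply {A B : Module.End k M} (hA : A * A = 0) (x : M) :
    zz A B (A x) = A (zz A B x) :=
  congrArg (fun f : Module.End k M => f x) (zz_comm_A (B := B) hA).eq

theorem z_B_apply {A B : Module.End k M} (hB : B * B = 0) (x : M) :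
    zz A B (B x) = B (zz A B x) :=
  congrArg (fun f : Module.End k M => f x) (zz_comm_B (A := A) hB).eq

theorem ABA_apply {A B : Module.End k M} (hA : A * A = 0) (x : M) :
    A (B (A x)) = zz A B (A x) :=
  (congrArg (fun f : Module.End k M => f x) (zz_mul_A (B := B) hA)).symm

theorem BAB_apply {A B : Module.End k M} (hB : B * B = 0) (x : M) :
    B (A (B x)) = zz A B (B x) :=
  (congrArg (fun f : Module.End k M => f x) (zz_mul_B (A := A) hB)).symm

theorem zz_apply (A B : Module.End k M) (x : M) : zz A B x = A (B x) + B (A x) := rfl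

theorem chain_A {A B : Module.End k M} (hA : A * A = 0) {T : Submodule k M}
    (hTA : ∀ x ∈ T, A x ∈ T) : ∀ n, ∀ x ∈ chain A B T n, A x ∈ chain A B T (n + 1)
  | 0, x, hx => Submodule.mem_sup_left (Submodule.mem_map_of_mem hx)
  | 1, x, hx => by
    obtain ⟨y, hy, w, hw, rfl⟩ := Submodule.mem_sup.mp hx
    obtain ⟨t1, ht1, rfl⟩ := hy
    obtain ⟨t2, ht2, rfl⟩ := hw
    rw [map_add, sq_apply hA, zero_add]
    exact Submodule.mem_sup_left ⟨t2, ht2, rfl⟩
  | 2, x, hx => by
    obtain ⟨y, hy, w, hw, rfl⟩ := Submodule.mem_sup.mp hx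
    obtain ⟨t1, ht1, rfl⟩ := hy
    obtain ⟨t2, ht2, rfl⟩ := hw
    rw [map_add]
    show A (A (B t1)) + A (B (A t2)) ∈ (chain A B T 0).map (zz A B)
    rw [sq_apply hA, zero_add, ABA_apply hA]
    exact ⟨A t2, hTA t2 ht2, rfl⟩
  | (n + 3), x, hx => by
    obtain ⟨y, hy, rfl⟩ := hx
    have h1 := chain_A hA hTA n y hy
    rw [← z_A_apply hA]
    exact ⟨A y, h1, rfl⟩

theorem chain_B {A B : Module.End k M} (hB : B * B = 0) {T : Submodule k M}
    (hTB : ∀ x ∈ T, B x ∈ T) (n : ℕ) (x : M) (hx : x ∈ chain A B T n) :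
    B x ∈ chain A B T (n + 1) := by
  rw [← chain_swap] at hx ⊢
  exact chain_A hB hTB n x hx

theorem chain_anti {A B : Module.End k M} {T : Submodule k M}
    (hTA : ∀ x ∈ T, A x ∈ T) (hTB : ∀ x ∈ T, B x ∈ T) :
    ∀ n, chain A B T (n + 1) ≤ chain A B T n
  | 0 => by
    show T.map A ⊔ T.map B ≤ T
    refine sup_le ?_ ?_
    · rintro _ ⟨t, ht, rfl⟩; exact hTA t ht
    · rintro _ ⟨t, ht, rfl⟩; exact hTB t ht
  | 1 => by
    show T.map (A * B) ⊔ T.map (B * A) ≤ T.map A ⊔ T.map B
    refine sup_le ?_ ?_
    · rintro _ ⟨t, ht, rfl⟩; exact Submodule.mem_sup_left ⟨B t, hTB t ht, rfl⟩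
    · rintro _ ⟨t, ht, rfl⟩; exact Submodule.mem_sup_right ⟨A t, hTA t ht, rfl⟩
  | 2 => by
    show T.map (zz A B) ≤ T.map (A * B) ⊔ T.map (B * A)
    rintro _ ⟨t, ht, rfl⟩
    exact Submodule.add_mem _ (Submodule.mem_sup_left ⟨t, ht, rfl⟩)
      (Submodule.mem_sup_right ⟨t, ht, rfl⟩)
  | (n + 3) => Submodule.map_mono (chain_anti hTA hTB n)

theorem chain_three_mul (A B : Module.End k M) (T : Submodule k M) :
    ∀ N : ℕ, chain A B T (3 * N) ≤ T.map (zz A B ^ N)
  | 0 => by
    intro x hx
    exact ⟨x, hx, rfl⟩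
  | (N + 1) => by
    show (chain A B T (3 * N)).map (zz A B) ≤ T.map (zz A B ^ (N + 1))
    rintro _ ⟨y, hy, rfl⟩
    obtain ⟨t, ht, rfl⟩ := chain_three_mul A B T N hy
    exact ⟨t, ht, by rw [pow_succ']; rfl⟩

/-- inverse of a generator is a generator -/
theorem coe_inv_gen {A : Module.End k M} (hA : A * A = 0) {u : LinearMap.GeneralLinearGroup k M}
    {c : k} (hu : (u : Module.End k M) = 1 + c • A) :
    ((u⁻¹ : LinearMap.GeneralLinearGroup k M) : Module.End k M) = 1 + (-c) • A := by
  have h1 : nl u = c • A := by rw [nl_def, hu]; abel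
  have h2 := coe_inv_of_sq u (by rw [h1]; exact smul_sq0 hA c)
  rw [h2, h1, neg_smul, sub_eq_add_neg]

/-- elements of `genH A B` move the chain one step down -/
theorem gen_step {A B : Module.End k M} (hA : A * A = 0) (hB : B * B = 0) {T : Submodule k M}
    (hTA : ∀ x ∈ T, A x ∈ T) (hTB : ∀ x ∈ T, B x ∈ T)
    {g : LinearMap.GeneralLinearGroup k M} (hg : g ∈ genH A B) :
    ∀ n, ∀ x ∈ chain A B T n, (g : Module.End k M) x - x ∈ chain A B T (n + 1) := by
  have hgen : ∀ (u : LinearMap.GeneralLinearGroup k M),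
      ((∃ c : k, (u : Module.End k M) = 1 + c • A) ∨ (∃ c : k, (u : Module.End k M) = 1 + c • B)) →
      ∀ n, ∀ x ∈ chain A B T n, (u : Module.End k M) x - x ∈ chain A B T (n + 1) := by
    rintro u (⟨c, hc⟩ | ⟨c, hc⟩) n x hx
    · rw [hc]
      have : (1 + c • A : Module.End k M) x - x = c • A x := by
        simp
      rw [this]
      exact Submodule.smul_mem _ _ (chain_A hA hTA n x hx)
    · rw [hc]
      have : (1 + c • B : Module.End k M) x - x = c • B x := by
        simp
      rw [this]
      exact Submodule.smul_mem _ _ (chain_B hB hTB n x hx)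
  unfold genH at hg
  induction hg using Subgroup.closure_induction'' with
  | mem u hu => exact hgen u hu
  | inv_mem u hu =>
    apply hgen
    rcases hu with ⟨c, hc⟩ | ⟨c, hc⟩
    · exact Or.inl ⟨-c, coe_inv_gen hA hc⟩
    · exact Or.inr ⟨-c, coe_inv_gen hB hc⟩
  | one =>
    intro n x _
    simp
  | mul g h _ _ ihg ihh =>
    intro n x hx
    have h1 := ihh n x hx
    have h2 : (h : Module.End k M) x ∈ chain A B T n := by
      have := Submodule.add_mem _ (chain_anti hTA hTB n h1) hx
      simpa using this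
    have h3 := ihg n _ h2
    have h4 : ((g * h : LinearMap.GeneralLinearGroup k M) : Module.End k M) x - x =
        ((g : Module.End k M) ((h : Module.End k M) x) - (h : Module.End k M) x) +
          ((h : Module.End k M) x - x) := by
      rw [Units.val_mul]
      simp
    rw [h4]
    exact Submodule.add_mem _ h3 h1

theorem list_step {A B : Module.End k M} (hA : A * A = 0) (hB : B * B = 0) {T : Submodule k M}
    (hTA : ∀ x ∈ T, A x ∈ T) (hTB : ∀ x ∈ T, B x ∈ T) :
    ∀ (l : List (LinearMap.GeneralLinearGroup k M)), (∀ g ∈ l, g ∈ genH A B) →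
      ∀ j, ∀ x ∈ chain A B T j,
        (l.map fun g : LinearMap.GeneralLinearGroup k M => (g : M →ₗ[k] M) - 1).prod x ∈ chain A B T (j + l.length)
  | [], _, j, x, hx => by simpa using hx
  | (g :: l), hl, j, x, hx => by
    have h1 := list_step hA hB hTA hTB l (fun g hg => hl g (List.mem_cons_of_mem _ hg)) j x hx
    have h2 := gen_step hA hB hTA hTB (hl g List.mem_cons_self) _ _ h1
    rw [List.map_cons, List.prod_cons, List.length_cons, ← add_assoc]
    have h3 : (((g : M →ₗ[k] M) - 1) * (l.map fun g : LinearMap.GeneralLinearGroup k M => (g : M →ₗ[k] M) - 1).prod) x =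
        (g : Module.End k M) ((l.map fun g : LinearMap.GeneralLinearGroup k M => (g : M →ₗ[k] M) - 1).prod x) -
          (l.map fun g : LinearMap.GeneralLinearGroup k M => (g : M →ₗ[k] M) - 1).prod x := by
      simp
    rw [h3]
    exact h2

theorem aeval_comm {R : Type*} [Ring R] [Algebra k R] {x y : R} (h : Commute x y)
    (f : k[X]) : Commute (aeval x f) y := by
  induction f using Polynomial.induction_on' with
  | add p q hp hq => rw [map_add]; exact hp.add_left hq
  | monomial n c =>
    rw [aeval_monomial]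
    exact (Algebra.commute_algebraMap_left c y).mul_left (h.pow_left n)

theorem comm_apply {P Q : Module.End k M} (h : Commute P Q) (x : M) : Q (P x) = P (Q x) :=
  (congrArg (fun f : Module.End k M => f x) h.eq).symm

theorem col_step_A {A B : Module.End k M} (hA : A * A = 0)
    {u g : LinearMap.GeneralLinearGroup k M} {c : k} (hu : (u : Module.End k M) = 1 + c • A)
    {px pr : k[X]}
    (h1 : (g : Module.End k M) * A = aeval (zz A B) px * A + aeval (zz A B) pr * (B * A))
    (h2 : A * ((g⁻¹ : LinearMap.GeneralLinearGroup k M) : Module.End k M) =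
      aeval (zz A B) px * A - aeval (zz A B) pr * (A * B)) :
    ((u * g : LinearMap.GeneralLinearGroup k M) : Module.End k M) * A =
        aeval (zz A B) (px + C c * X * pr) * A + aeval (zz A B) pr * (B * A) ∧
      A * (((u * g)⁻¹ : LinearMap.GeneralLinearGroup k M) : Module.End k M) =
        aeval (zz A B) (px + C c * X * pr) * A - aeval (zz A B) pr * (A * B) := by
  have hu' := coe_inv_gen hA hu
  have p1 : ∀ x, A (aeval (zz A B) px x) = aeval (zz A B) px (A x) :=
    comm_apply (aeval_comm (zz_comm_A (B := B) hA) px)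
  have p2 : ∀ x, A (aeval (zz A B) pr x) = aeval (zz A B) pr (A x) :=
    comm_apply (aeval_comm (zz_comm_A (B := B) hA) pr)
  have p3 : ∀ x, zz A B (aeval (zz A B) pr x) = aeval (zz A B) pr (zz A B x) :=
    comm_apply (aeval_comm (Commute.refl (zz A B)) pr)
  have p4 : ∀ x, A (A x) = 0 := sq_apply hA
  have p5 : ∀ x, A (B (A x)) = zz A B (A x) := ABA_apply hA
  constructor
  · rw [Units.val_mul, hu, mul_assoc, h1]
    ext m
    simp only [map_add, map_sub, map_neg, map_smul, map_zero, map_mul, aeval_C, aeval_X,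
      Module.End.mul_apply, LinearMap.add_apply, LinearMap.sub_apply, LinearMap.neg_apply,
      LinearMap.smul_apply, Module.End.one_apply, Module.algebraMap_end_apply, neg_smul,
      p1, p2, p3, p4, p5, smul_zero, neg_zero, add_zero, zero_add, sub_zero]
    module
  · rw [mul_inv_rev, Units.val_mul, hu', ← mul_assoc, h2]
    ext m
    simp only [map_add, map_sub, map_neg, map_smul, map_zero, map_mul, aeval_C, aeval_X,
      Module.End.mul_apply, LinearMap.add_apply, LinearMap.sub_apply, LinearMap.neg_apply,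
      LinearMap.smul_apply, Module.End.one_apply, Module.algebraMap_end_apply, neg_smul,
      p1, p2, p3, p4, p5, smul_zero, neg_zero, add_zero, zero_add, sub_zero]
    module

theorem col_step_B {A B : Module.End k M} (hB : B * B = 0)
    {u g : LinearMap.GeneralLinearGroup k M} {c : k} (hu : (u : Module.End k M) = 1 + c • B)
    {px pr : k[X]}
    (h1 : (g : Module.End k M) * A = aeval (zz A B) px * A + aeval (zz A B) pr * (B * A))
    (h2 : A * ((g⁻¹ : LinearMap.GeneralLinearGroup k M) : Module.End k M) =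
      aeval (zz A B) px * A - aeval (zz A B) pr * (A * B)) :
    ((u * g : LinearMap.GeneralLinearGroup k M) : Module.End k M) * A =
        aeval (zz A B) px * A + aeval (zz A B) (pr + C c * px) * (B * A) ∧
      A * (((u * g)⁻¹ : LinearMap.GeneralLinearGroup k M) : Module.End k M) =
        aeval (zz A B) px * A - aeval (zz A B) (pr + C c * px) * (A * B) := by
  have hu' := coe_inv_gen hB hu
  have q1 : ∀ x, B (aeval (zz A B) px x) = aeval (zz A B) px (B x) :=
    comm_apply (aeval_comm (zz_comm_B (A := A) hB) px)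
  have q2 : ∀ x, B (aeval (zz A B) pr x) = aeval (zz A B) pr (B x) :=
    comm_apply (aeval_comm (zz_comm_B (A := A) hB) pr)
  have q4 : ∀ x, B (B x) = 0 := sq_apply hB
  constructor
  · rw [Units.val_mul, hu, mul_assoc, h1]
    ext m
    simp only [map_add, map_sub, map_neg, map_smul, map_zero, map_mul, aeval_C,
      Module.End.mul_apply, LinearMap.add_apply, LinearMap.sub_apply, LinearMap.neg_apply,
      LinearMap.smul_apply, Module.End.one_apply, Module.algebraMap_end_apply, neg_smul,
      q1, q2, q4, smul_zero, neg_zero, add_zero, zero_add, sub_zero]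
    module
  · rw [mul_inv_rev, Units.val_mul, hu', ← mul_assoc, h2]
    ext m
    simp only [map_add, map_sub, map_neg, map_smul, map_zero, map_mul, aeval_C,
      Module.End.mul_apply, LinearMap.add_apply, LinearMap.sub_apply, LinearMap.neg_apply,
      LinearMap.smul_apply, Module.End.one_apply, Module.algebraMap_end_apply, neg_smul,
      q1, q2, q4, smul_zero, neg_zero, add_zero, zero_add, sub_zero]
    module

end Cfsg.Agent.Lib.Helper50.QP.Basic

namespace Cfsg.Agent.Lib.Helper50.QP

open Polynomial Cfsg Cfsg.Agent.Lib.Helper50.QR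

universe u v

variable {k : Type u} [Field k] {M : Type v} [AddCommGroup M] [Module k M] [FiniteDimensional k M]

/-- J1 (a): if `z = AB + BA` is nilpotent then `⟨1 + cA, 1 + cB⟩` is unipotent -/
theorem unip_of_nilp {A B : Module.End k M} (hA : A * A = 0) (hB : B * B = 0)
    (h : IsNilpotent (zz A B)) : Cfsg.IsUnipotentOn (genH A B) := by
  obtain ⟨N, hN⟩ := h
  refine ⟨3 * N, fun l hl hlen => ?_⟩
  rw [Basic.bind_pure_map l (fun a : LinearMap.GeneralLinearGroup k M => (a : M →ₗ[k] M))
    (fun g : M →ₗ[k] M => g - 1)]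
  ext x
  have h1 := Basic.list_step hA hB (T := ⊤) (fun _ _ => Submodule.mem_top)
    (fun _ _ => Submodule.mem_top) l hl 0 x Submodule.mem_top
  rw [zero_add, hlen] at h1
  obtain ⟨t, -, ht⟩ := Basic.chain_three_mul A B ⊤ N h1
  rw [hN] at ht
  rw [← ht]
  rfl

/-- J1 (b): every element of `genH A B` has a "first column" `(x, r)`, `x = px(z)`, `r = pr(z)` -/
theorem exists_col {A B : Module.End k M} (hA : A * A = 0) (hB : B * B = 0)
    {g : LinearMap.GeneralLinearGroup k M} (hg : g ∈ genH A B) :
    ∃ px pr : k[X],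
      (g : Module.End k M) * A = aeval (zz A B) px * A + aeval (zz A B) pr * (B * A) ∧
      A * ((g⁻¹ : LinearMap.GeneralLinearGroup k M) : Module.End k M) =
        aeval (zz A B) px * A - aeval (zz A B) pr * (A * B) := by
  unfold genH at hg
  induction hg using Subgroup.closure_induction_left with
  | one =>
    refine ⟨1, 0, ?_, ?_⟩
    · simp
    · simp
  | mul_left u hu y _ ih =>
    obtain ⟨px, pr, h1, h2⟩ := ih
    rcases hu with ⟨c, hc⟩ | ⟨c, hc⟩
    · exact ⟨_, _, Basic.col_step_A hA hc h1 h2⟩
    · exact ⟨_, _, Basic.col_step_B hB hc h1 h2⟩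
  | inv_mul_cancel u hu y _ ih =>
    obtain ⟨px, pr, h1, h2⟩ := ih
    rcases hu with ⟨c, hc⟩ | ⟨c, hc⟩
    · exact ⟨_, _, Basic.col_step_A hA (Basic.coe_inv_gen hA hc) h1 h2⟩
    · exact ⟨_, _, Basic.col_step_B hB (Basic.coe_inv_gen hB hc) h1 h2⟩

/-- J1 (c): an element of `genH A B` of order prime to `p = char k` fixes the generalized
`0`-eigenspace of `z` pointwise -/
theorem pprime_trivial (p : ℕ) [Fact p.Prime] [CharP k p] {A B : Module.End k M}
    (hA : A * A = 0) (hB : B * B = 0)
    {s : LinearMap.GeneralLinearGroup k M} (hs : s ∈ genH A B) (hc : (orderOf s).Coprime p)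
    (m : M) (n : ℕ) (hm : (zz A B ^ n) m = 0) : (s : Module.End k M) m = m := by
  have hp : p.Prime := Fact.out
  have hTA : ∀ x ∈ LinearMap.ker (zz A B ^ n), A x ∈ LinearMap.ker (zz A B ^ n) := by
    intro x hx
    rw [LinearMap.mem_ker] at hx ⊢
    have h1 : (zz A B ^ n) (A x) = A ((zz A B ^ n) x) :=
      congrArg (fun f : Module.End k M => f x) ((zz_comm_A (B := B) hA).pow_left n).eq
    rw [h1, hx, map_zero]
  have hTB : ∀ x ∈ LinearMap.ker (zz A B ^ n), B x ∈ LinearMap.ker (zz A B ^ n) := by
    intro x hx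
    rw [LinearMap.mem_ker] at hx ⊢
    have h1 : (zz A B ^ n) (B x) = B ((zz A B ^ n) x) :=
      congrArg (fun f : Module.End k M => f x) ((zz_comm_B (A := A) hB).pow_left n).eq
    rw [h1, hx, map_zero]
  have hmT : m ∈ LinearMap.ker (zz A B ^ n) := hm
  have hpow : ∀ j : ℕ, (((s : Module.End k M) - 1) ^ j) m ∈
      Basic.chain A B (LinearMap.ker (zz A B ^ n)) j := by
    intro j
    induction j with
    | zero =>
      rw [pow_zero]
      exact hmT
    | succ j ih =>
      have h1 := Basic.gen_step hA hB hTA hTB hs j _ ih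
      have h2 : (((s : Module.End k M) - 1) ^ (j + 1)) m =
          (s : Module.End k M) ((((s : Module.End k M) - 1) ^ j) m) -
            (((s : Module.End k M) - 1) ^ j) m := by
        rw [pow_succ']
        simp
      rw [h2]
      exact h1
  have h3n : (((s : Module.End k M) - 1) ^ (3 * n)) m = 0 := by
    obtain ⟨t, ht, hte⟩ := Basic.chain_three_mul A B _ n (hpow (3 * n))
    rw [← hte]
    exact ht
  by_cases hsub : Subsingleton M
  · exact Subsingleton.elim _ _
  rw [not_subsingleton_iff_nontrivial] at hsub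
  haveI : CharP (Module.End k M) p :=
    charP_of_injective_algebraMap (algebraMap k (Module.End k M)).injective p
  obtain ⟨a, ha⟩ : ∃ a : ℕ, 3 * n ≤ p ^ a := ⟨3 * n, (Nat.lt_pow_self hp.one_lt).le⟩
  have h4 : (((s : Module.End k M) - 1) ^ (p ^ a)) m = 0 := by
    obtain ⟨e, he⟩ := Nat.exists_eq_add_of_le ha
    rw [he, add_comm, pow_add, Module.End.mul_apply, h3n, map_zero]
  have h5 : ((s : Module.End k M) ^ (p ^ a)) m = m := by
    have h6 := sub_pow_char_pow_of_commute (p := p) (n := a)
      (Commute.one_right (s : Module.End k M))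
    rw [h6, one_pow] at h4
    have h7 : ((s : Module.End k M) ^ (p ^ a)) m - m = 0 := by simpa using h4
    exact sub_eq_zero.mp h7
  rcases Nat.lt_or_ge (orderOf s) 2 with ht2 | ht2
  · have ht1 : orderOf s = 1 := by
      rcases Nat.lt_or_ge (orderOf s) 1 with h0 | h0
      · have h00 : orderOf s = 0 := by omega
        rw [h00, Nat.coprime_zero_left] at hc
        exact absurd hc hp.one_lt.ne'
      · omega
    have hs1 : s = 1 := orderOf_eq_one_iff.mp ht1
    rw [hs1]
    simp
  · have hcop : Nat.Coprime (p ^ a) (orderOf s) := Nat.Coprime.pow_left a hc.symm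
    obtain ⟨w, -, hw⟩ := Nat.exists_mul_mod_eq_one_of_coprime hcop ht2
    have h7 : s ^ (p ^ a * w) = s := by
      rw [← pow_mod_orderOf, hw, pow_one]
    have h8 : ∀ j : ℕ, (((s : Module.End k M) ^ (p ^ a)) ^ j) m = m := by
      intro j
      induction j with
      | zero => simp
      | succ j ih => rw [pow_succ, Module.End.mul_apply, h5, ih]
    have h9 := h8 w
    rw [← pow_mul, ← Units.val_pow_eq_pow_val, h7] at h9
    exact h9

end Cfsg.Agent.Lib.Helper50.QP
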