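import Mathlib
import Cfsg.Prelude.Def_RootSubgroups

/-!
# Root subgroups of quadratic pairs: basic structure (helper50)

For a quadratic pair `(G, M)` and `σ ∈ 𝒬_d(G)` the root subgroup `E(σ)` consists of the elements
`1 + X` where `X` ranges over a `k`-subspace of maps `M → [M,σ]` vanishing on `C_M(σ)`; by the
minimality of `d` every non-identity element of `E(σ)` again lies in the generating class.
-/

set_option autoImplicit false

namespace Cfsg.Agent.Lib.Helper50.QR

open Cfsg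

variable {k : Type*} [Field k] {M : Type*} [AddCommGroup M] [Module k M]

/-- `g - 1` as an endomorphism of `M`. -/
def nl (g : LinearMap.GeneralLinearGroup k M) : M →ₗ[k] M := (g : M →ₗ[k] M) - 1

theorem nl_def (g : LinearMap.GeneralLinearGroup k M) : nl g = (g : M →ₗ[k] M) - 1 := rfl

theorem coe_eq (g : LinearMap.GeneralLinearGroup k M) : (g : M →ₗ[k] M) = 1 + nl g := by
  rw [nl_def]; abel

theorem nl_one : nl (1 : LinearMap.GeneralLinearGroup k M) = 0 := by
  rw [nl_def, Units.val_one, sub_self]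

theorem nl_mul (g h : LinearMap.GeneralLinearGroup k M) :
    nl (g * h) = nl g + nl h + nl g * nl h := by
  rw [nl_def, nl_def, nl_def, Units.val_mul]
  noncomm_ring

theorem eq_of_nl_eq {g h : LinearMap.GeneralLinearGroup k M} (e : nl g = nl h) : g = h := by
  apply Units.ext
  rw [coe_eq g, coe_eq h, e]

theorem eq_one_of_nl {g : LinearMap.GeneralLinearGroup k M} (e : nl g = 0) : g = 1 :=
  eq_of_nl_eq (by rw [e, nl_one])

theorem nl_ne_zero {g : LinearMap.GeneralLinearGroup k M} (hg : g ≠ 1) : nl g ≠ 0 :=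
  fun e => hg (eq_one_of_nl e)

theorem coe_inv_of_sq (g : LinearMap.GeneralLinearGroup k M) (h : nl g * nl g = 0) :
    ((g⁻¹ : LinearMap.GeneralLinearGroup k M) : M →ₗ[k] M) = 1 - nl g := by
  have h1 : ((g⁻¹ : LinearMap.GeneralLinearGroup k M) : M →ₗ[k] M) * (g : M →ₗ[k] M) = 1 := by
    rw [← Units.val_mul, inv_mul_cancel, Units.val_one]
  have h2 : (g : M →ₗ[k] M) * (1 - nl g) = 1 := by
    rw [coe_eq g]
    have h3 : (1 + nl g) * (1 - nl g) = 1 - nl g * nl g := by noncomm_ring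
    rw [h3, h, sub_zero]
  calc ((g⁻¹ : LinearMap.GeneralLinearGroup k M) : M →ₗ[k] M)
      = ((g⁻¹ : LinearMap.GeneralLinearGroup k M) : M →ₗ[k] M) * ((g : M →ₗ[k] M) * (1 - nl g)) := by
        rw [h2, mul_one]
    _ = 1 - nl g := by rw [← mul_assoc, h1, one_mul]

theorem nl_inv_of_sq (g : LinearMap.GeneralLinearGroup k M) (h : nl g * nl g = 0) :
    nl g⁻¹ = - nl g := by
  rw [nl_def, coe_inv_of_sq g h]; abel

/-- The unit `1 + X` for a square-zero endomorphism `X`. -/
def mkU (X : M →ₗ[k] M) (h : X * X = 0) : LinearMap.GeneralLinearGroup k M :=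
  ⟨1 + X, 1 - X, by
    have h3 : (1 + X) * (1 - X) = 1 - X * X := by noncomm_ring
    rw [h3, h, sub_zero], by
    have h3 : (1 - X) * (1 + X) = 1 - X * X := by noncomm_ring
    rw [h3, h, sub_zero]⟩

theorem nl_mkU (X : M →ₗ[k] M) (h : X * X = 0) : nl (mkU X h) = X := by
  rw [nl_def]
  show (1 + X) - 1 = X
  abel

/-- Conjugation: `nl (g h g⁻¹) = g (nl h) g⁻¹`. -/
theorem nl_conj (g h : LinearMap.GeneralLinearGroup k M) :
    nl (g * h * g⁻¹) =
      (g : M →ₗ[k] M) * nl h * ((g⁻¹ : LinearMap.GeneralLinearGroup k M) : M →ₗ[k] M) := by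
  have h1 : (g : M →ₗ[k] M) * ((g⁻¹ : LinearMap.GeneralLinearGroup k M) : M →ₗ[k] M) = 1 := by
    rw [← Units.val_mul, mul_inv_cancel, Units.val_one]
  rw [nl_def, nl_def, Units.val_mul, Units.val_mul, mul_sub, sub_mul, mul_one, h1]

/-- `X` maps `M` into `R` and kills `C`. -/
def InN (C R : Submodule k M) (X : M →ₗ[k] M) : Prop :=
  LinearMap.range X ≤ R ∧ C ≤ LinearMap.ker X

theorem InN.mul_eq_zero {C R : Submodule k M} (hRC : R ≤ C) {X Y : M →ₗ[k] M}
    (hX : InN C R X) (hY : InN C R Y) : X * Y = 0 := by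
  ext m
  have h1 : Y m ∈ LinearMap.ker X := hX.2 (hRC (hY.1 ⟨m, rfl⟩))
  rw [Module.End.mul_apply, LinearMap.zero_apply]
  exact LinearMap.mem_ker.mp h1

theorem InN.zero (C R : Submodule k M) : InN C R (0 : M →ₗ[k] M) := by
  constructor
  · rw [LinearMap.range_zero]; exact bot_le
  · rw [LinearMap.ker_zero]; exact le_top

theorem InN.add {C R : Submodule k M} {X Y : M →ₗ[k] M} (hX : InN C R X) (hY : InN C R Y) :
    InN C R (X + Y) := by
  constructor
  · rintro _ ⟨m, rfl⟩
    rw [LinearMap.add_apply]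
    exact R.add_mem (hX.1 ⟨m, rfl⟩) (hY.1 ⟨m, rfl⟩)
  · intro m hm
    rw [LinearMap.mem_ker, LinearMap.add_apply, LinearMap.mem_ker.mp (hX.2 hm),
      LinearMap.mem_ker.mp (hY.2 hm), add_zero]

theorem InN.neg {C R : Submodule k M} {X : M →ₗ[k] M} (hX : InN C R X) : InN C R (-X) := by
  constructor
  · rintro _ ⟨m, rfl⟩
    rw [LinearMap.neg_apply]
    exact R.neg_mem (hX.1 ⟨m, rfl⟩)
  · intro m hm
    rw [LinearMap.mem_ker, LinearMap.neg_apply, LinearMap.mem_ker.mp (hX.2 hm), neg_zero]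

theorem InN.smul {C R : Submodule k M} {X : M →ₗ[k] M} (hX : InN C R X) (c : k) :
    InN C R (c • X) := by
  constructor
  · rintro _ ⟨m, rfl⟩
    rw [LinearMap.smul_apply]
    exact R.smul_mem c (hX.1 ⟨m, rfl⟩)
  · intro m hm
    rw [LinearMap.mem_ker, LinearMap.smul_apply, LinearMap.mem_ker.mp (hX.2 hm), smul_zero]

/-! ### Quadratic elements -/

theorem quad_sq {σ : LinearMap.GeneralLinearGroup k M} (h : IsQuadraticOn σ) : nl σ * nl σ = 0 :=
  h.1

theorem quad_ne {σ : LinearMap.GeneralLinearGroup k M} (h : IsQuadraticOn σ) : nl σ ≠ 0 := h.2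

theorem range_le_ker_of_sq {X : M →ₗ[k] M} (h : X * X = 0) :
    LinearMap.range X ≤ LinearMap.ker X := by
  rintro _ ⟨m, rfl⟩
  rw [LinearMap.mem_ker, ← Module.End.mul_apply, h, LinearMap.zero_apply]

theorem inN_self {X : M →ₗ[k] M} : InN (LinearMap.ker X) (LinearMap.range X) X :=
  ⟨le_rfl, le_rfl⟩

/-- The scalar family of a quadratic element of `G`, as explicit units of `G`. -/
theorem mkU_smul_mem {G : Subgroup (LinearMap.GeneralLinearGroup k M)}
    {ρ : LinearMap.GeneralLinearGroup k M} (hρ : ρ ∈ quadraticElements G) (c : k)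
    (h : (c • nl ρ) * (c • nl ρ) = 0) : mkU (c • nl ρ) h ∈ G := by
  apply hρ.2.2
  refine ⟨c, ?_⟩
  show (1 + c • nl ρ : M →ₗ[k] M) = 1 + c • ((ρ : M →ₗ[k] M) - 1)
  rfl

theorem smul_sq {X : M →ₗ[k] M} (h : X * X = 0) (c : k) : (c • X) * (c • X) = 0 := by
  rw [smul_mul_assoc, mul_smul_comm, h, smul_zero, smul_zero]

/-- Non-zero scalar multiples of quadratic elements of `G` are quadratic elements of `G`. -/
theorem mkU_smul_quad {G : Subgroup (LinearMap.GeneralLinearGroup k M)}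
    {ρ : LinearMap.GeneralLinearGroup k M} (hρ : ρ ∈ quadraticElements G) {c : k} (hc : c ≠ 0) :
    mkU (c • nl ρ) (smul_sq (quad_sq hρ.2.1) c) ∈ quadraticElements G := by
  refine ⟨mkU_smul_mem hρ c _, ⟨?_, ?_⟩, ?_⟩
  · show nl (mkU (c • nl ρ) _) * nl (mkU (c • nl ρ) _) = 0
    rw [nl_mkU]
    exact smul_sq (quad_sq hρ.2.1) c
  · show nl (mkU (c • nl ρ) _) ≠ 0
    rw [nl_mkU]
    exact smul_ne_zero hc (quad_ne hρ.2.1)
  · rintro t ⟨c', ht⟩
    apply hρ.2.2
    refine ⟨c' * c, ?_⟩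
    rw [ht]
    show 1 + c' • nl (mkU (c • nl ρ) _) = 1 + (c' * c) • nl ρ
    rw [nl_mkU, smul_smul]

/-- Conjugates (by elements of `G`) of quadratic elements of `G` are quadratic elements of `G`. -/
theorem conj_quad {G : Subgroup (LinearMap.GeneralLinearGroup k M)}
    {ρ g : LinearMap.GeneralLinearGroup k M} (hρ : ρ ∈ quadraticElements G) (hg : g ∈ G) :
    g * ρ * g⁻¹ ∈ quadraticElements G := by
  have h1 : (g : M →ₗ[k] M) * ((g⁻¹ : LinearMap.GeneralLinearGroup k M) : M →ₗ[k] M) = 1 := by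
    rw [← Units.val_mul, mul_inv_cancel, Units.val_one]
  have h2 : ((g⁻¹ : LinearMap.GeneralLinearGroup k M) : M →ₗ[k] M) * (g : M →ₗ[k] M) = 1 := by
    rw [← Units.val_mul, inv_mul_cancel, Units.val_one]
  refine ⟨G.mul_mem (G.mul_mem hg hρ.1) (G.inv_mem hg), ⟨?_, ?_⟩, ?_⟩
  · show nl (g * ρ * g⁻¹) * nl (g * ρ * g⁻¹) = 0
    rw [nl_conj]
    calc (g : M →ₗ[k] M) * nl ρ * ((g⁻¹ : LinearMap.GeneralLinearGroup k M) : M →ₗ[k] M) *
          ((g : M →ₗ[k] M) * nl ρ * ((g⁻¹ : LinearMap.GeneralLinearGroup k M) : M →ₗ[k] M))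
        = (g : M →ₗ[k] M) * nl ρ *
          (((g⁻¹ : LinearMap.GeneralLinearGroup k M) : M →ₗ[k] M) * (g : M →ₗ[k] M)) * nl ρ *
          ((g⁻¹ : LinearMap.GeneralLinearGroup k M) : M →ₗ[k] M) := by noncomm_ring
      _ = 0 := by
        rw [h2, mul_one, mul_assoc (g : M →ₗ[k] M), quad_sq hρ.2.1, mul_zero, zero_mul]
  · show nl (g * ρ * g⁻¹) ≠ 0
    intro e
    apply quad_ne hρ.2.1
    rw [nl_conj] at e
    calc nl ρ = (((g⁻¹ : LinearMap.GeneralLinearGroup k M) : M →ₗ[k] M) * (g : M →ₗ[k] M)) * nl ρ *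
          (((g⁻¹ : LinearMap.GeneralLinearGroup k M) : M →ₗ[k] M) * (g : M →ₗ[k] M)) := by
            rw [h2, one_mul, mul_one]
      _ = ((g⁻¹ : LinearMap.GeneralLinearGroup k M) : M →ₗ[k] M) *
          ((g : M →ₗ[k] M) * nl ρ * ((g⁻¹ : LinearMap.GeneralLinearGroup k M) : M →ₗ[k] M)) *
          (g : M →ₗ[k] M) := by noncomm_ring
      _ = 0 := by rw [e, mul_zero, zero_mul]
  · rintro t ⟨c, ht⟩
    have h3 : t = g * mkU (c • nl ρ) (smul_sq (quad_sq hρ.2.1) c) * g⁻¹ := by
      apply eq_of_nl_eq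
      rw [nl_conj, nl_mkU, nl_def, ht]
      have h4 : ((g * ρ * g⁻¹ : LinearMap.GeneralLinearGroup k M) : M →ₗ[k] M) - 1 =
          nl (g * ρ * g⁻¹) := rfl
      rw [h4, nl_conj, add_sub_cancel_left, mul_smul_comm, smul_mul_assoc]
    rw [h3]
    exact G.mul_mem (G.mul_mem hg (mkU_smul_mem hρ c _)) (G.inv_mem hg)

/-! ### Minimality -/

theorem subgroup_le {G : Subgroup (LinearMap.GeneralLinearGroup k M)}
    {σ : LinearMap.GeneralLinearGroup k M} : sameActionSubgroup G σ ≤ G :=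
  (Subgroup.closure_le G).2 (fun _ hρ => hρ.1.1.1)

theorem self_mem {G : Subgroup (LinearMap.GeneralLinearGroup k M)}
    {σ : LinearMap.GeneralLinearGroup k M} (hσ : σ ∈ minimalQuadraticElements G) :
    σ ∈ sameActionSubgroup G σ :=
  Subgroup.subset_closure ⟨hσ, rfl, rfl⟩

theorem self_ne_one {G : Subgroup (LinearMap.GeneralLinearGroup k M)}
    {σ : LinearMap.GeneralLinearGroup k M} (hσ : σ ∈ minimalQuadraticElements G) : σ ≠ 1 := by
  intro e
  apply quad_ne hσ.1.2.1
  rw [e, nl_one]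

section Minimal

variable [FiniteDimensional k M]

/-- Membership criterion: a quadratic element of `G` whose `nl` maps into `[M,σ]` and kills
`C_M(σ)` belongs to the class of `σ` (for `σ` of minimal commutator rank). -/
theorem mem_class_of_inN {G : Subgroup (LinearMap.GeneralLinearGroup k M)}
    {σ ρ : LinearMap.GeneralLinearGroup k M} (hσ : σ ∈ minimalQuadraticElements G)
    (hρ : ρ ∈ quadraticElements G)
    (hN : InN (LinearMap.ker (nl σ)) (LinearMap.range (nl σ)) (nl ρ)) :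
    ρ ∈ sameActionClass G σ := by
  have h1 : Module.finrank k (LinearMap.range (nl σ)) ≤ Module.finrank k (LinearMap.range (nl ρ)) :=
    hσ.2 ρ hρ
  have h3 : LinearMap.range (nl ρ) = LinearMap.range (nl σ) :=
    Submodule.eq_of_le_of_finrank_le hN.1 h1
  have h4 := LinearMap.finrank_range_add_finrank_ker (nl ρ)
  have h5 := LinearMap.finrank_range_add_finrank_ker (nl σ)
  have h6 : LinearMap.ker (nl σ) = LinearMap.ker (nl ρ) :=
    Submodule.eq_of_le_of_finrank_eq hN.2 (by rw [h3] at h4; omega)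
  refine ⟨⟨hρ, fun τ hτ => ?_⟩, h6.symm, h3⟩
  have h7 : commutatorRank ρ = commutatorRank σ := congrArg (fun S : Submodule k M => Module.finrank k S) h3
  rw [h7]
  exact hσ.2 τ hτ

/-- Elements of `E(σ)`: `g - 1` maps into `[M,σ]`, kills `C_M(σ)`, and all scalar multiples of
`g - 1` again come from `E(σ)`. -/
theorem closure_props {G : Subgroup (LinearMap.GeneralLinearGroup k M)}
    {σ : LinearMap.GeneralLinearGroup k M} (hσ : σ ∈ minimalQuadraticElements G)
    {g : LinearMap.GeneralLinearGroup k M} (hg : g ∈ sameActionSubgroup G σ) :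
    InN (LinearMap.ker (nl σ)) (LinearMap.range (nl σ)) (nl g) ∧
      ∀ c : k, ∃ h ∈ sameActionSubgroup G σ, nl h = c • nl g := by
  have hRC := range_le_ker_of_sq (quad_sq hσ.1.2.1)
  have key : ∀ x ∈ Subgroup.closure (sameActionClass G σ),
      InN (LinearMap.ker (nl σ)) (LinearMap.range (nl σ)) (nl x) ∧
      ∀ c : k, ∃ h ∈ Subgroup.closure (sameActionClass G σ), nl h = c • nl x := by
    intro x hx
    induction hx using Subgroup.closure_induction with
    | mem ρ hρ =>
      have hN : InN (LinearMap.ker (nl σ)) (LinearMap.range (nl σ)) (nl ρ) :=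
        ⟨le_of_eq hρ.2.2, le_of_eq hρ.2.1.symm⟩
      refine ⟨hN, fun c => ?_⟩
      by_cases hc : c = 0
      · exact ⟨1, Subgroup.one_mem _, by rw [nl_one, hc, zero_smul]⟩
      · refine ⟨mkU (c • nl ρ) (smul_sq (quad_sq hρ.1.1.2.1) c), Subgroup.subset_closure ?_,
          nl_mkU _ _⟩
        apply mem_class_of_inN hσ (mkU_smul_quad hρ.1.1 hc)
        rw [nl_mkU]
        exact hN.smul c
    | one =>
      refine ⟨by rw [nl_one]; exact InN.zero _ _, fun c => ⟨1, Subgroup.one_mem _, ?_⟩⟩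
      rw [nl_one, smul_zero]
    | mul x y hx hy ihx ihy =>
      have h0 : nl x * nl y = 0 := InN.mul_eq_zero hRC ihx.1 ihy.1
      have h1 : nl (x * y) = nl x + nl y := by rw [nl_mul, h0, add_zero]
      refine ⟨by rw [h1]; exact ihx.1.add ihy.1, fun c => ?_⟩
      obtain ⟨a, ha, ea⟩ := ihx.2 c
      obtain ⟨b, hb, eb⟩ := ihy.2 c
      refine ⟨a * b, Subgroup.mul_mem _ ha hb, ?_⟩
      rw [nl_mul, ea, eb, h1, InN.mul_eq_zero hRC (ihx.1.smul c) (ihy.1.smul c), add_zero,
        smul_add]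
    | inv x hx ih =>
      have h1 : nl x⁻¹ = - nl x := nl_inv_of_sq x (InN.mul_eq_zero hRC ih.1 ih.1)
      refine ⟨by rw [h1]; exact ih.1.neg, fun c => ?_⟩
      obtain ⟨a, ha, ea⟩ := ih.2 (-c)
      exact ⟨a, ha, by rw [ea, h1, neg_smul, smul_neg]⟩
  exact key g hg

theorem inN_of_mem {G : Subgroup (LinearMap.GeneralLinearGroup k M)}
    {σ : LinearMap.GeneralLinearGroup k M} (hσ : σ ∈ minimalQuadraticElements G)
    {g : LinearMap.GeneralLinearGroup k M} (hg : g ∈ sameActionSubgroup G σ) :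
    InN (LinearMap.ker (nl σ)) (LinearMap.range (nl σ)) (nl g) := (closure_props hσ hg).1

theorem mul_zero_of_mem {G : Subgroup (LinearMap.GeneralLinearGroup k M)}
    {σ : LinearMap.GeneralLinearGroup k M} (hσ : σ ∈ minimalQuadraticElements G)
    {a b : LinearMap.GeneralLinearGroup k M} (ha : a ∈ sameActionSubgroup G σ)
    (hb : b ∈ sameActionSubgroup G σ) : nl a * nl b = 0 :=
  InN.mul_eq_zero (range_le_ker_of_sq (quad_sq hσ.1.2.1)) (inN_of_mem hσ ha) (inN_of_mem hσ hb)

theorem nl_mul_of_mem {G : Subgroup (LinearMap.GeneralLinearGroup k M)}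
    {σ : LinearMap.GeneralLinearGroup k M} (hσ : σ ∈ minimalQuadraticElements G)
    {a b : LinearMap.GeneralLinearGroup k M} (ha : a ∈ sameActionSubgroup G σ)
    (hb : b ∈ sameActionSubgroup G σ) : nl (a * b) = nl a + nl b := by
  rw [nl_mul, mul_zero_of_mem hσ ha hb, add_zero]

theorem nl_inv_of_mem {G : Subgroup (LinearMap.GeneralLinearGroup k M)}
    {σ : LinearMap.GeneralLinearGroup k M} (hσ : σ ∈ minimalQuadraticElements G)
    {a : LinearMap.GeneralLinearGroup k M} (ha : a ∈ sameActionSubgroup G σ) :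
    nl a⁻¹ = - nl a := nl_inv_of_sq a (mul_zero_of_mem hσ ha ha)

theorem comm_of_mem {G : Subgroup (LinearMap.GeneralLinearGroup k M)}
    {σ : LinearMap.GeneralLinearGroup k M} (hσ : σ ∈ minimalQuadraticElements G)
    {a b : LinearMap.GeneralLinearGroup k M} (ha : a ∈ sameActionSubgroup G σ)
    (hb : b ∈ sameActionSubgroup G σ) : a * b = b * a := by
  apply eq_of_nl_eq
  rw [nl_mul_of_mem hσ ha hb, nl_mul_of_mem hσ hb ha, add_comm]

/-- Non-identity elements of `E(σ)` are quadratic elements of `G`. -/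
theorem mem_quad_of_mem {G : Subgroup (LinearMap.GeneralLinearGroup k M)}
    {σ : LinearMap.GeneralLinearGroup k M} (hσ : σ ∈ minimalQuadraticElements G)
    {g : LinearMap.GeneralLinearGroup k M} (hg : g ∈ sameActionSubgroup G σ) (h1 : g ≠ 1) :
    g ∈ quadraticElements G := by
  refine ⟨subgroup_le hg, ⟨mul_zero_of_mem hσ hg hg, nl_ne_zero h1⟩, ?_⟩
  rintro t ⟨c, ht⟩
  obtain ⟨h, hh, e⟩ := (closure_props hσ hg).2 c
  have h2 : t = h := by
    apply eq_of_nl_eq
    rw [e, nl_def, ht]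
    show 1 + c • nl g - 1 = c • nl g
    abel
  rw [h2]
  exact subgroup_le hh

/-- Non-identity elements of `E(σ)` lie in the generating class of `σ`. -/
theorem mem_class_of_mem {G : Subgroup (LinearMap.GeneralLinearGroup k M)}
    {σ : LinearMap.GeneralLinearGroup k M} (hσ : σ ∈ minimalQuadraticElements G)
    {g : LinearMap.GeneralLinearGroup k M} (hg : g ∈ sameActionSubgroup G σ) (h1 : g ≠ 1) :
    g ∈ sameActionClass G σ :=
  mem_class_of_inN hσ (mem_quad_of_mem hσ hg h1) (inN_of_mem hσ hg)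

theorem ker_of_mem {G : Subgroup (LinearMap.GeneralLinearGroup k M)}
    {σ : LinearMap.GeneralLinearGroup k M} (hσ : σ ∈ minimalQuadraticElements G)
    {g : LinearMap.GeneralLinearGroup k M} (hg : g ∈ sameActionSubgroup G σ) (h1 : g ≠ 1) :
    LinearMap.ker (nl g) = LinearMap.ker (nl σ) := (mem_class_of_mem hσ hg h1).2.1

theorem range_of_mem {G : Subgroup (LinearMap.GeneralLinearGroup k M)}
    {σ : LinearMap.GeneralLinearGroup k M} (hσ : σ ∈ minimalQuadraticElements G)
    {g : LinearMap.GeneralLinearGroup k M} (hg : g ∈ sameActionSubgroup G σ) (h1 : g ≠ 1) :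
    LinearMap.range (nl g) = LinearMap.range (nl σ) := (mem_class_of_mem hσ hg h1).2.2

/-! ### The commuting criterion -/

omit [FiniteDimensional k M] in
/-- Two members of `𝒬_d` have the same commutator rank. -/
theorem rank_eq {G : Subgroup (LinearMap.GeneralLinearGroup k M)}
    {σ τ : LinearMap.GeneralLinearGroup k M} (hσ : σ ∈ minimalQuadraticElements G)
    (hτ : τ ∈ minimalQuadraticElements G) :
    Module.finrank k (LinearMap.range (nl σ)) = Module.finrank k (LinearMap.range (nl τ)) :=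
  le_antisymm (hσ.2 τ hτ.1) (hτ.2 σ hσ.1)

/-- If `[M,τ] ≤ [M,σ]` and `C_M(σ) ≤ C_M(τ)` then every non-identity element of `E(σ)` lies in
`E(τ)`. -/
theorem mem_of_spaces_le {G : Subgroup (LinearMap.GeneralLinearGroup k M)}
    {σ τ : LinearMap.GeneralLinearGroup k M} (hσ : σ ∈ minimalQuadraticElements G)
    (hτ : τ ∈ minimalQuadraticElements G)
    (hR : LinearMap.range (nl τ) ≤ LinearMap.range (nl σ))
    (hC : LinearMap.ker (nl σ) ≤ LinearMap.ker (nl τ))
    {e : LinearMap.GeneralLinearGroup k M} (he : e ∈ sameActionSubgroup G σ) (he1 : e ≠ 1) :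
    e ∈ sameActionSubgroup G τ := by
  have hr := rank_eq hσ hτ
  have hR' : LinearMap.range (nl τ) = LinearMap.range (nl σ) :=
    Submodule.eq_of_le_of_finrank_eq hR hr.symm
  have h4 := LinearMap.finrank_range_add_finrank_ker (nl σ)
  have h5 := LinearMap.finrank_range_add_finrank_ker (nl τ)
  have hC' : LinearMap.ker (nl σ) = LinearMap.ker (nl τ) :=
    Submodule.eq_of_le_of_finrank_eq hC (by omega)
  apply Subgroup.subset_closure
  apply mem_class_of_inN hτ (mem_quad_of_mem hσ he he1)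
  rw [hR', ← hC']
  exact inN_of_mem hσ he

/-- Step A: if `e ∈ E(σ)`, `e ≠ 1`, and `e f e⁻¹`, `e² f e⁻²` lie in `E(τ)` for some `f ∈ E(τ)`,
then `e` commutes with `f`. -/
theorem comm_of_conj_mem (h2 : (2 : k) ≠ 0) {G : Subgroup (LinearMap.GeneralLinearGroup k M)}
    {σ τ : LinearMap.GeneralLinearGroup k M} (hσ : σ ∈ minimalQuadraticElements G)
    (hτ : τ ∈ minimalQuadraticElements G)
    {e f : LinearMap.GeneralLinearGroup k M} (he : e ∈ sameActionSubgroup G σ) (he1 : e ≠ 1)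
    (hf : f ∈ sameActionSubgroup G τ)
    (h1 : e * f * e⁻¹ ∈ sameActionSubgroup G τ)
    (h2' : e * (e * f * e⁻¹) * e⁻¹ ∈ sameActionSubgroup G τ) :
    e * f = f * e := by
  obtain ⟨X, hX⟩ : ∃ X, X = nl e := ⟨_, rfl⟩
  obtain ⟨Y, hY⟩ : ∃ Y, Y = nl f := ⟨_, rfl⟩
  have hXX : X * X = 0 := by rw [hX]; exact mul_zero_of_mem hσ he he
  have e1 : (e : M →ₗ[k] M) = 1 + X := by rw [hX]; exact coe_eq e
  have e2 : ((e⁻¹ : LinearMap.GeneralLinearGroup k M) : M →ₗ[k] M) = 1 - X := by
    rw [hX]; exact coe_inv_of_sq e (by rw [← hX]; exact hXX)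
  -- the conjugates
  have c1 : nl (e * f * e⁻¹) = Y + X * Y - Y * X - X * Y * X := by
    rw [nl_conj, e1, e2, ← hY]; noncomm_ring
  have c2 : nl (e * (e * f * e⁻¹) * e⁻¹) = Y + 2 • (X * Y) - 2 • (Y * X) - 4 • (X * Y * X) := by
    rw [nl_conj, c1, e1, e2]
    have hxw : X * (Y + X * Y - Y * X - X * Y * X) = X * Y - X * Y * X := by
      have h3 : X * (Y + X * Y - Y * X - X * Y * X) =
          X * Y - X * Y * X + (X * X) * Y - (X * X) * Y * X := by noncomm_ring
      rw [h3, hXX, zero_mul, zero_mul, add_zero, sub_zero]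
    have hwx : (Y + X * Y - Y * X - X * Y * X) * X = Y * X + X * Y * X := by
      have h3 : (Y + X * Y - Y * X - X * Y * X) * X =
          Y * X + X * Y * X - Y * (X * X) - X * Y * (X * X) := by noncomm_ring
      rw [h3, hXX, mul_zero, mul_zero, sub_zero, sub_zero]
    have hxwx : X * (Y + X * Y - Y * X - X * Y * X) * X = X * Y * X := by
      rw [hxw]
      have h3 : (X * Y - X * Y * X) * X = X * Y * X - X * Y * (X * X) := by noncomm_ring
      rw [h3, hXX, mul_zero, sub_zero]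
    have h4 : (1 + X) * (Y + X * Y - Y * X - X * Y * X) * (1 - X) =
        (Y + X * Y - Y * X - X * Y * X) + X * (Y + X * Y - Y * X - X * Y * X) -
          (Y + X * Y - Y * X - X * Y * X) * X - X * (Y + X * Y - Y * X - X * Y * X) * X := by
      noncomm_ring
    rw [h4, hxwx, hxw, hwx]
    abel
  -- the element with `nl = -2 XYX`
  have hg : (e * (e * f * e⁻¹) * e⁻¹) * (e * f * e⁻¹)⁻¹ * (e * f * e⁻¹)⁻¹ * f ∈
      sameActionSubgroup G τ :=
    Subgroup.mul_mem _ (Subgroup.mul_mem _ (Subgroup.mul_mem _ h2' (Subgroup.inv_mem _ h1))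
      (Subgroup.inv_mem _ h1)) hf
  have ng : nl ((e * (e * f * e⁻¹) * e⁻¹) * (e * f * e⁻¹)⁻¹ * (e * f * e⁻¹)⁻¹ * f) =
      -((2 : k) • (X * Y * X)) := by
    rw [nl_mul_of_mem hτ (Subgroup.mul_mem _ (Subgroup.mul_mem _ h2' (Subgroup.inv_mem _ h1))
      (Subgroup.inv_mem _ h1)) hf,
      nl_mul_of_mem hτ (Subgroup.mul_mem _ h2' (Subgroup.inv_mem _ h1)) (Subgroup.inv_mem _ h1),
      nl_mul_of_mem hτ h2' (Subgroup.inv_mem _ h1), nl_inv_of_mem hτ h1, c1, c2, ← hY]
    rw [show (2 : k) • (X * Y * X) = 2 • (X * Y * X) from by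
      rw [two_smul, two_nsmul]]
    abel
  by_cases hg1 : (e * (e * f * e⁻¹) * e⁻¹) * (e * f * e⁻¹)⁻¹ * (e * f * e⁻¹)⁻¹ * f = 1
  swap
  · -- then `E(σ)` and `E(τ)` have the same spaces, so `e ∈ E(τ)`
    have hr := range_of_mem hτ hg hg1
    have hk := ker_of_mem hτ hg hg1
    rw [ng] at hr hk
    have hR : LinearMap.range (nl τ) ≤ LinearMap.range (nl σ) := by
      rw [← hr, ← range_of_mem hσ he he1, ← hX]
      rintro _ ⟨m, rfl⟩
      refine ⟨-((2 : k) • (Y (X m))), ?_⟩
      simp only [LinearMap.neg_apply, LinearMap.smul_apply, Module.End.mul_apply, map_neg,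
        map_smul]
    have hC : LinearMap.ker (nl σ) ≤ LinearMap.ker (nl τ) := by
      rw [← hk, ← ker_of_mem hσ he he1, ← hX]
      intro m hm
      rw [LinearMap.mem_ker] at hm ⊢
      simp only [LinearMap.neg_apply, LinearMap.smul_apply, Module.End.mul_apply, hm, map_zero,
        smul_zero, neg_zero]
    exact comm_of_mem hτ (mem_of_spaces_le hσ hτ hR hC he he1) hf
  -- now `XYX = 0`
  have hW : X * Y * X = 0 := by
    have h3 : -((2 : k) • (X * Y * X)) = 0 := by rw [← ng, hg1, nl_one]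
    rw [neg_eq_zero] at h3
    exact (smul_eq_zero.mp h3).resolve_left h2
  have hg' : (e * f * e⁻¹) * f⁻¹ ∈ sameActionSubgroup G τ :=
    Subgroup.mul_mem _ h1 (Subgroup.inv_mem _ hf)
  have ng' : nl ((e * f * e⁻¹) * f⁻¹) = X * Y - Y * X := by
    rw [nl_mul_of_mem hτ h1 (Subgroup.inv_mem _ hf), nl_inv_of_mem hτ hf, c1, hW, ← hY]
    abel
  by_cases hg1' : (e * f * e⁻¹) * f⁻¹ = 1
  · -- `XY = YX`
    have h3 : X * Y - Y * X = 0 := by rw [← ng', hg1', nl_one]
    apply eq_of_nl_eq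
    rw [nl_mul, nl_mul, ← hX, ← hY, sub_eq_zero.mp h3]
    abel
  · exfalso
    have hr := range_of_mem hτ hg' hg1'
    have hk := ker_of_mem hτ hg' hg1'
    rw [ng'] at hr hk
    have hf1 : f ≠ 1 := by
      rintro rfl
      apply hg1'
      group
    have hkY : LinearMap.ker Y = LinearMap.ker (nl τ) := by rw [hY]; exact ker_of_mem hτ hf hf1
    have hrY : LinearMap.range Y = LinearMap.range (nl τ) := by
      rw [hY]; exact range_of_mem hτ hf hf1
    -- `Y X = 0`
    have hYX : Y * X = 0 := by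
      ext m
      have h3 : X m ∈ LinearMap.ker (X * Y - Y * X) := by
        have hA : (X * Y * X) m = 0 := by rw [hW, LinearMap.zero_apply]
        have hB : X (X m) = 0 := by rw [← Module.End.mul_apply, hXX, LinearMap.zero_apply]
        rw [LinearMap.mem_ker, LinearMap.sub_apply, Module.End.mul_apply, Module.End.mul_apply,
          hB, map_zero, sub_zero]
        simpa [Module.End.mul_apply] using hA
      rw [hk, ← hkY, LinearMap.mem_ker] at h3
      rw [Module.End.mul_apply, h3, LinearMap.zero_apply]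
    -- hence `XY = 0`
    have hZ : X * Y = 0 := by
      ext m
      have h3 : Y m ∈ LinearMap.range (X * Y - Y * X) := by
        rw [hr, ← hrY]; exact ⟨m, rfl⟩
      obtain ⟨m', hm'⟩ := h3
      rw [hYX, sub_zero, Module.End.mul_apply] at hm'
      rw [Module.End.mul_apply, ← hm', ← Module.End.mul_apply X X, hXX, LinearMap.zero_apply,
        LinearMap.zero_apply]
    apply hg1'
    apply eq_one_of_nl
    rw [ng', hZ, hYX, sub_zero]

/-- Step B: if `e` commutes with a non-identity `f ∈ E(τ)` (and `e ∈ G`), then `e` normalises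
`E(τ)`. -/
theorem conj_mem_of_comm {G : Subgroup (LinearMap.GeneralLinearGroup k M)}
    {τ : LinearMap.GeneralLinearGroup k M} (hτ : τ ∈ minimalQuadraticElements G)
    {e f : LinearMap.GeneralLinearGroup k M} (he : e ∈ G)
    (hf : f ∈ sameActionSubgroup G τ) (hf1 : f ≠ 1) (hc : e * f = f * e)
    {f' : LinearMap.GeneralLinearGroup k M} (hf' : f' ∈ sameActionSubgroup G τ) :
    e * f' * e⁻¹ ∈ sameActionSubgroup G τ := by
  by_cases h1 : f' = 1
  · rw [h1, mul_one, mul_inv_cancel]; exact Subgroup.one_mem _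
  have hkY : LinearMap.ker (nl f) = LinearMap.ker (nl τ) := ker_of_mem hτ hf hf1
  have hrY : LinearMap.range (nl f) = LinearMap.range (nl τ) := range_of_mem hτ hf hf1
  -- `e` and `e⁻¹` commute with `nl f`
  have c1 : (e : M →ₗ[k] M) * nl f = nl f * (e : M →ₗ[k] M) := by
    have h3 := congrArg (fun u : LinearMap.GeneralLinearGroup k M => (u : M →ₗ[k] M)) hc
    simp only [Units.val_mul] at h3
    rw [coe_eq f] at h3
    rw [mul_add, add_mul, mul_one, one_mul] at h3
    exact add_left_cancel h3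
  have hc' : e⁻¹ * f = f * e⁻¹ := by
    rw [eq_mul_inv_iff_mul_eq, mul_assoc, ← hc, ← mul_assoc, inv_mul_cancel, one_mul]
  have c2 : ((e⁻¹ : LinearMap.GeneralLinearGroup k M) : M →ₗ[k] M) * nl f =
      nl f * ((e⁻¹ : LinearMap.GeneralLinearGroup k M) : M →ₗ[k] M) := by
    have h3 := congrArg (fun u : LinearMap.GeneralLinearGroup k M => (u : M →ₗ[k] M)) hc'
    simp only [Units.val_mul] at h3
    rw [coe_eq f] at h3
    rw [mul_add, add_mul, mul_one, one_mul] at h3
    exact add_left_cancel h3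
  apply Subgroup.subset_closure
  apply mem_class_of_inN hτ (conj_quad (mem_quad_of_mem hτ hf' h1) he)
  have hN := inN_of_mem hτ hf'
  rw [nl_conj]
  constructor
  · rintro _ ⟨m, rfl⟩
    have h3 : nl f' (((e⁻¹ : LinearMap.GeneralLinearGroup k M) : M →ₗ[k] M) m) ∈
        LinearMap.range (nl f) := by
      rw [hrY]; exact hN.1 ⟨_, rfl⟩
    obtain ⟨m₂, hm₂⟩ := h3
    rw [← hrY]
    refine ⟨(e : M →ₗ[k] M) m₂, ?_⟩
    rw [Module.End.mul_apply, Module.End.mul_apply, ← hm₂, ← Module.End.mul_apply,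
      ← Module.End.mul_apply, c1]
  · intro m hm
    rw [← hkY, LinearMap.mem_ker] at hm
    have h3 : ((e⁻¹ : LinearMap.GeneralLinearGroup k M) : M →ₗ[k] M) m ∈ LinearMap.ker (nl f') := by
      apply hN.2
      rw [← hkY, LinearMap.mem_ker, ← Module.End.mul_apply, ← c2, Module.End.mul_apply, hm,
        map_zero]
    rw [LinearMap.mem_ker] at h3 ⊢
    rw [Module.End.mul_apply, Module.End.mul_apply, h3, map_zero]

/-- If non-identity `e ∈ E(σ)` and `f ∈ E(τ)` commute, then `e` commutes with all of `E(τ)`. -/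
theorem comm_all_of_comm (h2 : (2 : k) ≠ 0) {G : Subgroup (LinearMap.GeneralLinearGroup k M)}
    {σ τ : LinearMap.GeneralLinearGroup k M} (hσ : σ ∈ minimalQuadraticElements G)
    (hτ : τ ∈ minimalQuadraticElements G)
    {e f : LinearMap.GeneralLinearGroup k M} (he : e ∈ sameActionSubgroup G σ) (he1 : e ≠ 1)
    (hf : f ∈ sameActionSubgroup G τ) (hf1 : f ≠ 1) (hc : e * f = f * e)
    {f' : LinearMap.GeneralLinearGroup k M} (hf' : f' ∈ sameActionSubgroup G τ) :
    e * f' = f' * e := by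
  have h3 := conj_mem_of_comm hτ (subgroup_le he) hf hf1 hc hf'
  exact comm_of_conj_mem h2 hσ hτ he he1 hf' h3
    (conj_mem_of_comm hτ (subgroup_le he) hf hf1 hc h3)

/-- The commuting criterion for root subgroups of a quadratic pair. -/
theorem root_commute (h2 : (2 : k) ≠ 0) {G : Subgroup (LinearMap.GeneralLinearGroup k M)}
    {E F : Subgroup (LinearMap.GeneralLinearGroup k M)} (hE : E ∈ quadraticRootSubgroups G)
    (hF : F ∈ quadraticRootSubgroups G)
    (h : (∃ e ∈ E, e ≠ 1 ∧ ∃ f ∈ F, f ≠ 1 ∧ e * f = f * e) ∨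
      E ⊓ Subgroup.normalizer (F : Set (LinearMap.GeneralLinearGroup k M)) ≠ ⊥) :
    ⁅E, F⁆ = ⊥ := by
  obtain ⟨σ, hσ, rfl⟩ := hE
  obtain ⟨τ, hτ, rfl⟩ := hF
  -- reduce to the first alternative
  have h' : ∃ e ∈ sameActionSubgroup G σ, e ≠ 1 ∧ ∃ f ∈ sameActionSubgroup G τ, f ≠ 1 ∧
      e * f = f * e := by
    rcases h with h | h
    · exact h
    · rcases Subgroup.bot_or_exists_ne_one
        (sameActionSubgroup G σ ⊓
          Subgroup.normalizer (sameActionSubgroup G τ : Set (LinearMap.GeneralLinearGroup k M)))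
        with hb | ⟨e, he, he1⟩
      · exact absurd hb h
      · have hn : ∀ x, x ∈ sameActionSubgroup G τ ↔ e * x * e⁻¹ ∈ sameActionSubgroup G τ :=
          fun x => Subgroup.mem_normalizer_iff.mp he.2 x
        refine ⟨e, he.1, he1, τ, self_mem hτ, self_ne_one hτ, ?_⟩
        exact comm_of_conj_mem h2 hσ hτ he.1 he1 (self_mem hτ) ((hn τ).mp (self_mem hτ))
          ((hn _).mp ((hn τ).mp (self_mem hτ)))
  obtain ⟨e, he, he1, f, hf, hf1, hc⟩ := h'
  rw [Subgroup.commutator_eq_bot_iff_le_centralizer]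
  intro e' he'
  rw [Subgroup.mem_centralizer_iff]
  intro f' hf'
  by_cases hf'1 : f' = 1
  · rw [hf'1, one_mul, mul_one]
  · -- `f'` commutes with `e`, hence with all of `E(σ)`
    have h3 : e * f' = f' * e := comm_all_of_comm h2 hσ hτ he he1 hf hf1 hc hf'
    exact comm_all_of_comm h2 hτ hσ hf' hf'1 he he1 h3.symm he'

end Minimal

end Cfsg.Agent.Lib.Helper50.QR
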