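import Mathlib
import Cfsg.Prelude.Def_RootSubgroups
import Cfsg.Agent.Lib.Helper50.QuadRoot

/-!
# Groups generated by two scalar families `1 + cA`, `1 + cB` (helper50)

Foundation for S5064 (quadratic pairs: a non-unipotent pair of minimal quadratic elements
generates `SL₂(k(λ))`).  `A`, `B` are square-zero endomorphisms of a finite-dimensional
`k`-space `M`, `z = AB + BA` (`zz A B`), `genH A B = ⟨1 + cA, 1 + cB : c ∈ k⟩`.
`Fam H Y` says that `Y` is the nilpotent part of a scalar family inside `H`
(`Y² = 0` and `1 + cY ∈ H` for all `c`), and `MinRank H d` is the minimality of `d`: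
every non-zero such `Y` has rank at least `d`.
-/

set_option autoImplicit false

namespace Cfsg.Agent.Lib.Helper50.QP

open Cfsg Cfsg.Agent.Lib.Helper50.QR

variable {k : Type*} [Field k] {M : Type*} [AddCommGroup M] [Module k M]

/-- `z = AB + BA` -/
def zz (A B : Module.End k M) : Module.End k M := A * B + B * A

/-- the subgroup generated by the two scalar families `1 + cA`, `1 + cB` -/
def genH (A B : Module.End k M) : Subgroup (LinearMap.GeneralLinearGroup k M) :=
  Subgroup.closure ({g | ∃ c : k, (g : Module.End k M) = 1 + c • A} ∪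
    {g | ∃ c : k, (g : Module.End k M) = 1 + c • B})

/-- `Y` is the nilpotent part of a scalar family inside `H` -/
def Fam (H : Subgroup (LinearMap.GeneralLinearGroup k M)) (Y : Module.End k M) : Prop :=
  Y * Y = 0 ∧ ∀ c : k, ∃ g ∈ H, (g : Module.End k M) = 1 + c • Y

/-- rank minimality of `d` among the scalar families of `H` -/
def MinRank (H : Subgroup (LinearMap.GeneralLinearGroup k M)) (d : ℕ) : Prop :=
  ∀ Y : Module.End k M, Fam H Y → Y ≠ 0 → d ≤ Module.finrank k (LinearMap.range Y)

theorem zz_comm (A B : Module.End k M) : zz A B = zz B A := by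
  unfold zz; abel

theorem zz_mul_A {A B : Module.End k M} (hA : A * A = 0) : zz A B * A = A * B * A := by
  unfold zz
  rw [add_mul, mul_assoc B A A, hA, mul_zero, add_zero]

theorem A_mul_zz {A B : Module.End k M} (hA : A * A = 0) : A * zz A B = A * B * A := by
  unfold zz
  rw [mul_add, ← mul_assoc A A B, hA, zero_mul, zero_add, mul_assoc]

theorem zz_mul_B {A B : Module.End k M} (hB : B * B = 0) : zz A B * B = B * A * B := by
  unfold zz
  rw [add_mul, mul_assoc A B B, hB, mul_zero, zero_add]

theorem B_mul_zz {A B : Module.End k M} (hB : B * B = 0) : B * zz A B = B * A * B := by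
  unfold zz
  rw [mul_add, ← mul_assoc B B A, hB, zero_mul, add_zero, mul_assoc]

theorem zz_comm_A {A B : Module.End k M} (hA : A * A = 0) : Commute (zz A B) A := by
  show zz A B * A = A * zz A B
  rw [zz_mul_A hA, A_mul_zz hA]

theorem zz_comm_B {A B : Module.End k M} (hB : B * B = 0) : Commute (zz A B) B := by
  show zz A B * B = B * zz A B
  rw [zz_mul_B hB, B_mul_zz hB]

theorem genH_comm (A B : Module.End k M) : genH A B = genH B A := by
  unfold genH
  rw [Set.union_comm]

theorem smul_sq0 {A : Module.End k M} (hA : A * A = 0) (c : k) : (c • A) * (c • A) = 0 := by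
  rw [smul_mul_smul_comm, hA, smul_zero]

theorem coe_mkU (X : Module.End k M) (h : X * X = 0) :
    ((mkU X h : LinearMap.GeneralLinearGroup k M) : Module.End k M) = 1 + X := rfl

theorem mkU_A_mem {A : Module.End k M} (B : Module.End k M) (hA : A * A = 0) (c : k) :
    mkU (c • A) (smul_sq0 hA c) ∈ genH A B :=
  Subgroup.subset_closure (Or.inl ⟨c, rfl⟩)

theorem mkU_B_mem (A : Module.End k M) {B : Module.End k M} (hB : B * B = 0) (c : k) :
    mkU (c • B) (smul_sq0 hB c) ∈ genH A B :=
  Subgroup.subset_closure (Or.inr ⟨c, rfl⟩)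

theorem fam_A {A : Module.End k M} (B : Module.End k M) (hA : A * A = 0) :
    Fam (genH A B) A :=
  ⟨hA, fun c => ⟨_, mkU_A_mem B hA c, rfl⟩⟩

theorem fam_B (A : Module.End k M) {B : Module.End k M} (hB : B * B = 0) :
    Fam (genH A B) B :=
  ⟨hB, fun c => ⟨_, mkU_B_mem A hB c, rfl⟩⟩

theorem Fam.mono {H H' : Subgroup (LinearMap.GeneralLinearGroup k M)} (h : H' ≤ H)
    {Y : Module.End k M} (hY : Fam H' Y) : Fam H Y :=
  ⟨hY.1, fun c => by
    obtain ⟨g, hg, e⟩ := hY.2 c
    exact ⟨g, h hg, e⟩⟩

theorem MinRank.mono {H H' : Subgroup (LinearMap.GeneralLinearGroup k M)} (h : H' ≤ H) {d : ℕ}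
    (hm : MinRank H d) : MinRank H' d :=
  fun Y hY hY0 => hm Y (hY.mono h) hY0

/-- a unit of `End M` is determined by its underlying endomorphism -/
theorem unit_ext {g h : LinearMap.GeneralLinearGroup k M}
    (e : (g : Module.End k M) = (h : Module.End k M)) : g = h := Units.ext e

/-- `genH A B ≤ H` as soon as `H` contains the two scalar families -/
theorem genH_le {A B : Module.End k M} {H : Subgroup (LinearMap.GeneralLinearGroup k M)}
    (hA : ∀ (g : LinearMap.GeneralLinearGroup k M) (c : k),
      (g : Module.End k M) = 1 + c • A → g ∈ H)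
    (hB : ∀ (g : LinearMap.GeneralLinearGroup k M) (c : k),
      (g : Module.End k M) = 1 + c • B → g ∈ H) : genH A B ≤ H := by
  unfold genH
  rw [Subgroup.closure_le]
  rintro g (⟨c, hc⟩ | ⟨c, hc⟩)
  · exact hA g c hc
  · exact hB g c hc

/-- conjugating a scalar family -/
theorem Fam.conj {H : Subgroup (LinearMap.GeneralLinearGroup k M)} {Y : Module.End k M}
    (hY : Fam H Y) {s : LinearMap.GeneralLinearGroup k M} (hs : s ∈ H) :
    Fam H ((s : Module.End k M) * Y * ((s⁻¹ : LinearMap.GeneralLinearGroup k M) : Module.End k M)) := by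
  have e1 : ((s⁻¹ : LinearMap.GeneralLinearGroup k M) : Module.End k M) * (s : Module.End k M) = 1 :=
    Units.inv_mul s
  have e2 : (s : Module.End k M) * ((s⁻¹ : LinearMap.GeneralLinearGroup k M) : Module.End k M) = 1 :=
    Units.mul_inv s
  refine ⟨?_, fun c => ?_⟩
  · calc (s : Module.End k M) * Y * ((s⁻¹ : LinearMap.GeneralLinearGroup k M) : Module.End k M) *
          ((s : Module.End k M) * Y * ((s⁻¹ : LinearMap.GeneralLinearGroup k M) : Module.End k M))
        = (s : Module.End k M) * Y *
          (((s⁻¹ : LinearMap.GeneralLinearGroup k M) : Module.End k M) * (s : Module.End k M)) * Y *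
            ((s⁻¹ : LinearMap.GeneralLinearGroup k M) : Module.End k M) := by noncomm_ring
      _ = 0 := by rw [e1, mul_one, mul_assoc (s : Module.End k M) Y Y, hY.1, mul_zero, zero_mul]
  · obtain ⟨g, hg, e⟩ := hY.2 c
    refine ⟨s * g * s⁻¹, H.mul_mem (H.mul_mem hs hg) (H.inv_mem hs), ?_⟩
    rw [Units.val_mul, Units.val_mul, e, mul_add, add_mul, mul_one, e2, mul_smul_comm,
      smul_mul_assoc]

/-- `GL(M)` is finite when `k` is finite and `M` is finite-dimensional -/
theorem finite_GL [Finite k] [FiniteDimensional k M] :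
    Finite (LinearMap.GeneralLinearGroup k M) := by
  have : Finite M := Module.finite_of_finite k
  have : Finite (Module.End k M) :=
    Finite.of_injective (fun f : Module.End k M => (f : M → M)) DFunLike.coe_injective
  exact Finite.of_injective (fun g : LinearMap.GeneralLinearGroup k M => (g : Module.End k M))
    (fun _ _ h => Units.ext h)

end Cfsg.Agent.Lib.Helper50.QP
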