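import Cfsg.Agent.Lib.Helper50.QpTorus

set_option autoImplicit false

namespace Cfsg.Agent.Lib.Helper50.QP.Fin1

open Polynomial Cfsg Cfsg.Agent.Lib.Helper50.QR Cfsg.Agent.Lib.Helper50.QP

universe u v

variable {k : Type u} [Field k] {M : Type v} [AddCommGroup M] [Module k M]

theorem comm_aeval {z A : Module.End k M} (h : Commute z A) (q : k[X]) :
    Commute (aeval z q) A := by
  induction q using Polynomial.induction_on' with
  | add p q hp hq => rw [map_add]; exact hp.add_left hq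
  | monomial n a =>
    rw [aeval_monomial]
    exact (Algebra.commute_algebraMap_left a A).mul_left (h.pow_left n)

theorem exists_c [Finite k] (hk2 : ringChar k ≠ 2) (hk3 : Nat.card k ≠ 3) :
    ∃ c : k, c ≠ 0 ∧ c * c ≠ 1 := by
  classical
  haveI := Fintype.ofFinite k
  have h2 : (2 : k) ≠ 0 := by
    intro h
    have h3 : ((2 : ℕ) : k) = 0 := by exact_mod_cast h
    have h4 := (ringChar.spec k 2).mp h3
    have h5 : ringChar k ≤ 2 := Nat.le_of_dvd (by norm_num) h4
    have h6 : ringChar k ≠ 1 := CharP.ringChar_ne_one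
    have h7 : ringChar k ≠ 0 := by
      intro h0
      rw [h0] at h4
      omega
    omega
  have hne : (1 : k) ≠ -1 := by
    intro h
    apply h2
    have : (2 : k) = 1 + 1 := by norm_num
    rw [this]
    nth_rewrite 1 [h]
    simp
  have hcard : ({0, 1, -1} : Finset k).card = 3 := by
    rw [Finset.card_insert_of_notMem, Finset.card_insert_of_notMem, Finset.card_singleton]
    · simpa using hne
    · simp
  have hlt : ({0, 1, -1} : Finset k).card < Fintype.card k := by
    have h1 : ({0, 1, -1} : Finset k).card ≤ Fintype.card k := Finset.card_le_univ _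
    rw [Nat.card_eq_fintype_card] at hk3
    omega
  obtain ⟨c, hc⟩ : ∃ c : k, c ∉ ({0, 1, -1} : Finset k) := by
    by_contra hcon
    push Not at hcon
    have : ({0, 1, -1} : Finset k) = Finset.univ := Finset.eq_univ_iff_forall.mpr hcon
    rw [this, Finset.card_univ] at hlt
    exact lt_irrefl _ hlt
  simp only [Finset.mem_insert, Finset.mem_singleton, not_or] at hc
  refine ⟨c, hc.1, ?_⟩
  intro h
  have h1 : (c - 1) * (c + 1) = 0 := by ring_nf; rw [pow_two, h]; ring
  rcases mul_eq_zero.mp h1 with h3 | h3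
  · exact hc.2.1 (sub_eq_zero.mp h3)
  · exact hc.2.2 (eq_neg_of_add_eq_zero_left h3)

end Cfsg.Agent.Lib.Helper50.QP.Fin1

namespace Cfsg.Agent.Lib.Helper50.QP

open Polynomial Cfsg Cfsg.Agent.Lib.Helper50.QR

universe u v

variable {k : Type u} [Field k] {M : Type v} [AddCommGroup M] [Module k M] [FiniteDimensional k M]

/-- J8: (P1) for finite `k`: `z` is injective on `range A` -/
theorem fin_p1 [Finite k] (hk2 : ringChar k ≠ 2) (hk3 : Nat.card k ≠ 3) {A B : Module.End k M}
    (hA : A * A = 0) (hB : B * B = 0) (hnz : ¬ IsNilpotent (zz A B)) {d : ℕ}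
    (hdA : Module.finrank k (LinearMap.range A) = d) (hmin : MinRank (genH A B) d) :
    ∀ m, A (B (A m)) = 0 → A m = 0 := by
  classical
  obtain ⟨p, hp⟩ : ∃ p, p = ringChar k := ⟨_, rfl⟩
  haveI : CharP k p := by rw [hp]; exact ringChar.charP k
  haveI : Fact p.Prime := ⟨CharP.char_is_prime k p⟩
  obtain ⟨c, hc0, hc2⟩ := Fin1.exists_c hk2 hk3
  obtain ⟨W', hW0, hWA, -, -, -, htor⟩ := exists_torus p hk2 hk3 hA hB hnz hdA hmin
  obtain ⟨w, hwW, hw0⟩ := (Submodule.ne_bot_iff W').mp hW0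
  have hex : ∃ w ∈ W', aeval (zz A B) (C c) w ≠ 0 := by
    refine ⟨w, hwW, ?_⟩
    rw [aeval_C]
    show (algebraMap k (Module.End k M) c) w ≠ 0
    rw [Module.algebraMap_end_apply]
    exact smul_ne_zero hc0 hw0
  obtain ⟨s, q, hsH, hso, hsA, hAs, hsw⟩ := htor (C c) hex
  obtain ⟨z, hz⟩ : ∃ z, z = zz A B := ⟨_, rfl⟩
  rw [← hz] at hsA hAs hsw
  obtain ⟨Q, hQ⟩ : ∃ Q, Q = aeval z q := ⟨_, rfl⟩
  rw [← hQ] at hsA hAs
  have hzA : Commute z A := by rw [hz]; exact zz_comm_A hA
  have hQA : Commute Q A := by rw [hQ]; exact Fin1.comm_aeval hzA q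
  have hQA' : Q * A = A * Q := hQA
  have e1 : ((s⁻¹ : LinearMap.GeneralLinearGroup k M) : Module.End k M) * (s : Module.End k M) = 1 :=
    Units.inv_mul s
  have e2 : (s : Module.End k M) * ((s⁻¹ : LinearMap.GeneralLinearGroup k M) : Module.End k M) = 1 :=
    Units.mul_inv s
  -- conjugation formula
  have hconj : (s : Module.End k M) * A *
      ((s⁻¹ : LinearMap.GeneralLinearGroup k M) : Module.End k M) = Q * Q * A := by
    rw [hsA, mul_assoc, hAs, mul_assoc]
  obtain ⟨D, hD⟩ : ∃ D : Module.End k M, D = (Q * Q - 1) * A := ⟨_, rfl⟩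
  have hDD : D * D = 0 := by
    rw [hD]
    have h1 : (Q * Q - 1) * A * ((Q * Q - 1) * A) = (Q * Q - 1) * (A * Q * Q * A - A * A) := by
      noncomm_ring
    rw [h1, ← hQA', mul_assoc Q A Q, ← hQA', ← mul_assoc, mul_assoc (Q * Q) A A, hA]
    simp
  have hFam : Fam (genH A B) D := by
    refine ⟨hDD, fun c' => ?_⟩
    refine ⟨s * mkU (c' • A) (smul_sq0 hA c') * s⁻¹ * mkU ((-c') • A) (smul_sq0 hA (-c')),
      (genH A B).mul_mem ((genH A B).mul_mem ((genH A B).mul_mem hsH (mkU_A_mem B hA c'))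
        ((genH A B).inv_mem hsH)) (mkU_A_mem B hA (-c')), ?_⟩
    rw [Units.val_mul, Units.val_mul, Units.val_mul, coe_mkU, coe_mkU]
    have h1 : (s : Module.End k M) * (1 + c' • A) *
        ((s⁻¹ : LinearMap.GeneralLinearGroup k M) : Module.End k M) = 1 + c' • (Q * Q * A) := by
      rw [mul_add, add_mul, mul_one, e2, mul_smul_comm, smul_mul_assoc, hconj]
    rw [h1, hD]
    have h2 : (1 + c' • (Q * Q * A)) * (1 + (-c') • A)
        = 1 + c' • (Q * Q * A) - c' • A - (c' * c') • (Q * Q * (A * A)) := by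
      simp only [mul_add, add_mul, mul_one, one_mul, smul_mul_smul_comm, neg_smul, mul_neg,
        neg_mul, mul_assoc]
      abel
    rw [h2, hA, mul_zero, smul_zero, sub_zero, sub_mul, one_mul, smul_sub]
    abel
  -- Q acts on W' as c
  have hQw : ∀ w ∈ W', Q w = c • w := by
    intro w hw
    obtain ⟨m₀, rfl⟩ := hWA hw
    have h1 : Q (A m₀) = (Q * A) m₀ := rfl
    rw [h1, ← hsA]
    show (s : Module.End k M) (A m₀) = c • A m₀
    rw [hsw _ hw, aeval_C]
    show (algebraMap k (Module.End k M) c) (A m₀) = c • A m₀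
    rw [Module.algebraMap_end_apply]
  have hD0 : D ≠ 0 := by
    intro h0
    obtain ⟨m₀, hm₀⟩ := hWA hwW
    have h1 : D m₀ = Q (Q (A m₀)) - A m₀ := by rw [hD]; rfl
    have hm₀' : A m₀ = w := hm₀
    rw [h0, hm₀', hQw w hwW, map_smul, hQw w hwW, smul_smul] at h1
    have h2 : (c * c - 1) • w = 0 := by
      rw [sub_smul, one_smul]
      exact h1.symm
    rcases smul_eq_zero.mp h2 with h3 | h3
    · exact hc2 (sub_eq_zero.mp h3)
    · exact hw0 h3
  have hdD := hmin D hFam hD0
  -- Fitting decomposition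
  obtain ⟨N, hN1, hN⟩ := ((Filter.eventually_ge_atTop 1).and
    (LinearMap.eventually_isCompl_ker_pow_range_pow z)).exists
  have hzNA : Commute (z ^ N) A := hzA.pow_left N
  -- D kills ker z^N
  have hDker : ∀ m, (z ^ N) m = 0 → D m = 0 := by
    intro m hm
    have h1 : ((s⁻¹ : LinearMap.GeneralLinearGroup k M) : Module.End k M) m = m := by
      apply pprime_trivial p hA hB ((genH A B).inv_mem hsH) (by rwa [orderOf_inv]) m N
      rw [← hz]; exact hm
    have h2 : (z ^ N) (A m) = 0 := by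
      have : (z ^ N) (A m) = (z ^ N * A) m := rfl
      rw [this, hzNA.eq]
      show A ((z ^ N) m) = 0
      rw [hm, map_zero]
    have h3 : (s : Module.End k M) (A m) = A m := by
      apply pprime_trivial p hA hB hsH hso (A m) N
      rw [← hz]; exact h2
    have h4 : (Q * Q * A) m = A m := by
      rw [← hconj]
      show (s : Module.End k M) (A (((s⁻¹ : LinearMap.GeneralLinearGroup k M) : Module.End k M) m))
        = A m
      rw [h1, h3]
    rw [hD, sub_mul, one_mul]
    show (Q * Q * A) m - A m = 0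
    rw [h4, sub_self]
  -- range D is small
  have hrange : LinearMap.range D ≤
      ((LinearMap.range (z ^ N)).map A).map (Q * Q - 1) := by
    rintro _ ⟨m, rfl⟩
    have hm : m ∈ LinearMap.ker (z ^ N) ⊔ LinearMap.range (z ^ N) := by
      rw [hN.sup_eq_top]; trivial
    obtain ⟨m₀, hm₀, m₁, hm₁, rfl⟩ := Submodule.mem_sup.mp hm
    rw [map_add, hDker m₀ (LinearMap.mem_ker.mp hm₀), zero_add]
    refine ⟨A m₁, ⟨m₁, hm₁, rfl⟩, ?_⟩
    rw [hD]; rfl
  have hle : (LinearMap.range (z ^ N)).map A ≤ LinearMap.range A := LinearMap.map_le_range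
  have hfin1 : Module.finrank k (LinearMap.range D) ≤
      Module.finrank k ((LinearMap.range (z ^ N)).map A) :=
    (Submodule.finrank_mono hrange).trans (Submodule.finrank_map_le _ _)
  have heq : (LinearMap.range (z ^ N)).map A = LinearMap.range A := by
    apply Submodule.eq_of_le_of_finrank_le hle
    rw [hdA]
    exact hdD.trans hfin1
  intro m hm
  have hAm : A m ∈ (LinearMap.range (z ^ N)).map A := by
    rw [heq]; exact ⟨m, rfl⟩
  obtain ⟨m₁, ⟨x, rfl⟩, hm₁⟩ := hAm
  have hr : A m ∈ LinearMap.range (z ^ N) := by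
    refine ⟨A x, ?_⟩
    rw [← hm₁]
    have : (z ^ N) (A x) = (z ^ N * A) x := rfl
    rw [this, hzNA.eq]
    rfl
  have hzAm : z (A m) = 0 := by
    have h1 : z (A m) = (z * A) m := rfl
    rw [h1, hz, zz_mul_A hA]
    exact hm
  have hk : A m ∈ LinearMap.ker (z ^ N) := by
    rw [LinearMap.mem_ker]
    obtain ⟨N', rfl⟩ : ∃ N', N = N' + 1 := ⟨N - 1, by omega⟩
    rw [pow_succ]
    show (z ^ N') (z (A m)) = 0
    rw [hzAm, map_zero]
  have hbot : A m ∈ LinearMap.ker (z ^ N) ⊓ LinearMap.range (z ^ N) := ⟨hk, hr⟩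
  rw [hN.inf_eq_bot] at hbot
  exact (Submodule.mem_bot k).mp hbot

end Cfsg.Agent.Lib.Helper50.QP
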