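import Cfsg.Agent.Lib.Helper50.QpFin1

set_option autoImplicit false
set_option linter.style.haveILetI false
set_option linter.unusedSimpArgs false
set_option linter.unnecessarySeqFocus false
set_option linter.unreachableTactic false
set_option linter.unusedTactic false

namespace Cfsg.Agent.Lib.Helper50.QP.Fin3a

open Polynomial Cfsg Cfsg.Agent.Lib.Helper50.QR Cfsg.Agent.Lib.Helper50.QP

universe u v

variable {k : Type u} [Field k] {M : Type v} [AddCommGroup M] [Module k M]

theorem comm_aeval {z Y : Module.End k M} (h : z * Y = Y * z) (f : k[X]) :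
    aeval z f * Y = Y * aeval z f := by
  induction f using Polynomial.induction_on' with
  | add p q hp hq => rw [map_add, add_mul, mul_add, hp, hq]
  | monomial n c =>
    rw [aeval_monomial]
    have h1 : z ^ n * Y = Y * z ^ n := (Commute.pow_left (show Commute z Y from h) n).eq
    calc algebraMap k (Module.End k M) c * z ^ n * Y
        = algebraMap k (Module.End k M) c * (z ^ n * Y) := mul_assoc _ _ _
      _ = algebraMap k (Module.End k M) c * (Y * z ^ n) := by rw [h1]
      _ = algebraMap k (Module.End k M) c * Y * z ^ n := (mul_assoc _ _ _).symm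
      _ = Y * algebraMap k (Module.End k M) c * z ^ n := by rw [Algebra.commutes]
      _ = Y * (algebraMap k (Module.End k M) c * z ^ n) := mul_assoc _ _ _

/-- every element of `genH A B` commutes with every endomorphism commuting with `A` and `B` -/
theorem genH_commute {A B y : Module.End k M} (hyA : y * A = A * y) (hyB : y * B = B * y)
    {g : LinearMap.GeneralLinearGroup k M} (hg : g ∈ genH A B) :
    (g : Module.End k M) * y = y * (g : Module.End k M) := by
  let C : Subgroup (LinearMap.GeneralLinearGroup k M) :=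
    { carrier := {g | (g : Module.End k M) * y = y * (g : Module.End k M)}
      one_mem' := by
        show ((1 : LinearMap.GeneralLinearGroup k M) : Module.End k M) * y = y * _
        rw [Units.val_one, one_mul, mul_one]
      mul_mem' := by
        intro a b ha hb
        have ha' : (a : Module.End k M) * y = y * (a : Module.End k M) := ha
        have hb' : (b : Module.End k M) * y = y * (b : Module.End k M) := hb
        show ((a * b : LinearMap.GeneralLinearGroup k M) : Module.End k M) * y = y * _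
        rw [Units.val_mul, mul_assoc, hb', ← mul_assoc, ha', mul_assoc]
      inv_mem' := by
        intro a ha
        have ha' : (a : Module.End k M) * y = y * (a : Module.End k M) := ha
        show ((a⁻¹ : LinearMap.GeneralLinearGroup k M) : Module.End k M) * y = y * _
        have h1 : ((a⁻¹ : LinearMap.GeneralLinearGroup k M) : Module.End k M) *
            (a : Module.End k M) = 1 := Units.inv_mul a
        have h2 : (a : Module.End k M) *
            ((a⁻¹ : LinearMap.GeneralLinearGroup k M) : Module.End k M) = 1 := Units.mul_inv a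
        calc ((a⁻¹ : LinearMap.GeneralLinearGroup k M) : Module.End k M) * y
            = ((a⁻¹ : LinearMap.GeneralLinearGroup k M) : Module.End k M) * y *
                ((a : Module.End k M) *
                  ((a⁻¹ : LinearMap.GeneralLinearGroup k M) : Module.End k M)) := by
              rw [h2, mul_one]
          _ = ((a⁻¹ : LinearMap.GeneralLinearGroup k M) : Module.End k M) *
                (y * (a : Module.End k M)) *
                  ((a⁻¹ : LinearMap.GeneralLinearGroup k M) : Module.End k M) := by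
              simp only [mul_assoc]
          _ = ((a⁻¹ : LinearMap.GeneralLinearGroup k M) : Module.End k M) *
                ((a : Module.End k M) * y) *
                  ((a⁻¹ : LinearMap.GeneralLinearGroup k M) : Module.End k M) := by
              rw [ha']
          _ = (((a⁻¹ : LinearMap.GeneralLinearGroup k M) : Module.End k M) *
                (a : Module.End k M)) * y *
                  ((a⁻¹ : LinearMap.GeneralLinearGroup k M) : Module.End k M) := by
              simp only [mul_assoc]
          _ = y * ((a⁻¹ : LinearMap.GeneralLinearGroup k M) : Module.End k M) := by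
              rw [h1, one_mul] }
  have hle : genH A B ≤ C := by
    apply genH_le
    · intro g c hgc
      show (g : Module.End k M) * y = y * (g : Module.End k M)
      rw [hgc, add_mul, mul_add, one_mul, mul_one, smul_mul_assoc, mul_smul_comm, hyA]
    · intro g c hgc
      show (g : Module.End k M) * y = y * (g : Module.End k M)
      rw [hgc, add_mul, mul_add, one_mul, mul_one, smul_mul_assoc, mul_smul_comm, hyB]
  exact hle hg

/-- the set `𝔞` of polynomials `f` with `1 + c f(z) A ∈ H` for all `c` -/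
def InA (A B : Module.End k M) (f : k[X]) : Prop :=
  ∀ c : k, ∃ g ∈ genH A B, (g : Module.End k M) = 1 + c • (aeval (zz A B) f * A)

theorem inA_zero (A B : Module.End k M) : InA A B 0 := by
  intro c
  refine ⟨1, (genH A B).one_mem, ?_⟩
  rw [map_zero, zero_mul, smul_zero, add_zero]
  rfl

theorem inA_one {A : Module.End k M} (B : Module.End k M) (hA : A * A = 0) : InA A B 1 := by
  intro c
  refine ⟨_, mkU_A_mem B hA c, ?_⟩
  rw [map_one, one_mul]
  rfl

theorem inA_add {A B : Module.End k M} (hA : A * A = 0) {f f' : k[X]} (hf : InA A B f)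
    (hf' : InA A B f') : InA A B (f + f') := by
  intro c
  obtain ⟨g, hg, e⟩ := hf c
  obtain ⟨g', hg', e'⟩ := hf' c
  refine ⟨g * g', (genH A B).mul_mem hg hg', ?_⟩
  have hc := comm_aeval (zz_comm_A (B := B) hA).eq f'
  have h0 : (aeval (zz A B) f * A) * (aeval (zz A B) f' * A) = 0 := by
    calc (aeval (zz A B) f * A) * (aeval (zz A B) f' * A)
        = aeval (zz A B) f * (A * (aeval (zz A B) f' * A)) := mul_assoc _ _ _
      _ = aeval (zz A B) f * (A * (A * aeval (zz A B) f')) := by rw [hc]
      _ = aeval (zz A B) f * ((A * A) * aeval (zz A B) f') := by rw [mul_assoc]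
      _ = 0 := by rw [hA, zero_mul, mul_zero]
  have hR : 1 + c • (aeval (zz A B) (f + f') * A) =
      1 + (c • (aeval (zz A B) f * A) + c • (aeval (zz A B) f' * A)) := by
    rw [map_add, add_mul, smul_add]
  rw [Units.val_mul, e, e', hR]
  have hxy : ∀ x y : Module.End k M, (1 + x) * (1 + y) = 1 + x + y + x * y := fun x y => by
    noncomm_ring
  calc (1 + c • (aeval (zz A B) f * A)) * (1 + c • (aeval (zz A B) f' * A))
      = 1 + c • (aeval (zz A B) f * A) + c • (aeval (zz A B) f' * A) +
          (c • (aeval (zz A B) f * A)) * (c • (aeval (zz A B) f' * A)) := hxy _ _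
    _ = 1 + (c • (aeval (zz A B) f * A) + c • (aeval (zz A B) f' * A)) := by
        rw [smul_mul_smul_comm, h0, smul_zero, add_zero, add_assoc]

theorem inA_smul {A B : Module.End k M} {f : k[X]} (hf : InA A B f) (e : k) :
    InA A B (C e * f) := by
  intro c
  obtain ⟨g, hg, eg⟩ := hf (c * e)
  refine ⟨g, hg, ?_⟩
  rw [eg, map_mul, aeval_C, mul_assoc, ← Algebra.smul_def, smul_smul]

theorem inA_neg {A B : Module.End k M} {f : k[X]} (hf : InA A B f) : InA A B (-f) := by
  have h := inA_smul hf (-1)
  rwa [map_neg, map_one, neg_one_mul] at h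

theorem inA_sub {A B : Module.End k M} (hA : A * A = 0) {f f' : k[X]} (hf : InA A B f)
    (hf' : InA A B f') : InA A B (f - f') := by
  rw [sub_eq_add_neg]
  exact inA_add hA hf (inA_neg hf')

theorem inA_conj {A B : Module.End k M} (hA : A * A = 0) (hB : B * B = 0)
    {s : LinearMap.GeneralLinearGroup k M} (hs : s ∈ genH A B) {q : k[X]}
    (h1 : (s : Module.End k M) * A = aeval (zz A B) q * A)
    (h2 : A * ((s⁻¹ : LinearMap.GeneralLinearGroup k M) : Module.End k M) =
      aeval (zz A B) q * A)
    {f : k[X]} (hf : InA A B f) : InA A B (q * q * f) := by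
  intro c
  obtain ⟨g, hg, e⟩ := hf c
  refine ⟨s * g * s⁻¹, (genH A B).mul_mem ((genH A B).mul_mem hs hg) ((genH A B).inv_mem hs), ?_⟩
  have e2 : (s : Module.End k M) *
      ((s⁻¹ : LinearMap.GeneralLinearGroup k M) : Module.End k M) = 1 := Units.mul_inv s
  have hsf : (s : Module.End k M) * aeval (zz A B) f = aeval (zz A B) f * (s : Module.End k M) :=
    genH_commute (comm_aeval (zz_comm_A hA).eq f) (comm_aeval (zz_comm_B hB).eq f) hs
  rw [Units.val_mul, Units.val_mul, e, mul_add, add_mul, mul_one, e2, mul_smul_comm,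
    smul_mul_assoc]
  congr 2
  calc (s : Module.End k M) * (aeval (zz A B) f * A) *
        ((s⁻¹ : LinearMap.GeneralLinearGroup k M) : Module.End k M)
      = ((s : Module.End k M) * aeval (zz A B) f) * A *
        ((s⁻¹ : LinearMap.GeneralLinearGroup k M) : Module.End k M) := by
        simp only [mul_assoc]
    _ = aeval (zz A B) f * ((s : Module.End k M) * A) *
        ((s⁻¹ : LinearMap.GeneralLinearGroup k M) : Module.End k M) := by
        rw [hsf]
        simp only [mul_assoc]
    _ = aeval (zz A B) f * aeval (zz A B) q *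
        (A * ((s⁻¹ : LinearMap.GeneralLinearGroup k M) : Module.End k M)) := by
        rw [h1]
        simp only [mul_assoc]
    _ = aeval (zz A B) f * aeval (zz A B) q * (aeval (zz A B) q * A) := by rw [h2]
    _ = aeval (zz A B) (q * q * f) * A := by
        rw [← mul_assoc, ← map_mul, ← map_mul]
        congr 2
        ring

theorem inA_comp {A B : Module.End k M} (hA : A * A = 0) {a : k[X]}
    (hmul : ∀ f, InA A B f → InA A B (a * f)) (h : k[X]) : InA A B (h.comp a) := by
  induction h using Polynomial.induction_on' with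
  | add p q hp hq =>
    rw [add_comp]
    exact inA_add hA hp hq
  | monomial n c =>
    rw [← C_mul_X_pow_eq_monomial, mul_comp, C_comp, pow_comp, X_comp]
    apply inA_smul
    induction n with
    | zero =>
      rw [pow_zero]
      exact inA_one B hA
    | succ n ih =>
      rw [pow_succ']
      exact hmul _ ih

theorem inv_of_sq0 {g : LinearMap.GeneralLinearGroup k M} {X : Module.End k M}
    (hX : X * X = 0) (e : (g : Module.End k M) = 1 + X) :
    ((g⁻¹ : LinearMap.GeneralLinearGroup k M) : Module.End k M) = 1 - X := by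
  have h1 : ((g⁻¹ : LinearMap.GeneralLinearGroup k M) : Module.End k M) *
      (g : Module.End k M) = 1 := Units.inv_mul g
  have h3 : (1 + X) * (1 - X) = 1 := by
    have h4 : (1 + X) * (1 - X) = 1 - X * X := by noncomm_ring
    rw [h4, hX, sub_zero]
  calc ((g⁻¹ : LinearMap.GeneralLinearGroup k M) : Module.End k M)
      = ((g⁻¹ : LinearMap.GeneralLinearGroup k M) : Module.End k M) * ((1 + X) * (1 - X)) := by
        rw [h3, mul_one]
    _ = (((g⁻¹ : LinearMap.GeneralLinearGroup k M) : Module.End k M) * (g : Module.End k M)) *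
          (1 - X) := by rw [e, mul_assoc]
    _ = 1 - X := by rw [h1, one_mul]

end Cfsg.Agent.Lib.Helper50.QP.Fin3a

namespace Cfsg.Agent.Lib.Helper50.QP

open Polynomial Cfsg Cfsg.Agent.Lib.Helper50.QR

universe u v

variable {k : Type u} [Field k] {M : Type v} [AddCommGroup M] [Module k M] [FiniteDimensional k M]

/-- J9a: for finite `k`: a polynomial `a` with `1 + c h(a(z)) A ∈ genH A B` for all `h`, `c`,
and `a(z) = -z⁻¹` on `range A` -/
theorem fin_p3a [Finite k] (hk2 : ringChar k ≠ 2) (hk3 : Nat.card k ≠ 3) {A B : Module.End k M}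
    (hA : A * A = 0) (hB : B * B = 0) (hnz : ¬ IsNilpotent (zz A B)) {d : ℕ}
    (hdA : Module.finrank k (LinearMap.range A) = d)
    (hdB : Module.finrank k (LinearMap.range B) = d) (hmin : MinRank (genH A B) d) :
    ∃ a : k[X],
      (∀ (h : k[X]) (c : k), ∃ g ∈ genH A B,
        (g : Module.End k M) = 1 + c • (aeval (zz A B) (h.comp a) * A)) ∧
      (∀ m, A m + aeval (zz A B) a (zz A B (A m)) = 0) := by
  classical
  haveI : Fact (ringChar k).Prime := ⟨CharP.char_is_prime k (ringChar k)⟩
  have h2 : (2 : k) ≠ 0 := Ring.two_ne_zero hk2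
  obtain ⟨z, hz⟩ : ∃ z : Module.End k M, z = zz A B := ⟨_, rfl⟩
  rw [← hz] at hnz ⊢
  have hzA : z * A = A * z := by rw [hz]; exact (zz_comm_A hA).eq
  have hzB : z * B = B * z := by rw [hz]; exact (zz_comm_B hB).eq
  have hABA : A * B * A = z * A := by rw [hz]; exact (zz_mul_A hA).symm
  have hBAB : B * A * B = z * B := by rw [hz]; exact (zz_mul_B hB).symm
  have hzdef : z = A * B + B * A := hz
  -- `z` is injective on `range A` and on `range B`
  have hinjA : ∀ m, z (A m) = 0 → A m = 0 := by
    intro m hm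
    apply fin_p1 hk2 hk3 hA hB (by rw [← hz]; exact hnz) hdA hmin m
    have h1 : (A * B * A) m = 0 := by rw [hABA]; exact hm
    exact h1
  have hinjB : ∀ m, z (B m) = 0 → B m = 0 := by
    intro m hm
    have hnz' : ¬ IsNilpotent (zz B A) := by rw [zz_comm, ← hz]; exact hnz
    have hmin' : MinRank (genH B A) d := by rw [genH_comm]; exact hmin
    apply fin_p1 hk2 hk3 hB hA hnz' hdB hmin' m
    have h1 : (B * A * B) m = 0 := by rw [hBAB]; exact hm
    exact h1
  obtain ⟨W', hW0, hWA, hWz, hWinj, ⟨g₀, hg₀⟩, htor⟩ :=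
    exists_torus (ringChar k) hk2 hk3 hA hB (by rw [← hz]; exact hnz) hdA hmin
  rw [← hz] at hWz hWinj hg₀ htor
  have hWpow : ∀ n : ℕ, ∀ w ∈ W', (z ^ n) w ∈ W' := by
    intro n
    induction n with
    | zero => intro w hw; simpa using hw
    | succ n ih =>
      intro w hw
      rw [pow_succ]
      exact ih _ (hWz w hw)
  have hWpoly : ∀ (f : k[X]) (w : M), w ∈ W' → aeval z f w ∈ W' := by
    intro f
    induction f using Polynomial.induction_on' with
    | add p q hp hq =>
      intro w hw
      rw [map_add]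
      exact W'.add_mem (hp w hw) (hq w hw)
    | monomial n c =>
      intro w hw
      rw [aeval_monomial, Module.End.mul_apply, Module.algebraMap_end_apply]
      exact W'.smul_mem c (hWpow n w hw)
  -- torus data
  have htor' : ∀ g : k[X], ∃ f : k[X], Fin3a.InA A B f ∧
      (∀ f', Fin3a.InA A B f' → Fin3a.InA A B (f * f')) ∧
      ∀ w ∈ W', aeval z f w = aeval z g (aeval z g w) := by
    intro g
    by_cases hg : ∃ w ∈ W', aeval z g w ≠ 0
    · obtain ⟨s, q, hs, -, h1, h2, h3⟩ := htor g hg
      have h1' : (s : Module.End k M) * A = aeval (zz A B) q * A := by rw [← hz]; exact h1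
      have h2' : A * ((s⁻¹ : LinearMap.GeneralLinearGroup k M) : Module.End k M) =
          aeval (zz A B) q * A := by rw [← hz]; exact h2
      refine ⟨q * q, ?_, ?_, ?_⟩
      · have h4 := Fin3a.inA_conj hA hB hs h1' h2' (Fin3a.inA_one B hA)
        rwa [mul_one] at h4
      · intro f' hf'
        exact Fin3a.inA_conj hA hB hs h1' h2' hf'
      · intro w hw
        have hq : ∀ w ∈ W', aeval z q w = aeval z g w := by
          intro w hw
          obtain ⟨m, rfl⟩ := hWA hw
          rw [← h3 _ hw]
          have h4 := congrArg (fun T : Module.End k M => T m) h1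
          exact h4.symm
        rw [map_mul, Module.End.mul_apply, hq w hw, hq _ (hWpoly g w hw)]
    · push Not at hg
      refine ⟨0, Fin3a.inA_zero A B, ?_, ?_⟩
      · intro f' _
        rw [zero_mul]
        exact Fin3a.inA_zero A B
      · intro w hw
        rw [map_zero, LinearMap.zero_apply, hg w hw, map_zero]
  obtain ⟨g₁, hg₁⟩ : ∃ g₁ : k[X], g₁ = C (1 / 2 : k) * (g₀ + 1) := ⟨_, rfl⟩
  obtain ⟨g₂, hg₂⟩ : ∃ g₂ : k[X], g₂ = C (1 / 2 : k) * (g₀ - 1) := ⟨_, rfl⟩
  have hgg : g₁ * g₁ - g₂ * g₂ = g₀ := by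
    have h4 : (C (1 / 2 : k) : k[X]) * 2 = 1 := by
      rw [← map_ofNat (C : k →+* k[X]) 2, ← C_mul, one_div, inv_mul_cancel₀ h2, C_1]
    rw [hg₁, hg₂]
    linear_combination (g₀ * (2 * C (1 / 2 : k) + 1)) * h4
  obtain ⟨f₁, hf₁, hm₁, hv₁⟩ := htor' g₁
  obtain ⟨f₂, hf₂, hm₂, hv₂⟩ := htor' g₂
  obtain ⟨a, ha⟩ : ∃ a : k[X], a = f₁ - f₂ := ⟨_, rfl⟩
  have haA : Fin3a.InA A B a := by rw [ha]; exact Fin3a.inA_sub hA hf₁ hf₂
  have hamul : ∀ f, Fin3a.InA A B f → Fin3a.InA A B (a * f) := by
    intro f hf
    rw [ha, sub_mul]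
    exact Fin3a.inA_sub hA (hm₁ f hf) (hm₂ f hf)
  have hcomp : ∀ h : k[X], Fin3a.InA A B (h.comp a) := fun h => Fin3a.inA_comp hA hamul h
  have haW : ∀ w ∈ W', aeval z a w = aeval z g₀ w := by
    intro w hw
    rw [ha, map_sub, LinearMap.sub_apply, hv₁ w hw, hv₂ w hw, ← hgg, map_sub, map_mul, map_mul]
    rfl
  refine ⟨a, fun h c => by rw [hz]; exact hcomp h c, ?_⟩
  obtain ⟨az, haz⟩ : ∃ az : Module.End k M, az = aeval z a := ⟨_, rfl⟩
  obtain ⟨ν, hν⟩ : ∃ ν : Module.End k M, ν = aeval z (1 + a * X) := ⟨_, rfl⟩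
  have hνdef : ν = 1 + az * z := by rw [hν, haz, map_add, map_one, map_mul, aeval_X]
  have hazA : az * A = A * az := by rw [haz]; exact Fin3a.comm_aeval hzA a
  have hazB : az * B = B * az := by rw [haz]; exact Fin3a.comm_aeval hzB a
  have hazz : az * z = z * az := by rw [haz]; exact Fin3a.comm_aeval rfl a
  have hνA : ν * A = A * ν := by rw [hν]; exact Fin3a.comm_aeval hzA _
  have hνB : ν * B = B * ν := by rw [hν]; exact Fin3a.comm_aeval hzB _
  have hνz : ν * z = z * ν := by rw [hν]; exact Fin3a.comm_aeval rfl _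
  have hνW : ∀ w ∈ W', ν w = 0 := by
    intro w hw
    rw [hνdef, hazz]
    show w + z (az w) = 0
    rw [haz, haW w hw, hg₀ w hw, add_neg_cancel]
  suffices hfin : ∀ m, A (ν m) = 0 by
    intro m
    have h1 : (ν * A) m = 0 := by rw [hνA]; exact hfin m
    rw [hνdef] at h1
    rw [← haz]
    exact h1
  -- rewriting rules
  have rAA : ∀ T : Module.End k M, A * (A * T) = 0 := fun T => by rw [← mul_assoc, hA, zero_mul]
  have rBB : ∀ T : Module.End k M, B * (B * T) = 0 := fun T => by rw [← mul_assoc, hB, zero_mul]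
  have rABA : A * (B * A) = z * A := by rw [← mul_assoc, hABA]
  have rABA' : ∀ T : Module.End k M, A * (B * (A * T)) = z * (A * T) := fun T => by
    rw [← mul_assoc, ← mul_assoc, hABA, mul_assoc]
  have rBAB : B * (A * B) = z * B := by rw [← mul_assoc, hBAB]
  have rBAB' : ∀ T : Module.End k M, B * (A * (B * T)) = z * (B * T) := fun T => by
    rw [← mul_assoc, ← mul_assoc, hBAB, mul_assoc]
  have rAz : A * z = z * A := hzA.symm
  have rAz' : ∀ T : Module.End k M, A * (z * T) = z * (A * T) := fun T => by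
    rw [← mul_assoc, ← hzA, mul_assoc]
  have rBz : B * z = z * B := hzB.symm
  have rBz' : ∀ T : Module.End k M, B * (z * T) = z * (B * T) := fun T => by
    rw [← mul_assoc, ← hzB, mul_assoc]
  have rAa : A * az = az * A := hazA.symm
  have rAa' : ∀ T : Module.End k M, A * (az * T) = az * (A * T) := fun T => by
    rw [← mul_assoc, ← hazA, mul_assoc]
  have rBa : B * az = az * B := hazB.symm
  have rBa' : ∀ T : Module.End k M, B * (az * T) = az * (B * T) := fun T => by
    rw [← mul_assoc, ← hazB, mul_assoc]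
  have rza : z * az = az * z := hazz.symm
  have rza' : ∀ T : Module.End k M, z * (az * T) = az * (z * T) := fun T => by
    rw [← mul_assoc, ← hazz, mul_assoc]
  have rAν : A * ν = ν * A := hνA.symm
  have rAν' : ∀ T : Module.End k M, A * (ν * T) = ν * (A * T) := fun T => by
    rw [← mul_assoc, ← hνA, mul_assoc]
  have rBν : B * ν = ν * B := hνB.symm
  have rBν' : ∀ T : Module.End k M, B * (ν * T) = ν * (B * T) := fun T => by
    rw [← mul_assoc, ← hνB, mul_assoc]
  have rzν : z * ν = ν * z := hνz.symm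
  have rzν' : ∀ T : Module.End k M, z * (ν * T) = ν * (z * T) := fun T => by
    rw [← mul_assoc, ← hνz, mul_assoc]
  -- the elements `u`, `1 + B` and `wel`
  have haA2 : (az * A) * (az * A) = 0 := by
    simp only [mul_add, add_mul, mul_sub, sub_mul, mul_one, one_mul, mul_assoc, hA, hB, rAA, rBB, rABA, rABA', rBAB, rBAB', rAz, rAz', rBz, rBz', rAa, rAa', rBa, rBa', rza, rza', rAν, rAν', rBν, rBν', rzν, rzν', mul_zero, zero_mul, add_zero, zero_add, sub_zero, zero_sub, neg_zero, mul_neg, neg_mul, neg_neg]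
  obtain ⟨uu, huH, hu⟩ := haA 1
  rw [one_smul, ← hz, ← haz] at hu
  have hui := Fin3a.inv_of_sq0 haA2 hu
  obtain ⟨bb, hbH, hb⟩ := (fam_B A hB).2 1
  rw [one_smul] at hb
  have hbi := Fin3a.inv_of_sq0 hB hb
  have hwelH : uu * bb * uu ∈ genH A B :=
    (genH A B).mul_mem ((genH A B).mul_mem huH hbH) huH
  have hwel : ((uu * bb * uu : LinearMap.GeneralLinearGroup k M) : Module.End k M) =
      (1 + az * A) * (1 + B) * (1 + az * A) := by
    rw [Units.val_mul, Units.val_mul, hu, hb]
  have hweli : (((uu * bb * uu)⁻¹ : LinearMap.GeneralLinearGroup k M) : Module.End k M) =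
      (1 - az * A) * ((1 - B) * (1 - az * A)) := by
    rw [mul_inv_rev, mul_inv_rev, Units.val_mul, Units.val_mul, hui, hbi]
  obtain ⟨Wl, hWl⟩ : ∃ Wl : Module.End k M,
      Wl = ((uu * bb * uu : LinearMap.GeneralLinearGroup k M) : Module.End k M) := ⟨_, rfl⟩
  obtain ⟨Wi, hWi⟩ : ∃ Wi : Module.End k M,
      Wi = (((uu * bb * uu)⁻¹ : LinearMap.GeneralLinearGroup k M) : Module.End k M) := ⟨_, rfl⟩
  have hwA : Wl * A = ν * A + B * A := by
    rw [hWl, hwel, hνdef]
    simp only [mul_add, add_mul, mul_sub, sub_mul, mul_one, one_mul, mul_assoc, hA, hB, rAA, rBB, rABA, rABA', rBAB, rBAB', rAz, rAz', rBz, rBz', rAa, rAa', rBa, rBa', rza, rza', rAν, rAν', rBν, rBν', rzν, rzν', mul_zero, zero_mul, add_zero, zero_add, sub_zero, zero_sub, neg_zero, mul_neg, neg_mul, neg_neg] <;> abel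
  have hAw : A * Wi = ν * A - A * B := by
    rw [hWi, hweli, hνdef]
    simp only [mul_add, add_mul, mul_sub, sub_mul, mul_one, one_mul, mul_assoc, hA, hB, rAA, rBB, rABA, rABA', rBAB, rBAB', rAz, rAz', rBz, rBz', rAa, rAa', rBa, rBa', rza, rza', rAν, rAν', rBν, rBν', rzν, rzν', mul_zero, zero_mul, add_zero, zero_add, sub_zero, zero_sub, neg_zero, mul_neg, neg_mul, neg_neg] <;> abel
  obtain ⟨X₁, hX₁⟩ : ∃ X₁ : Module.End k M, X₁ = Wl * A * Wi := ⟨_, rfl⟩
  have hX1 : X₁ = ν * ν * A - ν * (A * B - B * A) - z * B := by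
    rw [hX₁, hwA, add_mul, mul_assoc ν A Wi, mul_assoc B A Wi, hAw]
    simp only [mul_add, add_mul, mul_sub, sub_mul, mul_one, one_mul, mul_assoc, hA, hB, rAA, rBB, rABA, rABA', rBAB, rBAB', rAz, rAz', rBz, rBz', rAa, rAa', rBa, rBa', rza, rza', rAν, rAν', rBν, rBν', rzν, rzν', mul_zero, zero_mul, add_zero, zero_add, sub_zero, zero_sub, neg_zero, mul_neg, neg_mul, neg_neg] <;> abel
  have hFamX : Fam (genH A B) X₁ := by
    rw [hX₁, hWl, hWi]
    exact Fam.conj (fam_A B hA) hwelH
  have hrankX : Module.finrank k (LinearMap.range X₁) ≤ d := by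
    rw [← hdA]
    have hle : LinearMap.range X₁ ≤ (LinearMap.range A).map Wl := by
      rintro _ ⟨m, rfl⟩
      rw [hX₁]
      exact ⟨A (Wi m), ⟨_, rfl⟩, rfl⟩
    exact (Submodule.finrank_mono hle).trans (Submodule.finrank_map_le _ _)
  have hBXB : B * X₁ * B = z * (B * (ν * ν)) := by
    rw [hX1]
    simp only [mul_add, add_mul, mul_sub, sub_mul, mul_one, one_mul, mul_assoc, hA, hB, rAA, rBB, rABA, rABA', rBAB, rBAB', rAz, rAz', rBz, rBz', rAa, rAa', rBa, rBa', rza, rza', rAν, rAν', rBν, rBν', rzν, rzν', mul_zero, zero_mul, add_zero, zero_add, sub_zero, zero_sub, neg_zero, mul_neg, neg_mul, neg_neg] <;> abel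
  have hνBapp : ∀ x, ν (B x) = B (ν x) := fun x =>
    congrArg (fun T : Module.End k M => T x) hνB
  by_cases hnil : IsNilpotent (X₁ * B + B * X₁)
  · obtain ⟨hXBX, hBXB0⟩ := g1 h2 hnil hFamX (fam_B A hB) hmin hrankX hdB.le
    have hννB : ∀ m, B (ν (ν m)) = 0 := by
      intro m
      apply hinjB
      have h3 : (B * X₁ * B) m = 0 := by rw [hBXB0]; rfl
      rw [hBXB] at h3
      exact h3
    have hBνν : B * (ν * ν) = 0 := LinearMap.ext hννB
    have hννA : ∀ m, A (ν (ν m)) = 0 := by
      intro m
      apply hinjA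
      have h4 : z * (A * (ν * ν)) = A * (B * (ν * ν)) * A := by
        simp only [mul_add, add_mul, mul_sub, sub_mul, mul_one, one_mul, mul_assoc, hA, hB, rAA, rBB, rABA, rABA', rBAB, rBAB', rAz, rAz', rBz, rBz', rAa, rAa', rBa, rBa', rza, rza', rAν, rAν', rBν, rBν', rzν, rzν', mul_zero, zero_mul, add_zero, zero_add, sub_zero, zero_sub, neg_zero, mul_neg, neg_mul, neg_neg]
      have h5 : (z * (A * (ν * ν))) m = 0 := by rw [h4, hBνν, mul_zero, zero_mul]; rfl
      exact h5
    have hAνν : A * (ν * ν) = 0 := LinearMap.ext hννA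
    have rννA : ν * (ν * A) = 0 := by
      have h4 := hAνν
      simp only [mul_add, add_mul, mul_sub, sub_mul, mul_one, one_mul, mul_assoc, hA, hB, rAA, rBB, rABA, rABA', rBAB, rBAB', rAz, rAz', rBz, rBz', rAa, rAa', rBa, rBa', rza, rza', rAν, rAν', rBν, rBν', rzν, rzν', mul_zero, zero_mul, add_zero, zero_add, sub_zero, zero_sub, neg_zero, mul_neg, neg_mul, neg_neg] at h4
      exact h4
    have rννA' : ∀ T : Module.End k M, ν * (ν * (A * T)) = 0 := fun T => by
      rw [← mul_assoc, ← mul_assoc, mul_assoc ν ν A, rννA, zero_mul]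
    have rννB : ν * (ν * B) = 0 := by
      have h4 := hBνν
      simp only [mul_add, add_mul, mul_sub, sub_mul, mul_one, one_mul, mul_assoc, hA, hB, rAA, rBB, rABA, rABA', rBAB, rBAB', rAz, rAz', rBz, rBz', rAa, rAa', rBa, rBa', rza, rza', rAν, rAν', rBν, rBν', rzν, rzν', mul_zero, zero_mul, add_zero, zero_add, sub_zero, zero_sub, neg_zero, mul_neg, neg_mul, neg_neg] at h4
      exact h4
    have rννB' : ∀ T : Module.End k M, ν * (ν * (B * T)) = 0 := fun T => by
      rw [← mul_assoc, ← mul_assoc, mul_assoc ν ν B, rννB, zero_mul]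
    have hZ : X₁ * B - B * X₁ = ν * (z * B) + ν * (z * B) := by
      rw [hX1]
      simp only [mul_add, add_mul, mul_sub, sub_mul, mul_one, one_mul, mul_assoc, hA, hB, rAA, rBB, rABA, rABA', rBAB, rBAB', rAz, rAz', rBz, rBz', rAa, rAa', rBa, rBa', rza, rza', rAν, rAν', rBν, rBν', rzν, rzν', mul_zero, zero_mul, add_zero, zero_add, sub_zero, zero_sub, neg_zero, mul_neg, neg_mul, neg_neg, rννA, rννA', rννB, rννB'] <;> abel
    have r1 : ∀ T : Module.End k M, X₁ * (X₁ * T) = 0 := fun T => by
      rw [← mul_assoc, hFamX.1, zero_mul]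
    have r2 : X₁ * (B * X₁) = 0 := by rw [← mul_assoc, hXBX]
    have r2' : ∀ T : Module.End k M, X₁ * (B * (X₁ * T)) = 0 := fun T => by
      rw [← mul_assoc, ← mul_assoc, hXBX, zero_mul]
    have r3 : B * (X₁ * B) = 0 := by rw [← mul_assoc, hBXB0]
    have r3' : ∀ T : Module.End k M, B * (X₁ * (B * T)) = 0 := fun T => by
      rw [← mul_assoc, ← mul_assoc, hBXB0, zero_mul]
    have hFamZ : Fam (genH A B) (X₁ * B - B * X₁) := by
      refine ⟨?_, fun c => ?_⟩
      · simp only [mul_sub, sub_mul, mul_assoc, hFamX.1, hB, r1, rBB, r2, r2', r3, r3', mul_zero,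
          zero_mul, sub_zero, zero_sub, neg_zero, sub_self]
      · obtain ⟨x, hxH, hx⟩ := hFamX.2 c
        have hXc : (c • X₁) * (c • X₁) = 0 := smul_sq0 hFamX.1 c
        have hxi := Fin3a.inv_of_sq0 hXc hx
        refine ⟨x * bb * x⁻¹ * bb⁻¹, (genH A B).mul_mem ((genH A B).mul_mem
          ((genH A B).mul_mem hxH hbH) ((genH A B).inv_mem hxH)) ((genH A B).inv_mem hbH), ?_⟩
        rw [Units.val_mul, Units.val_mul, Units.val_mul, hx, hb, hxi, hbi]
        obtain ⟨Xc, hXcdef⟩ : ∃ Xc : Module.End k M, Xc = c • X₁ := ⟨_, rfl⟩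
        rw [← hXcdef]
        have q1 : Xc * Xc = 0 := by rw [hXcdef]; exact hXc
        have q1' : ∀ T : Module.End k M, Xc * (Xc * T) = 0 := fun T => by
          rw [← mul_assoc, q1, zero_mul]
        have q2 : Xc * (B * Xc) = 0 := by
          simp only [hXcdef, smul_mul_assoc, mul_smul_comm, r2, smul_zero]
        have q2' : ∀ T : Module.End k M, Xc * (B * (Xc * T)) = 0 := fun T => by
          simp only [hXcdef, smul_mul_assoc, mul_smul_comm, r2', smul_zero]
        have q3 : B * (Xc * B) = 0 := by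
          simp only [hXcdef, smul_mul_assoc, mul_smul_comm, r3, smul_zero]
        have q3' : ∀ T : Module.End k M, B * (Xc * (B * T)) = 0 := fun T => by
          simp only [hXcdef, smul_mul_assoc, mul_smul_comm, r3', smul_zero]
        have h6 : (1 + Xc) * (1 + B) * (1 - Xc) * (1 - B) = 1 + (Xc * B - B * Xc) := by
          simp only [mul_add, add_mul, mul_sub, sub_mul, mul_one, one_mul, mul_assoc, q1, q1',
            hB, rBB, q2, q2', q3, q3', mul_zero, zero_mul, add_zero, zero_add, sub_zero,
            zero_sub, neg_zero, mul_neg, neg_mul, neg_neg] <;> abel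
        rw [h6, hXcdef, smul_mul_assoc, mul_smul_comm, smul_sub]
    have hZrank : 2 * Module.finrank k (LinearMap.range (X₁ * B - B * X₁)) ≤ d := by
      have hle1 : LinearMap.range (X₁ * B - B * X₁) ≤
          LinearMap.range (ν.domRestrict (LinearMap.range B)) := by
        rintro _ ⟨m, rfl⟩
        rw [hZ]
        refine ⟨⟨B (z m + z m), ⟨_, rfl⟩⟩, ?_⟩
        show ν (B (z m + z m)) = ν (z (B m)) + ν (z (B m))
        have hzBm : z (B m) = B (z m) := congrArg (fun T : Module.End k M => T m) hzB
        rw [hzBm, map_add B, map_add ν]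
      have hle2 : LinearMap.range (ν.domRestrict (LinearMap.range B)) ≤
          (LinearMap.ker (ν.domRestrict (LinearMap.range B))).map
            (LinearMap.range B).subtype := by
        rintro _ ⟨⟨r, ⟨m, rfl⟩⟩, rfl⟩
        refine ⟨⟨ν (B m), ⟨ν m, (hνBapp m).symm⟩⟩, ?_, rfl⟩
        show ν (ν (B m)) = 0
        rw [hνBapp, hνBapp, hννB]
      have h1 := Submodule.finrank_mono hle1
      have h2' := Submodule.finrank_mono hle2
      have h3 := Submodule.finrank_map_subtype_eq (LinearMap.range B)
        (LinearMap.ker (ν.domRestrict (LinearMap.range B)))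
      have h4 := LinearMap.finrank_range_add_finrank_ker (ν.domRestrict (LinearMap.range B))
      omega
    have hd1 : d ≠ 0 := by
      intro hd0
      rw [hd0] at hdA
      have hA0 : A = 0 := LinearMap.range_eq_bot.mp (Submodule.finrank_eq_zero.mp hdA)
      apply hnz
      rw [hzdef, hA0, zero_mul, mul_zero, add_zero]
      exact IsNilpotent.zero
    have hZ0 : X₁ * B - B * X₁ = 0 := by
      by_contra hne
      have h5 := hmin _ hFamZ hne
      omega
    have hνzB : ν * (z * B) = 0 := by
      rw [hZ] at hZ0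
      have h5 : (2 : k) • (ν * (z * B)) = 0 := by rw [two_smul]; exact hZ0
      exact (smul_eq_zero.mp h5).resolve_left h2
    have hBν : ∀ m, B (ν m) = 0 := by
      intro m
      apply hinjB
      have h6 : z * (B * ν) = ν * (z * B) := by
        simp only [mul_add, add_mul, mul_sub, sub_mul, mul_one, one_mul, mul_assoc, hA, hB, rAA, rBB, rABA, rABA', rBAB, rBAB', rAz, rAz', rBz, rBz', rAa, rAa', rBa, rBa', rza, rza', rAν, rAν', rBν, rBν', rzν, rzν', mul_zero, zero_mul, add_zero, zero_add, sub_zero, zero_sub, neg_zero, mul_neg, neg_mul, neg_neg]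
      have h7 : (z * (B * ν)) m = 0 := by rw [h6, hνzB]; rfl
      exact h7
    have hBν0 : B * ν = 0 := LinearMap.ext hBν
    intro m
    apply hinjA
    have h8 : z * (A * ν) = A * (B * ν) * A := by
      simp only [mul_add, add_mul, mul_sub, sub_mul, mul_one, one_mul, mul_assoc, hA, hB, rAA, rBB, rABA, rABA', rBAB, rBAB', rAz, rAz', rBz, rBz', rAa, rAa', rBa, rBa', rza, rza', rAν, rAν', rBν, rBν', rzν, rzν', mul_zero, zero_mul, add_zero, zero_add, sub_zero, zero_sub, neg_zero, mul_neg, neg_mul, neg_neg]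
    have h9 : (z * (A * ν)) m = 0 := by rw [h8, hBν0, mul_zero, zero_mul]; rfl
    exact h9
  · exfalso
    have hnz1 : ¬ IsNilpotent (zz B X₁) := by
      intro h
      apply hnil
      have h3 : zz B X₁ = X₁ * B + B * X₁ := by unfold zz; abel
      rw [← h3]
      exact h
    have hle1 : genH B X₁ ≤ genH A B := by
      apply genH_le
      · intro g c e
        have e' : g = mkU (c • B) (smul_sq0 hB c) := unit_ext (by rw [e]; rfl)
        rw [e']
        exact mkU_B_mem A hB c
      · intro g c e
        obtain ⟨g', hg', e'⟩ := hFamX.2 c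
        have e'' : g = g' := unit_ext (by rw [e, e'])
        rw [e'']
        exact hg'
    have hmin1 : MinRank (genH B X₁) d := hmin.mono hle1
    have hp1 := fin_p1 hk2 hk3 hB hFamX.1 hnz1 hdB hmin1
    obtain ⟨w, hw, hw0⟩ := (Submodule.ne_bot_iff W').mp hW0
    have h1 : B (X₁ (B w)) = 0 := by
      have h3 : (B * X₁ * B) w = 0 := by
        rw [hBXB]
        show z (B (ν (ν w))) = 0
        rw [hνW w hw, map_zero, map_zero, map_zero]
      exact h3
    have hBw : B w = 0 := hp1 w h1
    obtain ⟨m, rfl⟩ := hWA hw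
    have hzw : z (A m) = 0 := by
      rw [hzdef]
      show A (B (A m)) + B (A (A m)) = 0
      have h5 : A (A m) = 0 := by
        have h6 : (A * A) m = 0 := by rw [hA]; rfl
        exact h6
      rw [hBw, h5, map_zero, map_zero, add_zero]
    exact hw0 (hWinj _ hw hzw)

end Cfsg.Agent.Lib.Helper50.QP
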