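import Cfsg.Agent.Lib.Helper50.QpDefs
import Cfsg.Agent.Lib.Helper50.AlgGenD

set_option autoImplicit false

namespace Cfsg.Agent.Lib.Helper50.QP.Final

open Polynomial Cfsg Cfsg.Agent.Lib.Helper50.QR Cfsg.Agent.Lib.Helper50.QP Cfsg.Agent.Lib.Helper50

universe u v w

variable {k : Type u} [Field k] {M : Type v} [AddCommGroup M] [Module k M]
variable {K : Type w} [Field K] [Algebra k K]

section Abs

variable (A B : Module.End k M) (lam : K) (act : K →ₐ[k] Module.End k (LinearMap.range A))

/-- the projection `m ↦ λ⁻¹ (A B m)` onto `W = range A` -/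
noncomputable def Pj : M →ₗ[k] LinearMap.range A :=
  (act lam⁻¹) ∘ₗ ((A * B).codRestrict (LinearMap.range A) (fun m => ⟨B m, rfl⟩))

/-- the map `m ↦ A m` onto `W = range A` -/
noncomputable def Qm : M →ₗ[k] LinearMap.range A := A.rangeRestrict

/-- the block operator attached to four elements of `K` -/
noncomputable def Psi (a b c d : K) : Module.End k M :=
  (LinearMap.range A).subtype ∘ₗ (act a ∘ₗ Pj A B lam act + act b ∘ₗ Qm A) +
    B ∘ₗ (LinearMap.range A).subtype ∘ₗ act lam⁻¹ ∘ₗ (act c ∘ₗ Pj A B lam act + act d ∘ₗ Qm A)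

theorem Psi_apply (a b c d : K) (m : M) :
    Psi A B lam act a b c d m =
      ((act a (Pj A B lam act m) + act b (Qm A m) : LinearMap.range A) : M) +
        B ((act lam⁻¹ (act c (Pj A B lam act m) + act d (Qm A m)) : LinearMap.range A) : M) :=
  rfl

variable {A B lam act}

theorem act_inv_act (hl : lam ≠ 0) (x : LinearMap.range A) : act lam⁻¹ (act lam x) = x := by
  have : act lam⁻¹ * act lam = 1 := by rw [← map_mul, inv_mul_cancel₀ hl, map_one]
  have h := congrArg (fun f : Module.End k (LinearMap.range A) => f x) this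
  exact h

theorem act_act_inv (hl : lam ≠ 0) (x : LinearMap.range A) : act lam (act lam⁻¹ x) = x := by
  have : act lam * act lam⁻¹ = 1 := by rw [← map_mul, mul_inv_cancel₀ hl, map_one]
  have h := congrArg (fun f : Module.End k (LinearMap.range A) => f x) this
  exact h

theorem Pj_coe (hl : lam ≠ 0)
    (hact : ∀ x : LinearMap.range A, ((act lam x : LinearMap.range A) : M) = A (B (x : M)))
    (x : LinearMap.range A) : Pj A B lam act (x : M) = x := by
  have e : (A * B).codRestrict (LinearMap.range A) (fun m => ⟨B m, rfl⟩) (x : M) = act lam x :=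
    Subtype.ext (hact x).symm
  show act lam⁻¹ ((A * B).codRestrict (LinearMap.range A) (fun m => ⟨B m, rfl⟩) (x : M)) = x
  rw [e, act_inv_act hl]

theorem Qm_coe (hA : A * A = 0) (x : LinearMap.range A) : Qm A (x : M) = 0 := by
  obtain ⟨m, hm⟩ := x.2
  apply Subtype.ext
  show A (x : M) = 0
  rw [← hm]
  exact congrArg (fun f : Module.End k M => f m) hA

theorem Pj_B (hB : B * B = 0) (m : M) : Pj A B lam act (B m) = 0 := by
  have e : (A * B).codRestrict (LinearMap.range A) (fun m => ⟨B m, rfl⟩) (B m) = 0 := by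
    apply Subtype.ext
    show A (B (B m)) = 0
    have : B (B m) = 0 := congrArg (fun f : Module.End k M => f m) hB
    rw [this, map_zero]
  show act lam⁻¹ ((A * B).codRestrict (LinearMap.range A) (fun m => ⟨B m, rfl⟩) (B m)) = 0
  rw [e, map_zero]

theorem Qm_B_inv (hl : lam ≠ 0)
    (hact : ∀ x : LinearMap.range A, ((act lam x : LinearMap.range A) : M) = A (B (x : M)))
    (x : LinearMap.range A) : Qm A (B ((act lam⁻¹ x : LinearMap.range A) : M)) = x := by
  apply Subtype.ext
  show A (B ((act lam⁻¹ x : LinearMap.range A) : M)) = x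
  rw [← hact, act_act_inv hl]

theorem B_Pj (hl : lam ≠ 0)
    (hact : ∀ x : LinearMap.range A, ((act lam x : LinearMap.range A) : M) = A (B (x : M)))
    (h2 : ∀ m, B (A (B m)) = 0 → B m = 0) (m : M) :
    B ((Pj A B lam act m : LinearMap.range A) : M) = B m := by
  have e1 : A (B ((Pj A B lam act m : LinearMap.range A) : M)) = A (B m) := by
    rw [← hact]
    show ((act lam (act lam⁻¹ ((A * B).codRestrict (LinearMap.range A) (fun m => ⟨B m, rfl⟩) m)) :
      LinearMap.range A) : M) = A (B m)
    rw [act_act_inv hl]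
    rfl
  have e2 : B (((Pj A B lam act m : LinearMap.range A) : M) - m) = 0 := by
    apply h2
    rw [map_sub, map_sub, map_sub, e1, sub_self]
  rw [map_sub, sub_eq_zero] at e2
  exact e2

/-- the standing hypotheses of the abstract construction -/
structure Hyp (A B : Module.End k M) (lam : K)
    (act : K →ₐ[k] Module.End k (LinearMap.range A)) : Prop where
  hA : A * A = 0
  hB : B * B = 0
  hl : lam ≠ 0
  hact : ∀ x : LinearMap.range A, ((act lam x : LinearMap.range A) : M) = A (B (x : M))
  h2 : ∀ m, B (A (B m)) = 0 → B m = 0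
  hinj : Function.Injective act

theorem Pj_Psi (H : Hyp A B lam act) (a b c d : K) (m : M) :
    Pj A B lam act (Psi A B lam act a b c d m) =
      act a (Pj A B lam act m) + act b (Qm A m) := by
  rw [Psi_apply, map_add, Pj_coe H.hl H.hact, Pj_B H.hB, add_zero]

theorem Qm_Psi (H : Hyp A B lam act) (a b c d : K) (m : M) :
    Qm A (Psi A B lam act a b c d m) =
      act c (Pj A B lam act m) + act d (Qm A m) := by
  rw [Psi_apply, map_add, Qm_coe H.hA, Qm_B_inv H.hl H.hact, zero_add]

theorem Psi_Psi (H : Hyp A B lam act) (a b c d a' b' c' d' : K) (m : M) :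
    Psi A B lam act a b c d (Psi A B lam act a' b' c' d' m) =
      Psi A B lam act (a * a' + b * c') (a * b' + b * d') (c * a' + d * c') (c * b' + d * d')
        m := by
  rw [Psi_apply, Pj_Psi H, Qm_Psi H, Psi_apply]
  have e1 : act a (act a' (Pj A B lam act m) + act b' (Qm A m)) +
      act b (act c' (Pj A B lam act m) + act d' (Qm A m)) =
      act (a * a' + b * c') (Pj A B lam act m) + act (a * b' + b * d') (Qm A m) := by
    simp only [map_add, map_mul, Module.End.mul_apply, LinearMap.add_apply]
    abel
  have e2 : act c (act a' (Pj A B lam act m) + act b' (Qm A m)) +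
      act d (act c' (Pj A B lam act m) + act d' (Qm A m)) =
      act (c * a' + d * c') (Pj A B lam act m) + act (c * b' + d * d') (Qm A m) := by
    simp only [map_add, map_mul, Module.End.mul_apply, LinearMap.add_apply]
    abel
  rw [e1, e2]

/-- the endomorphism attached to a matrix -/
noncomputable def psiM (A B : Module.End k M) (lam : K)
    (act : K →ₐ[k] Module.End k (LinearMap.range A)) (g : Matrix (Fin 2) (Fin 2) K) :
    Module.End k M :=
  Psi A B lam act (g 0 0) (g 0 1) (g 1 0) (g 1 1) + (1 - Psi A B lam act 1 0 0 1)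

theorem psiM_apply (g : Matrix (Fin 2) (Fin 2) K) (m : M) :
    psiM A B lam act g m =
      Psi A B lam act (g 0 0) (g 0 1) (g 1 0) (g 1 1) m + (m - Psi A B lam act 1 0 0 1 m) :=
  rfl

theorem psiM_one (A B : Module.End k M) (lam : K)
    (act : K →ₐ[k] Module.End k (LinearMap.range A)) : psiM A B lam act 1 = 1 := by
  unfold psiM
  simp

theorem psiM_mul (H : Hyp A B lam act) (g g' : Matrix (Fin 2) (Fin 2) K) :
    psiM A B lam act (g * g') = psiM A B lam act g * psiM A B lam act g' := by
  apply LinearMap.ext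
  intro m
  rw [Module.End.mul_apply, psiM_apply, psiM_apply, psiM_apply]
  simp only [map_add, map_sub, Psi_Psi H, Matrix.mul_apply, Fin.sum_univ_two]
  simp only [mul_one, mul_zero, one_mul, zero_mul, add_zero, zero_add]
  abel

/-- the monoid homomorphism from matrices -/
noncomputable def psiHom (H : Hyp A B lam act) : Matrix (Fin 2) (Fin 2) K →* Module.End k M where
  toFun := psiM A B lam act
  map_one' := psiM_one A B lam act
  map_mul' := psiM_mul H

/-- the homomorphism `SL₂(K) → GL(M)` -/
noncomputable def psiSL (H : Hyp A B lam act) :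
    Matrix.SpecialLinearGroup (Fin 2) K →* LinearMap.GeneralLinearGroup k M :=
  (Units.map (psiHom H)).comp Matrix.SpecialLinearGroup.toGL

theorem psiSL_val (H : Hyp A B lam act) (g : Matrix.SpecialLinearGroup (Fin 2) K) :
    ((psiSL H g : LinearMap.GeneralLinearGroup k M) : Module.End k M) = psiM A B lam act g.1 :=
  rfl

theorem act_alg (c : k) (x : LinearMap.range A) : act (algebraMap k K c) x = c • x := by
  rw [AlgHom.commutes]
  rfl

theorem coe_Qm (m : M) : ((Qm A m : LinearMap.range A) : M) = A m := rfl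

theorem psiSL_uK (H : Hyp A B lam act) (c : k) :
    ((psiSL H (AG.uK (algebraMap k K c)) : LinearMap.GeneralLinearGroup k M) : Module.End k M) =
      1 + c • A := by
  apply LinearMap.ext
  intro m
  rw [psiSL_val, psiM_apply, AG.uK00, AG.uK01, AG.uK10, AG.uK11, Psi_apply, Psi_apply]
  simp only [map_zero, LinearMap.zero_apply, add_zero, zero_add, map_one, Module.End.one_apply,
    act_alg, Submodule.coe_add, Submodule.coe_smul, coe_Qm, LinearMap.add_apply,
    LinearMap.smul_apply]
  abel

theorem psiSL_lK (H : Hyp A B lam act) (c : k) :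
    ((psiSL H (AG.lK (algebraMap k K c * lam)) : LinearMap.GeneralLinearGroup k M) :
      Module.End k M) = 1 + c • B := by
  apply LinearMap.ext
  intro m
  rw [psiSL_val, psiM_apply, AG.lK00, AG.lK01, AG.lK10, AG.lK11, Psi_apply, Psi_apply]
  have e : act lam⁻¹ (act (algebraMap k K c * lam) (Pj A B lam act m)) =
      c • Pj A B lam act m := by
    rw [map_mul, Module.End.mul_apply, act_alg, map_smul, act_inv_act H.hl]
  simp only [map_zero, LinearMap.zero_apply, add_zero, zero_add, map_one, Module.End.one_apply,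
    map_add, e, Submodule.coe_add, Submodule.coe_smul, LinearMap.add_apply,
    LinearMap.smul_apply, map_smul, B_Pj H.hl H.hact H.h2]
  abel

theorem psiSL_injective (H : Hyp A B lam act) : Function.Injective (psiSL H) := by
  intro g g' hgg
  have h0 : ∀ m, Psi A B lam act (g.1 0 0) (g.1 0 1) (g.1 1 0) (g.1 1 1) m =
      Psi A B lam act (g'.1 0 0) (g'.1 0 1) (g'.1 1 0) (g'.1 1 1) m := by
    intro m
    have h := congrArg (fun x : LinearMap.GeneralLinearGroup k M => (x : Module.End k M) m) hgg
    simp only [psiSL_val, psiM_apply] at h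
    exact add_right_cancel h
  have hP : ∀ m, act (g.1 0 0) (Pj A B lam act m) + act (g.1 0 1) (Qm A m) =
      act (g'.1 0 0) (Pj A B lam act m) + act (g'.1 0 1) (Qm A m) := by
    intro m
    rw [← Pj_Psi H _ _ (g.1 1 0) (g.1 1 1), ← Pj_Psi H _ _ (g'.1 1 0) (g'.1 1 1), h0]
  have hQ : ∀ m, act (g.1 1 0) (Pj A B lam act m) + act (g.1 1 1) (Qm A m) =
      act (g'.1 1 0) (Pj A B lam act m) + act (g'.1 1 1) (Qm A m) := by
    intro m
    rw [← Qm_Psi H (g.1 0 0) (g.1 0 1), ← Qm_Psi H (g'.1 0 0) (g'.1 0 1), h0]
  apply AG.ext2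
  · apply H.hinj
    apply LinearMap.ext
    intro x
    have := hP (x : M)
    rwa [Pj_coe H.hl H.hact, Qm_coe H.hA, map_zero, map_zero, add_zero, add_zero] at this
  · apply H.hinj
    apply LinearMap.ext
    intro x
    have := hP (B ((act lam⁻¹ x : LinearMap.range A) : M))
    rwa [Pj_B H.hB, Qm_B_inv H.hl H.hact, map_zero, map_zero, zero_add, zero_add] at this
  · apply H.hinj
    apply LinearMap.ext
    intro x
    have := hQ (x : M)
    rwa [Pj_coe H.hl H.hact, Qm_coe H.hA, map_zero, map_zero, add_zero, add_zero] at this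
  · apply H.hinj
    apply LinearMap.ext
    intro x
    have := hQ (B ((act lam⁻¹ x : LinearMap.range A) : M))
    rwa [Pj_B H.hB, Qm_B_inv H.hl H.hact, map_zero, map_zero, zero_add, zero_add] at this

theorem psiSL_range (H : Hyp A B lam act) (hk2 : ringChar k ≠ 2) (hk3 : Nat.card k ≠ 3)
    (halg : IsAlgebraic k lam) (htop : IntermediateField.adjoin k ({lam} : Set K) = ⊤) :
    (psiSL H).range = genH A B := by
  apply le_antisymm
  · rintro _ ⟨g, rfl⟩
    have hg : g ∈ AG.genY k lam := by
      have hset := AG.genY_eq k hk2 hk3 lam halg H.hl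
      have : g ∈ (AG.genY k lam : Set (Matrix.SpecialLinearGroup (Fin 2) K)) := by
        rw [hset]
        intro i j
        rw [htop]
        exact IntermediateField.mem_top
      exact this
    have hle : AG.genY k lam ≤ (genH A B).comap (psiSL H) := by
      unfold AG.genY
      rw [Subgroup.closure_le]
      rintro x (⟨c, hc⟩ | ⟨c, hc⟩)
      · have e : x = AG.uK (algebraMap k K c) := Subtype.ext hc
        rw [e]
        exact Subgroup.subset_closure (Or.inl ⟨c, psiSL_uK H c⟩)
      · have e : x = AG.lK (algebraMap k K c * lam) := Subtype.ext hc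
        rw [e]
        exact Subgroup.subset_closure (Or.inr ⟨c, psiSL_lK H c⟩)
    exact hle hg
  · apply genH_le
    · intro g c hg
      exact ⟨AG.uK (algebraMap k K c), unit_ext ((psiSL_uK H c).trans hg.symm)⟩
    · intro g c hg
      exact ⟨AG.lK (algebraMap k K c * lam), unit_ext ((psiSL_lK H c).trans hg.symm)⟩

/-- the isomorphism of the abstract construction -/
noncomputable def PhiEq (H : Hyp A B lam act) (hk2 : ringChar k ≠ 2) (hk3 : Nat.card k ≠ 3)
    (halg : IsAlgebraic k lam) (htop : IntermediateField.adjoin k ({lam} : Set K) = ⊤) :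
    ↥(genH A B) ≃* Matrix.SpecialLinearGroup (Fin 2) K :=
  ((MonoidHom.ofInjective (psiSL_injective H)).trans
    (MulEquiv.subgroupCongr (psiSL_range H hk2 hk3 halg htop))).symm

theorem coe_symm_PhiEq (H : Hyp A B lam act) (hk2 : ringChar k ≠ 2) (hk3 : Nat.card k ≠ 3)
    (halg : IsAlgebraic k lam) (htop : IntermediateField.adjoin k ({lam} : Set K) = ⊤)
    (x : Matrix.SpecialLinearGroup (Fin 2) K) :
    (((PhiEq H hk2 hk3 halg htop).symm x : genH A B) : LinearMap.GeneralLinearGroup k M) =
      psiSL H x := rfl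

theorem psiSL_PhiEq (H : Hyp A B lam act) (hk2 : ringChar k ≠ 2) (hk3 : Nat.card k ≠ 3)
    (halg : IsAlgebraic k lam) (htop : IntermediateField.adjoin k ({lam} : Set K) = ⊤)
    (g : genH A B) :
    psiSL H (PhiEq H hk2 hk3 halg htop g) = (g : LinearMap.GeneralLinearGroup k M) := by
  rw [← coe_symm_PhiEq H hk2 hk3 halg htop, MulEquiv.symm_apply_apply]

/-- the abstract form of the structure theorem -/
theorem abs_final (H : Hyp A B lam act) (hk2 : ringChar k ≠ 2) (hk3 : Nat.card k ≠ 3)
    (halg : IsAlgebraic k lam) (htop : IntermediateField.adjoin k ({lam} : Set K) = ⊤) :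
    ∃ Φ : ↥(genH A B) ≃* Matrix.SpecialLinearGroup (Fin 2) K,
      (∀ (c : k) (g : genH A B),
        ((g : LinearMap.GeneralLinearGroup k M) : Module.End k M) = 1 + c • A →
          Φ g = AG.uK (algebraMap k K c)) ∧
      (∀ (c : k) (g : genH A B),
        ((g : LinearMap.GeneralLinearGroup k M) : Module.End k M) = 1 + c • B →
          Φ g = AG.lK (algebraMap k K c * lam)) ∧
      (∀ g : genH A B, (Φ g).1 1 0 = 0 → ∀ x : LinearMap.range A,
        ((g : LinearMap.GeneralLinearGroup k M) : Module.End k M) (x : M) =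
          ((act ((Φ g).1 0 0) x : LinearMap.range A) : M)) := by
  refine ⟨PhiEq H hk2 hk3 halg htop, ?_, ?_, ?_⟩
  · intro c g hg
    apply psiSL_injective H
    rw [psiSL_PhiEq]
    exact unit_ext (hg.trans (psiSL_uK H c).symm)
  · intro c g hg
    apply psiSL_injective H
    rw [psiSL_PhiEq]
    exact unit_ext (hg.trans (psiSL_lK H c).symm)
  · intro g hg x
    rw [← psiSL_PhiEq H hk2 hk3 halg htop g, psiSL_val, psiM_apply, Psi_apply, Psi_apply, hg]
    simp only [Pj_coe H.hl H.hact, Qm_coe H.hA, map_zero, LinearMap.zero_apply, add_zero,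
      map_one, Module.End.one_apply, ZeroMemClass.coe_zero, sub_self]

end Abs

section Conc

variable {A B : Module.End k M}

/-- `AB` restricted to `range A` -/
noncomputable def lam0 (A B : Module.End k M) : Module.End k (LinearMap.range A) :=
  (A * B).restrict (fun x _ => ⟨B x, rfl⟩)

theorem lam0_apply (x : LinearMap.range A) :
    ((lam0 A B x : LinearMap.range A) : M) = A (B (x : M)) := rfl

theorem lam0_pow (n : ℕ) (x : LinearMap.range A) :
    (((lam0 A B ^ n) x : LinearMap.range A) : M) = ((A * B) ^ n) (x : M) := by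
  induction n generalizing x with
  | zero => simp
  | succ n ih =>
    rw [pow_succ, Module.End.mul_apply, ih, pow_succ, Module.End.mul_apply]
    rfl

theorem aeval_lam0 (g : k[X]) (x : LinearMap.range A) :
    ((aeval (lam0 A B) g x : LinearMap.range A) : M) = aeval (A * B) g (x : M) := by
  induction g using Polynomial.induction_on' with
  | add p q hp hq =>
    rw [map_add, map_add, LinearMap.add_apply, LinearMap.add_apply, Submodule.coe_add, hp, hq]
  | monomial n a =>
    rw [aeval_monomial, aeval_monomial, Module.End.mul_apply, Module.End.mul_apply,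
      Module.algebraMap_end_apply, Module.algebraMap_end_apply, Submodule.coe_smul, lam0_pow]

theorem zero_or_inj
    (h3 : ∀ g : k[X], (∀ m, aeval (A * B) g (A m) = 0) ∨
      (∀ m, aeval (A * B) g (A m) = 0 → A m = 0)) (g : k[X]) :
    aeval (lam0 A B) g = 0 ∨ Function.Injective (aeval (lam0 A B) g) := by
  rcases h3 g with h | h
  · left
    apply LinearMap.ext
    intro x
    apply Subtype.ext
    rw [aeval_lam0]
    obtain ⟨m, hm⟩ := x.2
    rw [← hm]
    exact h m
  · right
    rw [injective_iff_map_eq_zero]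
    intro x hx
    obtain ⟨m, hm⟩ := x.2
    apply Subtype.ext
    have h4 := congrArg Subtype.val hx
    rw [aeval_lam0, ← hm] at h4
    rw [← hm]
    exact h m h4

theorem mem_adjoin_lam0 (y : Module.End k (LinearMap.range A)) :
    y ∈ Algebra.adjoin k ({lam0 A B} : Set (Module.End k (LinearMap.range A))) ↔
      ∃ g : k[X], aeval (lam0 A B) g = y := by
  rw [Algebra.adjoin_singleton_eq_range_aeval]
  exact Iff.rfl

theorem isField_adjoin [FiniteDimensional k M] (hA0 : A ≠ 0)
    (h3 : ∀ g : k[X], (∀ m, aeval (A * B) g (A m) = 0) ∨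
      (∀ m, aeval (A * B) g (A m) = 0 → A m = 0)) :
    IsField ↥(Algebra.adjoin k ({lam0 A B} : Set (Module.End k (LinearMap.range A)))) := by
  refine ⟨⟨0, 1, ?_⟩, ?_, ?_⟩
  · intro h01
    apply hA0
    apply LinearMap.ext
    intro m
    have h := congrArg (fun y : ↥(Algebra.adjoin k ({lam0 A B} :
      Set (Module.End k (LinearMap.range A)))) =>
        (((y : Module.End k (LinearMap.range A)) ⟨A m, m, rfl⟩ : LinearMap.range A) : M)) h01
    exact h.symm
  · intro x y
    obtain ⟨g, hg⟩ := (mem_adjoin_lam0 _).1 x.2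
    obtain ⟨g', hg'⟩ := (mem_adjoin_lam0 _).1 y.2
    apply Subtype.ext
    show (x : Module.End k (LinearMap.range A)) * y = y * x
    rw [← hg, ← hg', ← map_mul, ← map_mul, mul_comm]
  · intro a ha
    obtain ⟨g, hg⟩ := (mem_adjoin_lam0 _).1 a.2
    have hinj : Function.Injective (aeval (lam0 A B) g) := by
      rcases zero_or_inj h3 g with h | h
      · exact absurd (Subtype.ext (hg.symm.trans h)) ha
      · exact h
    have hfi : Function.Injective (LinearMap.mulLeft k a) := by
      rw [injective_iff_map_eq_zero]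
      intro x hx
      apply Subtype.ext
      apply LinearMap.ext
      intro y
      apply hinj
      have h := congrArg (fun z : ↥(Algebra.adjoin k ({lam0 A B} :
        Set (Module.End k (LinearMap.range A)))) => (z : Module.End k (LinearMap.range A)) y) hx
      show (aeval (lam0 A B) g) ((x : Module.End k (LinearMap.range A)) y) =
        (aeval (lam0 A B) g) 0
      rw [map_zero, hg]
      exact h
    have hfd : FiniteDimensional k ↥(Algebra.adjoin k ({lam0 A B} :
        Set (Module.End k (LinearMap.range A)))) := inferInstance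
    have hsurj : Function.Surjective (LinearMap.mulLeft k a) :=
      @LinearMap.surjective_of_injective k ↥(Algebra.adjoin k ({lam0 A B} :
        Set (Module.End k (LinearMap.range A)))) _ _ _ _ (LinearMap.mulLeft k a) hfi
    obtain ⟨b, hb⟩ := hsurj (1 : ↥(Algebra.adjoin k ({lam0 A B} :
      Set (Module.End k (LinearMap.range A)))))
    exact ⟨b, hb⟩

/-- the field `k[λ]`, as a type -/
def KK (A B : Module.End k M) : Type v :=
  ↥(Algebra.adjoin k ({lam0 A B} : Set (Module.End k (LinearMap.range A))))

end Conc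

end Cfsg.Agent.Lib.Helper50.QP.Final

namespace Cfsg.Agent.Lib.Helper50.QP

open Polynomial Cfsg Cfsg.Agent.Lib.Helper50.QR

universe u v

variable {k : Type u} [Field k] {M : Type v} [AddCommGroup M] [Module k M] [FiniteDimensional k M]

/-- J4: the structure theorem: `genH A B ≅ SL₂(K)`, `K = k[λ]`, `λ = AB` on `range A` -/
theorem final_strong (hk2 : ringChar k ≠ 2) (hk3 : Nat.card k ≠ 3) {A B : Module.End k M}
    (hA : A * A = 0) (hB : B * B = 0) (hA0 : A ≠ 0)
    (h1 : ∀ m, A (B (A m)) = 0 → A m = 0) (h2 : ∀ m, B (A (B m)) = 0 → B m = 0)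
    (h3 : ∀ g : k[X], (∀ m, aeval (A * B) g (A m) = 0) ∨
      (∀ m, aeval (A * B) g (A m) = 0 → A m = 0)) :
    ∃ (K : Type v) (_ : Field K) (_ : Algebra k K) (lam : K)
      (act : K →ₐ[k] Module.End k (LinearMap.range A))
      (Φ : ↥(genH A B) ≃* Matrix.SpecialLinearGroup (Fin 2) K),
      IsAlgebraic k lam ∧ IntermediateField.adjoin k ({lam} : Set K) = ⊤ ∧
      (∀ w : LinearMap.range A, ((act lam w : LinearMap.range A) : M) = A (B (w : M))) ∧
      (∀ (c : k) (g : genH A B),
        ((g : LinearMap.GeneralLinearGroup k M) : Module.End k M) = 1 + c • A →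
          Φ g = AG.uK (algebraMap k K c)) ∧
      (∀ (c : k) (g : genH A B),
        ((g : LinearMap.GeneralLinearGroup k M) : Module.End k M) = 1 + c • B →
          Φ g = AG.lK (algebraMap k K c * lam)) ∧
      (∀ g : genH A B, (Φ g).1 1 0 = 0 → ∀ w : LinearMap.range A,
        ((g : LinearMap.GeneralLinearGroup k M) : Module.End k M) (w : M) =
          ((act ((Φ g).1 0 0) w : LinearMap.range A) : M)) := by
  classical
  have hS := Final.isField_adjoin hA0 h3
  letI fK : Field (Final.KK A B) :=
    (show Field ↥(Algebra.adjoin k ({Final.lam0 A B} :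
      Set (Module.End k (LinearMap.range A)))) from hS.toField)
  letI aK : Algebra k (Final.KK A B) :=
    (Algebra.adjoin k ({Final.lam0 A B} : Set (Module.End k (LinearMap.range A)))).algebra
  obtain ⟨lam, hlam⟩ : ∃ l : Final.KK A B, l =
      (⟨Final.lam0 A B, Algebra.self_mem_adjoin_singleton k _⟩ :
        ↥(Algebra.adjoin k ({Final.lam0 A B} : Set (Module.End k (LinearMap.range A))))) :=
    ⟨_, rfl⟩
  obtain ⟨act, hactdef⟩ : ∃ a : Final.KK A B →ₐ[k] Module.End k (LinearMap.range A), a =
      (Algebra.adjoin k ({Final.lam0 A B} : Set (Module.End k (LinearMap.range A)))).val :=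
    ⟨_, rfl⟩
  have hact_inj : Function.Injective act := by
    rw [hactdef]
    exact Subtype.val_injective
  have hact_lam : act lam = Final.lam0 A B := by
    rw [hactdef, hlam]
    rfl
  have hact_mem : ∀ x : Final.KK A B, ∃ g : k[X], x = aeval lam g := by
    intro x
    have hx : act x ∈ Algebra.adjoin k ({Final.lam0 A B} :
        Set (Module.End k (LinearMap.range A))) := by
      rw [hactdef]
      exact x.2
    obtain ⟨g, hg⟩ := (Final.mem_adjoin_lam0 _).1 hx
    refine ⟨g, hact_inj ?_⟩
    rw [← Polynomial.aeval_algHom_apply, hact_lam, hg]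
  have hl : lam ≠ 0 := by
    intro h0
    have h0' : Final.lam0 A B = 0 := by rw [← hact_lam, h0, map_zero]
    apply hA0
    apply LinearMap.ext
    intro m
    apply h1
    have := congrArg (fun f : Module.End k (LinearMap.range A) =>
      ((f ⟨A m, m, rfl⟩ : LinearMap.range A) : M)) h0'
    exact this
  have hact : ∀ x : LinearMap.range A, ((act lam x : LinearMap.range A) : M) = A (B (x : M)) := by
    intro x
    rw [hact_lam]
    rfl
  have H : Final.Hyp A B lam act := ⟨hA, hB, hl, hact, h2, hact_inj⟩
  have halg : IsAlgebraic k lam := by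
    refine ⟨minpoly k (Final.lam0 A B), minpoly.ne_zero (Algebra.IsIntegral.isIntegral _), ?_⟩
    apply hact_inj
    rw [← Polynomial.aeval_algHom_apply, hact_lam, map_zero]
    exact minpoly.aeval k _
  have htop : IntermediateField.adjoin k ({lam} : Set (Final.KK A B)) = ⊤ := by
    rw [eq_top_iff]
    intro x _
    obtain ⟨g, rfl⟩ := hact_mem x
    exact IntermediateField.algebra_adjoin_le_adjoin k _
      (Polynomial.aeval_mem_adjoin_singleton k lam)
  obtain ⟨Φ, p1, p2, p3⟩ := Final.abs_final H hk2 hk3 halg htop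
  exact ⟨Final.KK A B, fK, aK, lam, act, Φ, halg, htop, hact, p1, p2, p3⟩

end Cfsg.Agent.Lib.Helper50.QP
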