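import Cfsg.Agent.Lib.Helper50.QpDefs

set_option autoImplicit false
set_option linter.unusedSectionVars false

namespace Cfsg.Agent.Lib.Helper50.QP

open Polynomial Cfsg Cfsg.Agent.Lib.Helper50.QR

universe u v

variable {k : Type u} [Field k] {M : Type v} [AddCommGroup M] [Module k M] [FiniteDimensional k M]

namespace G1

/-- alternating word of length `j` starting with `P` -/
def alt : ℕ → Module.End k M → Module.End k M → Module.End k M
  | 0, _, _ => 1
  | (j + 1), P, Q => P * alt j Q P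

theorem alt_zero (P Q : Module.End k M) : alt 0 P Q = 1 := rfl

theorem alt_succ (j : ℕ) (P Q : Module.End k M) : alt (j + 1) P Q = P * alt j Q P := rfl

theorem alt_add_three {P Q : Module.End k M} (hP : P * P = 0) (j : ℕ) :
    alt (j + 3) P Q = (P * Q + Q * P) * alt (j + 1) P Q := by
  show P * (Q * (P * alt j Q P)) = (P * Q + Q * P) * (P * alt j Q P)
  rw [add_mul, mul_assoc Q P, ← mul_assoc P P, hP, zero_mul, mul_zero, add_zero, mul_assoc]

theorem alt_add {P Q : Module.End k M} (hP : P * P = 0) (m j : ℕ) :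
    alt (2 * m + j + 1) P Q = (P * Q + Q * P) ^ m * alt (j + 1) P Q := by
  induction m with
  | zero => simp
  | succ m ih =>
    have e : 2 * (m + 1) + j + 1 = (2 * m + j) + 3 := by ring
    rw [e, alt_add_three hP, ih, pow_succ', mul_assoc]

theorem alt_vanish {P Q : Module.End k M} (hP : P * P = 0) (n : ℕ)
    (hz : (P * Q + Q * P) ^ (n + 1) * P = 0) (L : ℕ) (hL : 2 * n + 3 ≤ L) : alt L P Q = 0 := by
  obtain ⟨j, rfl⟩ : ∃ j, L = 2 * (n + 1) + j + 1 := ⟨L - 2 * n - 3, by omega⟩
  rw [alt_add hP, alt_succ, ← mul_assoc, hz, zero_mul]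

theorem alt_even {P Q : Module.End k M} (hP : P * P = 0) (m : ℕ) :
    alt (2 * m + 2) P Q = (P * Q + Q * P) ^ m * (P * Q) := by
  have h := alt_add (Q := Q) hP m 1
  rw [h]
  show _ * (P * (Q * 1)) = _
  rw [mul_one]

/-- normal form of a word in the letters `A`, `X` -/
theorem word_nf {A X : Module.End k M} (hA : A * A = 0) (hX : X * X = 0)
    (l : List (Module.End k M)) (hl : ∀ a ∈ l, a = A ∨ a = X) :
    l.prod = 0 ∨ l.prod = alt l.length A X ∨ l.prod = alt l.length X A := by
  induction l with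
  | nil => right; left; simp [alt]
  | cons a l ih =>
    have ih' := ih (fun b hb => hl b (List.mem_cons_of_mem a hb))
    rw [List.prod_cons, List.length_cons]
    rcases hl a List.mem_cons_self with ha | ha
    · rw [ha]
      rcases ih' with h | h | h
      · left; rw [h, mul_zero]
      · rcases Nat.eq_zero_or_pos l.length with h0 | h0
        · right; left
          rw [h, h0]
          rfl
        · obtain ⟨j, hj⟩ : ∃ j, l.length = j + 1 := ⟨l.length - 1, by omega⟩
          left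
          rw [h, hj, alt_succ, ← mul_assoc, hA, zero_mul]
      · right; left
        rw [h]
        rfl
    · rw [ha]
      rcases ih' with h | h | h
      · left; rw [h, mul_zero]
      · right; right
        rw [h]
        rfl
      · rcases Nat.eq_zero_or_pos l.length with h0 | h0
        · right; right
          rw [h, h0]
          rfl
        · obtain ⟨j, hj⟩ : ∃ j, l.length = j + 1 := ⟨l.length - 1, by omega⟩
          left
          rw [h, hj, alt_succ, ← mul_assoc, hX, zero_mul]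

/-- the filtration by word length -/
def Fil (A X : Module.End k M) (j : ℕ) : Submodule k (Module.End k M) :=
  Submodule.span k {w | ∃ l : List (Module.End k M), (∀ a ∈ l, a = A ∨ a = X) ∧
    j ≤ l.length ∧ l.prod = w}

theorem Fil_anti (A X : Module.End k M) {i j : ℕ} (h : i ≤ j) : Fil A X j ≤ Fil A X i :=
  Submodule.span_mono (fun _ ⟨l, h1, h2, h3⟩ => ⟨l, h1, h.trans h2, h3⟩)

theorem Fil_mul {A X : Module.End k M} {i j : ℕ} {a b : Module.End k M}
    (ha : a ∈ Fil A X i) (hb : b ∈ Fil A X j) : a * b ∈ Fil A X (i + j) := by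
  have h := Submodule.mul_mem_mul ha hb
  unfold Fil at h ⊢
  rw [Submodule.span_mul_span] at h
  refine Submodule.span_mono ?_ h
  rintro w ⟨w1, ⟨l1, h1, h2, rfl⟩, w2, ⟨l2, h1', h2', rfl⟩, rfl⟩
  refine ⟨l1 ++ l2, ?_, ?_, List.prod_append⟩
  · intro a ha
    rcases List.mem_append.1 ha with h | h
    · exact h1 a h
    · exact h1' a h
  · rw [List.length_append]; omega

theorem Fil_mul' {A X : Module.End k M} {i j l : ℕ} {a b : Module.End k M}
    (ha : a ∈ Fil A X i) (hb : b ∈ Fil A X j) (hl : l ≤ i + j) : a * b ∈ Fil A X l :=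
  Fil_anti A X hl (Fil_mul ha hb)

theorem A_mem_Fil (A X : Module.End k M) : A ∈ Fil A X 1 :=
  Submodule.subset_span ⟨List.cons A List.nil, by simp, by simp, by simp⟩

theorem X_mem_Fil (A X : Module.End k M) : X ∈ Fil A X 1 :=
  Submodule.subset_span ⟨List.cons X List.nil, by simp, by simp, by simp⟩

theorem zeta_comm_A {A X : Module.End k M} (hA : A * A = 0) :
    (A * X + X * A) * A = A * (A * X + X * A) := by
  rw [add_mul, mul_add, mul_assoc X A A, hA, mul_zero, add_zero, ← mul_assoc A A X, hA, zero_mul,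
    zero_add, mul_assoc]

theorem zeta_comm_X {A X : Module.End k M} (hX : X * X = 0) :
    (A * X + X * A) * X = X * (A * X + X * A) := by
  rw [add_mul, mul_add, mul_assoc A X X, hX, mul_zero, zero_add, ← mul_assoc X X A, hX, zero_mul,
    add_zero, mul_assoc]

theorem zeta_pow_comm_A {A X : Module.End k M} (hA : A * A = 0) (m : ℕ) :
    (A * X + X * A) ^ m * A = A * (A * X + X * A) ^ m :=
  ((show Commute (A * X + X * A) A from zeta_comm_A hA).pow_left m).eq

theorem zeta_pow_comm_X {A X : Module.End k M} (hX : X * X = 0) (m : ℕ) :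
    (A * X + X * A) ^ m * X = X * (A * X + X * A) ^ m :=
  ((show Commute (A * X + X * A) X from zeta_comm_X hX).pow_left m).eq

/-- the top of the filtration vanishes -/
theorem Fil_top {A X : Module.End k M} (hA : A * A = 0) (hX : X * X = 0) (n : ℕ)
    (hzA : (A * X + X * A) ^ (n + 1) * A = 0) (hzX : (A * X + X * A) ^ (n + 1) * X = 0)
    {w : Module.End k M} {L : ℕ} (hL : 2 * n + 3 ≤ L) (hw : w ∈ Fil A X L) : w = 0 := by
  have hle : Fil A X L ≤ ⊥ := by
    refine Submodule.span_le.2 ?_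
    rintro w ⟨l, h1, h2, rfl⟩
    have hzX' : (X * A + A * X) ^ (n + 1) * X = 0 := by rw [add_comm]; exact hzX
    rcases word_nf hA hX l h1 with h | h | h
    · rw [h]; exact Submodule.zero_mem _
    · rw [h, alt_vanish hA n hzA _ (hL.trans h2)]; exact Submodule.zero_mem _
    · rw [h, alt_vanish hX n hzX' _ (hL.trans h2)]; exact Submodule.zero_mem _
  exact (Submodule.mem_bot k).1 (hle hw)

/-- the last nonzero layer -/
theorem Fil_pre {A X : Module.End k M} (hA : A * A = 0) (hX : X * X = 0) (n : ℕ)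
    (hzA : (A * X + X * A) ^ (n + 1) * A = 0) (hzX : (A * X + X * A) ^ (n + 1) * X = 0)
    {w : Module.End k M} (hw : w ∈ Fil A X (2 * n + 2)) :
    ∃ α β : k, w = α • ((A * X + X * A) ^ n * A * X) + β • (X * ((A * X + X * A) ^ n * A)) := by
  have hle : Fil A X (2 * n + 2) ≤
      Submodule.span k {(A * X + X * A) ^ n * A * X, X * ((A * X + X * A) ^ n * A)} := by
    refine Submodule.span_le.2 ?_
    rintro w ⟨l, h1, h2, rfl⟩
    rcases Nat.lt_or_ge (2 * n + 2) l.length with h3 | h3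
    · have h0 : l.prod = 0 :=
        Fil_top hA hX n hzA hzX (L := l.length) (by omega)
          (Submodule.subset_span ⟨l, h1, le_refl _, rfl⟩)
      rw [h0]; exact Submodule.zero_mem _
    · have hlen : l.length = 2 * n + 2 := le_antisymm h3 h2
      rcases word_nf hA hX l h1 with h | h | h
      · rw [h]; exact Submodule.zero_mem _
      · rw [h, hlen, alt_even hA, ← mul_assoc]
        exact Submodule.subset_span (Set.mem_insert _ _)
      · rw [h, hlen, alt_even hX, add_comm (X * A) (A * X),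
          ← mul_assoc ((A * X + X * A) ^ n) X A, zeta_pow_comm_X hX,
          mul_assoc X ((A * X + X * A) ^ n) A]
        exact Submodule.subset_span (Set.mem_insert_of_mem _ rfl)
  obtain ⟨a, b, hab⟩ := Submodule.mem_span_pair.1 (hle hw)
  exact ⟨a, b, hab.symm⟩


/-- units close to `1` -/
def Near (A X : Module.End k M) (g : LinearMap.GeneralLinearGroup k M) : Prop :=
  (g : Module.End k M) - 1 ∈ Fil A X 1 ∧ (↑g⁻¹ : Module.End k M) - 1 ∈ Fil A X 1

theorem Near.inv {A X : Module.End k M} {g : LinearMap.GeneralLinearGroup k M}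
    (h : Near A X g) : Near A X g⁻¹ :=
  ⟨h.2, by rw [inv_inv]; exact h.1⟩

theorem Fil_one_mul {A X a b : Module.End k M} (ha : a - 1 ∈ Fil A X 1)
    (hb : b - 1 ∈ Fil A X 1) : a * b - 1 ∈ Fil A X 1 := by
  have e : a * b - 1 = (a - 1) * (b - 1) + (a - 1) + (b - 1) := by noncomm_ring
  rw [e]
  exact Submodule.add_mem _ (Submodule.add_mem _ (Fil_mul' ha hb (by omega)) ha) hb

theorem Near.mul {A X : Module.End k M} {g h : LinearMap.GeneralLinearGroup k M}
    (hg : Near A X g) (hh : Near A X h) : Near A X (g * h) := by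
  refine ⟨?_, ?_⟩
  · rw [Units.val_mul]; exact Fil_one_mul hg.1 hh.1
  · rw [mul_inv_rev, Units.val_mul]; exact Fil_one_mul hh.2 hg.2

theorem comm_eq (g h : LinearMap.GeneralLinearGroup k M) :
    ((g * h * g⁻¹ * h⁻¹ : LinearMap.GeneralLinearGroup k M) : Module.End k M) - 1 =
      (((g : Module.End k M) - 1) * ((h : Module.End k M) - 1) -
        ((h : Module.End k M) - 1) * ((g : Module.End k M) - 1)) *
        ((↑g⁻¹ : Module.End k M) * (↑h⁻¹ : Module.End k M)) := by
  have e1 : (g : Module.End k M) * (↑g⁻¹ : Module.End k M) = 1 := Units.mul_inv g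
  have e2 : (h : Module.End k M) * (↑h⁻¹ : Module.End k M) = 1 := Units.mul_inv h
  simp only [Units.val_mul]
  have e3 : ((g : Module.End k M) - 1) * ((h : Module.End k M) - 1) -
      ((h : Module.End k M) - 1) * ((g : Module.End k M) - 1) =
      (g : Module.End k M) * h - h * g := by noncomm_ring
  have e4 : (h : Module.End k M) * g * ((↑g⁻¹ : Module.End k M) * (↑h⁻¹ : Module.End k M)) = 1 := by
    rw [mul_assoc, ← mul_assoc (g : Module.End k M), e1, one_mul, e2]
  rw [e3, sub_mul, e4, ← mul_assoc]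

theorem comm_step {A X : Module.End k M} {j : ℕ} {g h : LinearMap.GeneralLinearGroup k M}
    {ℓ : Module.End k M} (hg : Near A X g) (hh : Near A X h)
    (hgj : (g : Module.End k M) - 1 ∈ Fil A X j)
    (hgl : (g : Module.End k M) - 1 - ℓ ∈ Fil A X (j + 1)) :
    Near A X (g * h * g⁻¹ * h⁻¹) ∧
    ((g * h * g⁻¹ * h⁻¹ : LinearMap.GeneralLinearGroup k M) : Module.End k M) - 1 ∈
      Fil A X (j + 1) ∧
    ((g * h * g⁻¹ * h⁻¹ : LinearMap.GeneralLinearGroup k M) : Module.End k M) - 1 -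
      (ℓ * ((h : Module.End k M) - 1) - ((h : Module.End k M) - 1) * ℓ) ∈ Fil A X (j + 2) := by
  have hN : Near A X (g * h * g⁻¹ * h⁻¹) := ((hg.mul hh).mul hg.inv).mul hh.inv
  have ht : (↑g⁻¹ : Module.End k M) * (↑h⁻¹ : Module.End k M) - 1 ∈ Fil A X 1 :=
    Fil_one_mul hg.2 hh.2
  have hy : (h : Module.End k M) - 1 ∈ Fil A X 1 := hh.1
  have e := comm_eq g h
  obtain ⟨x, hx⟩ : ∃ x : Module.End k M, x = (g : Module.End k M) - 1 := ⟨_, rfl⟩
  obtain ⟨y, hyd⟩ : ∃ y : Module.End k M, y = (h : Module.End k M) - 1 := ⟨_, rfl⟩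
  obtain ⟨t, htd⟩ : ∃ t : Module.End k M, t = (↑g⁻¹ : Module.End k M) * (↑h⁻¹ : Module.End k M) :=
    ⟨_, rfl⟩
  rw [← hx, ← hyd, ← htd] at e
  rw [← hx] at hgj hgl
  rw [← hyd] at hy
  rw [← htd] at ht
  rw [← hyd]
  have hc : x * y - y * x ∈ Fil A X (j + 1) :=
    Submodule.sub_mem _ (Fil_mul hgj hy) (Fil_mul' hy hgj (by omega))
  have hct : (x * y - y * x) * (t - 1) ∈ Fil A X (j + 2) := Fil_mul' hc ht (by omega)
  have e' : (x * y - y * x) * t = (x * y - y * x) + (x * y - y * x) * (t - 1) := by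
    noncomm_ring
  refine ⟨hN, ?_, ?_⟩
  · rw [e, e']
    exact Submodule.add_mem _ hc (Fil_anti A X (by omega) hct)
  · have e'' : (x * y - y * x) + (x * y - y * x) * (t - 1) - (ℓ * y - y * ℓ) =
        ((x - ℓ) * y - y * (x - ℓ)) + (x * y - y * x) * (t - 1) := by noncomm_ring
    rw [e, e', e'']
    exact Submodule.add_mem _
      (Submodule.sub_mem _ (Fil_mul' hgl hy (by omega)) (Fil_mul' hy hgl (by omega))) hct

theorem inv_sq0 {Y : Module.End k M} (hY : Y * Y = 0) {g : LinearMap.GeneralLinearGroup k M}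
    (hg : (g : Module.End k M) = 1 + Y) : (↑g⁻¹ : Module.End k M) = 1 - Y := by
  have e : (g : Module.End k M) * (1 - Y) = 1 := by
    have e1 : (1 + Y) * (1 - Y) = 1 - Y * Y := by noncomm_ring
    rw [hg, e1, hY, sub_zero]
  calc (↑g⁻¹ : Module.End k M) = (↑g⁻¹ : Module.End k M) * ((g : Module.End k M) * (1 - Y)) := by
        rw [e, mul_one]
    _ = 1 - Y := by rw [← mul_assoc, Units.inv_mul, one_mul]

theorem near_sq0 {A X Y : Module.End k M} (hYF : Y ∈ Fil A X 1) (hY : Y * Y = 0)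
    {g : LinearMap.GeneralLinearGroup k M} (hg : (g : Module.End k M) = 1 + Y) : Near A X g := by
  refine ⟨?_, ?_⟩
  · rw [hg, add_sub_cancel_left]; exact hYF
  · rw [inv_sq0 hY hg]
    have e : (1 : Module.End k M) - Y - 1 = -Y := by abel
    rw [e]
    exact Submodule.neg_mem _ hYF

theorem lie_odd {A X : Module.End k M} (hX : X * X = 0) (i : ℕ) :
    ((2 : k) ^ i • ((A * X + X * A) ^ i * A)) * X - X * ((2 : k) ^ i • ((A * X + X * A) ^ i * A)) =
      (2 : k) ^ i • ((A * X + X * A) ^ i * (A * X - X * A)) := by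
  have e1 : X * ((A * X + X * A) ^ i * A) = (A * X + X * A) ^ i * (X * A) := by
    rw [← mul_assoc, ← zeta_pow_comm_X hX, mul_assoc]
  rw [smul_mul_assoc, mul_smul_comm, ← smul_sub, e1, mul_sub, mul_assoc]

theorem lie_even {A X : Module.End k M} (hA : A * A = 0) (i : ℕ) :
    ((2 : k) ^ i • ((A * X + X * A) ^ i * (A * X - X * A))) * A -
        A * ((2 : k) ^ i • ((A * X + X * A) ^ i * (A * X - X * A))) =
      (2 : k) ^ (i + 1) • ((A * X + X * A) ^ (i + 1) * A) := by
  have e1 : A * ((A * X + X * A) ^ i * (A * X - X * A)) =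
      (A * X + X * A) ^ i * (A * (A * X - X * A)) := by
    rw [← mul_assoc, ← zeta_pow_comm_A hA, mul_assoc]
  have e2 : (A * X - X * A) * A - A * (A * X - X * A) = (2 : k) • ((A * X + X * A) * A) := by
    have e3 : (A * X - X * A) * A - A * (A * X - X * A) =
        A * X * A + A * X * A - X * (A * A) - (A * A) * X := by noncomm_ring
    have e4 : (A * X + X * A) * A = A * X * A + X * (A * A) := by noncomm_ring
    rw [e3, e4, hA, mul_zero, zero_mul, sub_zero, sub_zero, add_zero, two_smul]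
  rw [smul_mul_assoc, mul_smul_comm, ← smul_sub, e1, mul_assoc, ← mul_sub, e2, mul_smul_comm,
    smul_smul, ← pow_succ, ← mul_assoc, ← pow_succ]

theorem exists_gam {A X : Module.End k M} (hA : A * A = 0) (hX : X * X = 0)
    {H : Subgroup (LinearMap.GeneralLinearGroup k M)} {σ ρ : LinearMap.GeneralLinearGroup k M}
    (hσ : σ ∈ H) (hρ : ρ ∈ H) (eσ : (σ : Module.End k M) = 1 + A)
    (eρ : (ρ : Module.End k M) = 1 + X) (i : ℕ) :
    ∃ g ∈ H, Near A X g ∧ (g : Module.End k M) - 1 ∈ Fil A X (2 * i + 1) ∧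
      (g : Module.End k M) - 1 - (2 : k) ^ i • ((A * X + X * A) ^ i * A) ∈ Fil A X (2 * i + 2) := by
  have hρN : Near A X ρ := near_sq0 (X_mem_Fil A X) hX eρ
  have hσN : Near A X σ := near_sq0 (A_mem_Fil A X) hA eσ
  have eρ' : (ρ : Module.End k M) - 1 = X := by rw [eρ, add_sub_cancel_left]
  have eσ' : (σ : Module.End k M) - 1 = A := by rw [eσ, add_sub_cancel_left]
  induction i with
  | zero =>
    refine ⟨σ, hσ, hσN, ?_, ?_⟩
    · rw [eσ']; exact A_mem_Fil A X
    · rw [eσ']; simp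
  | succ i ih =>
    obtain ⟨g, hgH, hgN, hg1, hg2⟩ := ih
    obtain ⟨hbN, hb1, hb2⟩ := comm_step hgN hρN hg1 hg2
    rw [eρ', lie_odd hX] at hb2
    obtain ⟨haN, ha1, ha2⟩ := comm_step hbN hσN hb1 hb2
    rw [eσ', lie_even hA] at ha2
    refine ⟨g * ρ * g⁻¹ * ρ⁻¹ * σ * (g * ρ * g⁻¹ * ρ⁻¹)⁻¹ * σ⁻¹, ?_, haN, ?_, ?_⟩
    · have hbH : g * ρ * g⁻¹ * ρ⁻¹ ∈ H :=
        H.mul_mem (H.mul_mem (H.mul_mem hgH hρ) (H.inv_mem hgH)) (H.inv_mem hρ)
      exact H.mul_mem (H.mul_mem (H.mul_mem hbH hσ) (H.inv_mem hbH)) (H.inv_mem hσ)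
    · exact Fil_anti A X (by omega) ha1
    · exact Fil_anti A X (by omega) ha2


theorem core (h2 : (2 : k) ≠ 0) {A X : Module.End k M}
    {H : Subgroup (LinearMap.GeneralLinearGroup k M)} (hfA : Fam H A) (hfX : Fam H X) {d : ℕ}
    (hmin : MinRank H d) (hdA : Module.finrank k (LinearMap.range A) ≤ d) (m : ℕ)
    (hzA : (A * X + X * A) ^ (m + 2) * A = 0) (hzX : (A * X + X * A) ^ (m + 2) * X = 0)
    (hW : (A * X + X * A) ^ (m + 1) * A ≠ 0) : False := by
  have hA := hfA.1
  have hX := hfX.1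
  obtain ⟨σ, hσ, eσ⟩ := hfA.2 1
  obtain ⟨ρ, hρ, eρ⟩ := hfX.2 1
  rw [one_smul] at eσ eρ
  have hAF := A_mem_Fil A X
  have hXF := X_mem_Fil A X
  have top : ∀ {w : Module.End k M} {L : ℕ}, 2 * m + 5 ≤ L → w ∈ Fil A X L → w = 0 := by
    intro w L hL hw
    exact Fil_top hA hX (m + 1) hzA hzX (by omega) hw
  obtain ⟨g, hgH, hgN, hg1, hg2⟩ := exists_gam hA hX hσ hρ eσ eρ m
  have hρN : Near A X ρ := near_sq0 hXF hX eρ
  have eρ' : (ρ : Module.End k M) - 1 = X := by rw [eρ, add_sub_cancel_left]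
  obtain ⟨hbN, hb1, hb2⟩ := comm_step hgN hρN hg1 hg2
  rw [eρ', lie_odd hX] at hb2
  have hbH : g * ρ * g⁻¹ * ρ⁻¹ ∈ H :=
    H.mul_mem (H.mul_mem (H.mul_mem hgH hρ) (H.inv_mem hgH)) (H.inv_mem hρ)
  obtain ⟨b, hbdef⟩ : ∃ b : LinearMap.GeneralLinearGroup k M, b = g * ρ * g⁻¹ * ρ⁻¹ := ⟨_, rfl⟩
  rw [← hbdef] at hbN hb1 hb2 hbH
  have pre : ∀ {w : Module.End k M}, w ∈ Fil A X (2 * m + 4) → ∃ α β : k,
      w = α • ((A * X + X * A) ^ (m + 1) * A * X) + β • (X * ((A * X + X * A) ^ (m + 1) * A)) := by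
    intro w hw
    exact Fil_pre hA hX (m + 1) hzA hzX (Fil_anti A X (by omega) hw)
  have e2 := lie_even (X := X) hA m
  obtain ⟨ζ, hζ⟩ : ∃ ζ : Module.End k M, ζ = A * X + X * A := ⟨_, rfl⟩
  have hcA : ∀ i : ℕ, ζ ^ i * A = A * ζ ^ i := fun i => by rw [hζ]; exact zeta_pow_comm_A hA i
  have hcX : ∀ i : ℕ, ζ ^ i * X = X * ζ ^ i := fun i => by rw [hζ]; exact zeta_pow_comm_X hX i
  rw [← hζ] at hzA hzX hW hb2 pre e2
  have hzA' : ζ ^ (m + 1 + 1) * A = 0 := hzA
  have hzX' : ζ ^ (m + 1 + 1) * X = 0 := hzX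
  obtain ⟨K, hK⟩ : ∃ K : Module.End k M, K = (b : Module.End k M) - 1 := ⟨_, rfl⟩
  rw [← hK] at hb1 hb2
  obtain ⟨Lm, hLm⟩ : ∃ Lm : Module.End k M, Lm = (2 : k) ^ m • (ζ ^ m * (A * X - X * A)) :=
    ⟨_, rfl⟩
  rw [← hLm] at hb2 e2
  have hK2 : K ∈ Fil A X (2 * m + 2) := hb1
  have hK3 : K - Lm ∈ Fil A X (2 * m + 3) := hb2
  -- the inverse of `b`
  have hbi : (↑b⁻¹ : Module.End k M) - 1 ∈ Fil A X (2 * m + 2) := by
    have e : (↑b⁻¹ : Module.End k M) - 1 = -K - K * ((↑b⁻¹ : Module.End k M) - 1) := by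
      have e1 : (b : Module.End k M) * (↑b⁻¹ : Module.End k M) = 1 := Units.mul_inv b
      have e3 : K * (↑b⁻¹ : Module.End k M) = 1 - (↑b⁻¹ : Module.End k M) := by
        rw [hK, sub_mul, e1, one_mul]
      have e4 : K * ((↑b⁻¹ : Module.End k M) - 1) = K * (↑b⁻¹ : Module.End k M) - K := by
        rw [mul_sub, mul_one]
      rw [e4, e3]; abel
    rw [e]
    exact Submodule.sub_mem _ (Submodule.neg_mem _ hK2) (Fil_mul' hK2 hbN.2 (by omega))
  obtain ⟨Y, hY⟩ : ∃ Y : Module.End k M, Y = K * A - A * K := ⟨_, rfl⟩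
  have hYF : Y ∈ Fil A X (2 * m + 3) := by
    rw [hY]
    exact Submodule.sub_mem _ (Fil_mul' hK2 hAF (by omega)) (Fil_mul' hAF hK2 (by omega))
  have hYb : Y * ((↑b⁻¹ : Module.End k M) - 1) = 0 :=
    top (L := (2 * m + 3) + (2 * m + 2)) (by omega) (Fil_mul hYF hbi)
  have hAZA : A * (A * X - X * A) * A = 0 := by
    have e : A * (A * X - X * A) * A = (A * A) * X * A - A * X * (A * A) := by noncomm_ring
    rw [e, hA, zero_mul, zero_mul, mul_zero, sub_zero]
  have hAKA : A * K * A = 0 := by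
    have eK : K = (K - Lm) + Lm := by abel
    have e : A * K * A = A * (K - Lm) * A + (2 : k) ^ m • (ζ ^ m * (A * (A * X - X * A) * A)) := by
      have e5 : A * Lm * A = (2 : k) ^ m • (ζ ^ m * (A * (A * X - X * A) * A)) := by
        rw [hLm, mul_smul_comm, smul_mul_assoc, ← mul_assoc A, ← hcA, mul_assoc, mul_assoc,
          mul_assoc]
      rw [← e5]
      have e6 : A * K * A = A * ((K - Lm) + Lm) * A := by rw [← eK]
      rw [e6, mul_add, add_mul]
    rw [e, hAZA, mul_zero, smul_zero, add_zero]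
    exact top (L := 1 + (2 * m + 3) + 1) (by omega) (Fil_mul (Fil_mul hAF hK3) hAF)
  have hYA : Y * A = 0 := by
    rw [hY, sub_mul, mul_assoc K A A, hA, mul_zero, zero_sub, hAKA, neg_zero]
  have hYY : Y * Y = 0 := top (L := (2 * m + 3) + (2 * m + 3)) (by omega) (Fil_mul hYF hYF)
  have hFamY : Fam H Y := by
    refine ⟨hYY, fun c => ?_⟩
    obtain ⟨u, huH, eu⟩ := hfA.2 c
    refine ⟨b * u * b⁻¹ * u⁻¹,
      H.mul_mem (H.mul_mem (H.mul_mem hbH huH) (H.inv_mem hbH)) (H.inv_mem huH), ?_⟩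
    have hui : (↑u⁻¹ : Module.End k M) = 1 - c • A := inv_sq0 (smul_sq0 hA c) eu
    have e := comm_eq b u
    have eu' : (u : Module.End k M) - 1 = c • A := by rw [eu, add_sub_cancel_left]
    rw [eu', hui, ← hK] at e
    have e5 : (K * c • A - c • A * K) * ((↑b⁻¹ : Module.End k M) * (1 - c • A)) = c • Y := by
      have e6 : K * c • A - c • A * K = c • Y := by
        rw [hY, smul_sub, mul_smul_comm, smul_mul_assoc]
      have e8 : Y * (↑b⁻¹ : Module.End k M) = Y := by
        have e9 : Y * (↑b⁻¹ : Module.End k M) = Y + Y * ((↑b⁻¹ : Module.End k M) - 1) := by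
          rw [mul_sub, mul_one]; abel
        rw [e9, hYb, add_zero]
      rw [e6, smul_mul_assoc, ← mul_assoc, e8, mul_sub, mul_one, mul_smul_comm, hYA, smul_zero,
        sub_zero]
    rw [e5] at e
    exact sub_eq_iff_eq_add'.1 e
  -- decomposition of `Y`
  obtain ⟨W, hWdef⟩ : ∃ W : Module.End k M, W = ζ ^ (m + 1) * A := ⟨_, rfl⟩
  rw [← hWdef] at hW pre e2
  have hYdec : ∃ α β : k, Y = (2 : k) ^ (m + 1) • W + α • (W * X) + β • (X * W) := by
    have e1 : Y = (2 : k) ^ (m + 1) • W + ((K - Lm) * A - A * (K - Lm)) := by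
      rw [hY, ← e2]; noncomm_ring
    have e3 : (K - Lm) * A - A * (K - Lm) ∈ Fil A X (2 * m + 4) :=
      Submodule.sub_mem _ (Fil_mul' hK3 hAF (by omega)) (Fil_mul' hAF hK3 (by omega))
    obtain ⟨α, β, e4⟩ := pre e3
    exact ⟨α, β, by rw [e1, e4, add_assoc]⟩
  obtain ⟨α, β, hYd⟩ := hYdec
  have hXWX : X * W * X = 0 := by
    have e : X * (A * X) = ζ * X := by
      rw [hζ, add_mul, mul_assoc A X X, hX, mul_zero, zero_add, mul_assoc]
    rw [hWdef, ← mul_assoc X, ← hcX, mul_assoc, mul_assoc, e, ← mul_assoc, ← pow_succ, hzX']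
  have h2m : (2 : k) ^ (m + 1) ≠ 0 := pow_ne_zero _ h2
  have hY0 : Y ≠ 0 := by
    intro h0
    have e1 : Y * X = (2 : k) ^ (m + 1) • (W * X) := by
      rw [hYd, add_mul, add_mul, smul_mul_assoc, smul_mul_assoc, smul_mul_assoc, mul_assoc W X X,
        hX, mul_zero, smul_zero, add_zero, hXWX, smul_zero, add_zero]
    have e3 : X * Y = (2 : k) ^ (m + 1) • (X * W) := by
      rw [hYd, mul_add, mul_add, mul_smul_comm, mul_smul_comm, mul_smul_comm, ← mul_assoc X W X,
        hXWX, smul_zero, add_zero, ← mul_assoc X X W, hX, zero_mul, smul_zero, add_zero]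
    have hWX : W * X = 0 := by
      rw [h0, zero_mul] at e1
      exact (smul_eq_zero.1 e1.symm).resolve_left h2m
    have hXW : X * W = 0 := by
      rw [h0, mul_zero] at e3
      exact (smul_eq_zero.1 e3.symm).resolve_left h2m
    rw [hWX, hXW, smul_zero, smul_zero, add_zero, add_zero, h0] at hYd
    exact hW ((smul_eq_zero.1 hYd.symm).resolve_left h2m)
  have hrankY : Module.finrank k (LinearMap.range Y) ≤ Module.finrank k (LinearMap.range W) := by
    obtain ⟨P, hP⟩ : ∃ P : Module.End k M, P = (2 : k) ^ (m + 1) • (1 : Module.End k M) + β • X :=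
      ⟨_, rfl⟩
    obtain ⟨Q, hQ⟩ : ∃ Q : Module.End k M,
      Q = (1 : Module.End k M) + (α / (2 : k) ^ (m + 1)) • X := ⟨_, rfl⟩
    have e : Y = P * W * Q := by
      have e1 : P * W = (2 : k) ^ (m + 1) • W + β • (X * W) := by
        rw [hP, add_mul, smul_mul_assoc, one_mul, smul_mul_assoc]
      have e3 : P * W * X = (2 : k) ^ (m + 1) • (W * X) := by
        rw [e1, add_mul, smul_mul_assoc, smul_mul_assoc, hXWX, smul_zero, add_zero]
      have e4 : P * W * Q = P * W + (α / (2 : k) ^ (m + 1)) • (P * W * X) := by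
        rw [hQ, mul_add, mul_one, mul_smul_comm]
      rw [e4, e3, e1, smul_smul, div_mul_cancel₀ _ h2m, hYd]
      abel
    have hle : LinearMap.range Y ≤ (LinearMap.range W).map P := by
      rintro _ ⟨v, rfl⟩
      rw [e]
      exact Submodule.mem_map_of_mem (LinearMap.mem_range_self W (Q v))
    exact (Submodule.finrank_mono hle).trans (Submodule.finrank_map_le P _)
  have hrankW : Module.finrank k (LinearMap.range W) < Module.finrank k (LinearMap.range A) := by
    have hle : LinearMap.range W ≤ LinearMap.range A := by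
      rintro _ ⟨v, rfl⟩
      rw [hWdef, hcA]
      exact LinearMap.mem_range_self A _
    by_contra hnot
    have hnot' : Module.finrank k (LinearMap.range A) ≤ Module.finrank k (LinearMap.range W) :=
      not_lt.1 hnot
    have heq : LinearMap.range W = LinearMap.range A := Submodule.eq_of_le_of_finrank_le hle hnot'
    have hζW : ζ * W = 0 := by rw [hWdef, ← mul_assoc, ← pow_succ', hzA']
    have hζA : ζ * A = 0 := by
      apply LinearMap.ext
      intro v
      have hv : A v ∈ LinearMap.range W := by rw [heq]; exact LinearMap.mem_range_self A v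
      obtain ⟨v', hv'⟩ := hv
      show ζ (A v) = 0
      rw [← hv']
      show (ζ * W) v' = 0
      rw [hζW]
      rfl
    apply hW
    rw [hWdef, pow_succ, mul_assoc, hζA, mul_zero]
  have hd := hmin Y hFamY hY0
  omega

end G1

/-- J2: the top-layer lemma for a unipotent pair of minimal scalar families -/
theorem g1 (h2 : (2 : k) ≠ 0) {A X : Module.End k M}
    (hz : IsNilpotent (A * X + X * A)) {H : Subgroup (LinearMap.GeneralLinearGroup k M)}
    (hfA : Fam H A) (hfX : Fam H X) {d : ℕ} (hmin : MinRank H d)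
    (hdA : Module.finrank k (LinearMap.range A) ≤ d)
    (hdX : Module.finrank k (LinearMap.range X) ≤ d) :
    A * X * A = 0 ∧ X * A * X = 0 := by
  classical
  have hA := hfA.1
  have hX := hfX.1
  by_contra hcon
  obtain ⟨N, hN⟩ := hz
  have hex : ∃ m : ℕ, (A * X + X * A) ^ m * A = 0 ∧ (A * X + X * A) ^ m * X = 0 :=
    ⟨N, by rw [hN, zero_mul], by rw [hN, zero_mul]⟩
  have hspec := Nat.find_spec hex
  rcases Nat.lt_or_ge (Nat.find hex) 2 with hlt | hge
  · have hζA : (A * X + X * A) * A = 0 ∧ (A * X + X * A) * X = 0 := by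
      rcases Nat.lt_or_ge (Nat.find hex) 1 with h0 | h1
      · have h00 : Nat.find hex = 0 := by omega
        rw [h00, pow_zero, one_mul, one_mul] at hspec
        constructor
        · rw [hspec.1, mul_zero]
        · rw [hspec.2, mul_zero]
      · have h11 : Nat.find hex = 1 := by omega
        rw [h11, pow_one] at hspec
        exact hspec
    apply hcon
    constructor
    · have e : A * X * A = (A * X + X * A) * A := by
        rw [add_mul, mul_assoc X A A, hA, mul_zero, add_zero]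
      rw [e, hζA.1]
    · have e : X * A * X = (A * X + X * A) * X := by
        rw [add_mul, mul_assoc A X X, hX, mul_zero, zero_add]
      rw [e, hζA.2]
  · obtain ⟨m, hm⟩ : ∃ m, Nat.find hex = m + 2 := ⟨Nat.find hex - 2, by omega⟩
    rw [hm] at hspec
    have hnot := Nat.find_min hex (m := m + 1) (by omega)
    by_cases hWA : (A * X + X * A) ^ (m + 1) * A = 0
    · have hWX : (A * X + X * A) ^ (m + 1) * X ≠ 0 := fun h => hnot ⟨hWA, h⟩
      have e : X * A + A * X = A * X + X * A := add_comm _ _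
      exact G1.core h2 hfX hfA hmin hdX m (by rw [e]; exact hspec.2) (by rw [e]; exact hspec.1)
        (by rw [e]; exact hWX)
    · exact G1.core h2 hfA hfX hmin hdA m hspec.1 hspec.2 hWA

end Cfsg.Agent.Lib.Helper50.QP
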