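import Cfsg.Agent.Lib.Helper50.QpScaled
import Cfsg.Agent.Lib.Helper50.QpBasic

set_option autoImplicit false

namespace Cfsg.Agent.Lib.Helper50.QP

open Polynomial Cfsg Cfsg.Agent.Lib.Helper50.QR

universe u v

variable {k : Type u} [Field k] {M : Type v} [AddCommGroup M] [Module k M] [FiniteDimensional k M]

namespace Inf

/-! ### Auxiliary lemmas for J5 (helper97) -/

theorem commute_aeval' {E : Type*} [Ring E] [Algebra k E] {a b : E} (h : Commute a b)
    (f : k[X]) : Commute a (aeval b f) := by
  rw [aeval_eq_sum_range]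
  exact Commute.sum_right _ _ _ fun i _ => (h.pow_right i).smul_right _

omit [FiniteDimensional k M] in
theorem commute_zz_of_mem {A B : Module.End k M} (hA : A * A = 0) (hB : B * B = 0)
    {g : LinearMap.GeneralLinearGroup k M} (hg : g ∈ genH A B) :
    Commute (g : Module.End k M) (zz A B) := by
  unfold genH at hg
  induction hg using Subgroup.closure_induction with
  | mem x hx =>
    rcases hx with ⟨c, hc⟩ | ⟨c, hc⟩
    · rw [hc]; exact (Commute.one_left _).add_left ((zz_comm_A hA).symm.smul_left c)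
    · rw [hc]; exact (Commute.one_left _).add_left ((zz_comm_B hB).symm.smul_left c)
  | one => exact Commute.one_left _
  | mul x y _ _ hx hy => rw [Units.val_mul]; exact hx.mul_left hy
  | inv x _ hx => exact hx.units_inv_left

/-- the orbit set of "first columns" -/
def Oset (A B : Module.End k M) : Set (k[X] × k[X]) :=
  {v | ∃ g ∈ genH A B,
    (g : Module.End k M) * A = aeval (zz A B) v.1 * A + aeval (zz A B) v.2 * (B * A) ∧
    A * ((g⁻¹ : LinearMap.GeneralLinearGroup k M) : Module.End k M) =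
      aeval (zz A B) v.1 * A - aeval (zz A B) v.2 * (A * B)}

theorem colU {E : Type*} [Ring E] [Algebra k E] {A B x r z : E} (c : k) (hA : A * A = 0)
    (hz : z * A = A * B * A) (hxA : Commute x A) (hrA : Commute r A) (hzr : Commute z r) :
    (1 + c • A) * (x * A + r * (B * A)) = (x + c • (z * r)) * A + r * (B * A) := by
  have h1 : A * (x * A) = 0 := by rw [← mul_assoc, ← hxA.eq, mul_assoc, hA, mul_zero]
  have h2 : A * (r * (B * A)) = z * r * A := by
    rw [← mul_assoc, ← hrA.eq, mul_assoc, ← mul_assoc A B A, ← hz, ← mul_assoc, ← hzr.eq]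
  rw [add_mul, one_mul, smul_mul_assoc, mul_add, h1, h2, zero_add, add_mul, smul_mul_assoc]
  abel

theorem colU' {E : Type*} [Ring E] [Algebra k E] {A B x r z : E} (c : k) (hA : A * A = 0)
    (hz : z * A = A * B * A) (hzr : Commute z r) :
    (x * A - r * (A * B)) * (1 - c • A) = (x + c • (z * r)) * A - r * (A * B) := by
  have h1 : x * A * A = 0 := by rw [mul_assoc, hA, mul_zero]
  have h2 : r * (A * B) * A = z * r * A := by
    rw [mul_assoc, ← hz, ← mul_assoc, ← hzr.eq]
  rw [mul_sub, mul_one, mul_smul_comm, sub_mul, h1, h2, zero_sub, smul_neg, sub_neg_eq_add,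
    add_mul, smul_mul_assoc]
  abel

theorem colL {E : Type*} [Ring E] [Algebra k E] {A B x r : E} (c : k) (hB : B * B = 0)
    (hxB : Commute x B) (hrB : Commute r B) :
    (1 + c • B) * (x * A + r * (B * A)) = x * A + (r + c • x) * (B * A) := by
  have h1 : B * (x * A) = x * (B * A) := by rw [← mul_assoc, ← hxB.eq, mul_assoc]
  have h2 : B * (r * (B * A)) = 0 := by
    rw [← mul_assoc, ← hrB.eq, mul_assoc, ← mul_assoc B B A, hB, zero_mul, mul_zero]
  rw [add_mul, one_mul, smul_mul_assoc, mul_add, h1, h2, add_zero, add_mul, smul_mul_assoc]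
  abel

theorem colL' {E : Type*} [Ring E] [Algebra k E] {A B x r : E} (c : k) (hB : B * B = 0) :
    (x * A - r * (A * B)) * (1 - c • B) = x * A - (r + c • x) * (A * B) := by
  have h2 : r * (A * B) * B = 0 := by rw [mul_assoc, mul_assoc, hB, mul_zero, mul_zero]
  rw [mul_sub, mul_one, mul_smul_comm, sub_mul, h2, sub_zero, add_mul, smul_mul_assoc, mul_assoc]
  abel

omit [FiniteDimensional k M] in
theorem Oset_one (A B : Module.End k M) : ((1 : k[X]), (0 : k[X])) ∈ Oset A B := by
  refine ⟨1, Subgroup.one_mem _, ?_, ?_⟩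
  · simp
  · simp

omit [FiniteDimensional k M] in
theorem Oset_U {A B : Module.End k M} (hA : A * A = 0) (c : k)
    (v : k[X] × k[X]) (hv : v ∈ Oset A B) : (v.1 + C c * X * v.2, v.2) ∈ Oset A B := by
  obtain ⟨g, hg, e1, e2⟩ := hv
  have hxA : Commute (aeval (zz A B) v.1) A := (commute_aeval' (zz_comm_A hA).symm v.1).symm
  have hrA : Commute (aeval (zz A B) v.2) A := (commute_aeval' (zz_comm_A hA).symm v.2).symm
  have hzr : Commute (zz A B) (aeval (zz A B) v.2) := commute_aeval' (Commute.refl _) v.2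
  have hval : aeval (zz A B) (v.1 + C c * X * v.2)
      = aeval (zz A B) v.1 + c • (zz A B * aeval (zz A B) v.2) := by
    rw [map_add, map_mul, map_mul, aeval_C, aeval_X, Algebra.algebraMap_eq_smul_one,
      smul_mul_assoc, one_mul, smul_mul_assoc]
  refine ⟨mkU (c • A) (smul_sq0 hA c) * g, Subgroup.mul_mem _ (mkU_A_mem B hA c) hg, ?_, ?_⟩
  · show ((1 + c • A) * (g : Module.End k M)) * A
      = aeval (zz A B) (v.1 + C c * X * v.2) * A + aeval (zz A B) v.2 * (B * A)
    rw [mul_assoc, e1, hval]
    exact colU c hA (zz_mul_A hA) hxA hrA hzr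
  · rw [mul_inv_rev]
    show A * (((g⁻¹ : LinearMap.GeneralLinearGroup k M) : Module.End k M) * (1 - c • A))
      = aeval (zz A B) (v.1 + C c * X * v.2) * A - aeval (zz A B) v.2 * (A * B)
    rw [← mul_assoc, e2, hval]
    exact colU' c hA (zz_mul_A hA) hzr

omit [FiniteDimensional k M] in
theorem Oset_L {A B : Module.End k M} (hB : B * B = 0) (c : k)
    (v : k[X] × k[X]) (hv : v ∈ Oset A B) : (v.1, v.2 + C c * v.1) ∈ Oset A B := by
  obtain ⟨g, hg, e1, e2⟩ := hv
  have hxB : Commute (aeval (zz A B) v.1) B := (commute_aeval' (zz_comm_B hB).symm v.1).symm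
  have hrB : Commute (aeval (zz A B) v.2) B := (commute_aeval' (zz_comm_B hB).symm v.2).symm
  have hval : aeval (zz A B) (v.2 + C c * v.1)
      = aeval (zz A B) v.2 + c • aeval (zz A B) v.1 := by
    rw [map_add, map_mul, aeval_C, Algebra.algebraMap_eq_smul_one, smul_mul_assoc, one_mul]
  refine ⟨mkU (c • B) (smul_sq0 hB c) * g, Subgroup.mul_mem _ (mkU_B_mem A hB c) hg, ?_, ?_⟩
  · show ((1 + c • B) * (g : Module.End k M)) * A
      = aeval (zz A B) v.1 * A + aeval (zz A B) (v.2 + C c * v.1) * (B * A)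
    rw [mul_assoc, e1, hval]
    exact colL c hB hxB hrB
  · rw [mul_inv_rev]
    show A * (((g⁻¹ : LinearMap.GeneralLinearGroup k M) : Module.End k M) * (1 - c • B))
      = aeval (zz A B) v.1 * A - aeval (zz A B) (v.2 + C c * v.1) * (A * B)
    rw [← mul_assoc, e2, hval]
    exact colL' c hB

omit [FiniteDimensional k M] in
theorem Oset_cong {A B : Module.End k M} (v v' : k[X] × k[X]) (hv : v ∈ Oset A B)
    (h1 : aeval (zz A B) v'.1 = aeval (zz A B) v.1)
    (h2 : aeval (zz A B) v'.2 = aeval (zz A B) v.2) : v' ∈ Oset A B := by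
  obtain ⟨g, hg, e1, e2⟩ := hv
  exact ⟨g, hg, by rw [h1, h2]; exact e1, by rw [h1, h2]; exact e2⟩

/-- an element of `H` scaling `A` by a unit `u = 1 + z W(z)` on both sides -/
theorem exists_scaling [Infinite k] {A B : Module.End k M} (hA : A * A = 0) (hB : B * B = 0)
    (W W' : k[X]) (hu : aeval (zz A B) ((1 + X * W) * (1 + X * W')) = 1) :
    ∃ g ∈ genH A B, (g : Module.End k M) * A = aeval (zz A B) (1 + X * W) * A ∧
      A * ((g⁻¹ : LinearMap.GeneralLinearGroup k M) : Module.End k M)
        = aeval (zz A B) (1 + X * W) * A := by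
  have hint : IsIntegral k (zz A B) := Algebra.IsIntegral.isIntegral _
  obtain ⟨v, ⟨g₁, hg₁, e1, e2⟩, ⟨g₂, hg₂, e3, e4⟩⟩ :=
    exists_scaled_poly (zz A B) (minpoly k (zz A B)) (minpoly.monic hint) (minpoly.aeval k _)
      (Oset A B) (Oset_one A B) (Oset_U hA) (Oset_L hB)
      (fun v v' hv h1 h2 => Oset_cong v v' hv h1 h2) W W' hu
  obtain ⟨U, hU⟩ : ∃ U, U = aeval (zz A B) (1 + X * W) := ⟨_, rfl⟩
  obtain ⟨x, hx⟩ : ∃ x, x = aeval (zz A B) v.1 := ⟨_, rfl⟩
  obtain ⟨r, hr⟩ : ∃ r, r = aeval (zz A B) v.2 := ⟨_, rfl⟩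
  have e3' : (g₂ : Module.End k M) * A = U * x * A + U * r * (B * A) := by
    have h : (g₂ : Module.End k M) * A = aeval (zz A B) ((1 + X * W) * v.1) * A
        + aeval (zz A B) ((1 + X * W) * v.2) * (B * A) := e3
    rw [map_mul, map_mul, ← hU, ← hx, ← hr] at h
    exact h
  have e4' : A * ((g₂⁻¹ : LinearMap.GeneralLinearGroup k M) : Module.End k M)
      = U * x * A - U * r * (A * B) := by
    have h : A * ((g₂⁻¹ : LinearMap.GeneralLinearGroup k M) : Module.End k M)
        = aeval (zz A B) ((1 + X * W) * v.1) * A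
          - aeval (zz A B) ((1 + X * W) * v.2) * (A * B) := e4
    rw [map_mul, map_mul, ← hU, ← hx, ← hr] at h
    exact h
  rw [← hx, ← hr] at e1 e2
  rw [← hU]
  have hc1 : Commute ((g₁⁻¹ : LinearMap.GeneralLinearGroup k M) : Module.End k M) U := by
    rw [hU]
    exact commute_aeval' (commute_zz_of_mem hA hB (Subgroup.inv_mem _ hg₁)) _
  refine ⟨g₁⁻¹ * g₂, Subgroup.mul_mem _ (Subgroup.inv_mem _ hg₁) hg₂, ?_, ?_⟩
  · show ((g₁⁻¹ : LinearMap.GeneralLinearGroup k M) : Module.End k M) * (g₂ : Module.End k M) * A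
      = U * A
    have h1 : U * x * A + U * r * (B * A) = U * ((g₁ : Module.End k M) * A) := by
      rw [e1]; noncomm_ring
    rw [mul_assoc, e3', h1, ← mul_assoc, hc1.eq, mul_assoc, ← mul_assoc _ (g₁ : Module.End k M) A,
      Units.inv_mul, one_mul]
  · rw [mul_inv_rev, inv_inv]
    show A * (((g₂⁻¹ : LinearMap.GeneralLinearGroup k M) : Module.End k M) * (g₁ : Module.End k M))
      = U * A
    have h1 : U * x * A - U * r * (A * B)
        = U * (A * ((g₁⁻¹ : LinearMap.GeneralLinearGroup k M) : Module.End k M)) := by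
      rw [e2]; noncomm_ring
    rw [← mul_assoc, e4', h1, mul_assoc, mul_assoc, Units.inv_mul, mul_one]

omit [FiniteDimensional k M] in
theorem fam_of_scaling {A B : Module.End k M} (hA : A * A = 0)
    {g : LinearMap.GeneralLinearGroup k M} (hg : g ∈ genH A B)
    {U : Module.End k M} (hUA : Commute U A) (e1 : (g : Module.End k M) * A = U * A)
    (e2 : A * ((g⁻¹ : LinearMap.GeneralLinearGroup k M) : Module.End k M) = U * A) :
    Fam (genH A B) ((U * U - 1) * A) := by
  have hc : Commute (U * U - 1) A := (hUA.mul_left hUA).sub_left (Commute.one_left A)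
  refine ⟨?_, fun c => ?_⟩
  · rw [mul_assoc, ← mul_assoc A, ← hc.eq, mul_assoc, hA, mul_zero, mul_zero]
  · refine ⟨g * mkU (c • A) (smul_sq0 hA c) * g⁻¹ * mkU ((-c) • A) (smul_sq0 hA (-c)), ?_, ?_⟩
    · exact Subgroup.mul_mem _ (Subgroup.mul_mem _ (Subgroup.mul_mem _ hg (mkU_A_mem B hA c))
        (Subgroup.inv_mem _ hg)) (mkU_A_mem B hA (-c))
    · show (g : Module.End k M) * (1 + c • A)
          * ((g⁻¹ : LinearMap.GeneralLinearGroup k M) : Module.End k M) * (1 + (-c) • A)
        = 1 + c • ((U * U - 1) * A)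
      have h1 : (g : Module.End k M) * (1 + c • A)
          * ((g⁻¹ : LinearMap.GeneralLinearGroup k M) : Module.End k M)
          = 1 + c • (U * (U * A)) := by
        rw [mul_add, mul_one, add_mul, Units.mul_inv, mul_smul_comm, smul_mul_assoc, e1,
          mul_assoc, e2]
      have h3 : U * (U * A) * A = 0 := by rw [mul_assoc, mul_assoc, hA, mul_zero, mul_zero]
      have h4 : (1 + c • (U * (U * A))) * (1 + (-c) • A)
          = 1 + (-c) • A + c • (U * (U * A)) + (c * (-c)) • (U * (U * A) * A) := by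
        rw [add_mul, one_mul, mul_add, mul_one, smul_mul_smul_comm]
        abel
      rw [h1, h4, h3, smul_zero, add_zero, sub_mul, one_mul, smul_sub, neg_smul, mul_assoc]
      abel

/-- for `c ≠ 0`, only finitely many `t` make `c + t y` non-injective -/
theorem finite_bad (y : Module.End k M) {c : k} (hc : c ≠ 0) :
    {t : k | ¬ Function.Injective ⇑(c • (1 : Module.End k M) + t • y)}.Finite := by
  have hfin := Module.End.finite_hasEigenvalue y
  have hinj : Function.Injective (fun t : k => -(c * t⁻¹)) := by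
    intro a b h
    have h' : c * a⁻¹ = c * b⁻¹ := neg_injective h
    exact inv_injective (mul_left_cancel₀ hc h')
  refine (hfin.preimage hinj.injOn).subset ?_
  intro t ht
  have ht' : ¬ Function.Injective ⇑(c • (1 : Module.End k M) + t • y) := ht
  rw [← LinearMap.ker_eq_bot, Submodule.eq_bot_iff] at ht'
  push Not at ht'
  obtain ⟨w, hw, hw0⟩ := ht'
  have hw' : c • w + t • y w = 0 := by
    have := LinearMap.mem_ker.mp hw
    simpa using this
  have ht0 : t ≠ 0 := by
    rintro rfl
    rw [zero_smul, add_zero] at hw'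
    exact hw0 ((smul_eq_zero.mp hw').resolve_left hc)
  show y.HasEigenvalue (-(c * t⁻¹))
  apply Module.End.hasEigenvalue_of_hasEigenvector (x := w)
  refine ⟨Module.End.mem_eigenspace_iff.mpr ?_, hw0⟩
  have h1 : t • y w = -(c • w) := eq_neg_of_add_eq_zero_right hw'
  calc y w = t⁻¹ • (t • y w) := by rw [smul_smul, inv_mul_cancel₀ ht0, one_smul]
    _ = -(c * t⁻¹) • w := by rw [h1, smul_neg, smul_smul, neg_smul, mul_comm]

/-- an injective polynomial in `z` has a polynomial inverse -/
theorem exists_poly_inv (z : Module.End k M) (q : k[X])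
    (hq : Function.Injective ⇑(aeval z q)) : ∃ a : k[X], aeval z (q * a) = 1 := by
  obtain ⟨S, hS⟩ : ∃ S : Subalgebra k (Module.End k M), S = Algebra.adjoin k {z} := ⟨_, rfl⟩
  have hmem : ∀ T : Module.End k M, T ∈ S ↔ ∃ a : k[X], aeval z a = T := by
    intro T
    rw [hS, Algebra.adjoin_singleton_eq_range_aeval]
    rfl
  have hu : aeval z q ∈ S := (hmem _).mpr ⟨q, rfl⟩
  have hinj : Function.Injective (LinearMap.mulLeft k (⟨aeval z q, hu⟩ : S)) := by
    rw [← LinearMap.ker_eq_bot, Submodule.eq_bot_iff]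
    intro T hT
    have h0 : (⟨aeval z q, hu⟩ : S) * T = 0 := LinearMap.mem_ker.mp hT
    have h1 : aeval z q * (T : Module.End k M) = 0 := congrArg Subtype.val h0
    apply Subtype.ext
    apply LinearMap.ext
    intro m
    have h2 : aeval z q ((T : Module.End k M) m) = 0 := LinearMap.congr_fun h1 m
    exact hq (h2.trans (map_zero _).symm)
  have hsurj := LinearMap.injective_iff_surjective.mp hinj
  obtain ⟨T, hT⟩ := hsurj 1
  obtain ⟨a, ha⟩ := (hmem _).mp T.2
  refine ⟨a, ?_⟩
  rw [map_mul, ha]
  exact congrArg Subtype.val hT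

/-- the rank argument -/
theorem inj_of_rank {A R S : Module.End k M} {d : ℕ}
    (hdA : Module.finrank k (LinearMap.range A) = d)
    (h : d ≤ Module.finrank k (LinearMap.range (R * S * A))) :
    ∀ m, S (A m) = 0 → A m = 0 := by
  have e1 : LinearMap.range (R * S * A) ≤ ((LinearMap.range A).map S).map R := by
    rintro x ⟨m, rfl⟩
    exact ⟨S (A m), ⟨A m, ⟨m, rfl⟩, rfl⟩, rfl⟩
  have h1 := Submodule.finrank_mono e1
  have h2 := Submodule.finrank_map_le R ((LinearMap.range A).map S)
  have h3 := Submodule.finrank_map_le S (LinearMap.range A)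
  have h4 : Module.finrank k ((LinearMap.range A).map S)
      = Module.finrank k (LinearMap.range A) := by omega
  have h5 := LinearMap.finrank_range_add_finrank_ker (S.domRestrict (LinearMap.range A))
  have h6 : LinearMap.range (S.domRestrict (LinearMap.range A)) = (LinearMap.range A).map S := by
    ext x
    constructor
    · rintro ⟨⟨w, hw⟩, rfl⟩
      exact ⟨w, hw, rfl⟩
    · rintro ⟨w, hw, rfl⟩
      exact ⟨⟨w, hw⟩, rfl⟩
  rw [h6, h4] at h5
  have h7 : Module.finrank k (LinearMap.ker (S.domRestrict (LinearMap.range A))) = 0 := by omega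
  have h8 : LinearMap.ker (S.domRestrict (LinearMap.range A)) = ⊥ :=
    Submodule.finrank_eq_zero.mp h7
  intro m hm
  have h9 : (⟨A m, ⟨m, rfl⟩⟩ : LinearMap.range A)
      ∈ LinearMap.ker (S.domRestrict (LinearMap.range A)) := hm
  rw [h8, Submodule.mem_bot] at h9
  exact congrArg Subtype.val h9

omit [FiniteDimensional k M] in
theorem pow_AB_mul_A {A B : Module.End k M} (hA : A * A = 0) (n : ℕ) :
    (A * B) ^ n * A = zz A B ^ n * A := by
  induction n with
  | zero => simp
  | succ n ih =>
    rw [pow_succ, mul_assoc, ← A_mul_zz hA, ← mul_assoc, ih, mul_assoc, ← (zz_comm_A hA).eq,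
      ← mul_assoc, ← pow_succ]

omit [FiniteDimensional k M] in
theorem aeval_AB_mul_A {A B : Module.End k M} (hA : A * A = 0) (g : k[X]) :
    aeval (A * B) g * A = aeval (zz A B) g * A := by
  rw [aeval_eq_sum_range, aeval_eq_sum_range, Finset.sum_mul, Finset.sum_mul]
  refine Finset.sum_congr rfl fun i _ => ?_
  rw [smul_mul_assoc, smul_mul_assoc, pow_AB_mul_A hA]

/-- `z` is surjective on `range A` as soon as it is injective there -/
theorem surj_on_range {A B : Module.End k M} (hA : A * A = 0)
    (hinj : ∀ m, zz A B (A m) = 0 → A m = 0) (m : M) : ∃ m', A m = zz A B (A m') := by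
  have hmap : ∀ x ∈ LinearMap.range A, zz A B x ∈ LinearMap.range A := by
    rintro x ⟨m, rfl⟩
    refine ⟨B (A m), ?_⟩
    have := LinearMap.congr_fun (zz_mul_A (B := B) hA) m
    exact this.symm
  have hi : Function.Injective ((zz A B).restrict hmap) := by
    rw [← LinearMap.ker_eq_bot, Submodule.eq_bot_iff]
    rintro ⟨x, ⟨m, rfl⟩⟩ hx
    have h1 : zz A B (A m) = 0 := congrArg Subtype.val (LinearMap.mem_ker.mp hx)
    exact Subtype.ext (hinj m h1)
  obtain ⟨⟨w, ⟨m', rfl⟩⟩, hw⟩ := LinearMap.injective_iff_surjective.mp hi ⟨A m, ⟨m, rfl⟩⟩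
  exact ⟨m', (congrArg Subtype.val hw).symm⟩

omit [FiniteDimensional k M] in
theorem aeval_lin (z : Module.End k M) (c t : k) (f : k[X]) :
    aeval z (C c + X * (C t * f)) = c • (1 : Module.End k M) + t • aeval z (X * f) := by
  rw [map_add, aeval_C, Algebra.algebraMap_eq_smul_one, mul_left_comm, map_mul, aeval_C,
    Algebra.algebraMap_eq_smul_one, smul_mul_assoc, one_mul]

end Inf

/-- J5: the core statements for infinite `k` -/
theorem core_inf [Infinite k] (h2 : (2 : k) ≠ 0) {A B : Module.End k M}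
    (hA : A * A = 0) (hB : B * B = 0) (hnz : ¬ IsNilpotent (zz A B)) {d : ℕ}
    (hdA : Module.finrank k (LinearMap.range A) = d) (hmin : MinRank (genH A B) d) :
    (∀ m, A (B (A m)) = 0 → A m = 0) ∧
    (∀ g : k[X], (∀ m, aeval (A * B) g (A m) = 0) ∨
      (∀ m, aeval (A * B) g (A m) = 0 → A m = 0)) := by
  -- key dichotomy
  have key : ∀ f : k[X], aeval (zz A B) (X * f) * A = 0 ∨
      (∀ m, aeval (zz A B) (X * f) (A m) = 0 → A m = 0) := by
    intro f
    obtain ⟨y, hy⟩ : ∃ y, y = aeval (zz A B) (X * f) := ⟨_, rfl⟩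
    rw [← hy]
    have hb1 := Inf.finite_bad y (one_ne_zero : (1 : k) ≠ 0)
    have hb2 := Inf.finite_bad y h2
    obtain ⟨t, ht⟩ :=
      ((hb1.union hb2).union (Set.finite_singleton (0 : k))).infinite_compl.nonempty
    rw [Set.mem_compl_iff, Set.mem_union, Set.mem_union, not_or, not_or] at ht
    obtain ⟨⟨ht1, ht2⟩, ht0⟩ := ht
    have ht1' : Function.Injective ⇑((1 : k) • (1 : Module.End k M) + t • y) := not_not.mp ht1
    have ht2' : Function.Injective ⇑((2 : k) • (1 : Module.End k M) + t • y) := not_not.mp ht2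
    have ht0' : t ≠ 0 := ht0
    have hq1 : aeval (zz A B) (1 + X * (C t * f)) = (1 : k) • (1 : Module.End k M) + t • y := by
      rw [hy, ← C_1, Inf.aeval_lin]
    have hq2 : aeval (zz A B) (C 2 + X * (C t * f)) = (2 : k) • (1 : Module.End k M) + t • y := by
      rw [hy, Inf.aeval_lin]
    obtain ⟨a, ha⟩ := Inf.exists_poly_inv (zz A B) (1 + X * (C t * f)) (by rw [hq1]; exact ht1')
    have hu : aeval (zz A B) ((1 + X * (C t * f)) * (1 + X * (-(C t * f * a)))) = 1 := by
      have e : (1 + X * (C t * f)) * (1 + X * (-(C t * f * a)))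
          = 1 + X * (C t * f) * (1 - (1 + X * (C t * f)) * a) := by ring
      rw [e, map_add, map_mul _ (X * (C t * f)), map_sub, ha, map_one, sub_self, mul_zero,
        add_zero]
    obtain ⟨g, hg, e1, e2⟩ := Inf.exists_scaling hA hB (C t * f) (-(C t * f * a)) hu
    have hUA : Commute (aeval (zz A B) (1 + X * (C t * f))) A :=
      (Inf.commute_aeval' (zz_comm_A hA).symm _).symm
    have hfam := Inf.fam_of_scaling hA hg hUA e1 e2
    have hC2 : (C (2 : k) : k[X]) = 2 := map_ofNat C 2
    have hY : (aeval (zz A B) (1 + X * (C t * f)) * aeval (zz A B) (1 + X * (C t * f)) - 1) * A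
        = aeval (zz A B) (C t * (C 2 + X * (C t * f))) * y * A := by
      have e : (1 + X * (C t * f)) * (1 + X * (C t * f)) - 1
          = C t * (C 2 + X * (C t * f)) * (X * f) := by
        rw [hC2]; ring
      rw [hy, ← map_mul, ← map_mul, ← e, map_sub, map_one]
    rw [hY] at hfam
    have hRinj : Function.Injective ⇑(aeval (zz A B) (C t * (C 2 + X * (C t * f)))) := by
      rw [map_mul, aeval_C, Algebra.algebraMap_eq_smul_one, smul_mul_assoc, one_mul, hq2]
      intro m m' hmm
      apply ht2'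
      have : t • ((2 : k) • (1 : Module.End k M) + t • y) m
          = t • ((2 : k) • (1 : Module.End k M) + t • y) m' := hmm
      exact smul_right_injective M ht0' this
    by_cases hY0 : aeval (zz A B) (C t * (C 2 + X * (C t * f))) * y * A = 0
    · left
      apply LinearMap.ext
      intro m
      have h1 := LinearMap.congr_fun hY0 m
      have h3 : aeval (zz A B) (C t * (C 2 + X * (C t * f))) (y (A m)) = 0 := h1
      exact hRinj (h3.trans (map_zero _).symm)
    · right
      exact Inf.inj_of_rank hdA (hmin _ hfam hY0)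
  -- `z` is injective on `range A`
  have hz : ∀ m, zz A B (A m) = 0 → A m = 0 := by
    rcases key 1 with h | h
    · exfalso
      apply hnz
      rw [mul_one, aeval_X] at h
      refine ⟨2, ?_⟩
      have e : zz A B ^ 2 = zz A B * A * B + B * (zz A B * A) := by
        rw [pow_two, ← mul_assoc B, ← (zz_comm_B hB).eq, mul_assoc (zz A B) B A,
          mul_assoc (zz A B) A B, ← mul_add]
        rfl
      rw [e, h, zero_mul, mul_zero, add_zero]
    · intro m hm
      apply h m
      rw [mul_one, aeval_X]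
      exact hm
  refine ⟨fun m hm => hz m ?_, fun g => ?_⟩
  · have h1 := LinearMap.congr_fun (zz_mul_A (B := B) hA) m
    exact h1.trans hm
  · have conv : ∀ m, aeval (A * B) g (A m) = aeval (zz A B) g (A m) := fun m =>
      LinearMap.congr_fun (Inf.aeval_AB_mul_A hA g) m
    have hcomm : aeval (zz A B) (X * g) = zz A B * aeval (zz A B) g := by
      rw [map_mul, aeval_X]
    have hcomm' : aeval (zz A B) (X * g) = aeval (zz A B) g * zz A B := by
      rw [mul_comm, map_mul, aeval_X]
    rcases key g with h | h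
    · left
      intro m
      obtain ⟨m', hm'⟩ := Inf.surj_on_range hA hz m
      rw [conv, hm']
      have h1 := LinearMap.congr_fun h m'
      rw [hcomm'] at h1
      exact h1
    · right
      intro m hm
      rw [conv] at hm
      apply h m
      rw [hcomm]
      show zz A B (aeval (zz A B) g (A m)) = 0
      rw [hm, map_zero]

end Cfsg.Agent.Lib.Helper50.QP
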