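import Cfsg.Agent.Lib.Helper50.QpDefs

set_option autoImplicit false

namespace Cfsg.Agent.Lib.Helper50.QP.P3inv

open Polynomial

universe u v

variable {k : Type u} [Field k] {M : Type v} [AddCommGroup M] [Module k M]

theorem aeval_commute {R : Type*} [Ring R] [Algebra k R] {x y : R} (h : Commute x y)
    (f : k[X]) : Commute (aeval x f) y := by
  induction f using Polynomial.induction_on' with
  | add p q hp hq => rw [map_add]; exact hp.add_left hq
  | monomial n c =>
    rw [aeval_monomial]
    exact (Algebra.commute_algebraMap_left c y).mul_left (h.pow_left n)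

theorem pow_mul_eq_of_comm {R : Type*} [Ring R] {x y A : R} (hxy : x * A = y * A)
    (hyA : Commute y A) (n : ℕ) : x ^ n * A = y ^ n * A := by
  induction n with
  | zero => simp
  | succ n ih =>
    calc x ^ (n + 1) * A = x ^ n * (x * A) := by rw [pow_succ, mul_assoc]
      _ = x ^ n * (A * y) := by rw [hxy, hyA.eq]
      _ = (x ^ n * A) * y := by rw [mul_assoc]
      _ = y ^ n * (A * y) := by rw [ih, mul_assoc]
      _ = y ^ (n + 1) * A := by rw [← hyA.eq, ← mul_assoc, ← pow_succ]

theorem aeval_mul_eq_of_comm {R : Type*} [Ring R] [Algebra k R] {x y A : R}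
    (hxy : x * A = y * A) (hyA : Commute y A) (f : k[X]) :
    aeval x f * A = aeval y f * A := by
  induction f using Polynomial.induction_on' with
  | add p q hp hq => rw [map_add, map_add, add_mul, add_mul, hp, hq]
  | monomial n c =>
    rw [aeval_monomial, aeval_monomial, mul_assoc, mul_assoc, pow_mul_eq_of_comm hxy hyA n]

theorem inj_of_finrank_le [FiniteDimensional k M] (P A : Module.End k M)
    (h : Module.finrank k (LinearMap.range A) ≤ Module.finrank k (LinearMap.range (P * A))) :
    ∀ m, P (A m) = 0 → A m = 0 := by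
  intro m hm
  let f : LinearMap.range A →ₗ[k] M := P.domRestrict (LinearMap.range A)
  have hr : LinearMap.range f = LinearMap.range (P * A) := by
    ext y
    constructor
    · rintro ⟨⟨w, ⟨m', rfl⟩⟩, rfl⟩
      exact ⟨m', rfl⟩
    · rintro ⟨m', rfl⟩
      exact ⟨⟨A m', ⟨m', rfl⟩⟩, rfl⟩
  have h1 := LinearMap.finrank_range_add_finrank_ker f
  rw [hr] at h1
  have h2 : Module.finrank k (LinearMap.ker f) = 0 := by omega
  have h3 : LinearMap.ker f = ⊥ := Submodule.finrank_eq_zero.mp h2
  have h4 : (⟨A m, ⟨m, rfl⟩⟩ : LinearMap.range A) ∈ LinearMap.ker f := hm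
  rw [h3, Submodule.mem_bot] at h4
  exact congrArg Subtype.val h4

end Cfsg.Agent.Lib.Helper50.QP.P3inv

namespace Cfsg.Agent.Lib.Helper50.QP

open Polynomial Cfsg Cfsg.Agent.Lib.Helper50.QR

universe u v

variable {k : Type u} [Field k] {M : Type v} [AddCommGroup M] [Module k M] [FiniteDimensional k M]

/-- J9b: (P3) from a polynomial `a` as in J9a -/
theorem p3_of_inverse {A B : Module.End k M} (hA : A * A = 0) (hB : B * B = 0) {d : ℕ}
    (hdA : Module.finrank k (LinearMap.range A) = d) (hmin : MinRank (genH A B) d)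
    (hz : ∀ m, A (B (A m)) = 0 → A m = 0) (a : k[X])
    (ha : ∀ (h : k[X]) (c : k), ∃ g ∈ genH A B,
      (g : Module.End k M) = 1 + c • (aeval (zz A B) (h.comp a) * A))
    (hinv : ∀ m, A m + aeval (zz A B) a (zz A B (A m)) = 0) :
    ∀ g : k[X], (∀ m, aeval (A * B) g (A m) = 0) ∨
      (∀ m, aeval (A * B) g (A m) = 0 → A m = 0) := by
  intro g
  have hzA : Commute (zz A B) A := zz_comm_A hA
  have hαA : Commute (aeval (zz A B) a) A := P3inv.aeval_commute hzA a
  have hαz : Commute (aeval (zz A B) a) (zz A B) := P3inv.aeval_commute (Commute.refl _) a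
  have h1 : ∀ f : k[X], aeval (A * B) f * A = aeval (zz A B) f * A := fun f =>
    P3inv.aeval_mul_eq_of_comm (by rw [zz_mul_A hA]) hzA f
  -- `α` is injective on the range of `A`
  have hαinj : ∀ m, aeval (zz A B) a (A m) = 0 → A m = 0 := by
    intro m hm
    have h2 := hinv m
    have h3 : aeval (zz A B) a (zz A B (A m)) = zz A B (aeval (zz A B) a (A m)) :=
      congrArg (fun f : Module.End k M => f (A m)) hαz.eq
    rw [h3, hm, map_zero, add_zero] at h2
    exact h2
  -- a polynomial with nonzero constant term killing `α` on the range of `A`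
  obtain ⟨ν, hν0, hνA⟩ : ∃ ν : k[X], ν.coeff 0 ≠ 0 ∧ aeval (aeval (zz A B) a) ν * A = 0 := by
    have hint : IsIntegral k (aeval (zz A B) a) := Algebra.IsIntegral.isIntegral _
    have hμ0 : minpoly k (aeval (zz A B) a) ≠ 0 := minpoly.ne_zero hint
    obtain ⟨q, hq, hnd⟩ := Polynomial.exists_eq_pow_rootMultiplicity_mul_and_not_dvd
      (minpoly k (aeval (zz A B) a)) hμ0 0
    rw [C_0, sub_zero] at hq hnd
    refine ⟨q, fun h => hnd (Polynomial.X_dvd_iff.mpr h), ?_⟩
    have h4 : aeval (zz A B) a ^ (rootMultiplicity 0 (minpoly k (aeval (zz A B) a))) *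
        (aeval (aeval (zz A B) a) q * A) = 0 := by
      rw [← mul_assoc]
      have h5 : aeval (aeval (zz A B) a) (minpoly k (aeval (zz A B) a)) = 0 := minpoly.aeval k _
      rw [hq, map_mul, map_pow, aeval_X] at h5
      rw [h5, zero_mul]
    have hqA : Commute (aeval (aeval (zz A B) a) q) A := P3inv.aeval_commute hαA q
    have peel : ∀ e : ℕ, aeval (zz A B) a ^ e * (aeval (aeval (zz A B) a) q * A) = 0 →
        aeval (aeval (zz A B) a) q * A = 0 := by
      intro e
      induction e with
      | zero => intro h; simpa using h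
      | succ e ih =>
        intro h
        apply ih
        have h6 : aeval (zz A B) a ^ e * (aeval (aeval (zz A B) a) q * A) =
            A * (aeval (zz A B) a ^ e * aeval (aeval (zz A B) a) q) := by
          rw [← mul_assoc, ((hαA.pow_left e).mul_left hqA).eq]
        ext m
        have h5 : aeval (zz A B) a
            ((aeval (zz A B) a ^ e * (aeval (aeval (zz A B) a) q * A)) m) = 0 := by
          have h7 := congrArg (fun f : Module.End k M => f m) h
          rw [pow_succ', mul_assoc] at h7
          exact h7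
        rw [h6] at h5 ⊢
        exact hαinj _ h5
    exact peel _ h4
  -- the polynomial `h₀` with `z = h₀(α)` on the range of `A`
  have hνeq : X * ν.divX + C (ν.coeff 0) = ν := X_mul_divX_add ν
  have h7 : aeval (zz A B) a * (aeval (aeval (zz A B) a) ν.divX * A) + (ν.coeff 0) • A = 0 := by
    have h8 := hνA
    rw [← hνeq, map_add, map_mul, aeval_X, aeval_C, add_mul, mul_assoc,
      Algebra.algebraMap_eq_smul_one, smul_mul_assoc, one_mul] at h8
    exact h8
  have h8 : zz A B * A = aeval (aeval (zz A B) a) (C ((ν.coeff 0)⁻¹) * ν.divX) * A := by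
    have hcomm : Commute (zz A B - aeval (aeval (zz A B) a) (C ((ν.coeff 0)⁻¹) * ν.divX)) A :=
      hzA.sub_left (P3inv.aeval_commute hαA _)
    have key : aeval (zz A B) a *
        ((zz A B - aeval (aeval (zz A B) a) (C ((ν.coeff 0)⁻¹) * ν.divX)) * A) = 0 := by
      have e1 : aeval (zz A B) a * (zz A B * A) = - A := by
        ext m
        have := hinv m
        exact eq_neg_of_add_eq_zero_right this
      have e2 : aeval (zz A B) a * (aeval (aeval (zz A B) a) ν.divX * A) = - ((ν.coeff 0) • A) :=
        eq_neg_of_add_eq_zero_left h7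
      rw [sub_mul, mul_sub, e1, map_mul, aeval_C, Algebra.algebraMap_eq_smul_one, smul_mul_assoc,
        one_mul, smul_mul_assoc, mul_smul_comm, e2, smul_neg, smul_smul,
        inv_mul_cancel₀ hν0, one_smul, sub_self]
    have h9 : (zz A B - aeval (aeval (zz A B) a) (C ((ν.coeff 0)⁻¹) * ν.divX)) * A = 0 := by
      rw [hcomm.eq]
      ext m
      have h10 := congrArg (fun f : Module.End k M => f m) key
      rw [hcomm.eq] at h10
      exact hαinj _ h10
    rw [sub_mul, sub_eq_zero] at h9
    exact h9
  have h9 : ∀ f : k[X], aeval (zz A B) f * A =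
      aeval (aeval (zz A B) a) (f.comp (C ((ν.coeff 0)⁻¹) * ν.divX)) * A := by
    intro f
    rw [aeval_comp]
    exact P3inv.aeval_mul_eq_of_comm h8 (P3inv.aeval_commute hαA _) f
  have hfam : Fam (genH A B)
      (aeval (aeval (zz A B) a) (g.comp (C ((ν.coeff 0)⁻¹) * ν.divX)) * A) := by
    refine ⟨?_, fun c => ?_⟩
    · have hc := P3inv.aeval_commute hαA (g.comp (C ((ν.coeff 0)⁻¹) * ν.divX))
      rw [mul_assoc, ← mul_assoc A, ← hc.eq, mul_assoc, hA, mul_zero, mul_zero]
    · obtain ⟨u, hu, e⟩ := ha (g.comp (C ((ν.coeff 0)⁻¹) * ν.divX)) c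
      refine ⟨u, hu, ?_⟩
      rw [e, aeval_comp]
  by_cases h0 : aeval (aeval (zz A B) a) (g.comp (C ((ν.coeff 0)⁻¹) * ν.divX)) * A = 0
  · left
    intro m
    exact congrArg (fun f : Module.End k M => f m) ((h1 g).trans ((h9 g).trans h0))
  · right
    have hd := hmin _ hfam h0
    rw [← hdA, ← h9 g, ← h1 g] at hd
    exact P3inv.inj_of_finrank_le (aeval (A * B) g) A hd

end Cfsg.Agent.Lib.Helper50.QP
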