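import Cfsg.Agent.Lib.Helper50.QpInf
import Cfsg.Agent.Lib.Helper50.QpFin3a
import Cfsg.Agent.Lib.Helper50.QpP3inv
import Cfsg.Agent.Lib.Helper50.QpFinal

/-!
# S5064: assembly (helper50)
-/

set_option autoImplicit false

namespace Cfsg.Agent.Lib.Helper50.QP

open Polynomial Cfsg Cfsg.Agent.Lib.Helper50.QR

universe u v

variable {k : Type u} [Field k] {M : Type v} [AddCommGroup M] [Module k M] [FiniteDimensional k M]

theorem fin_p3 [Finite k] (hk2 : ringChar k ≠ 2) (hk3 : Nat.card k ≠ 3) {A B : Module.End k M}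
    (hA : A * A = 0) (hB : B * B = 0) (hnz : ¬ IsNilpotent (zz A B)) {d : ℕ}
    (hdA : Module.finrank k (LinearMap.range A) = d)
    (hdB : Module.finrank k (LinearMap.range B) = d) (hmin : MinRank (genH A B) d) :
    ∀ g : k[X], (∀ m, aeval (A * B) g (A m) = 0) ∨
      (∀ m, aeval (A * B) g (A m) = 0 → A m = 0) := by
  obtain ⟨a, ha, hinv⟩ := fin_p3a hk2 hk3 hA hB hnz hdA hdB hmin
  exact p3_of_inverse hA hB hdA hmin (fin_p1 hk2 hk3 hA hB hnz hdA hmin) a ha hinv

theorem core (hk2 : ringChar k ≠ 2) (hk3 : Nat.card k ≠ 3) {A B : Module.End k M}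
    (hA : A * A = 0) (hB : B * B = 0) (hnz : ¬ IsNilpotent (zz A B)) {d : ℕ}
    (hdA : Module.finrank k (LinearMap.range A) = d)
    (hdB : Module.finrank k (LinearMap.range B) = d) (hmin : MinRank (genH A B) d) :
    (∀ m, A (B (A m)) = 0 → A m = 0) ∧
    (∀ g : k[X], (∀ m, aeval (A * B) g (A m) = 0) ∨
      (∀ m, aeval (A * B) g (A m) = 0 → A m = 0)) := by
  rcases finite_or_infinite k with hfin | hinf
  · exact ⟨fin_p1 hk2 hk3 hA hB hnz hdA hmin, fin_p3 hk2 hk3 hA hB hnz hdA hdB hmin⟩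
  · exact core_inf (Ring.two_ne_zero hk2) hA hB hnz hdA hmin

theorem main (hk2 : ringChar k ≠ 2) (hk3 : Nat.card k ≠ 3) {A B : Module.End k M}
    (hA : A * A = 0) (hB : B * B = 0) (hnu : ¬ Cfsg.IsUnipotentOn (genH A B)) {d : ℕ}
    (hdA : Module.finrank k (LinearMap.range A) = d)
    (hdB : Module.finrank k (LinearMap.range B) = d) (hmin : MinRank (genH A B) d) :
    ∃ (K : Type v) (_ : Field K) (_ : Algebra k K) (lam : K), IsAlgebraic k lam ∧
      IntermediateField.adjoin k ({lam} : Set K) = ⊤ ∧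
      Nonempty (↥(genH A B) ≃* Matrix.SpecialLinearGroup (Fin 2) K) := by
  have hnz : ¬ IsNilpotent (zz A B) := fun h => hnu (unip_of_nilp hA hB h)
  have hnz' : ¬ IsNilpotent (zz B A) := by rwa [zz_comm B A]
  have hmin' : MinRank (genH B A) d := by rwa [genH_comm B A]
  have c1 := core hk2 hk3 hA hB hnz hdA hdB hmin
  have c2 := core hk2 hk3 hB hA hnz' hdB hdA hmin'
  have hA0 : A ≠ 0 := by
    rintro rfl
    apply hnz
    refine ⟨1, ?_⟩
    simp [zz]
  obtain ⟨K, iF, iA, lam, act, Φ, h1, h2, -⟩ :=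
    final_strong hk2 hk3 hA hB hA0 c1.1 c2.1 c1.2
  exact ⟨K, iF, iA, lam, h1, h2, ⟨Φ⟩⟩

/-- the minimality of `d` for a pair of minimal quadratic elements -/
theorem minRank_of_min {G : Subgroup (LinearMap.GeneralLinearGroup k M)}
    {σ τ : LinearMap.GeneralLinearGroup k M} (hσ : σ ∈ Cfsg.minimalQuadraticElements G)
    (hτ : τ ∈ Cfsg.minimalQuadraticElements G) :
    MinRank (genH (nl σ) (nl τ)) (Module.finrank k (LinearMap.range (nl σ))) := by
  have hle : genH (nl σ) (nl τ) ≤ G := by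
    apply genH_le
    · intro g c hg
      exact hσ.1.2.2 ⟨c, hg⟩
    · intro g c hg
      exact hτ.1.2.2 ⟨c, hg⟩
  intro Y hY hY0
  obtain ⟨g, hg, eg⟩ := hY.2 1
  rw [one_smul] at eg
  have hgq : g ∈ quadraticElements G := by
    refine ⟨hle hg, ⟨?_, ?_⟩, ?_⟩
    · rw [eg, add_sub_cancel_left]
      exact hY.1
    · rw [eg, add_sub_cancel_left]
      exact hY0
    · rintro t ⟨c, ht⟩
      obtain ⟨g', hg', eg'⟩ := hY.2 c
      have : t = g' := by
        apply unit_ext
        rw [ht, eg', eg, add_sub_cancel_left]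
      rw [this]
      exact hle hg'
  have h3 := hσ.2 g hgq
  have h4 : commutatorRank g = Module.finrank k (LinearMap.range Y) := by
    unfold commutatorRank
    rw [eg, add_sub_cancel_left]
  rw [← h4]
  exact h3

end Cfsg.Agent.Lib.Helper50.QP
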