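import Cfsg.Agent.Lib.Helper50.QpDefs

set_option autoImplicit false

namespace Cfsg.Agent.Lib.Helper50.QP

open Polynomial Cfsg Cfsg.Agent.Lib.Helper50.QR

universe u v

variable {k : Type u} [Field k] {M : Type v} [AddCommGroup M] [Module k M] [FiniteDimensional k M]

namespace Res

omit [FiniteDimensional k M] in
theorem val_inv_apply (g : LinearMap.GeneralLinearGroup k M) (m : M) :
    (g : Module.End k M) (((g⁻¹ : LinearMap.GeneralLinearGroup k M) : Module.End k M) m) = m := by
  rw [← Module.End.mul_apply, Units.mul_inv, Module.End.one_apply]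

omit [FiniteDimensional k M] in
theorem inv_val_apply (g : LinearMap.GeneralLinearGroup k M) (m : M) :
    ((g⁻¹ : LinearMap.GeneralLinearGroup k M) : Module.End k M) ((g : Module.End k M) m) = m := by
  rw [← Module.End.mul_apply, Units.inv_mul, Module.End.one_apply]

/-- the elements of `GL(M)` that preserve `N` together with their inverses -/
def stab (N : Submodule k M) : Subgroup (LinearMap.GeneralLinearGroup k M) where
  carrier := {g | (∀ n ∈ N, (g : Module.End k M) n ∈ N) ∧
    (∀ n ∈ N, ((g⁻¹ : LinearMap.GeneralLinearGroup k M) : Module.End k M) n ∈ N)}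
  mul_mem' := by
    rintro g h ⟨hg, hg'⟩ ⟨hh, hh'⟩
    refine ⟨fun n hn => ?_, fun n hn => ?_⟩
    · rw [Units.val_mul, Module.End.mul_apply]
      exact hg _ (hh n hn)
    · rw [mul_inv_rev, Units.val_mul, Module.End.mul_apply]
      exact hh' _ (hg' n hn)
  one_mem' := ⟨fun n hn => hn, fun n hn => by rw [inv_one]; exact hn⟩
  inv_mem' := by
    rintro g ⟨hg, hg'⟩
    exact ⟨hg', by rw [inv_inv]; exact hg⟩

omit [FiniteDimensional k M] in
theorem mem_stab {N : Submodule k M} {g : LinearMap.GeneralLinearGroup k M} :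
    g ∈ stab N ↔ (∀ n ∈ N, (g : Module.End k M) n ∈ N) ∧
      (∀ n ∈ N, ((g⁻¹ : LinearMap.GeneralLinearGroup k M) : Module.End k M) n ∈ N) := Iff.rfl

/-- restriction to `N` -/
def resHom (N : Submodule k M) : stab N →* LinearMap.GeneralLinearGroup k N where
  toFun g :=
    { val := (g.1 : Module.End k M).restrict g.2.1
      inv := ((g.1⁻¹ : LinearMap.GeneralLinearGroup k M) : Module.End k M).restrict g.2.2
      val_inv := by
        ext n
        exact val_inv_apply g.1 (n : M)
      inv_val := by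
        ext n
        exact inv_val_apply g.1 (n : M) }
  map_one' := by
    apply Units.ext
    ext n
    rfl
  map_mul' := by
    intro g h
    apply Units.ext
    ext n
    rfl

omit [FiniteDimensional k M] in
theorem resHom_apply (N : Submodule k M) (g : stab N) (n : N) :
    (((resHom N g : LinearMap.GeneralLinearGroup k N) : Module.End k N) n : M) =
      (g.1 : Module.End k M) (n : M) := rfl

omit [FiniteDimensional k M] in
theorem gen_mem_stab {A : Module.End k M} (hA : A * A = 0) (N : Submodule k M)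
    (hNA : ∀ m ∈ N, A m ∈ N) (g : LinearMap.GeneralLinearGroup k M) (c : k)
    (hc : (g : Module.End k M) = 1 + c • A) : g ∈ stab N := by
  have hmul : (g : Module.End k M) * (1 - c • A) = 1 := by
    rw [hc]
    have e : ∀ X : Module.End k M, (1 + X) * (1 - X) = 1 - X * X := fun X => by noncomm_ring
    rw [e, smul_sq0 hA, sub_zero]
  have hinv : ((g⁻¹ : LinearMap.GeneralLinearGroup k M) : Module.End k M) = 1 - c • A := by
    calc ((g⁻¹ : LinearMap.GeneralLinearGroup k M) : Module.End k M)
        = ((g⁻¹ : LinearMap.GeneralLinearGroup k M) : Module.End k M) *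
            ((g : Module.End k M) * (1 - c • A)) := by rw [hmul, mul_one]
      _ = 1 - c • A := by rw [← mul_assoc, Units.inv_mul, one_mul]
  refine mem_stab.mpr ⟨fun n hn => ?_, fun n hn => ?_⟩
  · rw [hc]
    exact N.add_mem hn (N.smul_mem c (hNA n hn))
  · rw [hinv]
    exact N.sub_mem hn (N.smul_mem c (hNA n hn))

end Res

/-- J6a: restriction of `genH A B` to a subspace invariant under `A` and `B` -/
theorem exists_res {A B : Module.End k M} (hA : A * A = 0) (hB : B * B = 0)
    (N : Submodule k M) (hNA : ∀ m ∈ N, A m ∈ N)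
    (hNB : ∀ m ∈ N, B m ∈ N) :
    ∃ res : ↥(genH A B) →* ↥(genH (A.restrict hNA) (B.restrict hNB)),
      Function.Surjective res ∧
      ∀ (g : genH A B) (n : N),
        (((((res g : genH (A.restrict hNA) (B.restrict hNB)) :
          LinearMap.GeneralLinearGroup k N) : Module.End k N) n : N) : M) =
          ((g : LinearMap.GeneralLinearGroup k M) : Module.End k M) (n : M) := by
  have hle : genH A B ≤ Res.stab N := by
    refine genH_le (fun g c hc => Res.gen_mem_stab hA N hNA g c hc)
      (fun g c hc => Res.gen_mem_stab hB N hNB g c hc)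
  obtain ⟨ρ, hρ⟩ : ∃ ρ : ↥(genH A B) →* LinearMap.GeneralLinearGroup k N,
      ρ = (Res.resHom N).comp (Subgroup.inclusion hle) := ⟨_, rfl⟩
  have hρapp : ∀ (g : genH A B) (n : N),
      (((ρ g : LinearMap.GeneralLinearGroup k N) : Module.End k N) n : M) =
        ((g : LinearMap.GeneralLinearGroup k M) : Module.End k M) (n : M) := by
    intro g n
    rw [hρ]
    rfl
  have h1 : ∀ (g : LinearMap.GeneralLinearGroup k M) (hg : g ∈ genH A B),
      ρ ⟨g, hg⟩ ∈ genH (A.restrict hNA) (B.restrict hNB) := by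
    intro g hg
    refine Subgroup.closure_induction
      (p := fun g hg => ρ ⟨g, hg⟩ ∈ genH (A.restrict hNA) (B.restrict hNB)) ?_ ?_ ?_ ?_ hg
    · rintro x (⟨c, hc⟩ | ⟨c, hc⟩)
      · refine Subgroup.subset_closure (Or.inl ⟨c, ?_⟩)
        ext n
        rw [hρapp]
        show (x : Module.End k M) (n : M) = _
        rw [hc]
        rfl
      · refine Subgroup.subset_closure (Or.inr ⟨c, ?_⟩)
        ext n
        rw [hρapp]
        show (x : Module.End k M) (n : M) = _
        rw [hc]
        rfl
    · have e : (⟨1, Subgroup.one_mem _⟩ : genH A B) = 1 := rfl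
      rw [e, map_one]
      exact Subgroup.one_mem _
    · intro x y hx hy px py
      have e : (⟨x * y, Subgroup.mul_mem _ hx hy⟩ : genH A B) = ⟨x, hx⟩ * ⟨y, hy⟩ := rfl
      rw [e, map_mul]
      exact Subgroup.mul_mem _ px py
    · intro x hx px
      have e : (⟨x⁻¹, Subgroup.inv_mem _ hx⟩ : genH A B) = ⟨x, hx⟩⁻¹ := rfl
      rw [e, map_inv]
      exact Subgroup.inv_mem _ px
  have h2 : ∀ h ∈ genH (A.restrict hNA) (B.restrict hNB), ∃ g : genH A B, ρ g = h := by
    intro h hh
    refine Subgroup.closure_induction (p := fun h _ => ∃ g : genH A B, ρ g = h) ?_ ?_ ?_ ?_ hh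
    · rintro x (⟨c, hc⟩ | ⟨c, hc⟩)
      · refine ⟨⟨mkU (c • A) (smul_sq0 hA c), mkU_A_mem B hA c⟩, ?_⟩
        apply Units.ext
        ext n
        rw [hρapp, hc]
        rfl
      · refine ⟨⟨mkU (c • B) (smul_sq0 hB c), mkU_B_mem A hB c⟩, ?_⟩
        apply Units.ext
        ext n
        rw [hρapp, hc]
        rfl
    · exact ⟨1, map_one ρ⟩
    · rintro x y _ _ ⟨gx, rfl⟩ ⟨gy, rfl⟩
      exact ⟨gx * gy, map_mul ρ gx gy⟩
    · rintro x _ ⟨gx, rfl⟩
      exact ⟨gx⁻¹, map_inv ρ gx⟩
  refine ⟨ρ.codRestrict (genH (A.restrict hNA) (B.restrict hNB)) (fun g => h1 g.1 g.2), ?_, ?_⟩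
  · intro h
    obtain ⟨g, hg⟩ := h2 h.1 h.2
    exact ⟨g, Subtype.ext hg⟩
  · intro g n
    exact hρapp g n

end Cfsg.Agent.Lib.Helper50.QP
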