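import Cfsg.Agent.Lib.Helper50.QpDefs
import Cfsg.Agent.Lib.Helper50.AlgGenC

set_option autoImplicit false

namespace Cfsg.Agent.Lib.Helper50.QP

open Polynomial Cfsg Cfsg.Agent.Lib.Helper50.QR

universe u v

variable {k : Type u} [Field k] {M : Type v} [AddCommGroup M] [Module k M] [FiniteDimensional k M]

/-- (helper50) soundness of the recursion for orbit sets of pairs of polynomials -/
theorem sound_poly (O : Set (k[X] × k[X]))
    (h1 : ((1 : k[X]), (0 : k[X])) ∈ O)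
    (hU : ∀ (c : k) (v : k[X] × k[X]), v ∈ O → (v.1 + C c * X * v.2, v.2) ∈ O)
    (hL : ∀ (c : k) (v : k[X] × k[X]), v ∈ O → (v.1, v.2 + C c * v.1) ∈ O)
    (n : ℕ) (P Q : k[X]) (hP : AG.Low n P) (hQ : AG.Low n Q) (hD : AG.Del n P Q 1 ≠ 0) :
    (1 + X * P, Q) ∈ O := by
  obtain ⟨φ, hφd⟩ : ∃ φ : k[X] →+* RatFunc k, φ = algebraMap k[X] (RatFunc k) := ⟨_, rfl⟩
  have hφ : Function.Injective φ := by
    rw [hφd]
    exact IsFractionRing.injective k[X] (RatFunc k)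
  have hc : ∀ c : k, algebraMap k (RatFunc k) c = φ (C c) := fun c => by
    rw [hφd, IsScalarTower.algebraMap_apply k k[X] (RatFunc k)]
    rfl
  have hX : φ X ≠ 0 := by
    intro h
    exact X_ne_zero (hφ (h.trans (map_zero φ).symm))
  have hae : ∀ R : k[X], aeval (φ X) R = φ R := by
    intro R
    rw [hφd, aeval_algebraMap_apply, aeval_X_left_apply]
  obtain ⟨O', hO'⟩ : ∃ O' : Set (RatFunc k × RatFunc k),
      O' = {w | ∃ v ∈ O, w = (φ v.1, φ X * φ v.2)} := ⟨_, rfl⟩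
  have h1' : ((1 : RatFunc k), (0 : RatFunc k)) ∈ O' := by
    rw [hO']
    exact ⟨_, h1, by simp⟩
  have hU' : ∀ (c : k) (v : RatFunc k × RatFunc k), v ∈ O' →
      (v.1 + algebraMap k (RatFunc k) c * v.2, v.2) ∈ O' := by
    intro c v hv
    rw [hO'] at hv ⊢
    obtain ⟨w, hw, rfl⟩ := hv
    refine ⟨_, hU c w hw, ?_⟩
    simp only [map_add, map_mul, hc]
    congr 1
    ring
  have hL' : ∀ (c : k) (v : RatFunc k × RatFunc k), v ∈ O' →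
      (v.1, v.2 + algebraMap k (RatFunc k) c * φ X * v.1) ∈ O' := by
    intro c v hv
    rw [hO'] at hv ⊢
    obtain ⟨w, hw, rfl⟩ := hv
    refine ⟨_, hL c w hw, ?_⟩
    simp only [map_add, map_mul, hc]
    congr 1
    ring
  have h := AG.sound (k := k) (φ X) O' h1' hU' hL' n P Q 1 hP hQ hD
  rw [hO'] at h
  obtain ⟨v, hv, he⟩ := h
  have e1 : φ v.1 = φ (1 + X * P) := by
    have := congrArg Prod.fst he
    simp only [map_one, div_one, hae] at this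
    rw [← this, map_add, map_mul, map_one]
  have e2 : φ v.2 = φ Q := by
    have := congrArg Prod.snd he
    simp only [map_one, div_one, hae] at this
    exact (mul_left_cancel₀ hX this).symm
  have : v = (1 + X * P, Q) := Prod.ext (hφ e1) (hφ e2)
  rw [← this]
  exact hv

/-- (helper50) the Euclid machinery for orbit sets of pairs of polynomials -/
theorem exists_scaled_poly [Infinite k] {E : Type*} [Ring E] [Algebra k E] (α : E) (μ : k[X])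
    (hμ : μ.Monic) (hμα : aeval α μ = 0) (O : Set (k[X] × k[X]))
    (h1 : ((1 : k[X]), (0 : k[X])) ∈ O)
    (hU : ∀ (c : k) (v : k[X] × k[X]), v ∈ O → (v.1 + C c * X * v.2, v.2) ∈ O)
    (hL : ∀ (c : k) (v : k[X] × k[X]), v ∈ O → (v.1, v.2 + C c * v.1) ∈ O)
    (hcong : ∀ v v' : k[X] × k[X], v ∈ O → aeval α v'.1 = aeval α v.1 →
      aeval α v'.2 = aeval α v.2 → v' ∈ O)
    (W W' : k[X]) (hu : aeval α ((1 + X * W) * (1 + X * W')) = 1) :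
    ∃ v ∈ O, ((1 + X * W) * v.1, (1 + X * W) * v.2) ∈ O := by
  obtain ⟨n, hn⟩ : ∃ n, n = μ.natDegree := ⟨_, rfl⟩
  have low : ∀ R : k[X], AG.Low n (R %ₘ μ) := by
    intro R m hm
    apply coeff_eq_zero_of_degree_lt
    calc (R %ₘ μ).degree < μ.degree := degree_modByMonic_lt _ hμ
      _ = (μ.natDegree : WithBot ℕ) := degree_eq_natDegree hμ.ne_zero
      _ ≤ m := by
          rw [← hn]
          exact_mod_cast hm
  have hmod : ∀ R : k[X], aeval α (R %ₘ μ) = aeval α R := fun R =>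
    aeval_modByMonic_eq_self_of_root hμα
  have hmod' : ∀ R : k[X], aeval α (R %ₘ μ - R) = 0 := fun R => by
    rw [map_sub, hmod, sub_self]
  have hu' : aeval α ((1 + X * W) * (1 + X * W') - 1) = 0 := by
    rw [map_sub, hu, map_one, sub_self]
  obtain ⟨P₀, Q₀, hP₀, hQ₀, -, hD₀⟩ := AG.exists_good k n
  obtain ⟨P₁, hP₁⟩ : ∃ P₁ : k[X], P₁ = (W' + (1 + X * W') * P₀) %ₘ μ := ⟨_, rfl⟩
  obtain ⟨Q₁, hQ₁⟩ : ∃ Q₁ : k[X], Q₁ = ((1 + X * W') * Q₀) %ₘ μ := ⟨_, rfl⟩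
  obtain ⟨P₂, hP₂⟩ : ∃ P₂ : k[X], P₂ = (W + (1 + X * W) * P₀) %ₘ μ := ⟨_, rfl⟩
  obtain ⟨Q₂, hQ₂⟩ : ∃ Q₂ : k[X], Q₂ = ((1 + X * W) * Q₀) %ₘ μ := ⟨_, rfl⟩
  have lP₁ : AG.Low n P₁ := hP₁ ▸ low _
  have lQ₁ : AG.Low n Q₁ := hQ₁ ▸ low _
  have lP₂ : AG.Low n P₂ := hP₂ ▸ low _
  have lQ₂ : AG.Low n Q₂ := hQ₂ ▸ low _
  have zP₁ : aeval α (P₁ - (W' + (1 + X * W') * P₀)) = 0 := hP₁ ▸ hmod' _
  have zQ₁ : aeval α (Q₁ - (1 + X * W') * Q₀) = 0 := hQ₁ ▸ hmod' _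
  have zP₂ : aeval α (P₂ - (W + (1 + X * W) * P₀)) = 0 := hP₂ ▸ hmod' _
  have zQ₂ : aeval α (Q₂ - (1 + X * W) * Q₀) = 0 := hQ₂ ▸ hmod' _
  obtain ⟨δA, hδA⟩ := AG.del_line k n P₀ (P₁ - P₀) Q₀ (Q₁ - Q₀) 1 0
  obtain ⟨δB, hδB⟩ := AG.del_line k n P₂ (P₀ - P₂) Q₂ (Q₀ - Q₂) 1 0
  have hA0 : δA.eval 0 ≠ 0 := by
    rw [hδA]
    simpa using hD₀
  have hB1 : δB.eval 1 ≠ 0 := by
    rw [hδB]
    simpa using hD₀
  obtain ⟨t, htA, htB⟩ := AG.exists_both k δA δB hA0 hB1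
  rw [hδA] at htA
  rw [hδB] at htB
  rw [mul_zero, add_zero] at htA htB
  have vA := sound_poly O h1 hU hL n _ _ (hP₀.add ((lP₁.sub hP₀).C_mul t))
    (hQ₀.add ((lQ₁.sub hQ₀).C_mul t)) htA
  have vB := sound_poly O h1 hU hL n _ _ (lP₂.add ((hP₀.sub lP₂).C_mul t))
    (lQ₂.add ((hQ₀.sub lQ₂).C_mul t)) htB
  have comb : ∀ c₁ z₁ c₂ z₂ c₃ z₃ : k[X], aeval α z₁ = 0 → aeval α z₂ = 0 → aeval α z₃ = 0 →
      aeval α (c₁ * z₁ + c₂ * z₂ - c₃ * z₃) = 0 := by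
    intro c₁ z₁ c₂ z₂ c₃ z₃ e₁ e₂ e₃
    rw [map_sub, map_add, map_mul, map_mul, map_mul, e₁, e₂, e₃, mul_zero, mul_zero, mul_zero,
      add_zero, sub_zero]
  refine ⟨_, vA, hcong _ _ vB ?_ ?_⟩
  · have id1 : (1 + X * W) * (1 + X * (P₀ + C t * (P₁ - P₀)))
        = (1 + X * (P₂ + C t * (P₀ - P₂)))
          + (C t * (1 + X * P₀) * ((1 + X * W) * (1 + X * W') - 1)
            + C t * (1 + X * W) * X * (P₁ - (W' + (1 + X * W') * P₀))
            - (1 - C t) * X * (P₂ - (W + (1 + X * W) * P₀))) := by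
      ring
    show aeval α ((1 + X * W) * (1 + X * (P₀ + C t * (P₁ - P₀))))
      = aeval α (1 + X * (P₂ + C t * (P₀ - P₂)))
    rw [id1, map_add, comb _ _ _ _ _ _ hu' zP₁ zP₂, add_zero]
  · have id2 : (1 + X * W) * (Q₀ + C t * (Q₁ - Q₀))
        = (Q₂ + C t * (Q₀ - Q₂))
          + (C t * Q₀ * ((1 + X * W) * (1 + X * W') - 1)
            + C t * (1 + X * W) * (Q₁ - (1 + X * W') * Q₀)
            - (1 - C t) * (Q₂ - (1 + X * W) * Q₀)) := by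
      ring
    show aeval α ((1 + X * W) * (Q₀ + C t * (Q₁ - Q₀))) = aeval α (Q₂ + C t * (Q₀ - Q₂))
    rw [id2, map_add, comb _ _ _ _ _ _ hu' zQ₁ zQ₂, add_zero]

end Cfsg.Agent.Lib.Helper50.QP
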