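import Cfsg.Agent.Lib.Helper50.QpBasic
import Cfsg.Agent.Lib.Helper50.QpG1

set_option autoImplicit false

namespace Cfsg.Agent.Lib.Helper50.QP.Step2

open Polynomial Cfsg Cfsg.Agent.Lib.Helper50.QR

section ring

variable {R : Type*} [Ring R]

theorem zeta_nilp (p : ℕ) [Fact p.Prime] [CharP R p] {A X : R} (hA : A * A = 0)
    (hX : X * X = 0) (a : ℕ) (h : ((1 + A) * (1 + X)) ^ (p ^ a) = 1) :
    IsNilpotent (A * X + X * A) := by
  have hN : ((1 + A) * (1 + X) - 1) ^ (p ^ a) = 0 := by
    rw [sub_pow_char_pow_of_commute p a (Commute.one_right _), h, one_pow, sub_self]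
  have h1 : ((1 + A) * (1 + X) - 1) * ((1 + A) * (1 + X) - 1)
      = (A * X + X * A) * ((1 + A) * (1 + X)) := by
    have : ((1 + A) * (1 + X) - 1) * ((1 + A) * (1 + X) - 1)
        = (A * X + X * A) * ((1 + A) * (1 + X))
          + (A * A + A * A * X + X * X - X * (A * A) - X * (A * A) * X) := by
      noncomm_ring
    rw [this, hA, hX]; simp
  have h2 : Commute (A * X + X * A) ((1 + A) * (1 + X)) := by
    have : (A * X + X * A) * ((1 + A) * (1 + X)) = ((1 + A) * (1 + X)) * (A * X + X * A)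
        + (A * (X * X) + X * (A * A) + X * (A * A) * X - (A * A) * X - (X * X) * A
          - A * (X * X) * A) := by
      noncomm_ring
    show (A * X + X * A) * ((1 + A) * (1 + X)) = ((1 + A) * (1 + X)) * (A * X + X * A)
    rw [this, hA, hX]; simp
  refine ⟨p ^ a, ?_⟩
  have h3 : ((A * X + X * A) * ((1 + A) * (1 + X))) ^ (p ^ a) = 0 := by
    rw [← h1, ← pow_two, ← pow_mul, mul_comm, pow_mul, hN, zero_pow (by norm_num)]
  rw [h2.mul_pow, h, mul_one] at h3
  exact h3

theorem comm_val {A X : R} (hA : A * A = 0) (hX : X * X = 0) (hAXA : A * X * A = 0)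
    (hXAX : X * A * X = 0) :
    (1 + A) * (1 + X) * (1 - A) * (1 - X) = 1 + (A * X - X * A) := by
  have : (1 + A) * (1 + X) * (1 - A) * (1 - X) = 1 + (A * X - X * A)
      + (-(A * A) + (A * A) * X - (X * X) + (X * A * X) - (A * X * A) - A * (X * X)
        + (A * X * A) * X) := by
    noncomm_ring
  rw [this, hA, hX, hAXA, hXAX]; simp

theorem comm_sq {A X : R} (hA : A * A = 0) (hX : X * X = 0) (hAXA : A * X * A = 0)
    (hXAX : X * A * X = 0) : (A * X - X * A) * (A * X - X * A) = 0 := by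
  have : (A * X - X * A) * (A * X - X * A)
      = (A * X * A) * X - A * (X * X) * A - X * (A * A) * X + (X * A * X) * A := by
    noncomm_ring
  rw [this, hA, hX, hAXA, hXAX]; simp

theorem inv_val_of_sq0 (g : Rˣ) {Y : R} (hY : Y * Y = 0) (hg : (g : R) = 1 + Y) :
    ((g⁻¹ : Rˣ) : R) = 1 - Y := by
  apply Units.inv_eq_of_mul_eq_one_right
  rw [hg]
  have : (1 + Y) * (1 - Y) = 1 - Y * Y := by noncomm_ring
  rw [this, hY, sub_zero]

end ring

section lin

variable {k : Type*} [Field k] {M : Type*} [AddCommGroup M] [Module k M]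

theorem two_rank_le [FiniteDimensional k M] (r T : Module.End k M) (hc : r * T = T * r)
    (h0 : r * (r * T) = 0) :
    2 * Module.finrank k (LinearMap.range (r * T)) ≤ Module.finrank k (LinearMap.range T) := by
  have hle : LinearMap.range (r * T) ≤ LinearMap.range T := by
    rintro _ ⟨m, rfl⟩
    rw [hc]
    exact ⟨r m, rfl⟩
  have h1 : LinearMap.range (r ∘ₗ (LinearMap.range T).subtype) = LinearMap.range (r * T) := by
    ext m
    constructor
    · rintro ⟨⟨w, ⟨m', rfl⟩⟩, rfl⟩
      exact ⟨m', rfl⟩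
    · rintro ⟨m', rfl⟩
      exact ⟨⟨T m', ⟨m', rfl⟩⟩, rfl⟩
  have h2 : (LinearMap.range (r * T)).comap (LinearMap.range T).subtype
      ≤ LinearMap.ker (r ∘ₗ (LinearMap.range T).subtype) := by
    rintro ⟨w, hw⟩ ⟨m, hm⟩
    rw [LinearMap.mem_ker]
    show r w = 0
    have hm' : (r * T) m = w := hm
    rw [← hm']
    have := congrArg (fun f : Module.End k M => f m) h0
    simpa using this
  have h3 : Module.finrank k ((LinearMap.range (r * T)).comap (LinearMap.range T).subtype)
      = Module.finrank k (LinearMap.range (r * T)) :=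
    (Submodule.comapSubtypeEquivOfLe hle).finrank_eq
  have h4 := LinearMap.finrank_range_add_finrank_ker (r ∘ₗ (LinearMap.range T).subtype)
  have h5 := Submodule.finrank_mono h2
  rw [h1] at h4
  omega

theorem commute_aeval {T z : Module.End k M} (h : Commute T z) (f : k[X]) :
    Commute T (aeval z f) := by
  induction f using Polynomial.induction_on' with
  | add f g hf hg => rw [map_add]; exact hf.add_right hg
  | monomial n c =>
    rw [aeval_monomial]
    exact (Algebra.commute_algebraMap_right c T).mul_right (h.pow_right n)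

theorem genH_commute {A B : Module.End k M} (hA : A * A = 0) (hB : B * B = 0)
    {g : LinearMap.GeneralLinearGroup k M} (hg : g ∈ genH A B) :
    Commute (g : Module.End k M) (zz A B) := by
  unfold genH at hg
  induction hg using Subgroup.closure_induction with
  | mem x hx =>
    rcases hx with ⟨c, hc⟩ | ⟨c, hc⟩
    · rw [hc]
      exact (Commute.one_left _).add_left ((zz_comm_A hA).symm.smul_left c)
    · rw [hc]
      exact (Commute.one_left _).add_left ((zz_comm_B hB).symm.smul_left c)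
  | one => exact Commute.one_left _
  | mul x y _ _ hx hy => rw [Units.val_mul]; exact hx.mul_left hy
  | inv x _ hx => exact hx.units_inv_left

theorem exists_fitting [FiniteDimensional k M] (z : Module.End k M) :
    ∃ (E₀ E₁ J : k[X]) (N : ℕ), E₀ + E₁ = 1 ∧ aeval z (E₀ * E₁) = 0 ∧
      z ^ N * aeval z E₀ = 0 ∧ aeval z E₁ = aeval z (J * X * E₁) := by
  have hμ0 : minpoly k z ≠ 0 := minpoly.ne_zero (Algebra.IsIntegral.isIntegral z)
  obtain ⟨μ₁, hμ, hnd⟩ :=
    Polynomial.exists_eq_pow_rootMultiplicity_mul_and_not_dvd (minpoly k z) hμ0 0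
  generalize (minpoly k z).rootMultiplicity 0 = a at hμ
  rw [C_0, sub_zero] at hμ hnd
  have hcop : IsCoprime (X ^ a : k[X]) μ₁ :=
    (irreducible_X.coprime_iff_not_dvd.mpr hnd).pow_left
  obtain ⟨u, v, huv⟩ := hcop
  have hc0 : μ₁.coeff 0 ≠ 0 := by
    intro h
    apply hnd
    rw [X_dvd_iff]
    exact h
  have hμ1 : μ₁ = μ₁.divX * X + C (μ₁.coeff 0) := (divX_mul_X_add μ₁).symm
  have hmin0 : ∀ w : k[X], aeval z (w * minpoly k z) = 0 := fun w => by
    rw [map_mul, minpoly.aeval, mul_zero]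
  refine ⟨v * μ₁, u * X ^ a, - C (μ₁.coeff 0)⁻¹ * μ₁.divX, a, by rw [add_comm]; exact huv,
    ?_, ?_, ?_⟩
  · have : v * μ₁ * (u * X ^ a) = (u * v) * minpoly k z := by
      rw [hμ]
      ring
    rw [this, hmin0]
  · have : z ^ a * aeval z (v * μ₁) = aeval z (v * minpoly k z) := by
      rw [hμ, show v * (X ^ a * μ₁) = X ^ a * (v * μ₁) by ring, map_mul (aeval z) (X ^ a),
        map_pow, aeval_X]
    rw [this, hmin0]
  · have hCC : C (μ₁.coeff 0)⁻¹ * C (μ₁.coeff 0) = (1 : k[X]) := by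
      rw [← C_mul, inv_mul_cancel₀ hc0, C_1]
    have key : u * X ^ a = - C (μ₁.coeff 0)⁻¹ * μ₁.divX * X * (u * X ^ a)
          + (C (μ₁.coeff 0)⁻¹ * u) * minpoly k z := by
      rw [hμ]
      have e1 : C (μ₁.coeff 0)⁻¹ * u * (X ^ a * μ₁)
          = C (μ₁.coeff 0)⁻¹ * u * X ^ a * (μ₁.divX * X + C (μ₁.coeff 0)) := by
        rw [← hμ1]; ring
      rw [e1]
      linear_combination (- u * X ^ a) * hCC
    conv_lhs => rw [key]
    rw [map_add, hmin0, add_zero]

theorem core1 {E : k[X] →ₐ[k] Module.End k M} {A B S S' : Module.End k M}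
    (hEA : ∀ P, A * E P = E P * A) (hEB : ∀ P, B * E P = E P * B)
    (hES : ∀ P, S * E P = E P * S)
    (hA : A * A = 0) (hz : E X = A * B + B * A) (hS'S : S' * S = 1)
    {px pr : k[X]} (hc1 : S * A = E px * A + E pr * (B * A))
    (hc2 : A * S' = E px * A - E pr * (A * B))
    (hAXA : A * (S * A * S') * A = 0)
    {E₀ E₁ J : k[X]} (hE01 : E₀ + E₁ = 1) (hJ : E E₁ = E (J * X * E₁))
    (hSe0 : S * E E₀ = E E₀) :
    E (E₁ * (pr * pr)) = 0 ∧
    A * (S * A * S') - S * A * S' * A = E pr * (E (E₁ * (C 2 * X * px)) * A) := by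
  have hABA : A * (B * A) = E X * A := by
    rw [hz, add_mul, mul_assoc B A A, hA, mul_zero, add_zero, mul_assoc]
  have hEE : ∀ (P Q : k[X]) (Y : Module.End k M), E P * (E Q * Y) = E (P * Q) * Y :=
    fun P Q Y => by rw [← mul_assoc, ← map_mul]
  have hinj : ∀ (Q : k[X]) (T : Module.End k M),
      E (E₁ * (X * Q)) * T = 0 → E (E₁ * Q) * T = 0 := by
    intro Q T h
    have : E (E₁ * Q) * T = E J * (E (E₁ * (X * Q)) * T) := by
      rw [hEE, map_mul E E₁ Q, hJ, ← map_mul]
      rw [show J * X * E₁ * Q = J * (E₁ * (X * Q)) by ring]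
    rw [this, h, mul_zero]
  have hD1 : A * (S * A) = E (pr * X) * A := by
    rw [hc1, mul_add, ← mul_assoc, hEA, mul_assoc, hA, mul_zero, zero_add, ← mul_assoc, hEA,
      mul_assoc, hABA, hEE]
  have hD2 : A * S' * A = -(E (pr * X) * A) := by
    rw [hc2, sub_mul, mul_assoc, hA, mul_zero, zero_sub, mul_assoc, mul_assoc, hABA, hEE]
  have hD4 : A * (S * A * S') = E (pr * X) * (A * S') := by
    rw [← mul_assoc A (S * A) S', hD1, mul_assoc]
  have hD5 : S * A * S' * A = -(E (pr * X) * (S * A)) := by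
    rw [mul_assoc S A S', mul_assoc S (A * S') A, hD2, mul_neg, ← mul_assoc, hES, mul_assoc]
  have hD3 : A * (S * A * S') * A = -(E ((pr * X) * (pr * X)) * A) := by
    rw [hD4, mul_assoc, hD2, mul_neg, hEE]
  have hz2 : E ((pr * X) * (pr * X)) * A = 0 := by
    rw [hD3] at hAXA
    exact neg_eq_zero.mp hAXA
  have hr2A : E (E₁ * (pr * pr)) * A = 0 := by
    apply hinj
    apply hinj
    have : E (E₁ * (X * (X * (pr * pr)))) * A = E E₁ * (E ((pr * X) * (pr * X)) * A) := by
      rw [hEE]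
      rw [show E₁ * (X * (X * (pr * pr))) = E₁ * (pr * X * (pr * X)) by ring]
    rw [this, hz2, mul_zero]
  have hr2 : E (E₁ * (pr * pr)) = 0 := by
    have h1 : E (E₁ * (X * (pr * pr))) * 1 = 0 := by
      rw [mul_one, show E₁ * (X * (pr * pr)) = E₁ * (pr * pr) * X by ring,
        map_mul E (E₁ * (pr * pr)) X, hz, mul_add, ← mul_assoc, hr2A, zero_mul, zero_add,
        ← mul_assoc, ← hEB, mul_assoc, hr2A, mul_zero]
    have := hinj _ _ h1
    rwa [mul_one] at this
  refine ⟨hr2, ?_⟩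
  have hS'e0 : S' * E E₀ = E E₀ := by
    calc S' * E E₀ = S' * (S * E E₀) := by rw [hSe0]
      _ = E E₀ := by rw [← mul_assoc, hS'S, one_mul]
  have hXe0 : S * A * S' * E E₀ = E E₀ * A := by
    rw [mul_assoc, hS'e0, mul_assoc, hEA, ← mul_assoc, hSe0]
  have hZe0 : (A * (S * A * S') - S * A * S' * A) * E E₀ = 0 := by
    rw [sub_mul, mul_assoc A, hXe0, ← mul_assoc, hEA, mul_assoc, hA, mul_zero,
      mul_assoc (S * A * S') A, hEA, ← mul_assoc, hXe0, mul_assoc, hA, mul_zero, sub_zero]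
  have h01 : E E₀ + E E₁ = 1 := by rw [← map_add, hE01, map_one]
  have hZe1 : A * (S * A * S') - S * A * S' * A
      = (A * (S * A * S') - S * A * S' * A) * E E₁ := by
    calc A * (S * A * S') - S * A * S' * A
        = (A * (S * A * S') - S * A * S' * A) * (E E₀ + E E₁) := by rw [h01, mul_one]
      _ = (A * (S * A * S') - S * A * S' * A) * E E₁ := by rw [mul_add, hZe0, zero_add]
  have hEAB : ∀ P, (A * B) * E P = E P * (A * B) := fun P => by
    rw [mul_assoc, hEB, ← mul_assoc, hEA, mul_assoc]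
  have hEBA : ∀ P, (B * A) * E P = E P * (B * A) := fun P => by
    rw [mul_assoc, hEA, ← mul_assoc, hEB, mul_assoc]
  have t1 : ∀ P Q, (E P * A) * E Q = E (P * Q) * A := fun P Q => by
    rw [mul_assoc, hEA, hEE]
  have t2 : ∀ P Q, (E P * (A * B)) * E Q = E (P * Q) * (A * B) := fun P Q => by
    rw [mul_assoc, hEAB, hEE]
  have t3 : ∀ P Q, (E P * (B * A)) * E Q = E (P * Q) * (B * A) := fun P Q => by
    rw [mul_assoc, hEBA, hEE]
  have hb1 : (A * S') * E E₁ = E (px * E₁) * A - E (pr * E₁) * (A * B) := by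
    rw [hc2, sub_mul, t1, t2]
  have hb2 : (S * A) * E E₁ = E (px * E₁) * A + E (pr * E₁) * (B * A) := by
    rw [hc1, add_mul, t1, t3]
  have h0 : E (pr * X * (pr * E₁)) = 0 := by
    rw [show pr * X * (pr * E₁) = E₁ * (pr * pr) * X by ring, map_mul, hr2, zero_mul]
  have hC2 : (C (2 : k) : k[X]) = 1 + 1 := by
    rw [← C_1, ← C_add]
    norm_num
  rw [hZe1, hD4, hD5, sub_neg_eq_add, add_mul, mul_assoc (E (pr * X)) (A * S'),
    mul_assoc (E (pr * X)) (S * A), hb1, hb2, mul_sub,
    mul_add, hEE, hEE, hEE, h0, zero_mul, sub_zero, zero_mul, add_zero, hEE,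
    show pr * (E₁ * (C 2 * X * px)) = pr * X * (px * E₁) + pr * X * (px * E₁) by
      rw [hC2]; ring,
    map_add, add_mul]

theorem core2 {E : k[X] →ₐ[k] Module.End k M} {A B S S' : Module.End k M}
    (h2 : (2 : k) ≠ 0)
    (hEA : ∀ P, A * E P = E P * A) (hEB : ∀ P, B * E P = E P * B)
    (hS'S : S' * S = 1)
    {px pr : k[X]} (hc1 : S * A = E px * A + E pr * (B * A))
    (hc2 : A * S' = E px * A - E pr * (A * B))
    {E₀ E₁ J : k[X]} (hE01 : E₀ + E₁ = 1) (hJ : E E₁ = E (J * X * E₁))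
    (hSe0 : S * E E₀ = E E₀)
    (hr2 : E (E₁ * (pr * pr)) = 0)
    (hT : E pr * (E (E₁ * (C 2 * X * px)) * A) = 0) :
    S * A = E (E₀ + px * E₁) * A ∧ A * S' = E (E₀ + px * E₁) * A := by
  have hEE : ∀ (P Q : k[X]) (Y : Module.End k M), E P * (E Q * Y) = E (P * Q) * Y :=
    fun P Q Y => by rw [← mul_assoc, ← map_mul]
  have hinj : ∀ (Q : k[X]) (T : Module.End k M),
      E (E₁ * (X * Q)) * T = 0 → E (E₁ * Q) * T = 0 := by
    intro Q T h
    have : E (E₁ * Q) * T = E J * (E (E₁ * (X * Q)) * T) := by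
      rw [hEE, map_mul E E₁ Q, hJ, ← map_mul]
      rw [show J * X * E₁ * Q = J * (E₁ * (X * Q)) by ring]
    rw [this, h, mul_zero]
  have hEAB : ∀ P, (A * B) * E P = E P * (A * B) := fun P => by
    rw [mul_assoc, hEB, ← mul_assoc, hEA, mul_assoc]
  have hEBA : ∀ P, (B * A) * E P = E P * (B * A) := fun P => by
    rw [mul_assoc, hEA, ← mul_assoc, hEB, mul_assoc]
  have t1 : ∀ P Q, (E P * A) * E Q = E (P * Q) * A := fun P Q => by
    rw [mul_assoc, hEA, hEE]
  have t2 : ∀ P Q, (E P * (A * B)) * E Q = E (P * Q) * (A * B) := fun P Q => by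
    rw [mul_assoc, hEAB, hEE]
  have t3 : ∀ P Q, (E P * (B * A)) * E Q = E (P * Q) * (B * A) := fun P Q => by
    rw [mul_assoc, hEBA, hEE]
  have hb1 : (A * S') * E E₁ = E (px * E₁) * A - E (pr * E₁) * (A * B) := by
    rw [hc2, sub_mul, t1, t2]
  have hb2 : (S * A) * E E₁ = E (px * E₁) * A + E (pr * E₁) * (B * A) := by
    rw [hc1, add_mul, t1, t3]
  have hS'e0 : S' * E E₀ = E E₀ := by
    calc S' * E E₀ = S' * (S * E E₀) := by rw [hSe0]
      _ = E E₀ := by rw [← mul_assoc, hS'S, one_mul]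
  have h01 : E E₀ + E E₁ = 1 := by rw [← map_add, hE01, map_one]
  -- `x r A = 0` on the Fitting one-component
  have hxr : E (E₁ * (px * pr)) * A = 0 := by
    apply hinj
    have e : E (C 2 * (E₁ * (X * (px * pr)))) * A = 0 := by
      rw [hEE] at hT
      rw [show C 2 * (E₁ * (X * (px * pr))) = pr * (E₁ * (C 2 * X * px)) by ring]
      exact hT
    rw [C_mul', map_smul, smul_mul_assoc, smul_eq_zero] at e
    exact e.resolve_left h2
  have hrA : E (pr * E₁) * A = 0 := by
    have eA : A = (A * S') * S := by rw [mul_assoc, hS'S, mul_one]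
    have e1 : E (pr * E₁ * px) * A = 0 := by
      rw [show pr * E₁ * px = E₁ * (px * pr) by ring]
      exact hxr
    have e2 : E (pr * E₁ * pr) = 0 := by
      rw [show pr * E₁ * pr = E₁ * (pr * pr) by ring]
      exact hr2
    calc E (pr * E₁) * A = E (pr * E₁) * ((A * S') * S) := by rw [← eA]
      _ = (E (pr * E₁ * px) * A - E (pr * E₁ * pr) * (A * B)) * S := by
          rw [hc2, ← mul_assoc, mul_sub, hEE, hEE]
      _ = 0 := by rw [e1, e2, zero_mul, sub_zero, zero_mul]
  constructor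
  · calc S * A = (S * A) * (E E₀ + E E₁) := by rw [h01, mul_one]
      _ = E E₀ * A + (E (px * E₁) * A + E (pr * E₁) * (B * A)) := by
          rw [mul_add, hb2, mul_assoc, hEA, ← mul_assoc, hSe0]
      _ = E E₀ * A + E (px * E₁) * A := by
          rw [← mul_assoc (E (pr * E₁)) B A, ← hEB, mul_assoc, hrA, mul_zero, add_zero]
      _ = E (E₀ + px * E₁) * A := by rw [map_add, add_mul]
  · calc A * S' = (A * S') * (E E₀ + E E₁) := by rw [h01, mul_one]
      _ = E E₀ * A + (E (px * E₁) * A - E (pr * E₁) * (A * B)) := by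
          rw [mul_add, hb1, mul_assoc, hS'e0, hEA]
      _ = E E₀ * A + E (px * E₁) * A := by
          rw [← mul_assoc (E (pr * E₁)) A B, hrA, zero_mul, sub_zero]
      _ = E (E₀ + px * E₁) * A := by rw [map_add, add_mul]

end lin

end Cfsg.Agent.Lib.Helper50.QP.Step2

namespace Cfsg.Agent.Lib.Helper50.QP

open Polynomial Cfsg Cfsg.Agent.Lib.Helper50.QR

universe u v

variable {k : Type u} [Field k] {M : Type v} [AddCommGroup M] [Module k M] [FiniteDimensional k M]

/-- J7: an element of order prime to `p` normalizing a Sylow `p`-subgroup that contains the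
family `1 + cA` is "upper triangular": `s A = q(z) A`, `A s⁻¹ = q(z) A` -/
theorem step2_sylow [Finite k] (p : ℕ) [Fact p.Prime] [CharP k p] (h2 : (2 : k) ≠ 0)
    {A B : Module.End k M} (hA : A * A = 0) (hB : B * B = 0) (hnz : ¬ IsNilpotent (zz A B))
    {d : ℕ} (hdA : Module.finrank k (LinearMap.range A) = d) (hmin : MinRank (genH A B) d)
    (P : Sylow p ↥(genH A B))
    (hP : ∀ (g : genH A B) (c : k),
      ((g : LinearMap.GeneralLinearGroup k M) : Module.End k M) = 1 + c • A → g ∈ P)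
    (s : genH A B)
    (hs : s ∈ Subgroup.normalizer ((P : Subgroup ↥(genH A B)) : Set ↥(genH A B)))
    (hc : (orderOf s).Coprime p) :
    ∃ q : k[X],
      ((s : LinearMap.GeneralLinearGroup k M) : Module.End k M) * A = aeval (zz A B) q * A ∧
      A * (((s : LinearMap.GeneralLinearGroup k M)⁻¹ : LinearMap.GeneralLinearGroup k M) :
        Module.End k M) = aeval (zz A B) q * A := by
  classical
  -- `A ≠ 0` and `d ≥ 1`
  have hA0 : A ≠ 0 := by
    rintro rfl
    exact hnz ⟨1, by simp [zz]⟩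
  have hd1 : 1 ≤ d := by
    rw [← hdA, Nat.one_le_iff_ne_zero]
    intro h0
    rw [Submodule.finrank_eq_zero] at h0
    exact hA0 (LinearMap.range_eq_bot.mp h0)
  have : Nontrivial (Module.End k M) := nontrivial_of_ne A 0 hA0
  have : CharP (Module.End k M) p :=
    charP_of_injective_algebraMap (algebraMap k (Module.End k M)).injective p
  -- the column of `s`
  obtain ⟨px, pr, hc1, hc2⟩ := exists_col hA hB s.2
  have hsz : Commute ((s : LinearMap.GeneralLinearGroup k M) : Module.End k M) (zz A B) :=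
    Step2.genH_commute hA hB s.2
  have hsz' : Commute (((s : LinearMap.GeneralLinearGroup k M)⁻¹ :
      LinearMap.GeneralLinearGroup k M) : Module.End k M) (zz A B) :=
    Step2.genH_commute hA hB (inv_mem s.2)
  have hSS'0 : ((s : LinearMap.GeneralLinearGroup k M) : Module.End k M) *
      (((s : LinearMap.GeneralLinearGroup k M)⁻¹ : LinearMap.GeneralLinearGroup k M) :
        Module.End k M) = 1 := Units.mul_inv _
  have hS'S0 : (((s : LinearMap.GeneralLinearGroup k M)⁻¹ : LinearMap.GeneralLinearGroup k M) :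
        Module.End k M) * ((s : LinearMap.GeneralLinearGroup k M) : Module.End k M) = 1 :=
    Units.inv_mul _
  have hfX0 := (fam_A B hA).conj s.2
  -- the element `σ = 1 + A` and its conjugate lie in `P`
  have hσmem : mkU ((1 : k) • A) (smul_sq0 hA 1) ∈ genH A B := mkU_A_mem B hA 1
  have hσv : (((⟨mkU ((1 : k) • A) (smul_sq0 hA 1), hσmem⟩ : genH A B) :
      LinearMap.GeneralLinearGroup k M) : Module.End k M) = 1 + (1 : k) • A := rfl
  have hσP : (⟨mkU ((1 : k) • A) (smul_sq0 hA 1), hσmem⟩ : genH A B) ∈ P := hP _ 1 hσv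
  have hρP := (Subgroup.mem_normalizer_iff.mp hs _).mp hσP
  have hσρP := mul_mem hσP hρP
  obtain ⟨a, ha⟩ := P.isPGroup' ⟨_, hσρP⟩
  have ha1 := congrArg (fun g : ↥(P : Subgroup ↥(genH A B)) =>
    (((g : ↥(genH A B)) : LinearMap.GeneralLinearGroup k M) : Module.End k M)) ha
  simp only [SubmonoidClass.coe_pow, Subgroup.coe_mul, Subgroup.coe_inv,
    Units.val_pow_eq_pow_val, Units.val_mul, OneMemClass.coe_one, Units.val_one] at ha1
  -- orders
  have hc' : (orderOf (s : LinearMap.GeneralLinearGroup k M)).Coprime p := by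
    rw [Subgroup.orderOf_coe]
    exact hc
  have hpp := pprime_trivial p hA hB s.2 hc'
  -- abstract the endomorphisms of `s` and `s⁻¹`
  generalize (((s : LinearMap.GeneralLinearGroup k M)⁻¹ : LinearMap.GeneralLinearGroup k M) :
        Module.End k M) = S' at *
  generalize ((s : LinearMap.GeneralLinearGroup k M) : Module.End k M) = S at *
  rw [coe_mkU, one_smul] at ha1
  have ha2 : ((1 + A) * (1 + S * A * S')) ^ (p ^ a) = 1 := by
    have e : S * (1 + A) * S' = 1 + S * A * S' := by rw [mul_add, add_mul, mul_one, hSS'0]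
    rw [← e]
    exact ha1
  have hXX : S * A * S' * (S * A * S') = 0 := hfX0.1
  have hζ : IsNilpotent (A * (S * A * S') + S * A * S' * A) := Step2.zeta_nilp p hA hXX a ha2
  have hdX : Module.finrank k (LinearMap.range (S * A * S')) ≤ d := by
    have hle : LinearMap.range (S * A * S') ≤ (LinearMap.range A).map S := by
      rintro _ ⟨m, rfl⟩
      exact ⟨A (S' m), ⟨S' m, rfl⟩, rfl⟩
    calc Module.finrank k (LinearMap.range (S * A * S'))
        ≤ Module.finrank k ((LinearMap.range A).map S) := Submodule.finrank_mono hle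
      _ ≤ Module.finrank k (LinearMap.range A) := Submodule.finrank_map_le S _
      _ = d := hdA
  obtain ⟨hAXA, hXAX⟩ := g1 h2 hζ (fam_A B hA) hfX0 hmin hdA.le hdX
  obtain ⟨E₀, E₁, J, N, hE01, hE0E1, hzN, hJ⟩ := Step2.exists_fitting (zz A B)
  have hEA : ∀ P : k[X], A * aeval (zz A B) P = aeval (zz A B) P * A :=
    fun P => (Step2.commute_aeval (zz_comm_A hA).symm P).eq
  have hEB : ∀ P : k[X], B * aeval (zz A B) P = aeval (zz A B) P * B :=
    fun P => (Step2.commute_aeval (zz_comm_B hB).symm P).eq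
  have hES : ∀ P : k[X], S * aeval (zz A B) P = aeval (zz A B) P * S :=
    fun P => (Step2.commute_aeval hsz P).eq
  have hzX : aeval (zz A B) (X : k[X]) = A * B + B * A := by
    rw [aeval_X]
    rfl
  have hSe0 : S * aeval (zz A B) E₀ = aeval (zz A B) E₀ := by
    apply LinearMap.ext
    intro m
    show S (aeval (zz A B) E₀ m) = aeval (zz A B) E₀ m
    apply hpp _ N
    have := congrArg (fun f : Module.End k M => f m) hzN
    simpa using this
  obtain ⟨hr2, hZf⟩ := Step2.core1 hEA hEB hES hA hzX hS'S0 hc1 hc2 hAXA hE01 hJ hSe0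
  -- the commutator family
  have hfZ : Fam (genH A B) (A * (S * A * S') - S * A * S' * A) := by
    refine ⟨Step2.comm_sq hA hXX hAXA hXAX, fun c => ?_⟩
    obtain ⟨gX, hgXm, hgXv⟩ := hfX0.2 1
    rw [one_smul] at hgXv
    have hgA := mkU_A_mem B hA c
    refine ⟨mkU (c • A) (smul_sq0 hA c) * gX * (mkU (c • A) (smul_sq0 hA c))⁻¹ * gX⁻¹,
      mul_mem (mul_mem (mul_mem hgA hgXm) (inv_mem hgA)) (inv_mem hgXm), ?_⟩
    rw [Units.val_mul, Units.val_mul, Units.val_mul, Step2.inv_val_of_sq0 gX hXX hgXv,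
      Step2.inv_val_of_sq0 _ (smul_sq0 hA c) (coe_mkU (c • A) (smul_sq0 hA c)), coe_mkU, hgXv]
    have h1 : c • A * (S * A * S') * (c • A) = 0 := by
      rw [smul_mul_assoc, smul_mul_assoc, mul_smul_comm, hAXA, smul_zero, smul_zero]
    have h2' : S * A * S' * (c • A) * (S * A * S') = 0 := by
      rw [mul_smul_comm, smul_mul_assoc, hXAX, smul_zero]
    rw [Step2.comm_val (smul_sq0 hA c) hXX h1 h2', smul_mul_assoc, mul_smul_comm, ← smul_sub]
  -- rank argument: the commutator vanishes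
  have hZ0 : A * (S * A * S') - S * A * S' * A = 0 := by
    by_contra hne
    have h1 := hmin _ hfZ hne
    rw [hZf] at h1
    have hcommQ : ∀ Q : k[X], aeval (zz A B) pr * (aeval (zz A B) Q * A)
        = (aeval (zz A B) Q * A) * aeval (zz A B) pr := by
      intro Q
      rw [mul_assoc (aeval (zz A B) Q) A, hEA, ← mul_assoc, ← mul_assoc, ← map_mul, ← map_mul,
        mul_comm pr]
    have h00Q : ∀ Q : k[X], aeval (zz A B) pr * (aeval (zz A B) pr * (aeval (zz A B) Q * A))
        = aeval (zz A B) (pr * pr * Q) * A := by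
      intro Q
      rw [← mul_assoc, ← mul_assoc, ← map_mul, ← map_mul]
    have hcomm := hcommQ (E₁ * (C 2 * X * px))
    have h00 : aeval (zz A B) pr *
        (aeval (zz A B) pr * (aeval (zz A B) (E₁ * (C 2 * X * px)) * A)) = 0 := by
      rw [h00Q, show pr * pr * (E₁ * (C 2 * X * px)) = E₁ * (pr * pr) * (C 2 * X * px) by ring,
        map_mul, hr2, zero_mul, zero_mul]
    have h3 := Step2.two_rank_le _ _ hcomm h00
    have h4 : Module.finrank k
        (LinearMap.range (aeval (zz A B) (E₁ * (C 2 * X * px)) * A)) ≤ d := by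
      rw [← hEA, ← hdA]
      exact Submodule.finrank_mono (LinearMap.range_comp_le_range _ _)
    omega
  rw [hZf] at hZ0
  obtain ⟨h1, h2'⟩ := Step2.core2 h2 hEA hEB hS'S0 hc1 hc2 hE01 hJ hSe0 hr2 hZ0
  exact ⟨_, h1, h2'⟩

end Cfsg.Agent.Lib.Helper50.QP
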