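import Cfsg.Agent.Lib.Helper50.QpDefs
import Cfsg.Agent.Lib.Helper50.AlgGenA

set_option autoImplicit false

namespace Cfsg.Agent.Lib.Helper50.QP.Syl

open Cfsg.Agent.Lib.Helper50

variable {F : Type*} [Field F]

/-- the upper unitriangular subgroup of `SL₂(F)` -/
def upperUni : Subgroup (Matrix.SpecialLinearGroup (Fin 2) F) where
  carrier := {g | g.1 1 0 = 0 ∧ g.1 0 0 = 1}
  one_mem' := ⟨AG.one10, AG.one00⟩
  mul_mem' := by
    rintro g h ⟨hg1, hg2⟩ ⟨hh1, hh2⟩
    refine ⟨?_, ?_⟩
    · rw [AG.mul10, hg1, hh1]; ring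
    · rw [AG.mul00, hg2, hh2, hh1]; ring
  inv_mem' := by
    rintro g ⟨hg1, hg2⟩
    have hdet := AG.det_eq g
    rw [hg1, hg2] at hdet
    refine ⟨?_, ?_⟩
    · rw [AG.inv10, hg1, neg_zero]
    · rw [AG.inv00]; linear_combination hdet

theorem mem_upperUni (g : Matrix.SpecialLinearGroup (Fin 2) F) :
    g ∈ (upperUni : Subgroup (Matrix.SpecialLinearGroup (Fin 2) F)) ↔
      g.1 1 0 = 0 ∧ g.1 0 0 = 1 := Iff.rfl

/-- upper triangular matrices normalize the upper unitriangular subgroup -/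
theorem conj_mem_upperUni (d g : Matrix.SpecialLinearGroup (Fin 2) F) (hd : d.1 1 0 = 0)
    (hg : g ∈ (upperUni : Subgroup (Matrix.SpecialLinearGroup (Fin 2) F))) :
    d⁻¹ * g * d ∈ (upperUni : Subgroup (Matrix.SpecialLinearGroup (Fin 2) F)) := by
  obtain ⟨hg1, hg2⟩ := hg
  have hdet := AG.det_eq d
  rw [hd] at hdet
  refine ⟨?_, ?_⟩
  · rw [AG.mul10, AG.mul10, AG.mul11, AG.inv10, AG.inv11, hd, hg1, hg2]; ring
  · rw [AG.mul00, AG.mul00, AG.mul01, AG.inv00, AG.inv01, hd, hg1, hg2]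
    linear_combination hdet

/-- powers of an upper triangular matrix -/
theorem pow_upper (g : Matrix.SpecialLinearGroup (Fin 2) F) (t : F) (h10 : g.1 1 0 = 0)
    (h00 : g.1 0 0 = t) (k : ℕ) : (g ^ k).1 1 0 = 0 ∧ (g ^ k).1 0 0 = t ^ k := by
  induction k with
  | zero => exact ⟨AG.one10, by rw [pow_zero, pow_zero]; exact AG.one00⟩
  | succ k ih =>
    obtain ⟨ih1, ih2⟩ := ih
    refine ⟨?_, ?_⟩
    · rw [pow_succ, AG.mul10, ih1, h10]; ring
    · rw [pow_succ, AG.mul00, ih2, h10, h00]; ring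

/-- a `p`-subgroup of `SL₂(F)` (`F` finite of characteristic `p`) containing `uK 1` is upper
unitriangular -/
theorem le_upperUni [Finite F] (p : ℕ) [Fact p.Prime] [CharP F p]
    (V : Subgroup (Matrix.SpecialLinearGroup (Fin 2) F)) (hV : IsPGroup p V)
    (h1 : AG.uK (1 : F) ∈ V) : V ≤ upperUni := by
  let act : MulAction V (Fin 2 → F) :=
    { smul := fun g v => (g : Matrix.SpecialLinearGroup (Fin 2) F).1.mulVec v
      one_smul := fun v => by
        show (1 : Matrix (Fin 2) (Fin 2) F).mulVec v = v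
        exact Matrix.one_mulVec v
      mul_smul := fun g h v => by
        show ((g : Matrix.SpecialLinearGroup (Fin 2) F).1 *
          (h : Matrix.SpecialLinearGroup (Fin 2) F).1).mulVec v =
          (g : Matrix.SpecialLinearGroup (Fin 2) F).1.mulVec
            ((h : Matrix.SpecialLinearGroup (Fin 2) F).1.mulVec v)
        rw [Matrix.mulVec_mulVec] }
  have hsmul : ∀ (g : V) (v : Fin 2 → F),
      g • v = (g : Matrix.SpecialLinearGroup (Fin 2) F).1.mulVec v := fun _ _ => rfl
  have hp_dvd : p ∣ Nat.card (Fin 2 → F) := by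
    have hpF : p ∣ Nat.card F := by
      have h := addOrderOf_dvd_natCard (1 : F)
      have e : addOrderOf (1 : F) = p := CharP.eq F (CharP.addOrderOf_one F) inferInstance
      rwa [e] at h
    rw [Nat.card_fun, Nat.card_fin]
    exact dvd_pow hpF two_ne_zero
  have h0 : (0 : Fin 2 → F) ∈ MulAction.fixedPoints V (Fin 2 → F) := by
    intro g
    rw [hsmul]
    exact Matrix.mulVec_zero _
  obtain ⟨b, hb, hb0⟩ := hV.exists_fixed_point_of_prime_dvd_card_of_fixed_point
    (Fin 2 → F) hp_dvd h0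
  have hfix : ∀ g : Matrix.SpecialLinearGroup (Fin 2) F, g ∈ V →
      g.1 0 0 * b 0 + g.1 0 1 * b 1 = b 0 ∧ g.1 1 0 * b 0 + g.1 1 1 * b 1 = b 1 := by
    intro g hg
    have h := hb ⟨g, hg⟩
    rw [hsmul] at h
    have e0 := congrFun h 0
    have e1 := congrFun h 1
    rw [Matrix.mulVec, dotProduct, Fin.sum_univ_two] at e0 e1
    exact ⟨e0, e1⟩
  have hb1 : b 1 = 0 := by
    have h := (hfix _ h1).1
    rw [AG.uK00, AG.uK01] at h
    linear_combination h
  have hb0' : b 0 ≠ 0 := by
    intro h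
    apply hb0
    funext i
    fin_cases i
    · exact h.symm
    · exact hb1.symm
  intro g hg
  obtain ⟨e0, e1⟩ := hfix g hg
  rw [hb1] at e0 e1
  refine ⟨?_, ?_⟩
  · have : g.1 1 0 * b 0 = 0 := by linear_combination e1
    rcases mul_eq_zero.mp this with h | h
    · exact h
    · exact absurd h hb0'
  · have : (g.1 0 0 - 1) * b 0 = 0 := by linear_combination e0
    rcases mul_eq_zero.mp this with h | h
    · exact sub_eq_zero.mp h
    · exact absurd h hb0'

end Cfsg.Agent.Lib.Helper50.QP.Syl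

namespace Cfsg.Agent.Lib.Helper50.QP

open Polynomial Cfsg Cfsg.Agent.Lib.Helper50.QR

universe u v

variable {k : Type u} [Field k] {M : Type v} [AddCommGroup M] [Module k M] [FiniteDimensional k M]

/-- J3: lifting torus elements through a surjection onto `SL₂(F)` into the normalizer of a
Sylow `p`-subgroup -/
theorem sylow_torus {H : Type*} [Group H] [Finite H] {F : Type*} [Field F] [Finite F]
    (p : ℕ) [Fact p.Prime] [CharP F p]
    (π : H →* Matrix.SpecialLinearGroup (Fin 2) F) (hπ : Function.Surjective π)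
    (P : Sylow p H) (u : H) (hu : u ∈ P) (hπu : π u = AG.uK 1) (t : F) (ht : t ≠ 0) :
    ∃ s : H, s ∈ Subgroup.normalizer ((P : Subgroup H) : Set H) ∧ (orderOf s).Coprime p ∧
      (π s).1 1 0 = 0 ∧ (π s).1 0 0 = t := by
  classical
  have hpr : p.Prime := Fact.out
  -- the image of `P` is upper unitriangular
  have hPU : (P : Subgroup H).map π ≤ Syl.upperUni := by
    apply Syl.le_upperUni p _ (P.isPGroup'.map π)
    rw [← hπu]
    exact Subgroup.mem_map_of_mem π hu
  -- the diagonal element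
  let D : Matrix.SpecialLinearGroup (Fin 2) F :=
    ⟨!![t, 0; 0, t⁻¹], by simp [Matrix.det_fin_two, ht]⟩
  have hD10 : D.1 1 0 = 0 := rfl
  have hD00 : D.1 0 0 = t := rfl
  obtain ⟨h, hh⟩ := hπ D⁻¹
  -- the preimage of the upper unitriangular group
  let B0 : Subgroup H := Syl.upperUni.comap π
  have h1 : (P : Subgroup H) ≤ B0 := by
    intro x hx
    exact hPU (Subgroup.mem_map_of_mem π hx)
  have h2 : ((h • P : Sylow p H) : Subgroup H) ≤ B0 := by
    intro x hx
    rw [Sylow.coe_subgroup_smul] at hx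
    obtain ⟨y, hy, rfl⟩ := (Subgroup.mem_smul_pointwise_iff_exists _ _ _).1 hx
    show π (MulAut.conj h • y) ∈ Syl.upperUni
    rw [MulAut.smul_def, MulAut.conj_apply, map_mul, map_mul, map_inv, hh, inv_inv]
    exact Syl.conj_mem_upperUni D (π y) hD10 (h1 hy)
  -- Sylow conjugacy inside `B0`
  obtain ⟨b, hb⟩ := MulAction.exists_smul_eq (↥B0) (P.subtype h1) ((h • P).subtype h2)
  rw [Sylow.smul_subtype] at hb
  have hb' : (b : H) • P = h • P := Sylow.subtype_injective hb
  have hn : (h⁻¹ * (b : H)) • P = P := by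
    rw [mul_smul, hb', inv_smul_smul]
  rw [Sylow.smul_eq_iff_mem_normalizer] at hn
  have hπn10 : (π (h⁻¹ * (b : H))).1 1 0 = 0 := by
    have hbU : π (b : H) ∈ Syl.upperUni := b.2
    rw [map_mul, map_inv, hh, inv_inv, AG.mul10, hbU.1, hD10]; ring
  have hπn00 : (π (h⁻¹ * (b : H))).1 0 0 = t := by
    have hbU : π (b : H) ∈ Syl.upperUni := b.2
    rw [map_mul, map_inv, hh, inv_inv, AG.mul00, hbU.1, hbU.2, hD00]; ring
  -- pass to a suitable power
  set n : H := h⁻¹ * (b : H) with hn_def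
  have : Fintype F := Fintype.ofFinite F
  set q : ℕ := Fintype.card F with hq
  have hpq : p ∣ q := by
    have h := addOrderOf_dvd_natCard (1 : F)
    have e : addOrderOf (1 : F) = p := CharP.eq F (CharP.addOrderOf_one F) inferInstance
    rwa [e, Nat.card_eq_fintype_card] at h
  have hN0 : orderOf n ≠ 0 := (orderOf_pos n).ne'
  obtain ⟨e, m, hm, hNe⟩ := Nat.exists_eq_pow_mul_and_not_dvd hN0 p hpr.ne_one
  refine ⟨n ^ (q ^ orderOf n), ?_, ?_, ?_, ?_⟩
  · exact pow_mem hn _
  · have hdvd : orderOf (n ^ (q ^ orderOf n)) ∣ m := by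
      apply orderOf_dvd_of_pow_eq_one
      rw [← pow_mul]
      apply orderOf_dvd_iff_pow_eq_one.mp
      have he : e ≤ orderOf n := by
        have h1 : e < p ^ e := Nat.lt_pow_self hpr.one_lt
        have h2 : p ^ e ≤ orderOf n := by
          apply Nat.le_of_dvd (orderOf_pos n)
          rw [hNe]
          exact dvd_mul_right _ _
        omega
      have h3 : p ^ e ∣ q ^ orderOf n := (pow_dvd_pow p he).trans (pow_dvd_pow_of_dvd hpq _)
      conv_lhs => rw [hNe]
      exact mul_dvd_mul h3 dvd_rfl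
    have hcop : Nat.Coprime m p := ((Nat.Prime.coprime_iff_not_dvd hpr).2 hm).symm
    exact Nat.Coprime.coprime_dvd_left hdvd hcop
  · rw [map_pow]
    exact (Syl.pow_upper _ t hπn10 hπn00 _).1
  · rw [map_pow, (Syl.pow_upper _ t hπn10 hπn00 _).2]
    exact FiniteField.pow_card_pow _ t

end Cfsg.Agent.Lib.Helper50.QP
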