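import Cfsg.Agent.Lib.Helper50.QpRes
import Cfsg.Agent.Lib.Helper50.QpFinal
import Cfsg.Agent.Lib.Helper50.QpSyl

set_option autoImplicit false

namespace Cfsg.Agent.Lib.Helper50.QP

open Polynomial Cfsg Cfsg.Agent.Lib.Helper50.QR

universe u v

variable {k : Type u} [Field k] {M : Type v} [AddCommGroup M] [Module k M] [FiniteDimensional k M]

namespace Tor

/-- an element commuting with `b` commutes with every polynomial in `b` -/
theorem commute_aeval {E : Type*} [Ring E] [Algebra k E] {a b : E} (h : Commute a b)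
    (f : k[X]) : Commute a (aeval b f) := by
  rw [Polynomial.aeval_eq_sum_range]
  exact Commute.sum_right _ _ _ (fun i _ => (h.pow_right i).smul_right _)

/-- polynomials in an endomorphism of a submodule induced by an endomorphism of the big module -/
theorem aeval_sub {V : Type*} [AddCommGroup V] [Module k V] (S : Submodule k V)
    (f : Module.End k V) (f' : Module.End k S)
    (hf : ∀ s : S, ((f' s : S) : V) = f (s : V)) (g : k[X]) (s : S) :
    ((aeval f' g s : S) : V) = aeval f g (s : V) := by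
  induction g using Polynomial.induction_on generalizing s with
  | C a => simp [Polynomial.aeval_C, Module.algebraMap_end_apply]
  | add p q hp hq => simp [hp, hq]
  | monomial n a ih =>
    have e1 : aeval f' (C a * X ^ (n + 1)) = aeval f' (C a * X ^ n) * f' := by
      rw [pow_succ, ← mul_assoc, map_mul, aeval_X]
    have e2 : aeval f (C a * X ^ (n + 1)) = aeval f (C a * X ^ n) * f := by
      rw [pow_succ, ← mul_assoc, map_mul, aeval_X]
    rw [e1, e2, Module.End.mul_apply, Module.End.mul_apply, ih, hf]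

/-- polynomials in two endomorphisms agreeing on an invariant submodule agree there -/
theorem aeval_agree {V : Type*} [AddCommGroup V] [Module k V] (S : Submodule k V)
    (f1 f2 : Module.End k V) (h : ∀ s ∈ S, f1 s = f2 s) (hS : ∀ s ∈ S, f2 s ∈ S) (g : k[X])
    (s : V) (hs : s ∈ S) : aeval f1 g s = aeval f2 g s := by
  induction g using Polynomial.induction_on generalizing s with
  | C a => simp [Polynomial.aeval_C, Module.algebraMap_end_apply]
  | add p q hp hq => simp [hp s hs, hq s hs]
  | monomial n a ih =>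
    have e1 : aeval f1 (C a * X ^ (n + 1)) = aeval f1 (C a * X ^ n) * f1 := by
      rw [pow_succ, ← mul_assoc, map_mul, aeval_X]
    have e2 : aeval f2 (C a * X ^ (n + 1)) = aeval f2 (C a * X ^ n) * f2 := by
      rw [pow_succ, ← mul_assoc, map_mul, aeval_X]
    rw [e1, e2, Module.End.mul_apply, Module.End.mul_apply, h s hs, ih (f2 s) (hS s hs)]

end Tor

/-- J6b: torus elements in the normalizer of a Sylow `p`-subgroup containing the family `1 + cA` -/
theorem torus_sylow [Finite k] (p : ℕ) [Fact p.Prime] [CharP k p] (hk2 : ringChar k ≠ 2)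
    (hk3 : Nat.card k ≠ 3) {A B : Module.End k M} (hA : A * A = 0) (hB : B * B = 0)
    (hnz : ¬ IsNilpotent (zz A B)) (P : Sylow p ↥(genH A B))
    (hP : ∀ (g : genH A B) (c : k),
      ((g : LinearMap.GeneralLinearGroup k M) : Module.End k M) = 1 + c • A → g ∈ P) :
    ∃ W' : Submodule k M, W' ≠ ⊥ ∧ W' ≤ LinearMap.range A ∧
      (∀ w ∈ W', zz A B w ∈ W') ∧
      (∀ w ∈ W', zz A B w = 0 → w = 0) ∧
      (∃ g₀ : k[X], ∀ w ∈ W', zz A B (aeval (zz A B) g₀ w) = -w) ∧
      (∀ g : k[X], (∃ w ∈ W', aeval (zz A B) g w ≠ 0) →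
        ∃ s : genH A B,
          s ∈ Subgroup.normalizer ((P : Subgroup ↥(genH A B)) : Set ↥(genH A B)) ∧
          (orderOf s).Coprime p ∧
          ∀ w ∈ W', ((s : LinearMap.GeneralLinearGroup k M) : Module.End k M) w =
            aeval (zz A B) g w) := by
  classical
  have hzA : Commute (zz A B) A := zz_comm_A hA
  have hzB : Commute (zz A B) B := zz_comm_B hB
  have hμ0 : minpoly k (zz A B) ≠ 0 := minpoly.ne_zero (Algebra.IsIntegral.isIntegral _)
  -- an irreducible factor of the minimal polynomial different from `X`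
  obtain ⟨p₁, hp₁irr, hp₁dvd, hp₁X⟩ :
      ∃ p₁ : k[X], Irreducible p₁ ∧ p₁ ∣ minpoly k (zz A B) ∧ ¬ X ∣ p₁ := by
    obtain ⟨q, hq, hqX⟩ :=
      Polynomial.exists_eq_pow_rootMultiplicity_mul_and_not_dvd (minpoly k (zz A B)) hμ0 0
    rw [C_0, sub_zero] at hq hqX
    have hq0 : q ≠ 0 := by
      rintro rfl
      rw [mul_zero] at hq
      exact hμ0 hq
    have hqu : ¬ IsUnit q := by
      intro hu
      apply hnz
      refine ⟨rootMultiplicity 0 (minpoly k (zz A B)), ?_⟩
      have h1 := minpoly.aeval k (zz A B)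
      rw [hq, map_mul, map_pow, aeval_X] at h1
      have h2 : IsUnit (aeval (zz A B) q) := hu.map (aeval (zz A B))
      exact (h2.mul_left_eq_zero).mp h1
    obtain ⟨p₁, hirr, hdvd⟩ := WfDvdMonoid.exists_irreducible_factor hqu hq0
    exact ⟨p₁, hirr, hdvd.trans ⟨_, by rw [hq, mul_comm]⟩, fun hX => hqX (hX.trans hdvd)⟩
  -- the subspace N = ker p₁(z)
  obtain ⟨N, hNmem⟩ : ∃ N : Submodule k M, ∀ m, m ∈ N ↔ aeval (zz A B) p₁ m = 0 :=
    ⟨LinearMap.ker (aeval (zz A B) p₁), fun m => LinearMap.mem_ker⟩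
  have hNA : ∀ m ∈ N, A m ∈ N := by
    intro m hm
    rw [hNmem] at hm ⊢
    have h1 := congrArg (fun f : Module.End k M => f m)
      (Tor.commute_aeval hzA.symm p₁).eq
    simp only [Module.End.mul_apply] at h1
    rw [← h1, hm, map_zero]
  have hNB : ∀ m ∈ N, B m ∈ N := by
    intro m hm
    rw [hNmem] at hm ⊢
    have h1 := congrArg (fun f : Module.End k M => f m)
      (Tor.commute_aeval hzB.symm p₁).eq
    simp only [Module.End.mul_apply] at h1
    rw [← h1, hm, map_zero]
  have hNne : N ≠ ⊥ := by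
    intro hbot
    obtain ⟨q, hq⟩ := hp₁dvd
    have h1 := minpoly.aeval k (zz A B)
    rw [hq, map_mul] at h1
    have h2 : aeval (zz A B) q = 0 := by
      ext m
      have h3 : aeval (zz A B) p₁ (aeval (zz A B) q m) = 0 := by
        have := congrArg (fun f : Module.End k M => f m) h1
        simpa using this
      have h4 : aeval (zz A B) q m ∈ N := (hNmem _).mpr h3
      rw [hbot, Submodule.mem_bot] at h4
      simpa using h4
    have h3 := minpoly.dvd k (zz A B) h2
    have hq0 : q ≠ 0 := by
      rintro rfl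
      rw [mul_zero] at hq
      exact hμ0 hq
    have h4 : (minpoly k (zz A B)).natDegree ≤ q.natDegree :=
      Polynomial.natDegree_le_of_dvd h3 hq0
    have h5 : (minpoly k (zz A B)).natDegree = p₁.natDegree + q.natDegree := by
      rw [hq, natDegree_mul hp₁irr.ne_zero hq0]
    have h6 : 0 < p₁.natDegree := hp₁irr.natDegree_pos
    omega
  -- restriction
  obtain ⟨res, hres_surj, hres⟩ := exists_res hA hB N hNA hNB
  have hA'c : ∀ n : N, (((A.restrict hNA) n : N) : M) = A (n : M) := fun n => rfl
  have hB'c : ∀ n : N, (((B.restrict hNB) n : N) : M) = B (n : M) := fun n => rfl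
  generalize A.restrict hNA = A' at res hres_surj hres hA'c
  generalize B.restrict hNB = B' at res hres_surj hres hB'c
  have hA'2 : A' * A' = 0 := by
    ext n
    have h1 := congrArg (fun f : Module.End k M => f (n : M)) hA
    simp only [Module.End.mul_apply, LinearMap.zero_apply] at h1
    simp only [Module.End.mul_apply, hA'c, LinearMap.zero_apply, ZeroMemClass.coe_zero, h1]
  have hB'2 : B' * B' = 0 := by
    ext n
    have h1 := congrArg (fun f : Module.End k M => f (n : M)) hB
    simp only [Module.End.mul_apply, LinearMap.zero_apply] at h1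
    simp only [Module.End.mul_apply, hB'c, LinearMap.zero_apply, ZeroMemClass.coe_zero, h1]
  have hz'c : ∀ n : N, ((zz A' B' n : N) : M) = zz A B (n : M) := by
    intro n
    simp only [zz, LinearMap.add_apply, Module.End.mul_apply, Submodule.coe_add, hA'c, hB'c]
  have haev : ∀ (g : k[X]) (n : N), ((aeval (zz A' B') g n : N) : M) = aeval (zz A B) g (n : M) :=
    fun g n => Tor.aeval_sub N (zz A B) (zz A' B') hz'c g n
  have hp₁z' : aeval (zz A' B') p₁ = 0 := by
    ext n
    rw [haev]
    simp only [LinearMap.zero_apply, ZeroMemClass.coe_zero]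
    exact (hNmem _).mp n.2
  have hc0 : p₁.coeff 0 ≠ 0 := fun h => hp₁X (Polynomial.X_dvd_iff.mpr h)
  have hself : ∀ g : k[X], zz A' B' * aeval (zz A' B') g = aeval (zz A' B') g * zz A' B' :=
    fun g => (Tor.commute_aeval (Commute.refl (zz A' B')) g).eq
  have hdec : zz A' B' * aeval (zz A' B') p₁.divX
      = - algebraMap k (Module.End k N) (p₁.coeff 0) := by
    have h1 := congrArg (aeval (zz A' B')) (Polynomial.divX_mul_X_add p₁)
    rw [map_add, map_mul, aeval_X, aeval_C, hp₁z'] at h1
    rw [hself]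
    exact eq_neg_of_add_eq_zero_left h1
  have hg₀ : zz A' B' * aeval (zz A' B') (C ((p₁.coeff 0)⁻¹) * p₁.divX) = -1 := by
    refine LinearMap.ext fun n => ?_
    have h1 := congrArg (fun f : Module.End k N => f n) hdec
    simp only [Module.End.mul_apply, LinearMap.neg_apply, Module.algebraMap_end_apply] at h1
    simp only [Module.End.mul_apply, map_mul, aeval_C, Module.algebraMap_end_apply, map_smul, h1,
      LinearMap.neg_apply, Module.End.one_apply, smul_neg, smul_smul, inv_mul_cancel₀ hc0,
      one_smul]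
  have hg₀' : aeval (zz A' B') (C ((p₁.coeff 0)⁻¹) * p₁.divX) * zz A' B' = -1 := by
    rw [← hself, hg₀]
  have hz'inj : ∀ n : N, zz A' B' n = 0 → n = 0 := by
    intro n hn
    have h1 := congrArg (fun f : Module.End k N => f n) hg₀'
    simp only [Module.End.mul_apply, hn, map_zero, LinearMap.neg_apply, Module.End.one_apply]
      at h1
    exact neg_eq_zero.mp h1.symm
  have hA'0 : A' ≠ 0 := by
    intro h0
    have hz0 : zz A' B' = 0 := by simp [zz, h0]
    obtain ⟨n, hnN, hn0⟩ := Submodule.exists_mem_ne_zero_of_ne_bot hNne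
    have h1 := hz'inj ⟨n, hnN⟩ (by rw [hz0]; rfl)
    exact hn0 (congrArg Subtype.val h1)
  have hzA' : ∀ m : N, zz A' B' (A' m) = A' (B' (A' m)) := by
    intro m
    have h1 := congrArg (fun f : Module.End k N => f m) (zz_mul_A (B := B') hA'2)
    simpa only [Module.End.mul_apply] using h1
  have hzB' : ∀ m : N, zz A' B' (B' m) = B' (A' (B' m)) := by
    intro m
    have h1 := congrArg (fun f : Module.End k N => f m) (zz_mul_B (A := A') hB'2)
    simpa only [Module.End.mul_apply] using h1
  have h1' : ∀ m : N, A' (B' (A' m)) = 0 → A' m = 0 := by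
    intro m hm
    apply hz'inj
    rw [hzA', hm]
  have h2' : ∀ m : N, B' (A' (B' m)) = 0 → B' m = 0 := by
    intro m hm
    apply hz'inj
    rw [hzB', hm]
  have hagree : ∀ (g : k[X]) (m : N),
      aeval (A' * B') g (A' m) = aeval (zz A' B') g (A' m) := by
    intro g m
    refine Tor.aeval_agree (LinearMap.range A') (A' * B') (zz A' B') ?_ ?_ g (A' m) ⟨m, rfl⟩
    · rintro s ⟨m', rfl⟩
      rw [hzA']
      rfl
    · rintro s ⟨m', rfl⟩
      exact ⟨B' (A' m'), (hzA' m').symm⟩
  have h3' : ∀ g : k[X], (∀ m, aeval (A' * B') g (A' m) = 0) ∨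
      (∀ m, aeval (A' * B') g (A' m) = 0 → A' m = 0) := by
    intro g
    by_cases hdvd : p₁ ∣ g
    · left
      intro m
      obtain ⟨q, rfl⟩ := hdvd
      rw [hagree, map_mul, hp₁z', zero_mul]
      rfl
    · right
      intro m hm
      rw [hagree] at hm
      obtain ⟨a, b, hab⟩ := hp₁irr.coprime_iff_not_dvd.mpr hdvd
      have h1 := congrArg (fun q => aeval (zz A' B') q (A' m)) hab
      simp only [map_add, map_mul, hp₁z', mul_zero, zero_add, map_one, Module.End.mul_apply,
        Module.End.one_apply] at h1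
      rw [hm, map_zero] at h1
      exact h1.symm
  -- the structure theorem on N
  obtain ⟨K, fK, aK, lam, act, Φ, hlam, hadj, hact, hΦA, -, hΦlast⟩ :=
    final_strong hk2 hk3 hA'2 hB'2 hA'0 h1' h2' h3'
  have : FiniteDimensional k K := by
    have h1 : FiniteDimensional k (IntermediateField.adjoin k ({lam} : Set K)) :=
      IntermediateField.adjoin.finiteDimensional hlam.isIntegral
    rw [hadj] at h1
    exact LinearEquiv.finiteDimensional
      (IntermediateField.topEquiv (F := k) (E := K)).toLinearEquiv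
  have : Finite K := Module.finite_of_finite k
  have : CharP K p := charP_of_injective_algebraMap (algebraMap k K).injective p
  have : Finite (LinearMap.GeneralLinearGroup k M) := finite_GL
  have hπ : Function.Surjective (Φ.toMonoidHom.comp res) := Φ.surjective.comp hres_surj
  have hu : (⟨mkU ((1 : k) • A) (smul_sq0 hA 1), mkU_A_mem B hA 1⟩ : genH A B) ∈ P :=
    hP _ 1 rfl
  have hπu : (Φ.toMonoidHom.comp res)
      (⟨mkU ((1 : k) • A) (smul_sq0 hA 1), mkU_A_mem B hA 1⟩ : genH A B) = AG.uK 1 := by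
    have h1 : Φ (res ⟨mkU ((1 : k) • A) (smul_sq0 hA 1), mkU_A_mem B hA 1⟩)
        = AG.uK (algebraMap k K 1) := hΦA 1 _ (by
      ext n
      rw [hres]
      simp only [coe_mkU, LinearMap.add_apply, Module.End.one_apply, LinearMap.smul_apply,
        Submodule.coe_add, Submodule.coe_smul, hA'c])
    rw [map_one] at h1
    exact h1
  have hW : ∀ w : M, w ∈ (LinearMap.range A').map N.subtype ↔ ∃ n : N, ((A' n : N) : M) = w := by
    intro w
    rw [Submodule.mem_map]
    constructor
    · rintro ⟨y, ⟨n, rfl⟩, rfl⟩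
      exact ⟨n, rfl⟩
    · rintro ⟨n, rfl⟩
      exact ⟨A' n, ⟨n, rfl⟩, rfl⟩
  refine ⟨(LinearMap.range A').map N.subtype, ?_, ?_, ?_, ?_,
    ⟨C ((p₁.coeff 0)⁻¹) * p₁.divX, ?_⟩, ?_⟩
  · intro hbot
    have hex : ∃ n : N, A' n ≠ 0 := by
      by_contra hall
      push Not at hall
      exact hA'0 (LinearMap.ext hall)
    obtain ⟨n, hn⟩ := hex
    have h1 : ((A' n : N) : M) ∈ (LinearMap.range A').map N.subtype := (hW _).mpr ⟨n, rfl⟩
    rw [hbot, Submodule.mem_bot] at h1
    exact hn (Subtype.ext h1)
  · intro w hw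
    obtain ⟨n, rfl⟩ := (hW w).mp hw
    exact ⟨(n : M), (hA'c n).symm⟩
  · intro w hw
    obtain ⟨n, rfl⟩ := (hW w).mp hw
    rw [← hz'c, hzA']
    exact (hW _).mpr ⟨B' (A' n), rfl⟩
  · intro w hw hzw
    obtain ⟨n, rfl⟩ := (hW w).mp hw
    rw [← hz'c] at hzw
    have h1 : zz A' B' (A' n) = 0 := Subtype.ext hzw
    rw [hz'inj _ h1]
    rfl
  · intro w hw
    obtain ⟨n, rfl⟩ := (hW w).mp hw
    rw [← haev, ← hz'c]
    have h1 := congrArg (fun f : Module.End k N => f (A' n)) hg₀
    simp only [Module.End.mul_apply, LinearMap.neg_apply, Module.End.one_apply] at h1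
    rw [h1]
    rfl
  · rintro g ⟨w, hw, hgw⟩
    have hkey : ∀ w'' : LinearMap.range A',
        (((act (aeval lam g) w'' : LinearMap.range A') : N) : M)
          = aeval (zz A B) g (((w'' : N)) : M) := by
      intro w''
      rw [← Polynomial.aeval_algHom_apply,
        Tor.aeval_sub (LinearMap.range A') (A' * B') (act lam) hact g w'', ← haev]
      obtain ⟨m, hm⟩ := w''.2
      rw [← hm, hagree]
    have ht : aeval lam g ≠ 0 := by
      intro h0
      obtain ⟨n, rfl⟩ := (hW w).mp hw
      apply hgw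
      have h1 := hkey ⟨A' n, ⟨n, rfl⟩⟩
      rw [h0, map_zero] at h1
      exact h1.symm
    obtain ⟨s, hsN, hsord, hs10, hs00⟩ :=
      sylow_torus p (Φ.toMonoidHom.comp res) hπ P _ hu hπu (aeval lam g) ht
    refine ⟨s, hsN, hsord, ?_⟩
    intro w hw
    obtain ⟨n, rfl⟩ := (hW w).mp hw
    have h1 := hΦlast (res s) hs10 ⟨A' n, ⟨n, rfl⟩⟩
    have h2 : (Φ (res s)).1 0 0 = aeval lam g := hs00
    rw [← hres s (A' n), h1, h2]
    exact hkey _

end Cfsg.Agent.Lib.Helper50.QP
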