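import Cfsg.Agent.Lib.Helper50.QpTor
import Cfsg.Agent.Lib.Helper50.QpStep2

set_option autoImplicit false

namespace Cfsg.Agent.Lib.Helper50.QP

open Polynomial Cfsg Cfsg.Agent.Lib.Helper50.QR

universe u v

variable {k : Type u} [Field k] {M : Type v} [AddCommGroup M] [Module k M] [FiniteDimensional k M]

theorem one_add_pow_sq0 (Y : Module.End k M) (h : Y * Y = 0) (n : ℕ) :
    (1 + Y) ^ n = 1 + n • Y := by
  induction n with
  | zero => simp
  | succ n ih =>
    have e : (n • Y) * Y = 0 := by rw [smul_mul_assoc, h, smul_zero]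
    rw [pow_succ, ih]
    simp only [add_mul, mul_add, one_mul, mul_one, e, add_zero, succ_nsmul]
    abel

/-- the family `1 + cA` inside `genH A B`, as a subgroup -/
def famSub {A : Module.End k M} (B : Module.End k M) (hA : A * A = 0) :
    Subgroup ↥(genH A B) where
  carrier := {g | ∃ c : k, ((g : LinearMap.GeneralLinearGroup k M) : Module.End k M) = 1 + c • A}
  one_mem' := ⟨0, by simp⟩
  mul_mem' := by
    rintro g h ⟨c, hc⟩ ⟨c', hc'⟩
    refine ⟨c + c', ?_⟩
    have e : (c • A) * (c' • A) = 0 := by rw [smul_mul_smul_comm, hA, smul_zero]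
    rw [Subgroup.coe_mul, Units.val_mul, hc, hc']
    simp only [add_mul, mul_add, one_mul, mul_one, e, add_zero, add_smul]
    abel
  inv_mem' := by
    rintro g ⟨c, hc⟩
    refine ⟨-c, ?_⟩
    rw [Subgroup.coe_inv]
    apply Units.inv_eq_of_mul_eq_one_right
    have e : (c • A) * (c • A) = 0 := by rw [smul_mul_smul_comm, hA, smul_zero]
    rw [hc]
    simp only [add_mul, mul_add, one_mul, mul_one, neg_smul, mul_neg, e, neg_zero, add_zero]
    abel

theorem famSub_isPGroup (p : ℕ) [Fact p.Prime] [CharP k p] {A : Module.End k M}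
    (B : Module.End k M) (hA : A * A = 0) : IsPGroup p (famSub B hA) := by
  rintro ⟨g, c, hc⟩
  refine ⟨1, ?_⟩
  apply Subtype.ext
  apply Subtype.ext
  apply Units.ext
  rw [pow_one]
  show ((g : LinearMap.GeneralLinearGroup k M) : Module.End k M) ^ p = 1
  rw [hc, one_add_pow_sq0 _ (smul_sq0 hA c), ← Nat.cast_smul_eq_nsmul k, CharP.cast_eq_zero k p,
    zero_smul, add_zero]

/-- (helper50) torus elements, without Sylow subgroups in the statement -/
theorem exists_torus [Finite k] (p : ℕ) [Fact p.Prime] [CharP k p] (hk2 : ringChar k ≠ 2)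
    (hk3 : Nat.card k ≠ 3) {A B : Module.End k M} (hA : A * A = 0) (hB : B * B = 0)
    (hnz : ¬ IsNilpotent (zz A B)) {d : ℕ}
    (hdA : Module.finrank k (LinearMap.range A) = d) (hmin : MinRank (genH A B) d) :
    ∃ W' : Submodule k M, W' ≠ ⊥ ∧ W' ≤ LinearMap.range A ∧
      (∀ w ∈ W', zz A B w ∈ W') ∧
      (∀ w ∈ W', zz A B w = 0 → w = 0) ∧
      (∃ g₀ : k[X], ∀ w ∈ W', zz A B (aeval (zz A B) g₀ w) = -w) ∧
      (∀ g : k[X], (∃ w ∈ W', aeval (zz A B) g w ≠ 0) →
        ∃ (s : LinearMap.GeneralLinearGroup k M) (q : k[X]), s ∈ genH A B ∧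
          (orderOf s).Coprime p ∧
          (s : Module.End k M) * A = aeval (zz A B) q * A ∧
          A * ((s⁻¹ : LinearMap.GeneralLinearGroup k M) : Module.End k M) =
            aeval (zz A B) q * A ∧
          ∀ w ∈ W', (s : Module.End k M) w = aeval (zz A B) g w) := by
  have : Finite (LinearMap.GeneralLinearGroup k M) := finite_GL
  obtain ⟨P, hUP⟩ := (famSub_isPGroup p B hA).exists_le_sylow
  have hP : ∀ (g : genH A B) (c : k),
      ((g : LinearMap.GeneralLinearGroup k M) : Module.End k M) = 1 + c • A → g ∈ P :=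
    fun g c h => hUP ⟨c, h⟩
  have h2 : (2 : k) ≠ 0 := Ring.two_ne_zero hk2
  obtain ⟨W', h1, h2', h3, h4, h5, h6⟩ := torus_sylow p hk2 hk3 hA hB hnz P hP
  refine ⟨W', h1, h2', h3, h4, h5, fun g hg => ?_⟩
  obtain ⟨s, hsN, hsc, hsw⟩ := h6 g hg
  obtain ⟨q, hq1, hq2⟩ := step2_sylow p h2 hA hB hnz hdA hmin P hP s hsN hsc
  refine ⟨(s : LinearMap.GeneralLinearGroup k M), q, s.2, ?_, hq1, hq2, hsw⟩
  rwa [Subgroup.orderOf_coe]

end Cfsg.Agent.Lib.Helper50.QP
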