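import Cfsg.Agent.Lib.Helper50.QpMain

/-!
# S5065 foundation (helper50): pairs of minimal quadratic elements

For `σ, τ ∈ 𝒬_d(G)` with `A = nl σ`, `B = nl τ` and `z = AB + BA`: either `z` is nilpotent and
`ABA = 0 = BAB`, or `z` is not nilpotent and `range A ⊓ ker B = ⊥ = range B ⊓ ker A`; which case
holds only depends on the four subspaces, hence is the same for all pairs of non-identity elements
of `E(σ)`, `E(τ)`.
-/

set_option autoImplicit false

namespace Cfsg.Agent.Lib.Helper50.QS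

open Polynomial Cfsg Cfsg.Agent.Lib.Helper50.QR Cfsg.Agent.Lib.Helper50.QP

universe u v

variable {k : Type u} [Field k] {M : Type v} [AddCommGroup M] [Module k M] [FiniteDimensional k M]

/-- the core properties (P1), (P1'), (P3) of a non-unipotent pair of members of `𝒬_d` -/
theorem pair_core (hk2 : ringChar k ≠ 2) (hk3 : Nat.card k ≠ 3)
    {G : Subgroup (LinearMap.GeneralLinearGroup k M)}
    {σ τ : LinearMap.GeneralLinearGroup k M} (hσ : σ ∈ minimalQuadraticElements G)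
    (hτ : τ ∈ minimalQuadraticElements G) (hnz : ¬ IsNilpotent (zz (nl σ) (nl τ))) :
    (∀ m, nl σ (nl τ (nl σ m)) = 0 → nl σ m = 0) ∧
    (∀ m, nl τ (nl σ (nl τ m)) = 0 → nl τ m = 0) ∧
    (∀ g : k[X], (∀ m, aeval (nl σ * nl τ) g (nl σ m) = 0) ∨
      (∀ m, aeval (nl σ * nl τ) g (nl σ m) = 0 → nl σ m = 0)) := by
  have hA := quad_sq hσ.1.2.1
  have hB := quad_sq hτ.1.2.1
  have hnz' : ¬ IsNilpotent (zz (nl τ) (nl σ)) := by rwa [zz_comm (nl τ) (nl σ)]
  have c1 := core hk2 hk3 hA hB hnz rfl (rank_eq hτ hσ) (minRank_of_min hσ hτ)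
  have c2 := core hk2 hk3 hB hA hnz' rfl (rank_eq hσ hτ) (minRank_of_min hτ hσ)
  exact ⟨c1.1, c2.1, c1.2⟩

/-- a unipotent pair of members of `𝒬_d`: `ABA = 0 = BAB` -/
theorem pair_nil (h2 : (2 : k) ≠ 0)
    {G : Subgroup (LinearMap.GeneralLinearGroup k M)}
    {σ τ : LinearMap.GeneralLinearGroup k M} (hσ : σ ∈ minimalQuadraticElements G)
    (hτ : τ ∈ minimalQuadraticElements G) (hz : IsNilpotent (zz (nl σ) (nl τ))) :
    nl σ * nl τ * nl σ = 0 ∧ nl τ * nl σ * nl τ = 0 :=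
  g1 h2 hz (fam_A (nl τ) (quad_sq hσ.1.2.1)) (fam_B (nl σ) (quad_sq hτ.1.2.1))
    (minRank_of_min hσ hτ) le_rfl (le_of_eq (rank_eq hτ hσ))

/-- the subspace condition (N) for a non-unipotent pair -/
theorem spaces_of_nonnil (hk2 : ringChar k ≠ 2) (hk3 : Nat.card k ≠ 3)
    {G : Subgroup (LinearMap.GeneralLinearGroup k M)}
    {σ τ : LinearMap.GeneralLinearGroup k M} (hσ : σ ∈ minimalQuadraticElements G)
    (hτ : τ ∈ minimalQuadraticElements G) (hnz : ¬ IsNilpotent (zz (nl σ) (nl τ))) :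
    LinearMap.range (nl σ) ⊓ LinearMap.ker (nl τ) = ⊥ ∧
    LinearMap.range (nl τ) ⊓ LinearMap.ker (nl σ) = ⊥ := by
  obtain ⟨p1, p2, -⟩ := pair_core hk2 hk3 hσ hτ hnz
  constructor
  · rw [eq_bot_iff]
    rintro x ⟨⟨m, rfl⟩, hx⟩
    rw [SetLike.mem_coe, LinearMap.mem_ker] at hx
    rw [Submodule.mem_bot]
    apply p1
    rw [hx, map_zero]
  · rw [eq_bot_iff]
    rintro x ⟨⟨m, rfl⟩, hx⟩
    rw [SetLike.mem_coe, LinearMap.mem_ker] at hx
    rw [Submodule.mem_bot]
    apply p2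
    rw [hx, map_zero]

/-- the subspace condition (N) excludes the unipotent case -/
theorem nonnil_of_spaces (h2 : (2 : k) ≠ 0)
    {G : Subgroup (LinearMap.GeneralLinearGroup k M)}
    {σ τ : LinearMap.GeneralLinearGroup k M} (hσ : σ ∈ minimalQuadraticElements G)
    (hτ : τ ∈ minimalQuadraticElements G)
    (hN1 : LinearMap.range (nl σ) ⊓ LinearMap.ker (nl τ) = ⊥)
    (hN2 : LinearMap.range (nl τ) ⊓ LinearMap.ker (nl σ) = ⊥) :
    ¬ IsNilpotent (zz (nl σ) (nl τ)) := by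
  intro hz
  obtain ⟨e1, -⟩ := pair_nil h2 hσ hτ hz
  apply quad_ne hσ.1.2.1
  ext m
  rw [LinearMap.zero_apply]
  -- `B (A m) ∈ range B ⊓ ker A = ⊥`
  have h3 : nl τ (nl σ m) ∈ LinearMap.range (nl τ) ⊓ LinearMap.ker (nl σ) := by
    refine ⟨⟨_, rfl⟩, ?_⟩
    rw [SetLike.mem_coe, LinearMap.mem_ker]
    have := congrArg (fun f : Module.End k M => f m) e1
    simpa [Module.End.mul_apply] using this
  rw [hN2, Submodule.mem_bot] at h3
  have h4 : nl σ m ∈ LinearMap.range (nl σ) ⊓ LinearMap.ker (nl τ) :=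
    ⟨⟨_, rfl⟩, by rw [SetLike.mem_coe, LinearMap.mem_ker]; exact h3⟩
  rw [hN1, Submodule.mem_bot] at h4
  exact h4

section Transfer

variable {G : Subgroup (LinearMap.GeneralLinearGroup k M)}
  {σ τ : LinearMap.GeneralLinearGroup k M}

/-- non-identity elements of `E(σ)` are members of `𝒬_d` -/
theorem min_of_mem (hσ : σ ∈ minimalQuadraticElements G)
    {a : LinearMap.GeneralLinearGroup k M} (ha : a ∈ sameActionSubgroup G σ) (ha1 : a ≠ 1) :
    a ∈ minimalQuadraticElements G := (mem_class_of_mem hσ ha ha1).1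

/-- non-unipotency only depends on the root subgroups -/
theorem nonnil_transfer (hk2 : ringChar k ≠ 2) (hk3 : Nat.card k ≠ 3)
    (hσ : σ ∈ minimalQuadraticElements G) (hτ : τ ∈ minimalQuadraticElements G)
    (hnz : ¬ IsNilpotent (zz (nl σ) (nl τ)))
    {a b : LinearMap.GeneralLinearGroup k M} (ha : a ∈ sameActionSubgroup G σ) (ha1 : a ≠ 1)
    (hb : b ∈ sameActionSubgroup G τ) (hb1 : b ≠ 1) :
    ¬ IsNilpotent (zz (nl a) (nl b)) := by
  obtain ⟨n1, n2⟩ := spaces_of_nonnil hk2 hk3 hσ hτ hnz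
  apply nonnil_of_spaces (Ring.two_ne_zero hk2) (min_of_mem hσ ha ha1) (min_of_mem hτ hb hb1)
  · rw [range_of_mem hσ ha ha1, ker_of_mem hτ hb hb1]
    exact n1
  · rw [range_of_mem hτ hb hb1, ker_of_mem hσ ha ha1]
    exact n2

/-- unipotency only depends on the root subgroups -/
theorem nil_transfer (hk2 : ringChar k ≠ 2) (hk3 : Nat.card k ≠ 3)
    (hσ : σ ∈ minimalQuadraticElements G) (hτ : τ ∈ minimalQuadraticElements G)
    (hz : IsNilpotent (zz (nl σ) (nl τ)))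
    {a b : LinearMap.GeneralLinearGroup k M} (ha : a ∈ sameActionSubgroup G σ) (ha1 : a ≠ 1)
    (hb : b ∈ sameActionSubgroup G τ) (hb1 : b ≠ 1) :
    IsNilpotent (zz (nl a) (nl b)) := by
  by_contra hnz
  have hσ' := min_of_mem hσ ha ha1
  have hτ' := min_of_mem hτ hb hb1
  obtain ⟨n1, n2⟩ := spaces_of_nonnil hk2 hk3 hσ' hτ' hnz
  rw [range_of_mem hσ ha ha1, ker_of_mem hτ hb hb1] at n1
  rw [range_of_mem hτ hb hb1, ker_of_mem hσ ha ha1] at n2
  exact nonnil_of_spaces (Ring.two_ne_zero hk2) hσ hτ n1 n2 hz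

/-- the scalar families of `σ`, `τ` lie in `E(σ) ⊔ E(τ)` -/
theorem genH_le_sup (hσ : σ ∈ minimalQuadraticElements G) (hτ : τ ∈ minimalQuadraticElements G) :
    genH (nl σ) (nl τ) ≤ sameActionSubgroup G σ ⊔ sameActionSubgroup G τ := by
  apply genH_le
  · intro g c hg
    obtain ⟨h, hh, e⟩ := (closure_props hσ (self_mem hσ)).2 c
    have : g = h := by
      apply eq_of_nl_eq
      rw [e, nl_def, hg, add_sub_cancel_left]
    rw [this]
    exact Subgroup.mem_sup_left hh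
  · intro g c hg
    obtain ⟨h, hh, e⟩ := (closure_props hτ (self_mem hτ)).2 c
    have : g = h := by
      apply eq_of_nl_eq
      rw [e, nl_def, hg, add_sub_cancel_left]
    rw [this]
    exact Subgroup.mem_sup_right hh

/-- the scalar families of `σ`, `τ` lie in `G` -/
theorem genH_le_G (hσ : σ ∈ minimalQuadraticElements G) (hτ : τ ∈ minimalQuadraticElements G) :
    genH (nl σ) (nl τ) ≤ G :=
  genH_le (fun _ c hg => hσ.1.2.2 ⟨c, hg⟩) (fun _ c hg => hτ.1.2.2 ⟨c, hg⟩)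

end Transfer

end Cfsg.Agent.Lib.Helper50.QS
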