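import Cfsg.Agent.Lib.Helper50.QpDefs

set_option autoImplicit false
set_option linter.unusedSectionVars false
set_option linter.unusedVariables false

namespace Cfsg.Agent.Lib.Helper50.QS

open Polynomial Cfsg Cfsg.Agent.Lib.Helper50.QR Cfsg.Agent.Lib.Helper50.QP

universe u v

variable {k : Type u} [Field k] {M : Type v} [AddCommGroup M] [Module k M] [FiniteDimensional k M]

namespace Conj

theorem val_mul_inv (g : LinearMap.GeneralLinearGroup k M) :
    (g : M →ₗ[k] M) * ((g⁻¹ : LinearMap.GeneralLinearGroup k M) : M →ₗ[k] M) = 1 := by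
  rw [← Units.val_mul, mul_inv_cancel, Units.val_one]

theorem val_inv_mul (g : LinearMap.GeneralLinearGroup k M) :
    ((g⁻¹ : LinearMap.GeneralLinearGroup k M) : M →ₗ[k] M) * (g : M →ₗ[k] M) = 1 := by
  rw [← Units.val_mul, inv_mul_cancel, Units.val_one]

theorem inv_apply_apply (g : LinearMap.GeneralLinearGroup k M) (m : M) :
    ((g⁻¹ : LinearMap.GeneralLinearGroup k M) : M →ₗ[k] M) ((g : M →ₗ[k] M) m) = m := by
  have h2 := congrArg (fun f : M →ₗ[k] M => f m) (val_inv_mul g)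
  exact h2

theorem apply_inv_apply (g : LinearMap.GeneralLinearGroup k M) (m : M) :
    (g : M →ₗ[k] M) (((g⁻¹ : LinearMap.GeneralLinearGroup k M) : M →ₗ[k] M) m) = m := by
  have h2 := congrArg (fun f : M →ₗ[k] M => f m) (val_mul_inv g)
  exact h2

theorem range_conj (g : LinearMap.GeneralLinearGroup k M) (X : M →ₗ[k] M) :
    LinearMap.range ((g : M →ₗ[k] M) * X *
        ((g⁻¹ : LinearMap.GeneralLinearGroup k M) : M →ₗ[k] M))
      = (LinearMap.range X).map (g : M →ₗ[k] M) := by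
  ext v
  constructor
  · rintro ⟨m, rfl⟩
    exact ⟨X (((g⁻¹ : LinearMap.GeneralLinearGroup k M) : M →ₗ[k] M) m), ⟨_, rfl⟩, rfl⟩
  · rintro ⟨_, ⟨m, rfl⟩, rfl⟩
    refine ⟨(g : M →ₗ[k] M) m, ?_⟩
    show (g : M →ₗ[k] M) (X (((g⁻¹ : LinearMap.GeneralLinearGroup k M) : M →ₗ[k] M)
      ((g : M →ₗ[k] M) m))) = (g : M →ₗ[k] M) (X m)
    rw [inv_apply_apply]

theorem ker_conj (g : LinearMap.GeneralLinearGroup k M) (X : M →ₗ[k] M) :
    LinearMap.ker ((g : M →ₗ[k] M) * X *
        ((g⁻¹ : LinearMap.GeneralLinearGroup k M) : M →ₗ[k] M))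
      = (LinearMap.ker X).map (g : M →ₗ[k] M) := by
  ext v
  rw [LinearMap.mem_ker, Submodule.mem_map]
  constructor
  · intro hv
    have hv' : (g : M →ₗ[k] M) (X (((g⁻¹ : LinearMap.GeneralLinearGroup k M) : M →ₗ[k] M) v))
        = 0 := hv
    refine ⟨((g⁻¹ : LinearMap.GeneralLinearGroup k M) : M →ₗ[k] M) v, ?_, apply_inv_apply g v⟩
    rw [LinearMap.mem_ker, ← inv_apply_apply g (X _), hv', map_zero]
  · rintro ⟨m, hm, rfl⟩
    show (g : M →ₗ[k] M) (X (((g⁻¹ : LinearMap.GeneralLinearGroup k M) : M →ₗ[k] M)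
      ((g : M →ₗ[k] M) m))) = 0
    rw [inv_apply_apply, LinearMap.mem_ker.mp hm, map_zero]

theorem finrank_map (g : LinearMap.GeneralLinearGroup k M) (W : Submodule k M) :
    Module.finrank k ↥(W.map (g : M →ₗ[k] M)) = Module.finrank k ↥W := by
  have hinj : Function.Injective (g : M →ₗ[k] M) := by
    intro x y hxy
    rw [← inv_apply_apply g x, ← inv_apply_apply g y, hxy]
  exact (Submodule.equivMapOfInjective _ hinj W).finrank_eq.symm

theorem map_inv_map (g : LinearMap.GeneralLinearGroup k M) (W : Submodule k M) :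
    (W.map (g : M →ₗ[k] M)).map ((g⁻¹ : LinearMap.GeneralLinearGroup k M) : M →ₗ[k] M) = W := by
  ext v
  constructor
  · rintro ⟨_, ⟨w, hw, rfl⟩, rfl⟩
    rw [inv_apply_apply]
    exact hw
  · intro hv
    exact ⟨(g : M →ₗ[k] M) v, ⟨v, hv, rfl⟩, inv_apply_apply g v⟩

end Conj

/-- K-CONJ (a): the root subgroup only depends on the class -/
theorem subgroup_eq_of_mem {G : Subgroup (LinearMap.GeneralLinearGroup k M)}
    {σ ρ : LinearMap.GeneralLinearGroup k M} (hρ : ρ ∈ sameActionClass G σ) :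
    sameActionSubgroup G ρ = sameActionSubgroup G σ := by
  have h : sameActionClass G ρ = sameActionClass G σ := by
    ext τ
    constructor
    · rintro ⟨h1, h2, h3⟩
      exact ⟨h1, h2.trans hρ.2.1, h3.trans hρ.2.2⟩
    · rintro ⟨h1, h2, h3⟩
      exact ⟨h1, h2.trans hρ.2.1.symm, h3.trans hρ.2.2.symm⟩
  unfold sameActionSubgroup
  rw [h]

/-- K-CONJ (b): conjugates by elements of `G` of members of `𝒬_d` are members of `𝒬_d` -/
theorem conj_min {G : Subgroup (LinearMap.GeneralLinearGroup k M)}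
    {ρ g : LinearMap.GeneralLinearGroup k M} (hρ : ρ ∈ minimalQuadraticElements G) (hg : g ∈ G) :
    g * ρ * g⁻¹ ∈ minimalQuadraticElements G := by
  refine ⟨conj_quad hρ.1 hg, fun τ hτ => ?_⟩
  have h1 : commutatorRank (g * ρ * g⁻¹) = commutatorRank ρ := by
    show Module.finrank k ↥(LinearMap.range (nl (g * ρ * g⁻¹)))
      = Module.finrank k ↥(LinearMap.range (nl ρ))
    rw [nl_conj, Conj.range_conj, Conj.finrank_map]
  rw [h1]
  exact hρ.2 τ hτ

/-- K-CONJ (c): `g E(ρ) g⁻¹ = E(g ρ g⁻¹)` for `g ∈ G` -/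
theorem conj_subgroup {G : Subgroup (LinearMap.GeneralLinearGroup k M)}
    {ρ g : LinearMap.GeneralLinearGroup k M} (hρ : ρ ∈ minimalQuadraticElements G) (hg : g ∈ G) :
    Cfsg.conjBy (sameActionSubgroup G ρ) g = sameActionSubgroup G (g * ρ * g⁻¹) := by
  have hclass : (MulAut.conj g).toMonoidHom '' sameActionClass G ρ
      = sameActionClass G (g * ρ * g⁻¹) := by
    ext y
    constructor
    · rintro ⟨x, hx, rfl⟩
      show g * x * g⁻¹ ∈ sameActionClass G (g * ρ * g⁻¹)
      have hk : LinearMap.ker (nl x) = LinearMap.ker (nl ρ) := hx.2.1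
      have hr : LinearMap.range (nl x) = LinearMap.range (nl ρ) := hx.2.2
      refine ⟨conj_min hx.1 hg, ?_, ?_⟩
      · show LinearMap.ker (nl (g * x * g⁻¹)) = LinearMap.ker (nl (g * ρ * g⁻¹))
        rw [nl_conj, nl_conj, Conj.ker_conj, Conj.ker_conj, hk]
      · show LinearMap.range (nl (g * x * g⁻¹)) = LinearMap.range (nl (g * ρ * g⁻¹))
        rw [nl_conj, nl_conj, Conj.range_conj, Conj.range_conj, hr]
    · rintro ⟨hy, hk, hr⟩
      have hk' : LinearMap.ker (nl y) = LinearMap.ker (nl (g * ρ * g⁻¹)) := hk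
      have hr' : LinearMap.range (nl y) = LinearMap.range (nl (g * ρ * g⁻¹)) := hr
      have e : g⁻¹ * y * g = g⁻¹ * y * (g⁻¹)⁻¹ := by rw [inv_inv]
      refine ⟨g⁻¹ * y * g, ⟨?_, ?_, ?_⟩, ?_⟩
      · have h1 := conj_min hy (G.inv_mem hg)
        rwa [inv_inv] at h1
      · show LinearMap.ker (nl (g⁻¹ * y * g)) = LinearMap.ker (nl ρ)
        rw [e, nl_conj, Conj.ker_conj, hk', nl_conj, Conj.ker_conj, Conj.map_inv_map]
      · show LinearMap.range (nl (g⁻¹ * y * g)) = LinearMap.range (nl ρ)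
        rw [e, nl_conj, Conj.range_conj, hr', nl_conj, Conj.range_conj, Conj.map_inv_map]
      · show g * (g⁻¹ * y * g) * g⁻¹ = y
        group
  show (sameActionSubgroup G ρ).map (MulAut.conj g).toMonoidHom = _
  unfold sameActionSubgroup
  rw [MonoidHom.map_closure, hclass]

end Cfsg.Agent.Lib.Helper50.QS
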