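import Cfsg.Agent.Lib.Helper50.QpDefs

set_option autoImplicit false

namespace Cfsg.Agent.Lib.Helper50.QS

open Polynomial Cfsg Cfsg.Agent.Lib.Helper50.QR Cfsg.Agent.Lib.Helper50.QP

universe u v

variable {k : Type u} [Field k] {M : Type v} [AddCommGroup M] [Module k M] [FiniteDimensional k M]

namespace Geom

omit [FiniteDimensional k M] in
theorem inv_app (g : LinearMap.GeneralLinearGroup k M) (m : M) :
    (g : M →ₗ[k] M) (((g⁻¹ : LinearMap.GeneralLinearGroup k M) : M →ₗ[k] M) m) = m := by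
  have h1 : (g : M →ₗ[k] M) * ((g⁻¹ : LinearMap.GeneralLinearGroup k M) : M →ₗ[k] M) = 1 := by
    rw [← Units.val_mul, mul_inv_cancel, Units.val_one]
  have h2 := LinearMap.congr_fun h1 m
  rwa [Module.End.mul_apply, Module.End.one_apply] at h2

omit [FiniteDimensional k M] in
theorem inv_app' (g : LinearMap.GeneralLinearGroup k M) (m : M) :
    ((g⁻¹ : LinearMap.GeneralLinearGroup k M) : M →ₗ[k] M) ((g : M →ₗ[k] M) m) = m := by
  have h1 : ((g⁻¹ : LinearMap.GeneralLinearGroup k M) : M →ₗ[k] M) * (g : M →ₗ[k] M) = 1 := by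
    rw [← Units.val_mul, inv_mul_cancel, Units.val_one]
  have h2 := LinearMap.congr_fun h1 m
  rwa [Module.End.mul_apply, Module.End.one_apply] at h2

omit [FiniteDimensional k M] in
theorem nl_app (g : LinearMap.GeneralLinearGroup k M) (m : M) :
    nl g m = (g : M →ₗ[k] M) m - m := by
  rw [nl_def, LinearMap.sub_apply, Module.End.one_apply]

/-- the subgroup of the elements fixing `F` pointwise -/
def fixSub (F : Submodule k M) : Subgroup (LinearMap.GeneralLinearGroup k M) where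
  carrier := {g | ∀ m ∈ F, nl g m = 0}
  one_mem' := by
    intro m _
    rw [nl_one, LinearMap.zero_apply]
  mul_mem' := by
    intro a b ha hb m hm
    rw [nl_mul, LinearMap.add_apply, LinearMap.add_apply, Module.End.mul_apply, ha m hm,
      hb m hm, map_zero, add_zero, add_zero]
  inv_mem' := by
    intro a ha m hm
    have h1 : (a : M →ₗ[k] M) m = m := by
      have h0 := ha m hm
      rw [nl_app] at h0
      exact sub_eq_zero.mp h0
    have h2 := inv_app' a m
    rw [h1] at h2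
    rw [nl_app, h2, sub_self]

/-- the subgroup of the elements `g` with `(g - 1) M ⊆ V` -/
def rngSub (V : Submodule k M) : Subgroup (LinearMap.GeneralLinearGroup k M) where
  carrier := {g | ∀ m, nl g m ∈ V}
  one_mem' := by
    intro m
    rw [nl_one, LinearMap.zero_apply]
    exact V.zero_mem
  mul_mem' := by
    intro a b ha hb m
    rw [nl_mul, LinearMap.add_apply, LinearMap.add_apply, Module.End.mul_apply]
    exact V.add_mem (V.add_mem (ha m) (hb m)) (ha _)
  inv_mem' := by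
    intro a ha m
    have h1 : nl a⁻¹ m
        = - nl a (((a⁻¹ : LinearMap.GeneralLinearGroup k M) : M →ₗ[k] M) m) := by
      rw [nl_app, nl_app, inv_app]
      abel
    rw [h1]
    exact V.neg_mem (ha _)

end Geom

/-- K-GEOM: the geometry of a non-unipotent pair of root subgroups: `C_M = C₁ ⊓ C₂`,
`[M, ·] = R₁ ⊔ R₂`, and these are complements -/
theorem geom_case (E₁ E₂ : Subgroup (LinearMap.GeneralLinearGroup k M))
    (C₁ R₁ C₂ R₂ : Submodule k M) (hR₁ : R₁ ≤ C₁) (hR₂ : R₂ ≤ C₂)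
    (h₁ : ∀ e ∈ E₁, InN C₁ R₁ (nl e)) (h₂ : ∀ f ∈ E₂, InN C₂ R₂ (nl f))
    {σ τ : LinearMap.GeneralLinearGroup k M} (hσ : σ ∈ E₁) (hτ : τ ∈ E₂)
    (hkσ : LinearMap.ker (nl σ) = C₁) (hrσ : LinearMap.range (nl σ) = R₁)
    (hkτ : LinearMap.ker (nl τ) = C₂) (hrτ : LinearMap.range (nl τ) = R₂)
    (hN1 : R₁ ⊓ C₂ = ⊥) (hN2 : R₂ ⊓ C₁ = ⊥) :
    Cfsg.fixedSubmodule (E₁ ⊔ E₂) = C₁ ⊓ C₂ ∧
      Cfsg.commutatorSubmodule (E₁ ⊔ E₂) = R₁ ⊔ R₂ ∧
      IsCompl (C₁ ⊓ C₂) (R₁ ⊔ R₂) := by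
  refine ⟨?_, ?_, ?_⟩
  · apply le_antisymm
    · intro x hx
      simp only [Cfsg.fixedSubmodule, Submodule.mem_iInf] at hx
      have h1 := hx σ (Subgroup.mem_sup_left hσ)
      have h2 := hx τ (Subgroup.mem_sup_right hτ)
      rw [← nl_def, hkσ] at h1
      rw [← nl_def, hkτ] at h2
      exact ⟨h1, h2⟩
    · intro x hx
      simp only [Cfsg.fixedSubmodule, Submodule.mem_iInf]
      intro g hg
      have hle : E₁ ⊔ E₂ ≤ Geom.fixSub (C₁ ⊓ C₂) := by
        apply sup_le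
        · intro e he m hm
          exact LinearMap.mem_ker.mp ((h₁ e he).2 hm.1)
        · intro e he m hm
          exact LinearMap.mem_ker.mp ((h₂ e he).2 hm.2)
      rw [← nl_def]
      exact LinearMap.mem_ker.mpr (hle hg x hx)
  · apply le_antisymm
    · unfold Cfsg.commutatorSubmodule
      apply iSup₂_le
      intro g hg
      have hle : E₁ ⊔ E₂ ≤ Geom.rngSub (R₁ ⊔ R₂) := by
        apply sup_le
        · intro e he m
          exact Submodule.mem_sup_left ((h₁ e he).1 ⟨m, rfl⟩)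
        · intro e he m
          exact Submodule.mem_sup_right ((h₂ e he).1 ⟨m, rfl⟩)
      rintro _ ⟨m, rfl⟩
      exact hle hg m
    · unfold Cfsg.commutatorSubmodule
      apply sup_le
      · rw [← hrσ]
        exact le_iSup₂_of_le σ (Subgroup.mem_sup_left hσ) le_rfl
      · rw [← hrτ]
        exact le_iSup₂_of_le τ (Subgroup.mem_sup_right hτ) le_rfl
  · have hdisj : C₁ ⊓ C₂ ⊓ (R₁ ⊔ R₂) = ⊥ := by
      rw [eq_bot_iff]
      intro x hx
      obtain ⟨⟨hx1, hx2⟩, hx3⟩ := hx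
      obtain ⟨r₁, hr₁, r₂, hr₂, rfl⟩ := Submodule.mem_sup.mp hx3
      have h2 : r₂ ∈ R₂ ⊓ C₁ := by
        refine ⟨hr₂, ?_⟩
        have h0 : r₂ = (r₁ + r₂) - r₁ := by abel
        rw [h0]
        exact C₁.sub_mem hx1 (hR₁ hr₁)
      rw [hN2] at h2
      have h1 : r₁ ∈ R₁ ⊓ C₂ := by
        refine ⟨hr₁, ?_⟩
        have h0 : r₁ = (r₁ + r₂) - r₂ := by abel
        rw [h0]
        exact C₂.sub_mem hx2 (hR₂ hr₂)
      rw [hN1] at h1
      rw [Submodule.mem_bot] at h1 h2 ⊢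
      rw [h1, h2, add_zero]
    have e1 := LinearMap.finrank_range_add_finrank_ker (nl σ)
    have e2 := LinearMap.finrank_range_add_finrank_ker (nl τ)
    rw [hkσ, hrσ] at e1
    rw [hkτ, hrτ] at e2
    have e3 := Submodule.finrank_sup_add_finrank_inf_eq R₁ C₂
    rw [hN1, finrank_bot, add_zero] at e3
    have e4 := Submodule.finrank_sup_add_finrank_inf_eq R₂ C₁
    rw [hN2, finrank_bot, add_zero] at e4
    have e5 := Submodule.finrank_le (R₁ ⊔ C₂)
    have e6 := Submodule.finrank_le (R₂ ⊔ C₁)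
    have e7 := Submodule.finrank_sup_add_finrank_inf_eq C₁ C₂
    have e8 := Submodule.finrank_le (C₁ ⊔ C₂)
    have hRR : R₁ ⊓ R₂ = ⊥ := by
      rw [eq_bot_iff, ← hN1]
      exact inf_le_inf_left _ hR₂
    have e9 := Submodule.finrank_sup_add_finrank_inf_eq R₁ R₂
    rw [hRR, finrank_bot, add_zero] at e9
    have e10 := Submodule.finrank_sup_add_finrank_inf_eq (C₁ ⊓ C₂) (R₁ ⊔ R₂)
    rw [hdisj, finrank_bot, add_zero] at e10
    have e11 := Submodule.finrank_le (C₁ ⊓ C₂ ⊔ (R₁ ⊔ R₂))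
    have htop : C₁ ⊓ C₂ ⊔ (R₁ ⊔ R₂) = ⊤ := by
      apply Submodule.eq_top_of_finrank_eq
      omega
    exact ⟨disjoint_iff.mpr hdisj, codisjoint_iff.mpr htop⟩

end Cfsg.Agent.Lib.Helper50.QS
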