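import Cfsg.Agent.Lib.Helper50.QpDefs

set_option autoImplicit false

namespace Cfsg.Agent.Lib.Helper50.QS

open Polynomial Cfsg Cfsg.Agent.Lib.Helper50.QR Cfsg.Agent.Lib.Helper50.QP

universe u v

variable {k : Type u} [Field k] {M : Type v} [AddCommGroup M] [Module k M] [FiniteDimensional k M]

/-- (helper50) the "special" identity `a^b = (b⁻¹)^a` for `a = 1 + X`, `b = 1 + Y` with
`X² = 0 = Y²`, `XYX = X`, `YXY = Y` -/
theorem special_identity {a b : LinearMap.GeneralLinearGroup k M} (ha : nl a * nl a = 0)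
    (hb : nl b * nl b = 0) (h1 : nl a * nl b * nl a = nl a) (h2 : nl b * nl a * nl b = nl b) :
    b⁻¹ * a * b = a⁻¹ * b⁻¹ * a := by
  apply Units.ext
  rw [Units.val_mul, Units.val_mul, Units.val_mul, Units.val_mul, coe_inv_of_sq b hb,
    coe_inv_of_sq a ha, coe_eq a, coe_eq b]
  have e1 : (1 - nl b) * (1 + nl a) * (1 + nl b)
      = 1 + nl a + nl a * nl b - nl b * nl a - nl b * nl b - nl b * nl a * nl b := by
    noncomm_ring
  have e2 : (1 - nl a) * (1 - nl b) * (1 + nl a)
      = 1 - nl b + nl a * nl b - nl b * nl a - nl a * nl a + nl a * nl b * nl a := by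
    noncomm_ring
  rw [e1, e2, ha, hb, h1, h2]
  abel

end Cfsg.Agent.Lib.Helper50.QS
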