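import Cfsg.Agent.Lib.Helper50.QsGeom

set_option autoImplicit false
set_option linter.unusedSectionVars false
set_option linter.unusedVariables false

namespace Cfsg.Agent.Lib.Helper50.QS

open Polynomial Cfsg Cfsg.Agent.Lib.Helper50.QR Cfsg.Agent.Lib.Helper50.QP

universe u v

variable {k : Type u} [Field k] {M : Type v} [AddCommGroup M] [Module k M] [FiniteDimensional k M]

namespace Invol

/-- two endomorphisms agreeing on two complementary subspaces are equal -/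
theorem ext_compl {F V : Submodule k M} (hc : IsCompl F V) {a b : M →ₗ[k] M}
    (hF : ∀ m ∈ F, a m = b m) (hV : ∀ m ∈ V, a m = b m) : a = b := by
  apply LinearMap.ext
  intro m
  have hm : m ∈ F ⊔ V := by
    rw [hc.sup_eq_top]
    exact Submodule.mem_top
  obtain ⟨f, hf, v, hv, rfl⟩ := Submodule.mem_sup.mp hm
  rw [map_add, map_add, hF f hf, hV v hv]

end Invol

/-- K-INVOL: an element of `E₁ ⊔ E₂` acting as `-1` on `R₁` and `R₂` is the unique central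
involution acting as `-1` on `[M, E₁ ⊔ E₂]` and trivially on `C_M(E₁ ⊔ E₂)` -/
theorem invol_case (h2 : (2 : k) ≠ 0) (E₁ E₂ : Subgroup (LinearMap.GeneralLinearGroup k M))
    (C₁ R₁ C₂ R₂ : Submodule k M) (hR₁ : R₁ ≤ C₁) (hR₂ : R₂ ≤ C₂)
    (h₁ : ∀ e ∈ E₁, InN C₁ R₁ (nl e)) (h₂ : ∀ f ∈ E₂, InN C₂ R₂ (nl f))
    {σ τ : LinearMap.GeneralLinearGroup k M} (hσ : σ ∈ E₁) (hτ : τ ∈ E₂) (hσ1 : σ ≠ 1)
    (hkσ : LinearMap.ker (nl σ) = C₁) (hrσ : LinearMap.range (nl σ) = R₁)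
    (hkτ : LinearMap.ker (nl τ) = C₂) (hrτ : LinearMap.range (nl τ) = R₂)
    (hN1 : R₁ ⊓ C₂ = ⊥) (hN2 : R₂ ⊓ C₁ = ⊥)
    {i₀ : LinearMap.GeneralLinearGroup k M} (hi : i₀ ∈ E₁ ⊔ E₂)
    (hi1 : ∀ w ∈ R₁, (i₀ : M →ₗ[k] M) w = -w) (hi2 : ∀ w ∈ R₂, (i₀ : M →ₗ[k] M) w = -w) :
    ∃! i : LinearMap.GeneralLinearGroup k M, i ∈ E₁ ⊔ E₂ ∧ i ≠ 1 ∧ i * i = 1 ∧
      (∀ x ∈ E₁ ⊔ E₂, i * x = x * i) ∧
      (∀ m ∈ Cfsg.commutatorSubmodule (E₁ ⊔ E₂), (i : M →ₗ[k] M) m = -m) ∧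
      (∀ m ∈ Cfsg.fixedSubmodule (E₁ ⊔ E₂), (i : M →ₗ[k] M) m = m) := by
  obtain ⟨hFix, hComm, hc⟩ :=
    geom_case E₁ E₂ C₁ R₁ C₂ R₂ hR₁ hR₂ h₁ h₂ hσ hτ hkσ hrσ hkτ hrτ hN1 hN2
  have hc' : IsCompl (Cfsg.fixedSubmodule (E₁ ⊔ E₂)) (Cfsg.commutatorSubmodule (E₁ ⊔ E₂)) := by
    rw [hFix, hComm]
    exact hc
  have hfixY : ∀ x ∈ E₁ ⊔ E₂, ∀ m ∈ Cfsg.fixedSubmodule (E₁ ⊔ E₂),
      (x : M →ₗ[k] M) m = m := by
    intro x hx m hm
    simp only [Cfsg.fixedSubmodule, Submodule.mem_iInf] at hm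
    have h1 := hm x hx
    rw [LinearMap.mem_ker, LinearMap.sub_apply, Module.End.one_apply] at h1
    exact sub_eq_zero.mp h1
  have hcommY : ∀ x ∈ E₁ ⊔ E₂, ∀ m : M,
      (x : M →ₗ[k] M) m - m ∈ Cfsg.commutatorSubmodule (E₁ ⊔ E₂) := by
    intro x hx m
    have h1 : LinearMap.range ((x : M →ₗ[k] M) - 1) ≤ Cfsg.commutatorSubmodule (E₁ ⊔ E₂) := by
      unfold Cfsg.commutatorSubmodule
      exact le_iSup₂ (f := fun (g : LinearMap.GeneralLinearGroup k M) (_ : g ∈ E₁ ⊔ E₂) =>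
        LinearMap.range ((g : M →ₗ[k] M) - 1)) x hx
    apply h1
    exact ⟨m, by rw [LinearMap.sub_apply, Module.End.one_apply]⟩
  have hi0V : ∀ m ∈ Cfsg.commutatorSubmodule (E₁ ⊔ E₂), (i₀ : M →ₗ[k] M) m = -m := by
    intro m hm
    rw [hComm] at hm
    obtain ⟨r₁, hr₁, r₂, hr₂, rfl⟩ := Submodule.mem_sup.mp hm
    rw [map_add, hi1 r₁ hr₁, hi2 r₂ hr₂, neg_add]
  have hi0F := hfixY i₀ hi
  refine ⟨i₀, ⟨hi, ?_, ?_, ?_, hi0V, hi0F⟩, ?_⟩
  · intro h1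
    have hnl : nl σ ≠ 0 := by
      intro h0
      apply hσ1
      apply eq_of_nl_eq
      rw [h0, nl_one]
    obtain ⟨m, hm⟩ : ∃ m, nl σ m ≠ 0 := by
      by_contra hall
      push Not at hall
      exact hnl (LinearMap.ext hall)
    have hw : nl σ m ∈ R₁ := by
      rw [← hrσ]
      exact ⟨m, rfl⟩
    have h3 := hi1 _ hw
    rw [h1, Units.val_one, Module.End.one_apply] at h3
    have h4 : (2 : k) • nl σ m = 0 := by
      rw [two_smul]
      nth_rewrite 1 [h3]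
      exact neg_add_cancel _
    rcases smul_eq_zero.mp h4 with h5 | h5
    · exact h2 h5
    · exact hm h5
  · apply Units.ext
    rw [Units.val_mul, Units.val_one]
    apply Invol.ext_compl hc'
    · intro m hm
      rw [Module.End.mul_apply, hi0F m hm, hi0F m hm, Module.End.one_apply]
    · intro m hm
      rw [Module.End.mul_apply, hi0V m hm, map_neg, hi0V m hm, neg_neg, Module.End.one_apply]
  · intro x hx
    apply Units.ext
    rw [Units.val_mul, Units.val_mul]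
    apply Invol.ext_compl hc'
    · intro m hm
      rw [Module.End.mul_apply, Module.End.mul_apply, hfixY x hx m hm, hi0F m hm,
        hfixY x hx m hm]
    · intro m hm
      have hxm : (x : M →ₗ[k] M) m ∈ Cfsg.commutatorSubmodule (E₁ ⊔ E₂) := by
        have h5 := Submodule.add_mem _ (hcommY x hx m) hm
        rwa [sub_add_cancel] at h5
      rw [Module.End.mul_apply, Module.End.mul_apply, hi0V _ hxm, hi0V m hm, map_neg]
  · rintro i ⟨-, -, -, -, hV, hF⟩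
    apply Units.ext
    apply Invol.ext_compl hc'
    · intro m hm
      rw [hF m hm, hi0F m hm]
    · intro m hm
      rw [hV m hm, hi0V m hm]

end Cfsg.Agent.Lib.Helper50.QS
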