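import Cfsg.Agent.Lib.Helper50.QpFinal

set_option autoImplicit false
set_option linter.style.haveILetI false
set_option linter.unusedSimpArgs false

namespace Cfsg.Agent.Lib.Helper50.QS.Low

open Polynomial Cfsg Cfsg.Agent.Lib.Helper50.QR Cfsg.Agent.Lib.Helper50.QP
  Cfsg.Agent.Lib.Helper50

universe u v w

variable {k : Type u} [Field k] {M : Type v} [AddCommGroup M] [Module k M]
variable {K : Type w} [Field K] [Algebra k K]

/-- the lower root operator `m ↦ B (λ⁻¹ (Pj m))` of the abstract construction -/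
noncomputable def lowY (A B : Module.End k M) (lam : K)
    (act : K →ₐ[k] Module.End k (LinearMap.range A)) : Module.End k M :=
  B ∘ₗ (LinearMap.range A).subtype ∘ₗ act lam⁻¹ ∘ₗ Final.Pj A B lam act

variable {A B : Module.End k M} {lam : K} {act : K →ₐ[k] Module.End k (LinearMap.range A)}

theorem lowY_apply (m : M) :
    lowY A B lam act m = B ((act lam⁻¹ (Final.Pj A B lam act m) : LinearMap.range A) : M) :=
  rfl

theorem psiSL_lK_alg (H : Final.Hyp A B lam act) (c : k) :
    ((Final.psiSL H (AG.lK (algebraMap k K c)) : LinearMap.GeneralLinearGroup k M) :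
      Module.End k M) = 1 + c • lowY A B lam act := by
  apply LinearMap.ext
  intro m
  rw [Final.psiSL_val, Final.psiM_apply, AG.lK00, AG.lK01, AG.lK10, AG.lK11, Final.Psi_apply,
    Final.Psi_apply]
  simp only [map_zero, LinearMap.zero_apply, add_zero, zero_add, map_one, Module.End.one_apply,
    map_add, Final.act_alg, Submodule.coe_add, Submodule.coe_smul, LinearMap.add_apply,
    LinearMap.smul_apply, map_smul, lowY_apply]
  abel

theorem lowY_ker (m : M) (hm : B m = 0) : lowY A B lam act m = 0 := by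
  have e : (A * B).codRestrict (LinearMap.range A) (fun m => ⟨B m, rfl⟩) m = 0 := by
    apply Subtype.ext
    show A (B m) = 0
    rw [hm, map_zero]
  have e2 : Final.Pj A B lam act m = 0 := by
    show act lam⁻¹ ((A * B).codRestrict (LinearMap.range A) (fun m => ⟨B m, rfl⟩) m) = 0
    rw [e, map_zero]
  rw [lowY_apply, e2, map_zero, ZeroMemClass.coe_zero, map_zero]

theorem lowY_range (m : M) : lowY A B lam act m ∈ LinearMap.range B :=
  ⟨_, rfl⟩

theorem lowY_AYA (H : Final.Hyp A B lam act) (m : M) :
    A (lowY A B lam act (A m)) = A m := by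
  have e1 : Final.Pj A B lam act (A m) = (⟨A m, m, rfl⟩ : LinearMap.range A) :=
    Final.Pj_coe H.hl H.hact (⟨A m, m, rfl⟩ : LinearMap.range A)
  rw [lowY_apply, e1, ← H.hact, Final.act_act_inv H.hl]

end Cfsg.Agent.Lib.Helper50.QS.Low

namespace Cfsg.Agent.Lib.Helper50.QS

open Polynomial Cfsg Cfsg.Agent.Lib.Helper50.QR Cfsg.Agent.Lib.Helper50.QP

universe u v

variable {k : Type u} [Field k] {M : Type v} [AddCommGroup M] [Module k M] [FiniteDimensional k M]

/-- K-LOW: the "inverse" `Y` of `A` (`Y` kills `ker B`, maps into `range B`, `A Y A = A`)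
is the nilpotent part of a scalar family inside `genH A B` (hypotheses as in
`QP.final_strong`; in the model `genH A B ≅ SL₂(K)`, `1 + c Y` is the matrix `lK c`) -/
theorem exists_lower (hk2 : ringChar k ≠ 2) (hk3 : Nat.card k ≠ 3) {A B : Module.End k M}
    (hA : A * A = 0) (hB : B * B = 0) (hA0 : A ≠ 0)
    (h1 : ∀ m, A (B (A m)) = 0 → A m = 0) (h2 : ∀ m, B (A (B m)) = 0 → B m = 0)
    (h3 : ∀ g : k[X], (∀ m, aeval (A * B) g (A m) = 0) ∨
      (∀ m, aeval (A * B) g (A m) = 0 → A m = 0)) :
    ∃ Y : Module.End k M, (∀ m, B m = 0 → Y m = 0) ∧ (∀ m, Y m ∈ LinearMap.range B) ∧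
      (∀ m, A (Y (A m)) = A m) ∧
      ∀ c : k, ∃ g ∈ genH A B, (g : Module.End k M) = 1 + c • Y := by
  classical
  have hS := Final.isField_adjoin hA0 h3
  letI fK : Field (Final.KK A B) :=
    (show Field ↥(Algebra.adjoin k ({Final.lam0 A B} :
      Set (Module.End k (LinearMap.range A)))) from hS.toField)
  letI aK : Algebra k (Final.KK A B) :=
    (Algebra.adjoin k ({Final.lam0 A B} : Set (Module.End k (LinearMap.range A)))).algebra
  obtain ⟨lam, hlam⟩ : ∃ l : Final.KK A B, l =
      (⟨Final.lam0 A B, Algebra.self_mem_adjoin_singleton k _⟩ :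
        ↥(Algebra.adjoin k ({Final.lam0 A B} : Set (Module.End k (LinearMap.range A))))) :=
    ⟨_, rfl⟩
  obtain ⟨act, hactdef⟩ : ∃ a : Final.KK A B →ₐ[k] Module.End k (LinearMap.range A), a =
      (Algebra.adjoin k ({Final.lam0 A B} : Set (Module.End k (LinearMap.range A)))).val :=
    ⟨_, rfl⟩
  have hact_inj : Function.Injective act := by
    rw [hactdef]
    exact Subtype.val_injective
  have hact_lam : act lam = Final.lam0 A B := by
    rw [hactdef, hlam]
    rfl
  have hact_mem : ∀ x : Final.KK A B, ∃ g : k[X], x = aeval lam g := by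
    intro x
    have hx : act x ∈ Algebra.adjoin k ({Final.lam0 A B} :
        Set (Module.End k (LinearMap.range A))) := by
      rw [hactdef]
      exact x.2
    obtain ⟨g, hg⟩ := (Final.mem_adjoin_lam0 _).1 hx
    refine ⟨g, hact_inj ?_⟩
    rw [← Polynomial.aeval_algHom_apply, hact_lam, hg]
  have hl : lam ≠ 0 := by
    intro h0
    have h0' : Final.lam0 A B = 0 := by rw [← hact_lam, h0, map_zero]
    apply hA0
    apply LinearMap.ext
    intro m
    apply h1
    have := congrArg (fun f : Module.End k (LinearMap.range A) =>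
      ((f ⟨A m, m, rfl⟩ : LinearMap.range A) : M)) h0'
    exact this
  have hact : ∀ x : LinearMap.range A, ((act lam x : LinearMap.range A) : M) = A (B (x : M)) := by
    intro x
    rw [hact_lam]
    rfl
  have H : Final.Hyp A B lam act := ⟨hA, hB, hl, hact, h2, hact_inj⟩
  have halg : IsAlgebraic k lam := by
    refine ⟨minpoly k (Final.lam0 A B), minpoly.ne_zero (Algebra.IsIntegral.isIntegral _), ?_⟩
    apply hact_inj
    rw [← Polynomial.aeval_algHom_apply, hact_lam, map_zero]
    exact minpoly.aeval k _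
  have htop : IntermediateField.adjoin k ({lam} : Set (Final.KK A B)) = ⊤ := by
    rw [eq_top_iff]
    intro x _
    obtain ⟨g, rfl⟩ := hact_mem x
    exact IntermediateField.algebra_adjoin_le_adjoin k _
      (Polynomial.aeval_mem_adjoin_singleton k lam)
  refine ⟨Low.lowY A B lam act, fun m hm => Low.lowY_ker m hm, fun m => Low.lowY_range m,
    fun m => Low.lowY_AYA H m, ?_⟩
  intro c
  refine ⟨Final.psiSL H (AG.lK (algebraMap k (Final.KK A B) c)), ?_, Low.psiSL_lK_alg H c⟩
  rw [← Final.psiSL_range H hk2 hk3 halg htop]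
  exact ⟨_, rfl⟩

end Cfsg.Agent.Lib.Helper50.QS
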