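import Cfsg.Agent.Lib.Helper50.QpFinal

set_option autoImplicit false

namespace Cfsg.Agent.Lib.Helper50.QS.Neg

open Polynomial Cfsg Cfsg.Agent.Lib.Helper50.QR Cfsg.Agent.Lib.Helper50.QP

variable {k : Type*} [Field k] {M : Type*} [AddCommGroup M] [Module k M] [FiniteDimensional k M]

/-- every `B m` is `B w` with `w ∈ range A` -/
theorem exists_range_rep {A B : Module.End k M}
    (h1 : ∀ m, A (B (A m)) = 0 → A m = 0) (h2 : ∀ m, B (A (B m)) = 0 → B m = 0) (m : M) :
    ∃ m' : M, B (A m') = B m := by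
  let f : LinearMap.range A →ₗ[k] LinearMap.range A :=
    LinearMap.codRestrict (LinearMap.range A) ((A * B) ∘ₗ (LinearMap.range A).subtype)
      (fun w => ⟨B (w : M), rfl⟩)
  have hinj : Function.Injective f := by
    rw [← LinearMap.ker_eq_bot, LinearMap.ker_eq_bot']
    rintro ⟨w, m', rfl⟩ hw
    have hw' : A (B (A m')) = 0 := congrArg Subtype.val hw
    exact Subtype.ext (h1 m' hw')
  have hsurj : Function.Surjective f := LinearMap.injective_iff_surjective.mp hinj
  obtain ⟨⟨w, m', rfl⟩, hw⟩ := hsurj ⟨A (B m), ⟨B m, rfl⟩⟩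
  have hw' : A (B (A m')) = A (B m) := congrArg Subtype.val hw
  refine ⟨m', ?_⟩
  have h0 : B (A (B (A m' - m))) = 0 := by
    rw [map_sub, map_sub, hw', sub_self, map_zero]
  have := h2 _ h0
  rw [map_sub, sub_eq_zero] at this
  exact this

end Cfsg.Agent.Lib.Helper50.QS.Neg

namespace Cfsg.Agent.Lib.Helper50.QS

open Polynomial Cfsg Cfsg.Agent.Lib.Helper50.QR Cfsg.Agent.Lib.Helper50.QP

universe u v

variable {k : Type u} [Field k] {M : Type v} [AddCommGroup M] [Module k M] [FiniteDimensional k M]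

/-- K-NEG: the central involution of `genH A B ≅ SL₂(K)` acts as `-1` on `range A` and on
`range B` (hypotheses as in `QP.final_strong`) -/
theorem neg_one_elt (hk2 : ringChar k ≠ 2) (hk3 : Nat.card k ≠ 3) {A B : Module.End k M}
    (hA : A * A = 0) (hB : B * B = 0) (hA0 : A ≠ 0)
    (h1 : ∀ m, A (B (A m)) = 0 → A m = 0) (h2 : ∀ m, B (A (B m)) = 0 → B m = 0)
    (h3 : ∀ g : k[X], (∀ m, aeval (A * B) g (A m) = 0) ∨
      (∀ m, aeval (A * B) g (A m) = 0 → A m = 0)) :
    ∃ g ∈ genH A B, (∀ m, (g : Module.End k M) (A m) = -(A m)) ∧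
      (∀ m, (g : Module.End k M) (B m) = -(B m)) := by
  obtain ⟨K, _, _, lam, act, Φ, -, -, -, -, -, hlast⟩ :=
    final_strong hk2 hk3 hA hB hA0 h1 h2 h3
  have hdet : (-1 : Matrix (Fin 2) (Fin 2) K).det = 1 := by
    rw [Matrix.det_neg, Matrix.det_one, Fintype.card_fin]
    norm_num
  obtain ⟨negI, hnegI⟩ : ∃ n : Matrix.SpecialLinearGroup (Fin 2) K,
      n.1 = (-1 : Matrix (Fin 2) (Fin 2) K) := ⟨⟨-1, hdet⟩, rfl⟩
  have hcentral : ∀ X : Matrix.SpecialLinearGroup (Fin 2) K, negI * X = X * negI := by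
    intro X
    apply Subtype.ext
    show negI.1 * X.1 = X.1 * negI.1
    rw [hnegI, neg_mul, mul_neg, one_mul, mul_one]
  have hΦg : Φ (Φ.symm negI) = negI := Φ.apply_symm_apply _
  have h10 : (Φ (Φ.symm negI)).1 1 0 = 0 := by
    rw [hΦg, hnegI]
    simp
  have h00 : (Φ (Φ.symm negI)).1 0 0 = -1 := by
    rw [hΦg, hnegI]
    simp
  have hAm : ∀ m, (((Φ.symm negI : genH A B) : LinearMap.GeneralLinearGroup k M) :
      Module.End k M) (A m) = -(A m) := by
    intro m
    have := hlast (Φ.symm negI) h10 ⟨A m, ⟨m, rfl⟩⟩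
    rw [h00, map_neg, map_one] at this
    simpa using this
  have hcomm : (Φ.symm negI : genH A B) *
      ⟨mkU ((1 : k) • B) (smul_sq0 hB 1), mkU_B_mem A hB 1⟩ =
      ⟨mkU ((1 : k) • B) (smul_sq0 hB 1), mkU_B_mem A hB 1⟩ * Φ.symm negI := by
    apply Φ.injective
    rw [map_mul, map_mul, hΦg, hcentral]
  have hGB : (((Φ.symm negI : genH A B) : LinearMap.GeneralLinearGroup k M) :
      Module.End k M) * B = B * (((Φ.symm negI : genH A B) :
        LinearMap.GeneralLinearGroup k M) : Module.End k M) := by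
    have e := congrArg (fun x : genH A B =>
      ((x : LinearMap.GeneralLinearGroup k M) : Module.End k M)) hcomm
    simp only [Subgroup.coe_mul, Units.val_mul, coe_mkU, one_smul] at e
    rw [mul_add, add_mul, mul_one, one_mul] at e
    exact add_left_cancel e
  refine ⟨_, (Φ.symm negI).2, hAm, ?_⟩
  intro m
  obtain ⟨m', hm'⟩ := Neg.exists_range_rep h1 h2 m
  rw [← hm']
  have e := congrArg (fun f : Module.End k M => f (A m')) hGB
  simp only [Module.End.mul_apply] at e
  rw [e, hAm, map_neg]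

end Cfsg.Agent.Lib.Helper50.QS
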