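import Cfsg.Agent.Lib.Helper50.QsBase
import Cfsg.Agent.Lib.Helper50.QsId
import Cfsg.Agent.Lib.Helper50.QsLow
import Cfsg.Agent.Lib.Helper50.QsConj

set_option autoImplicit false

namespace Cfsg.Agent.Lib.Helper50.QS

open Polynomial Cfsg Cfsg.Agent.Lib.Helper50.QR Cfsg.Agent.Lib.Helper50.QP

universe u v

variable {k : Type u} [Field k] {M : Type v} [AddCommGroup M] [Module k M] [FiniteDimensional k M]

/-- K-RANK: the rank one condition for a non-unipotent pair of root subgroups -/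
theorem rank_one_cond (hk2 : ringChar k ≠ 2) (hk3 : Nat.card k ≠ 3)
    {G : Subgroup (LinearMap.GeneralLinearGroup k M)}
    {σ τ : LinearMap.GeneralLinearGroup k M} (hσ : σ ∈ minimalQuadraticElements G)
    (hτ : τ ∈ minimalQuadraticElements G) (hnz : ¬ IsNilpotent (zz (nl σ) (nl τ))) :
    Cfsg.RankOneCondition (sameActionSubgroup G σ) (sameActionSubgroup G τ) := by
  intro a ha ha1
  have hamin : a ∈ minimalQuadraticElements G := min_of_mem hσ ha ha1
  have hnz' : ¬ IsNilpotent (zz (nl a) (nl τ)) :=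
    nonnil_transfer hk2 hk3 hσ hτ hnz ha ha1 (self_mem hτ) (self_ne_one hτ)
  obtain ⟨p1, p2, p3⟩ := pair_core hk2 hk3 hamin hτ hnz'
  have hX : nl a * nl a = 0 := quad_sq hamin.1.2.1
  have hB : nl τ * nl τ = 0 := quad_sq hτ.1.2.1
  have hX0 : nl a ≠ 0 := quad_ne hamin.1.2.1
  obtain ⟨Y, hYk, hYr, hXYX, hfam⟩ := exists_lower hk2 hk3 hX hB hX0 p1 p2 p3
  -- `Y * Y = 0`
  have hYY : Y * Y = 0 := by
    ext m
    rw [Module.End.mul_apply, LinearMap.zero_apply]
    apply hYk
    obtain ⟨n, hn⟩ := hYr m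
    rw [← hn, ← Module.End.mul_apply, hB, LinearMap.zero_apply]
  -- `b := 1 + Y`
  obtain ⟨b, hbH, hb⟩ := hfam 1
  rw [one_smul] at hb
  have hnlb : nl b = Y := by rw [nl_def, hb, add_sub_cancel_left]
  have hY0 : Y ≠ 0 := by
    intro e
    apply hX0
    ext m
    have h := hXYX m
    rw [e, LinearMap.zero_apply, map_zero] at h
    rw [← h, LinearMap.zero_apply]
  have hHG : genH (nl a) (nl τ) ≤ G := genH_le_G hamin hτ
  have hbG : b ∈ G := hHG hbH
  have haG : a ∈ G := subgroup_le ha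
  have hbq : b ∈ quadraticElements G := by
    refine ⟨hbG, ⟨?_, ?_⟩, ?_⟩
    · show nl b * nl b = 0
      rw [hnlb]; exact hYY
    · show nl b ≠ 0
      rw [hnlb]; exact hY0
    · rintro t ⟨c, ht⟩
      obtain ⟨g, hg, e⟩ := hfam c
      have h3 : t = g := by
        apply Units.ext
        rw [ht, e]
        show 1 + c • nl b = 1 + c • Y
        rw [hnlb]
      rw [h3]; exact hHG hg
  have hbN : InN (LinearMap.ker (nl τ)) (LinearMap.range (nl τ)) (nl b) := by
    rw [hnlb]
    constructor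
    · rintro _ ⟨m, rfl⟩; exact hYr m
    · intro m hm
      rw [LinearMap.mem_ker] at hm ⊢
      exact hYk m hm
  have hbc : b ∈ sameActionClass G τ := mem_class_of_inN hτ hbq hbN
  have hbE : b ∈ sameActionSubgroup G τ := Subgroup.subset_closure hbc
  have hb1 : b ≠ 1 := by
    intro e
    apply hY0
    rw [← hnlb, e, nl_one]
  refine ⟨b, hbE, hb1, ?_⟩
  -- `Y X Y = Y`
  obtain ⟨-, n2⟩ := spaces_of_nonnil hk2 hk3 hamin hτ hnz'
  have hYXY : ∀ m, Y (nl a (Y m)) = Y m := by
    intro m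
    have h3 : Y (nl a (Y m)) - Y m ∈ LinearMap.range (nl τ) ⊓ LinearMap.ker (nl a) := by
      refine ⟨(LinearMap.range (nl τ)).sub_mem (hYr _) (hYr _), ?_⟩
      rw [SetLike.mem_coe, LinearMap.mem_ker, map_sub, hXYX, sub_self]
    rw [n2, Submodule.mem_bot] at h3
    exact sub_eq_zero.mp h3
  have hspec : b⁻¹ * a * b = a⁻¹ * b⁻¹ * a := by
    apply special_identity hX (by rw [hnlb]; exact hYY)
    · rw [hnlb]
      ext m
      rw [Module.End.mul_apply, Module.End.mul_apply, hXYX]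
    · rw [hnlb]
      ext m
      rw [Module.End.mul_apply, Module.End.mul_apply, hYXY]
  -- the two conjugates are the root subgroups of `b⁻¹ a b` and `a⁻¹ b⁻¹ a`
  have haC : a ∈ sameActionClass G σ := mem_class_of_mem hσ ha ha1
  have e1 : conjBy (sameActionSubgroup G σ) b⁻¹ = sameActionSubgroup G (b⁻¹ * a * b) := by
    rw [← subgroup_eq_of_mem haC]
    have h := conj_subgroup hamin (G.inv_mem hbG)
    rw [inv_inv] at h
    exact h
  have hbinvE : b⁻¹ ∈ sameActionSubgroup G τ := Subgroup.inv_mem _ hbE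
  have hbinv1 : b⁻¹ ≠ 1 := fun e => hb1 (inv_eq_one.mp e)
  have hbinvC : b⁻¹ ∈ sameActionClass G τ := mem_class_of_mem hτ hbinvE hbinv1
  have e2 : conjBy (sameActionSubgroup G τ) a⁻¹ = sameActionSubgroup G (a⁻¹ * b⁻¹ * a) := by
    rw [← subgroup_eq_of_mem hbinvC]
    have h := conj_subgroup (min_of_mem hτ hbinvE hbinv1) (G.inv_mem haG)
    rw [inv_inv] at h
    exact h
  rw [e1, e2, hspec]

end Cfsg.Agent.Lib.Helper50.QS
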