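import Cfsg.Agent.Lib.Helper50.QsBase
import Cfsg.Agent.Lib.Helper50.QsId

set_option autoImplicit false

namespace Cfsg.Agent.Lib.Helper50.QS

open Polynomial Cfsg Cfsg.Agent.Lib.Helper50.QR Cfsg.Agent.Lib.Helper50.QP

universe u v

variable {k : Type u} [Field k] {M : Type v} [AddCommGroup M] [Module k M] [FiniteDimensional k M]

/-- K-SPEC: the rank one pair `(E(σ), E(τ))` is special -/
theorem special_cond (hk2 : ringChar k ≠ 2) (hk3 : Nat.card k ≠ 3)
    {G : Subgroup (LinearMap.GeneralLinearGroup k M)}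
    {σ τ : LinearMap.GeneralLinearGroup k M} (hσ : σ ∈ minimalQuadraticElements G)
    (hτ : τ ∈ minimalQuadraticElements G) (hnz : ¬ IsNilpotent (zz (nl σ) (nl τ))) :
    ∀ a ∈ sameActionSubgroup G σ, a ≠ 1 → ∀ b ∈ sameActionSubgroup G τ, b ≠ 1 →
      Cfsg.conjBy (sameActionSubgroup G σ) b⁻¹ = Cfsg.conjBy (sameActionSubgroup G τ) a⁻¹ →
      b⁻¹ * a * b = a⁻¹ * b⁻¹ * a := by
  intro a ha ha1 b hb hb1 hconj
  have hX2 : nl a * nl a = 0 := mul_zero_of_mem hσ ha ha
  have hY2 : nl b * nl b = 0 := mul_zero_of_mem hτ hb hb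
  have hnz' := nonnil_transfer hk2 hk3 hσ hτ hnz ha ha1 hb hb1
  obtain ⟨n1, n2⟩ :=
    spaces_of_nonnil hk2 hk3 (min_of_mem hσ ha ha1) (min_of_mem hτ hb hb1) hnz'
  -- the element `f ∈ E(τ)` with `a⁻¹ f a = b⁻¹ a b`
  have hmem : b⁻¹ * a * b ∈ Cfsg.conjBy (sameActionSubgroup G σ) b⁻¹ := by
    refine ⟨a, ha, ?_⟩
    show MulAut.conj b⁻¹ a = b⁻¹ * a * b
    rw [MulAut.conj_apply, inv_inv]
  rw [hconj] at hmem
  obtain ⟨f, hf, hfe⟩ := hmem
  have hfe' : a⁻¹ * f * a = b⁻¹ * a * b := by
    have e : (MulAut.conj a⁻¹).toMonoidHom f = a⁻¹ * f * a := by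
      show MulAut.conj a⁻¹ f = _
      rw [MulAut.conj_apply, inv_inv]
    rw [← e]
    exact hfe
  have hF := inN_of_mem hτ hf
  have hFr : LinearMap.range (nl f) ≤ LinearMap.range (nl b) := by
    rw [range_of_mem hτ hb hb1]
    exact hF.1
  have hE : (1 - nl b) * nl a * (1 + nl b) = (1 - nl a) * nl f * (1 + nl a) := by
    have e1 : nl (b⁻¹ * a * b) = (1 - nl b) * nl a * (1 + nl b) := by
      have h := nl_conj b⁻¹ a
      rw [inv_inv, coe_inv_of_sq b hY2, coe_eq b] at h
      exact h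
    have e2 : nl (a⁻¹ * f * a) = (1 - nl a) * nl f * (1 + nl a) := by
      have h := nl_conj a⁻¹ f
      rw [inv_inv, coe_inv_of_sq a hX2, coe_eq a] at h
      exact h
    rw [← e1, ← e2, hfe']
  have hYY : ∀ v, nl b (nl b v) = 0 := by
    intro v
    have h := LinearMap.congr_fun hY2 v
    rwa [Module.End.mul_apply, LinearMap.zero_apply] at h
  have hXYX : nl a * nl b * nl a = nl a := by
    ext n
    rw [Module.End.mul_apply, Module.End.mul_apply]
    have key := LinearMap.congr_fun hE (n - nl b n)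
    rw [Module.End.mul_apply, Module.End.mul_apply, Module.End.mul_apply,
      Module.End.mul_apply] at key
    have e1 : (1 + nl b) (n - nl b n) = n := by
      rw [LinearMap.add_apply, Module.End.one_apply, map_sub, hYY]
      abel
    rw [e1] at key
    rw [LinearMap.sub_apply, LinearMap.sub_apply, Module.End.one_apply,
      Module.End.one_apply] at key
    obtain ⟨r', hr'⟩ : ∃ r', r' = nl f ((1 + nl a) (n - nl b n)) := ⟨_, rfl⟩
    rw [← hr'] at key
    have hr'mem : r' ∈ LinearMap.range (nl b) := by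
      rw [hr']
      exact hFr ⟨_, rfl⟩
    obtain ⟨s, hs⟩ := hr'mem
    have hu : nl a n + nl a r' = r' + nl b (nl a n) := by
      have h := key
      rw [sub_eq_sub_iff_add_eq_add] at h
      exact h
    have humem : nl a n + nl a r' ∈ LinearMap.range (nl a) ⊓ LinearMap.ker (nl b) := by
      refine ⟨⟨n + r', by rw [map_add]⟩, ?_⟩
      rw [SetLike.mem_coe, LinearMap.mem_ker, hu, map_add, hYY, ← hs, hYY, add_zero]
    rw [n1, Submodule.mem_bot] at humem
    have h0 : r' + nl b (nl a n) = 0 := by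
      rw [← hu]
      exact humem
    have hr'eq : r' = - nl b (nl a n) := eq_neg_of_add_eq_zero_left h0
    have h3 : nl a n = - nl a r' := eq_neg_of_add_eq_zero_left humem
    calc nl a (nl b (nl a n)) = nl a (- r') := by rw [hr'eq, neg_neg]
      _ = - nl a r' := map_neg _ _
      _ = nl a n := h3.symm
  have hYXY : nl b * nl a * nl b = nl b := by
    ext m
    rw [Module.End.mul_apply, Module.End.mul_apply]
    have hmem : nl b (nl a (nl b m)) - nl b m ∈
        LinearMap.range (nl b) ⊓ LinearMap.ker (nl a) := by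
      refine ⟨⟨nl a (nl b m) - m, by rw [map_sub]⟩, ?_⟩
      rw [SetLike.mem_coe, LinearMap.mem_ker, map_sub]
      have h := LinearMap.congr_fun hXYX (nl b m)
      rw [Module.End.mul_apply, Module.End.mul_apply] at h
      rw [h, sub_self]
    rw [n2, Submodule.mem_bot] at hmem
    exact sub_eq_zero.1 hmem
  exact special_identity hX2 hY2 hXYX hYXY

end Cfsg.Agent.Lib.Helper50.QS
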