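import Cfsg.Agent.Lib.Helper50.QsUnip
import Cfsg.Agent.Lib.Helper50.QsInvol
import Cfsg.Agent.Lib.Helper50.QsNeg
import Cfsg.Agent.Lib.Helper50.QsRank
import Cfsg.Agent.Lib.Helper50.QsSpec

/-!
# S5065: assembly (helper50)
-/

set_option autoImplicit false

namespace Cfsg.Agent.Lib.Helper50.QS

open Polynomial Cfsg Cfsg.Agent.Lib.Helper50.QR Cfsg.Agent.Lib.Helper50.QP

universe u v

variable {k : Type u} [Field k] {M : Type v} [AddCommGroup M] [Module k M] [FiniteDimensional k M]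

theorem isNilpotent_of_comm {H : Type*} [Group H] (E : Subgroup H)
    (h : ∀ a ∈ E, ∀ b ∈ E, a * b = b * a) : Group.IsNilpotent E := by
  let _i : CommGroup E :=
    { (inferInstance : Group E) with mul_comm := fun a b => Subtype.ext (h a a.2 b b.2) }
  exact CommGroup.isNilpotent

theorem main (hk2 : ringChar k ≠ 2) (hk3 : Nat.card k ≠ 3)
    {G : Subgroup (LinearMap.GeneralLinearGroup k M)}
    {σ τ : LinearMap.GeneralLinearGroup k M} (hσ : σ ∈ minimalQuadraticElements G)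
    (hτ : τ ∈ minimalQuadraticElements G) :
    Cfsg.IsUnipotentOn (sameActionSubgroup G σ ⊔ sameActionSubgroup G τ) ∨
    (Cfsg.IsSpecialRankOnePair (sameActionSubgroup G σ) (sameActionSubgroup G τ) ∧
      (∃! i : LinearMap.GeneralLinearGroup k M,
        i ∈ sameActionSubgroup G σ ⊔ sameActionSubgroup G τ ∧ i ≠ 1 ∧ i * i = 1 ∧
        (∀ x ∈ sameActionSubgroup G σ ⊔ sameActionSubgroup G τ, i * x = x * i) ∧
        (∀ m ∈ Cfsg.commutatorSubmodule (sameActionSubgroup G σ ⊔ sameActionSubgroup G τ),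
          (i : M →ₗ[k] M) m = -m) ∧
        (∀ m ∈ Cfsg.fixedSubmodule (sameActionSubgroup G σ ⊔ sameActionSubgroup G τ),
          (i : M →ₗ[k] M) m = m)) ∧
      IsCompl (Cfsg.fixedSubmodule (sameActionSubgroup G σ ⊔ sameActionSubgroup G τ))
        (Cfsg.commutatorSubmodule (sameActionSubgroup G σ ⊔ sameActionSubgroup G τ))) := by
  have h2 : (2 : k) ≠ 0 := Ring.two_ne_zero hk2
  have hA := quad_sq hσ.1.2.1
  have hB := quad_sq hτ.1.2.1
  have hR₁ := range_le_ker_of_sq hA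
  have hR₂ := range_le_ker_of_sq hB
  have hE₁ : ∀ e ∈ sameActionSubgroup G σ,
      InN (LinearMap.ker (nl σ)) (LinearMap.range (nl σ)) (nl e) := fun e he => inN_of_mem hσ he
  have hE₂ : ∀ f ∈ sameActionSubgroup G τ,
      InN (LinearMap.ker (nl τ)) (LinearMap.range (nl τ)) (nl f) := fun f hf => inN_of_mem hτ hf
  by_cases hz : IsNilpotent (zz (nl σ) (nl τ))
  · left
    apply unip_case _ _ (LinearMap.ker (nl σ)) (LinearMap.range (nl σ)) (LinearMap.ker (nl τ))
      (LinearMap.range (nl τ)) hR₁ hR₂ hE₁ hE₂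
    · intro e he r hr
      by_cases he1 : e = 1
      · rw [he1, nl_one, LinearMap.zero_apply]
        exact Submodule.zero_mem _
      · have hz' := nil_transfer hk2 hk3 hσ hτ hz he he1 (self_mem hτ) (self_ne_one hτ)
        obtain ⟨-, e2⟩ := pair_nil h2 (min_of_mem hσ he he1) hτ hz'
        obtain ⟨m, rfl⟩ := hr
        rw [LinearMap.mem_ker]
        have := congrArg (fun f : Module.End k M => f m) e2
        simpa [Module.End.mul_apply] using this
    · intro f hf r hr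
      by_cases hf1 : f = 1
      · rw [hf1, nl_one, LinearMap.zero_apply]
        exact Submodule.zero_mem _
      · have hz' := nil_transfer hk2 hk3 hσ hτ hz (self_mem hσ) (self_ne_one hσ) hf hf1
        obtain ⟨e1, -⟩ := pair_nil h2 hσ (min_of_mem hτ hf hf1) hz'
        obtain ⟨m, rfl⟩ := hr
        rw [LinearMap.mem_ker]
        have := congrArg (fun f : Module.End k M => f m) e1
        simpa [Module.End.mul_apply] using this
  · right
    have hz' : ¬ IsNilpotent (zz (nl τ) (nl σ)) := by rwa [zz_comm (nl τ) (nl σ)]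
    obtain ⟨n1, n2⟩ := spaces_of_nonnil hk2 hk3 hσ hτ hz
    obtain ⟨p1, p2, p3⟩ := pair_core hk2 hk3 hσ hτ hz
    obtain ⟨gf, gc, gi⟩ := geom_case _ _ _ _ _ _ hR₁ hR₂ hE₁ hE₂ (self_mem hσ) (self_mem hτ)
      rfl rfl rfl rfl n1 n2
    obtain ⟨g₀, hg₀, hgA, hgB⟩ := neg_one_elt hk2 hk3 hA hB (quad_ne hσ.1.2.1) p1 p2 p3
    have hi := invol_case h2 _ _ _ _ _ _ hR₁ hR₂ hE₁ hE₂ (self_mem hσ) (self_mem hτ)
      (self_ne_one hσ) rfl rfl rfl rfl n1 n2 (genH_le_sup hσ hτ hg₀)
      (by rintro w ⟨m, rfl⟩; exact hgA m) (by rintro w ⟨m, rfl⟩; exact hgB m)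
    refine ⟨⟨⟨?_, ?_, ?_, rank_one_cond hk2 hk3 hσ hτ hz, rank_one_cond hk2 hk3 hτ hσ hz'⟩,
      special_cond hk2 hk3 hσ hτ hz⟩, hi, ?_⟩
    · intro e
      apply quad_ne hτ.1.2.1
      have hN : InN (LinearMap.ker (nl σ)) (LinearMap.range (nl σ)) (nl τ) :=
        hE₁ τ (by rw [e]; exact self_mem hτ)
      have h3 : LinearMap.range (nl τ) ≤ LinearMap.range (nl τ) ⊓ LinearMap.ker (nl σ) :=
        le_inf le_rfl (hN.1.trans hR₁)
      rw [n2, le_bot_iff] at h3
      exact LinearMap.range_eq_bot.mp h3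
    · exact isNilpotent_of_comm _ (fun a ha b hb => comm_of_mem hσ ha hb)
    · exact isNilpotent_of_comm _ (fun a ha b hb => comm_of_mem hτ ha hb)
    · rw [gf, gc]
      exact gi

end Cfsg.Agent.Lib.Helper50.QS
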