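import Cfsg.Agent.Lib.Helper50.QpDefs

set_option autoImplicit false

namespace Cfsg.Agent.Lib.Helper50.QS

open Polynomial Cfsg Cfsg.Agent.Lib.Helper50.QR Cfsg.Agent.Lib.Helper50.QP

universe u v

variable {k : Type u} [Field k] {M : Type v} [AddCommGroup M] [Module k M] [FiniteDimensional k M]

namespace Unip

/-- endomorphisms respecting the flag `M ≥ M₁ ≥ M₂ ≥ 0` with a shift -/
def Fl (M₁ M₂ : Submodule k M) (x : M →ₗ[k] M) : Prop :=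
  (∀ m, x m ∈ M₁) ∧ (∀ m ∈ M₁, x m ∈ M₂) ∧ (∀ m ∈ M₂, x m = 0)

theorem fl_zero (M₁ M₂ : Submodule k M) : Fl M₁ M₂ (0 : M →ₗ[k] M) :=
  ⟨fun _ => by simp, fun _ _ => by simp, fun _ _ => by simp⟩

theorem fl_add {M₁ M₂ : Submodule k M} {x y : M →ₗ[k] M} (hx : Fl M₁ M₂ x) (hy : Fl M₁ M₂ y) :
    Fl M₁ M₂ (x + y) := by
  refine ⟨fun m => ?_, fun m hm => ?_, fun m hm => ?_⟩
  · rw [LinearMap.add_apply]; exact M₁.add_mem (hx.1 m) (hy.1 m)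
  · rw [LinearMap.add_apply]; exact M₂.add_mem (hx.2.1 m hm) (hy.2.1 m hm)
  · rw [LinearMap.add_apply, hx.2.2 m hm, hy.2.2 m hm, add_zero]

theorem fl_neg {M₁ M₂ : Submodule k M} {x : M →ₗ[k] M} (hx : Fl M₁ M₂ x) :
    Fl M₁ M₂ (-x) := by
  refine ⟨fun m => ?_, fun m hm => ?_, fun m hm => ?_⟩
  · rw [LinearMap.neg_apply]; exact M₁.neg_mem (hx.1 m)
  · rw [LinearMap.neg_apply]; exact M₂.neg_mem (hx.2.1 m hm)
  · rw [LinearMap.neg_apply, hx.2.2 m hm, neg_zero]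

theorem fl_mul {M₁ M₂ : Submodule k M} {x y : M →ₗ[k] M} (hx : Fl M₁ M₂ x) (hy : Fl M₁ M₂ y) :
    Fl M₁ M₂ (x * y) := by
  refine ⟨fun m => ?_, fun m hm => ?_, fun m hm => ?_⟩
  · rw [Module.End.mul_apply]; exact hx.1 _
  · rw [Module.End.mul_apply, hx.2.2 _ (hy.2.1 m hm)]; exact M₂.zero_mem
  · rw [Module.End.mul_apply, hy.2.2 m hm, map_zero]

theorem fl_mul3 {M₁ M₂ : Submodule k M} {x y z : M →ₗ[k] M} (hx : Fl M₁ M₂ x) (hy : Fl M₁ M₂ y)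
    (hz : Fl M₁ M₂ z) : x * (y * z) = 0 := by
  ext m
  rw [Module.End.mul_apply, Module.End.mul_apply, LinearMap.zero_apply]
  exact hx.2.2 _ (hy.2.1 _ (hz.1 m))

theorem fl_gen {C₁ R₁ C₂ R₂ : Submodule k M} (hR₁ : R₁ ≤ C₁) {X : M →ₗ[k] M}
    (hX : InN C₁ R₁ X) (h12 : ∀ r ∈ R₂, X r ∈ C₂) :
    Fl (R₁ ⊔ R₂) ((R₁ ⊓ C₂) ⊔ (R₂ ⊓ C₁)) X := by
  have hr : ∀ m, X m ∈ R₁ := fun m => hX.1 (LinearMap.mem_range_self X m)
  have hk : ∀ m ∈ C₁, X m = 0 := fun m hm => LinearMap.mem_ker.mp (hX.2 hm)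
  refine ⟨fun m => ?_, fun m hm => ?_, fun m hm => ?_⟩
  · exact Submodule.mem_sup_left (hr m)
  · obtain ⟨r₁, hr₁, r₂, hr₂, rfl⟩ := Submodule.mem_sup.mp hm
    rw [map_add, hk r₁ (hR₁ hr₁), zero_add]
    exact Submodule.mem_sup_left ⟨hr r₂, h12 r₂ hr₂⟩
  · obtain ⟨a, ha, b, hb, rfl⟩ := Submodule.mem_sup.mp hm
    rw [map_add, hk a (hR₁ ha.1), hk b hb.2, add_zero]

theorem fl_inv {M₁ M₂ : Submodule k M} (g : LinearMap.GeneralLinearGroup k M)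
    (hx : Fl M₁ M₂ (nl g)) : Fl M₁ M₂ (nl g⁻¹) := by
  have h3 : nl g * (nl g * nl g) = 0 := fl_mul3 hx hx hx
  have hinv : ((g⁻¹ : LinearMap.GeneralLinearGroup k M) : M →ₗ[k] M)
      = 1 - nl g + nl g * nl g := by
    apply Units.inv_eq_of_mul_eq_one_right
    rw [coe_eq g]
    have e : (1 + nl g) * (1 - nl g + nl g * nl g) = 1 + nl g * (nl g * nl g) := by
      noncomm_ring
    rw [e, h3, add_zero]
  have e2 : nl g⁻¹ = -nl g + nl g * nl g := by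
    rw [nl_def, hinv]; abel
  rw [e2]
  exact fl_add (fl_neg hx) (fl_mul hx hx)

end Unip

/-- K-UNIP: two families of square-zero maps with `X Y X' = 0`, `Y X Y' = 0` generate a group
acting unipotently (products of three maps `g - 1` vanish) -/
theorem unip_case (E₁ E₂ : Subgroup (LinearMap.GeneralLinearGroup k M))
    (C₁ R₁ C₂ R₂ : Submodule k M) (hR₁ : R₁ ≤ C₁) (hR₂ : R₂ ≤ C₂)
    (h₁ : ∀ e ∈ E₁, InN C₁ R₁ (nl e)) (h₂ : ∀ f ∈ E₂, InN C₂ R₂ (nl f))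
    (h12 : ∀ e ∈ E₁, ∀ r ∈ R₂, nl e r ∈ C₂) (h21 : ∀ f ∈ E₂, ∀ r ∈ R₁, nl f r ∈ C₁) :
    Cfsg.IsUnipotentOn (E₁ ⊔ E₂) := by
  have hall' : ∀ g ∈ Subgroup.closure ((E₁ : Set (LinearMap.GeneralLinearGroup k M)) ∪ E₂),
      Unip.Fl (R₁ ⊔ R₂) ((R₁ ⊓ C₂) ⊔ (R₂ ⊓ C₁)) (nl g) := by
    intro g hg'
    induction hg' using Subgroup.closure_induction with
    | mem x hx =>
      rcases hx with hx | hx
      · exact Unip.fl_gen hR₁ (h₁ x hx) (h12 x hx)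
      · have h := Unip.fl_gen hR₂ (h₂ x hx) (h21 x hx)
        rw [sup_comm R₂ R₁, sup_comm (R₂ ⊓ C₁) (R₁ ⊓ C₂)] at h
        exact h
    | one => rw [nl_one]; exact Unip.fl_zero _ _
    | mul x y _ _ ihx ihy =>
      rw [nl_mul]
      exact Unip.fl_add (Unip.fl_add ihx ihy) (Unip.fl_mul ihx ihy)
    | inv x _ ihx => exact Unip.fl_inv x ihx
  have hall : ∀ g ∈ E₁ ⊔ E₂, Unip.Fl (R₁ ⊔ R₂) ((R₁ ⊓ C₂) ⊔ (R₂ ⊓ C₁)) (nl g) := by
    intro g hg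
    apply hall'
    rw [Subgroup.closure_union, Subgroup.closure_eq, Subgroup.closure_eq]; exact hg
  refine ⟨3, fun l hl hlen => ?_⟩
  obtain ⟨a, b, c, rfl⟩ := List.length_eq_three.mp hlen
  have ha := hall a (hl a (by simp))
  have hb := hall b (hl b (by simp))
  have hc := hall c (hl c (by simp))
  have key : ((a : M →ₗ[k] M) - 1) * (((b : M →ₗ[k] M) - 1) * ((c : M →ₗ[k] M) - 1)) = 0 :=
    Unip.fl_mul3 ha hb hc
  simpa using key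

end Cfsg.Agent.Lib.Helper50.QS
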