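import Cfsg.Agent.Lib.Helper50.QsBase

/-!
# S5068 / S5066 foundation (helper50)

`dimS E` is the `k`-dimension of the span of `{g - 1 : g ∈ E}`; `Isolated G a` says that
`a ∈ 𝒬_d(G)` forms a unipotent pair with every member of `𝒬_d(G)`.
-/

set_option autoImplicit false

namespace Cfsg.Agent.Lib.Helper50.QT

open Polynomial Cfsg Cfsg.Agent.Lib.Helper50.QR Cfsg.Agent.Lib.Helper50.QP
  Cfsg.Agent.Lib.Helper50.QS

universe u v

variable {k : Type u} [Field k] {M : Type v} [AddCommGroup M] [Module k M] [FiniteDimensional k M]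

/-- the `k`-dimension of the span of `{g - 1 : g ∈ E}` -/
noncomputable def dimS (E : Subgroup (LinearMap.GeneralLinearGroup k M)) : ℕ :=
  Module.finrank k (Submodule.span k (nl '' (E : Set (LinearMap.GeneralLinearGroup k M))))

/-- `a ∈ 𝒬_d(G)` has no partner: it forms a unipotent pair with every member of `𝒬_d(G)` -/
def Isolated (G : Subgroup (LinearMap.GeneralLinearGroup k M))
    (a : LinearMap.GeneralLinearGroup k M) : Prop :=
  a ∈ minimalQuadraticElements G ∧
    ∀ b ∈ minimalQuadraticElements G, IsNilpotent (zz (nl a) (nl b))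

end Cfsg.Agent.Lib.Helper50.QT
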