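import Cfsg.Agent.Lib.Helper50.QtClass

set_option autoImplicit false

namespace Cfsg.Agent.Lib.Helper50.QT

open Polynomial Cfsg Cfsg.Agent.Lib.Helper50.QR Cfsg.Agent.Lib.Helper50.QP
  Cfsg.Agent.Lib.Helper50.QS

universe u v

variable {k : Type u} [Field k] {M : Type v} [AddCommGroup M] [Module k M] [FiniteDimensional k M]

namespace Cl2

open scoped commutatorElement

/-- commutators of a subgroup generated by two subgroups centralizing `D`, all of whose
"generator" commutators lie in `D`, lie in `D` -/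
theorem comm_mem_of_gens {Γ : Type*} [Group Γ] (D A B : Subgroup Γ)
    (hA : ∀ a ∈ A, ∀ d ∈ D, a * d = d * a) (hB : ∀ b ∈ B, ∀ d ∈ D, b * d = d * b)
    (hgen : ∀ x, (x ∈ A ∨ x ∈ B) → ∀ y, (y ∈ A ∨ y ∈ B) → ⁅x, y⁆ ∈ D) :
    ∀ x ∈ A ⊔ B, ∀ y ∈ A ⊔ B, ⁅x, y⁆ ∈ D := by
  have hsup : A ⊔ B = Subgroup.closure ((A : Set Γ) ∪ (B : Set Γ)) := by
    rw [Subgroup.closure_union, Subgroup.closure_eq, Subgroup.closure_eq]
  have hcent : ∀ x ∈ A ⊔ B, ∀ d ∈ D, x * d = d * x := by
    intro x hx
    rw [hsup] at hx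
    induction hx using Subgroup.closure_induction with
    | mem x hx =>
      rcases hx with hx | hx
      · exact hA x hx
      · exact hB x hx
    | one => intro d _; rw [one_mul, mul_one]
    | mul x y _ _ ihx ihy =>
      intro d hd
      rw [mul_assoc, ihy d hd, ← mul_assoc, ihx d hd, mul_assoc]
    | inv x _ ihx =>
      intro d hd
      have h := ihx d hd
      calc x⁻¹ * d = x⁻¹ * (d * x) * x⁻¹ := by group
        _ = x⁻¹ * (x * d) * x⁻¹ := by rw [h]
        _ = d * x⁻¹ := by group
  -- step 1: generators on the right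
  have step1 : ∀ y, (y ∈ A ∨ y ∈ B) → ∀ x ∈ A ⊔ B, ⁅x, y⁆ ∈ D := by
    intro y hy x hx
    have hx' := hx
    rw [hsup] at hx'
    have key : (∀ d ∈ D, x * d = d * x) ∧ ⁅x, y⁆ ∈ D := by
      induction hx' using Subgroup.closure_induction with
      | mem x hx0 =>
        refine ⟨?_, hgen x hx0 y hy⟩
        rcases hx0 with hx0 | hx0
        · exact hA x hx0
        · exact hB x hx0
      | one =>
        refine ⟨fun d _ => by rw [one_mul, mul_one], ?_⟩
        rw [commutatorElement_def]
        simp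
      | mul x x' _ _ ihx ihx' =>
        have hx1 := ihx (by rw [hsup]; assumption)
        have hx2 := ihx' (by rw [hsup]; assumption)
        refine ⟨?_, ?_⟩
        · intro d hd
          rw [mul_assoc, hx2.1 d hd, ← mul_assoc, hx1.1 d hd, mul_assoc]
        · have e1 : ⁅x * x', y⁆ = x * ⁅x', y⁆ * x⁻¹ * ⁅x, y⁆ := by
            rw [commutatorElement_def, commutatorElement_def, commutatorElement_def]
            group
          have e2 : x * ⁅x', y⁆ * x⁻¹ = ⁅x', y⁆ := by
            rw [hx1.1 _ hx2.2, mul_assoc, mul_inv_cancel, mul_one]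
          rw [e1, e2]
          exact D.mul_mem hx2.2 hx1.2
      | inv x _ ihx =>
        have hx1 := ihx (by rw [hsup]; assumption)
        have hc : ∀ d ∈ D, x⁻¹ * d = d * x⁻¹ := by
          intro d hd
          have h := hx1.1 d hd
          calc x⁻¹ * d = x⁻¹ * (d * x) * x⁻¹ := by group
            _ = x⁻¹ * (x * d) * x⁻¹ := by rw [h]
            _ = d * x⁻¹ := by group
        refine ⟨hc, ?_⟩
        have e1 : ⁅x⁻¹, y⁆ = x⁻¹ * ⁅x, y⁆⁻¹ * x := by
          rw [commutatorElement_def, commutatorElement_def]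
          group
        have e2 : x⁻¹ * ⁅x, y⁆⁻¹ * x = ⁅x, y⁆⁻¹ := by
          rw [hc _ (D.inv_mem hx1.2), mul_assoc, inv_mul_cancel, mul_one]
        rw [e1, e2]
        exact D.inv_mem hx1.2
    exact key.2
  -- step 2: everything on the right
  intro x hx y hy
  have hy' := hy
  rw [hsup] at hy'
  have key : (∀ d ∈ D, y * d = d * y) ∧ ⁅x, y⁆ ∈ D := by
    induction hy' using Subgroup.closure_induction with
    | mem y hy0 =>
      exact ⟨hcent y (by rw [hsup]; exact Subgroup.subset_closure hy0), step1 y hy0 x hx⟩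
    | one =>
      refine ⟨fun d _ => by rw [one_mul, mul_one], ?_⟩
      rw [commutatorElement_def]
      simp
    | mul y y' _ _ ihy ihy' =>
      have hy1 := ihy (by rw [hsup]; assumption)
      have hy2 := ihy' (by rw [hsup]; assumption)
      refine ⟨?_, ?_⟩
      · intro d hd
        rw [mul_assoc, hy2.1 d hd, ← mul_assoc, hy1.1 d hd, mul_assoc]
      · have e1 : ⁅x, y * y'⁆ = ⁅x, y⁆ * (y * ⁅x, y'⁆ * y⁻¹) := by
          rw [commutatorElement_def, commutatorElement_def, commutatorElement_def]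
          group
        have e2 : y * ⁅x, y'⁆ * y⁻¹ = ⁅x, y'⁆ := by
          rw [hy1.1 _ hy2.2, mul_assoc, mul_inv_cancel, mul_one]
        rw [e1, e2]
        exact D.mul_mem hy1.2 hy2.2
    | inv y _ ihy =>
      have hy1 := ihy (by rw [hsup]; assumption)
      have hc : ∀ d ∈ D, y⁻¹ * d = d * y⁻¹ := by
        intro d hd
        have h := hy1.1 d hd
        calc y⁻¹ * d = y⁻¹ * (d * y) * y⁻¹ := by group
          _ = y⁻¹ * (y * d) * y⁻¹ := by rw [h]
          _ = d * y⁻¹ := by group
      refine ⟨hc, ?_⟩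
      have e1 : ⁅x, y⁻¹⁆ = y⁻¹ * ⁅x, y⁆⁻¹ * y := by
        rw [commutatorElement_def, commutatorElement_def]
        group
      have e2 : y⁻¹ * ⁅x, y⁆⁻¹ * y = ⁅x, y⁆⁻¹ := by
        rw [hc _ (D.inv_mem hy1.2), mul_assoc, inv_mul_cancel, mul_one]
      rw [e1, e2]
      exact D.inv_mem hy1.2
  exact key.2

/-- two units whose `nl`-parts annihilate each other commute -/
theorem commute_of_mul_zero {a b : LinearMap.GeneralLinearGroup k M}
    (h1 : nl a * nl b = 0) (h2 : nl b * nl a = 0) : a * b = b * a := by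
  apply eq_of_nl_eq
  rw [nl_mul, nl_mul, h1, h2, add_comm (nl a) (nl b)]

/-- `X * T = 0` from `range T ≤ ker X` -/
theorem mul_zero_of_range_le_ker {X T : M →ₗ[k] M}
    (h : LinearMap.range T ≤ LinearMap.ker X) : X * T = 0 := by
  ext m
  rw [Module.End.mul_apply, LinearMap.zero_apply]
  exact LinearMap.mem_ker.mp (h ⟨m, rfl⟩)

end Cl2

open scoped commutatorElement in
/-- T-CL2: a unipotent, non-commuting pair of root subgroups generates a group of class 2 -/
theorem class_two (hk2 : ringChar k ≠ 2) (hk3 : Nat.card k ≠ 3)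
    {G : Subgroup (LinearMap.GeneralLinearGroup k M)}
    {σ τ : LinearMap.GeneralLinearGroup k M} (hσ : σ ∈ minimalQuadraticElements G)
    (hτ : τ ∈ minimalQuadraticElements G) (hz : IsNilpotent (zz (nl σ) (nl τ)))
    (hne : ⁅sameActionSubgroup G σ, sameActionSubgroup G τ⁆ ≠ ⊥) :
    ⁅⁅sameActionSubgroup G σ ⊔ sameActionSubgroup G τ,
        sameActionSubgroup G σ ⊔ sameActionSubgroup G τ⁆,
      sameActionSubgroup G σ ⊔ sameActionSubgroup G τ⁆ = ⊥ := by
  have h2 : (2 : k) ≠ 0 := Ring.two_ne_zero hk2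
  obtain ⟨hρ, hcomm⟩ := comm_class hk2 hk3 hσ hτ hz hne
  have hρ1 : σ * τ * σ⁻¹ * τ⁻¹ ≠ 1 := self_ne_one hρ
  obtain ⟨-, hrange, hker⟩ := (comm_props h2 hσ hτ hz).2 hρ1
  have hRA : LinearMap.range (nl σ) ≤ LinearMap.ker (nl σ) :=
    range_le_ker_of_sq (quad_sq hσ.1.2.1)
  have hRB : LinearMap.range (nl τ) ≤ LinearMap.ker (nl τ) :=
    range_le_ker_of_sq (quad_sq hτ.1.2.1)
  -- elements of `D` commute with elements of `E` and of `F`
  have hE : ∀ e ∈ sameActionSubgroup G σ, ∀ t ∈ sameActionSubgroup G (σ * τ * σ⁻¹ * τ⁻¹),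
      e * t = t * e := by
    intro e he t ht
    have hT := inN_of_mem hρ ht
    have hX := inN_of_mem hσ he
    rw [hrange, hker] at hT
    apply Cl2.commute_of_mul_zero
    · apply Cl2.mul_zero_of_range_le_ker
      refine le_trans hT.1 (le_trans ?_ hX.2)
      exact sup_le (le_trans inf_le_left hRA) inf_le_right
    · apply Cl2.mul_zero_of_range_le_ker
      refine le_trans hX.1 (le_trans ?_ hT.2)
      exact le_inf le_sup_right (le_trans hRA le_sup_left)
  have hF : ∀ f ∈ sameActionSubgroup G τ, ∀ t ∈ sameActionSubgroup G (σ * τ * σ⁻¹ * τ⁻¹),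
      f * t = t * f := by
    intro f hf t ht
    have hT := inN_of_mem hρ ht
    have hY := inN_of_mem hτ hf
    rw [hrange, hker] at hT
    apply Cl2.commute_of_mul_zero
    · apply Cl2.mul_zero_of_range_le_ker
      refine le_trans hT.1 (le_trans ?_ hY.2)
      exact sup_le inf_le_right (le_trans inf_le_left hRB)
    · apply Cl2.mul_zero_of_range_le_ker
      refine le_trans hY.1 (le_trans ?_ hT.2)
      exact le_inf (le_trans hRB le_sup_left) le_sup_right
  -- generator commutators lie in `D`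
  have hgen : ∀ x, (x ∈ sameActionSubgroup G σ ∨ x ∈ sameActionSubgroup G τ) →
      ∀ y, (y ∈ sameActionSubgroup G σ ∨ y ∈ sameActionSubgroup G τ) →
      ⁅x, y⁆ ∈ sameActionSubgroup G (σ * τ * σ⁻¹ * τ⁻¹) := by
    intro x hx y hy
    rcases hx with hx | hx <;> rcases hy with hy | hy
    · have : ⁅x, y⁆ = 1 := by
        rw [commutatorElement_def, comm_of_mem hσ hx hy]
        group
      rw [this]
      exact Subgroup.one_mem _
    · rw [commutatorElement_def]
      exact (hcomm x hx y hy).1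
    · have h1 := (hcomm y hy x hx).1
      have : ⁅x, y⁆ = (y * x * y⁻¹ * x⁻¹)⁻¹ := by
        rw [commutatorElement_def]
        group
      rw [this]
      exact Subgroup.inv_mem _ h1
    · have : ⁅x, y⁆ = 1 := by
        rw [commutatorElement_def, comm_of_mem hτ hx hy]
        group
      rw [this]
      exact Subgroup.one_mem _
  have hall := Cl2.comm_mem_of_gens (sameActionSubgroup G (σ * τ * σ⁻¹ * τ⁻¹))
    (sameActionSubgroup G σ) (sameActionSubgroup G τ) hE hF hgen
  have hle : ⁅sameActionSubgroup G σ ⊔ sameActionSubgroup G τ,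
      sameActionSubgroup G σ ⊔ sameActionSubgroup G τ⁆
      ≤ sameActionSubgroup G (σ * τ * σ⁻¹ * τ⁻¹) := by
    rw [Subgroup.commutator_le]
    exact hall
  have hPcent : sameActionSubgroup G σ ⊔ sameActionSubgroup G τ
      ≤ Subgroup.centralizer
        ((sameActionSubgroup G (σ * τ * σ⁻¹ * τ⁻¹) : Subgroup _) : Set _) := by
    apply sup_le
    · intro e he
      rw [Subgroup.mem_centralizer_iff]
      intro t ht
      exact (hE e he t ht).symm
    · intro f hf
      rw [Subgroup.mem_centralizer_iff]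
      intro t ht
      exact (hF f hf t ht).symm
  rw [eq_bot_iff]
  refine le_trans (Subgroup.commutator_mono hle le_rfl) ?_
  rw [← eq_bot_iff, Subgroup.commutator_eq_bot_iff_le_centralizer]
  exact Subgroup.le_centralizer_iff.1 hPcent

end Cfsg.Agent.Lib.Helper50.QT
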