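import Cfsg.Agent.Lib.Helper50.QtComm

set_option autoImplicit false

namespace Cfsg.Agent.Lib.Helper50.QT

open Polynomial Cfsg Cfsg.Agent.Lib.Helper50.QR Cfsg.Agent.Lib.Helper50.QP
  Cfsg.Agent.Lib.Helper50.QS

universe u v

variable {k : Type u} [Field k] {M : Type v} [AddCommGroup M] [Module k M] [FiniteDimensional k M]

/-- T-CLASS: for a unipotent, non-commuting pair of root subgroups all commutators `[e,f]` lie
in the root subgroup of `[σ,τ]`, and are non-trivial for `e ≠ 1 ≠ f` -/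
theorem comm_class (hk2 : ringChar k ≠ 2) (hk3 : Nat.card k ≠ 3)
    {G : Subgroup (LinearMap.GeneralLinearGroup k M)}
    {σ τ : LinearMap.GeneralLinearGroup k M} (hσ : σ ∈ minimalQuadraticElements G)
    (hτ : τ ∈ minimalQuadraticElements G) (hz : IsNilpotent (zz (nl σ) (nl τ)))
    (hne : ⁅sameActionSubgroup G σ, sameActionSubgroup G τ⁆ ≠ ⊥) :
    σ * τ * σ⁻¹ * τ⁻¹ ∈ minimalQuadraticElements G ∧
    ∀ e ∈ sameActionSubgroup G σ, ∀ f ∈ sameActionSubgroup G τ,
      e * f * e⁻¹ * f⁻¹ ∈ sameActionSubgroup G (σ * τ * σ⁻¹ * τ⁻¹) ∧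
      (e ≠ 1 → f ≠ 1 → e * f * e⁻¹ * f⁻¹ ≠ 1) := by
  have h2 : (2 : k) ≠ 0 := Ring.two_ne_zero hk2
  have hE : sameActionSubgroup G σ ∈ quadraticRootSubgroups G := ⟨σ, hσ, rfl⟩
  have hF : sameActionSubgroup G τ ∈ quadraticRootSubgroups G := ⟨τ, hτ, rfl⟩
  -- non-identity elements do not commute
  have key : ∀ e ∈ sameActionSubgroup G σ, ∀ f ∈ sameActionSubgroup G τ, e ≠ 1 → f ≠ 1 →
      e * f * e⁻¹ * f⁻¹ ≠ 1 := by
    intro e he f hf he1 hf1 h1
    apply hne
    refine root_commute h2 hE hF (Or.inl ⟨e, he, he1, f, hf, hf1, ?_⟩)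
    have h3 : e * f * e⁻¹ = f := by
      have h4 := congrArg (fun x => x * f) h1
      simpa using h4
    have h5 := congrArg (fun x => x * e) h3
    simpa using h5
  have hρne : σ * τ * σ⁻¹ * τ⁻¹ ≠ 1 :=
    key σ (self_mem hσ) τ (self_mem hτ) (self_ne_one hσ) (self_ne_one hτ)
  obtain ⟨hρmin, hρrange, hρker⟩ := (comm_props h2 hσ hτ hz).2 hρne
  refine ⟨hρmin, ?_⟩
  intro e he f hf
  by_cases he1 : e = 1
  · refine ⟨?_, fun h => absurd he1 h⟩
    rw [he1, one_mul, inv_one, mul_one, mul_inv_cancel]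
    exact Subgroup.one_mem _
  by_cases hf1 : f = 1
  · refine ⟨?_, fun _ h => absurd hf1 h⟩
    rw [hf1, mul_one, inv_one, mul_one, mul_inv_cancel]
    exact Subgroup.one_mem _
  refine ⟨?_, fun _ _ => key e he f hf he1 hf1⟩
  have he' := min_of_mem hσ he he1
  have hf' := min_of_mem hτ hf hf1
  have hz' := nil_transfer hk2 hk3 hσ hτ hz he he1 hf hf1
  obtain ⟨hmin, hrange, hker⟩ := (comm_props h2 he' hf' hz').2 (key e he f hf he1 hf1)
  rw [range_of_mem hσ he he1, ker_of_mem hτ hf hf1, range_of_mem hτ hf hf1,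
    ker_of_mem hσ he he1, ← hρrange] at hrange
  rw [range_of_mem hσ he he1, ker_of_mem hτ hf hf1, range_of_mem hτ hf hf1,
    ker_of_mem hσ he he1, ← hρker] at hker
  exact Subgroup.subset_closure ⟨hmin, hker, hrange⟩

end Cfsg.Agent.Lib.Helper50.QT
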