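import Cfsg.Agent.Lib.Helper50.QtBase

set_option autoImplicit false

namespace Cfsg.Agent.Lib.Helper50.QT

open Polynomial Cfsg Cfsg.Agent.Lib.Helper50.QR Cfsg.Agent.Lib.Helper50.QP
  Cfsg.Agent.Lib.Helper50.QS

universe u v

variable {k : Type u} [Field k] {M : Type v} [AddCommGroup M] [Module k M] [FiniteDimensional k M]

namespace Comm

omit [FiniteDimensional k M] in
/-- the commutator formula `[a,b] = 1 + XY - YX` -/
theorem comm_formula (a b : LinearMap.GeneralLinearGroup k M)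
    (hXX : nl a * nl a = 0) (hYY : nl b * nl b = 0)
    (hXYX : nl a * nl b * nl a = 0) (hYXY : nl b * nl a * nl b = 0) :
    nl (a * b * a⁻¹ * b⁻¹) = nl a * nl b - nl b * nl a := by
  rw [nl_def (a * b * a⁻¹ * b⁻¹), Units.val_mul, Units.val_mul, Units.val_mul,
    coe_inv_of_sq a hXX, coe_inv_of_sq b hYY, coe_eq a, coe_eq b]
  generalize nl a = X at *
  generalize nl b = Y at *
  have e : (1 + X) * (1 + Y) * (1 - X) * (1 - Y) - 1 =
      X * Y - Y * X - X * X - X * Y * X - Y * Y - X * (Y * Y) + X * X * Y + Y * X * Y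
        + X * Y * X * Y := by noncomm_ring
  rw [e, hXX, hXYX, hYY, hYXY]
  simp

omit [FiniteDimensional k M] in
theorem comm_sq {X Y : Module.End k M} (hXX : X * X = 0) (hYY : Y * Y = 0)
    (hXYX : X * Y * X = 0) (hYXY : Y * X * Y = 0) :
    (X * Y - Y * X) * (X * Y - Y * X) = 0 := by
  have e : (X * Y - Y * X) * (X * Y - Y * X) =
      X * Y * X * Y - X * (Y * Y) * X - Y * (X * X) * Y + Y * X * Y * X := by noncomm_ring
  rw [e, hXX, hYY, hXYX, hYXY]
  simp

/-- rank–nullity for the restriction of `X` to a subspace -/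
theorem finrank_map_add (X : Module.End k M) (R : Submodule k M) :
    Module.finrank k ↥(R.map X) + Module.finrank k ↥(R ⊓ LinearMap.ker X) =
      Module.finrank k ↥R := by
  have h := LinearMap.finrank_range_add_finrank_ker (X.domRestrict R)
  rw [LinearMap.range_domRestrict, LinearMap.ker_domRestrict] at h
  have h2 : Module.finrank k ↥(Submodule.comap R.subtype (LinearMap.ker X)) =
      Module.finrank k ↥(R ⊓ LinearMap.ker X) := by
    rw [← Submodule.map_comap_subtype, Submodule.finrank_map_subtype_eq]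
  rw [h2] at h
  exact h

omit [FiniteDimensional k M] in
theorem sub_apply' (X Y : Module.End k M) (m : M) :
    (X * Y - Y * X) m = X (Y m) - Y (X m) := by
  rw [LinearMap.sub_apply, Module.End.mul_apply, Module.End.mul_apply]

/-- the linear algebra behind T-COMM -/
theorem lin (X Y : Module.End k M) (hXYX : X * Y * X = 0) (hYXY : Y * X * Y = 0) (d : ℕ)
    (hdX : Module.finrank k ↥(LinearMap.range X) = d)
    (hdY : Module.finrank k ↥(LinearMap.range Y) = d)
    (hdZ : d ≤ Module.finrank k ↥(LinearMap.range (X * Y - Y * X))) :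
    Module.finrank k ↥(LinearMap.range (X * Y - Y * X)) = d ∧
    LinearMap.range (X * Y - Y * X) =
      (LinearMap.range X ⊓ LinearMap.ker Y) ⊔ (LinearMap.range Y ⊓ LinearMap.ker X) ∧
    LinearMap.ker (X * Y - Y * X) =
      (LinearMap.ker Y ⊔ LinearMap.range X) ⊓ (LinearMap.ker X ⊔ LinearMap.range Y) := by
  have hYXYm : ∀ m, Y (X (Y m)) = 0 := by
    intro m
    have := congrArg (fun f : Module.End k M => f m) hYXY
    simpa [Module.End.mul_apply] using this
  have hXYXm : ∀ m, X (Y (X m)) = 0 := by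
    intro m
    have := congrArg (fun f : Module.End k M => f m) hXYX
    simpa [Module.End.mul_apply] using this
  have h1 : (LinearMap.range Y).map X ≤ LinearMap.range X ⊓ LinearMap.ker Y := by
    rintro _ ⟨_, ⟨m, rfl⟩, rfl⟩
    exact ⟨LinearMap.mem_range_self X _, LinearMap.mem_ker.mpr (hYXYm m)⟩
  have h2 : (LinearMap.range X).map Y ≤ LinearMap.range Y ⊓ LinearMap.ker X := by
    rintro _ ⟨_, ⟨m, rfl⟩, rfl⟩
    exact ⟨LinearMap.mem_range_self Y _, LinearMap.mem_ker.mpr (hXYXm m)⟩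
  have h3 := finrank_map_add X (LinearMap.range Y)
  have h4 := finrank_map_add Y (LinearMap.range X)
  have h5 : LinearMap.range (X * Y - Y * X) ≤
      (LinearMap.range Y).map X ⊔ (LinearMap.range X).map Y := by
    rintro _ ⟨m, rfl⟩
    rw [sub_apply']
    exact Submodule.sub_mem _
      (Submodule.mem_sup_left ⟨Y m, LinearMap.mem_range_self Y m, rfl⟩)
      (Submodule.mem_sup_right ⟨X m, LinearMap.mem_range_self X m, rfl⟩)
  have h6 := Submodule.finrank_mono h5
  have h7 := Submodule.finrank_add_le_finrank_add_finrank ((LinearMap.range Y).map X)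
    ((LinearMap.range X).map Y)
  have h8 := Submodule.finrank_mono h1
  have h9 := Submodule.finrank_mono h2
  have e1 : (LinearMap.range Y).map X = LinearMap.range X ⊓ LinearMap.ker Y :=
    Submodule.eq_of_le_of_finrank_eq h1 (by omega)
  have e2 : (LinearMap.range X).map Y = LinearMap.range Y ⊓ LinearMap.ker X :=
    Submodule.eq_of_le_of_finrank_eq h2 (by omega)
  have hzd : Module.finrank k ↥(LinearMap.range (X * Y - Y * X)) = d := by omega
  have h5' : LinearMap.range (X * Y - Y * X) ≤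
      (LinearMap.range X ⊓ LinearMap.ker Y) ⊔ (LinearMap.range Y ⊓ LinearMap.ker X) := by
    rw [← e1, ← e2]
    exact h5
  have h10 := Submodule.finrank_add_le_finrank_add_finrank
    (LinearMap.range X ⊓ LinearMap.ker Y) (LinearMap.range Y ⊓ LinearMap.ker X)
  have e3 : LinearMap.range (X * Y - Y * X) =
      (LinearMap.range X ⊓ LinearMap.ker Y) ⊔ (LinearMap.range Y ⊓ LinearMap.ker X) :=
    Submodule.eq_of_le_of_finrank_le h5' (by omega)
  have h11 := Submodule.finrank_sup_add_finrank_inf_eq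
    (LinearMap.range X ⊓ LinearMap.ker Y) (LinearMap.range Y ⊓ LinearMap.ker X)
  have e4 : (LinearMap.range X ⊓ LinearMap.ker Y) ⊓ (LinearMap.range Y ⊓ LinearMap.ker X)
      = ⊥ := by
    apply Submodule.finrank_eq_zero.mp
    rw [← e3] at h11
    omega
  refine ⟨hzd, e3, ?_⟩
  ext m
  rw [LinearMap.mem_ker, sub_apply']
  constructor
  · intro hm
    rw [sub_eq_zero] at hm
    have hw : X (Y m) ∈ (LinearMap.range X ⊓ LinearMap.ker Y) ⊓
        (LinearMap.range Y ⊓ LinearMap.ker X) := by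
      refine ⟨h1 ⟨Y m, LinearMap.mem_range_self Y m, rfl⟩, ?_⟩
      rw [hm]
      exact h2 ⟨X m, LinearMap.mem_range_self X m, rfl⟩
    rw [e4, Submodule.mem_bot] at hw
    have hw' : Y (X m) = 0 := by rw [← hm]; exact hw
    refine ⟨?_, ?_⟩
    · have hmem : Y m ∈ (LinearMap.range X).map Y := by
        rw [e2]
        exact ⟨LinearMap.mem_range_self Y m, LinearMap.mem_ker.mpr hw⟩
      obtain ⟨r, hr, hrm⟩ := hmem
      refine Submodule.mem_sup.mpr ⟨m - r, ?_, r, hr, by abel⟩
      rw [LinearMap.mem_ker, map_sub, hrm, sub_self]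
    · have hmem : X m ∈ (LinearMap.range Y).map X := by
        rw [e1]
        exact ⟨LinearMap.mem_range_self X m, LinearMap.mem_ker.mpr hw'⟩
      obtain ⟨r, hr, hrm⟩ := hmem
      refine Submodule.mem_sup.mpr ⟨m - r, ?_, r, hr, by abel⟩
      rw [LinearMap.mem_ker, map_sub, hrm, sub_self]
  · rintro ⟨hm1, hm2⟩
    obtain ⟨c, hc, r, hr, hcr⟩ := Submodule.mem_sup.mp hm1
    obtain ⟨c', hc', r', hr', hcr'⟩ := Submodule.mem_sup.mp hm2
    have hY : Y m = Y r := by
      rw [← hcr, map_add, LinearMap.mem_ker.mp hc, zero_add]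
    have hX : X m = X r' := by
      rw [← hcr', map_add, LinearMap.mem_ker.mp hc', zero_add]
    have h12 : X (Y r) = 0 := by
      have : Y r ∈ LinearMap.range Y ⊓ LinearMap.ker X := h2 ⟨r, hr, rfl⟩
      exact LinearMap.mem_ker.mp this.2
    have h13 : Y (X r') = 0 := by
      have : X r' ∈ LinearMap.range X ⊓ LinearMap.ker Y := h1 ⟨r', hr', rfl⟩
      exact LinearMap.mem_ker.mp this.2
    rw [hY, hX, h12, h13, sub_zero]

end Comm

/-- T-COMM: the commutator of a unipotent pair of members of `𝒬_d`: `[a,b] = 1 + (XY - YX)`,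
and if it is not `1` it is a member of `𝒬_d` with explicit commutator space and fixed space -/
theorem comm_props (h2 : (2 : k) ≠ 0) {G : Subgroup (LinearMap.GeneralLinearGroup k M)}
    {a b : LinearMap.GeneralLinearGroup k M} (ha : a ∈ minimalQuadraticElements G)
    (hb : b ∈ minimalQuadraticElements G) (hz : IsNilpotent (zz (nl a) (nl b))) :
    nl (a * b * a⁻¹ * b⁻¹) = nl a * nl b - nl b * nl a ∧
    (a * b * a⁻¹ * b⁻¹ ≠ 1 →
      a * b * a⁻¹ * b⁻¹ ∈ minimalQuadraticElements G ∧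
      LinearMap.range (nl (a * b * a⁻¹ * b⁻¹)) =
        (LinearMap.range (nl a) ⊓ LinearMap.ker (nl b)) ⊔
          (LinearMap.range (nl b) ⊓ LinearMap.ker (nl a)) ∧
      LinearMap.ker (nl (a * b * a⁻¹ * b⁻¹)) =
        (LinearMap.ker (nl b) ⊔ LinearMap.range (nl a)) ⊓
          (LinearMap.ker (nl a) ⊔ LinearMap.range (nl b))) := by
  obtain ⟨hXYX, hYXY⟩ := pair_nil h2 ha hb hz
  have hXX : nl a * nl a = 0 := quad_sq ha.1.2.1
  have hYY : nl b * nl b = 0 := quad_sq hb.1.2.1
  have hf := Comm.comm_formula a b hXX hYY hXYX hYXY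
  refine ⟨hf, fun hne => ?_⟩
  have hZne : nl (a * b * a⁻¹ * b⁻¹) ≠ 0 := nl_ne_zero hne
  have hZsq : nl (a * b * a⁻¹ * b⁻¹) * nl (a * b * a⁻¹ * b⁻¹) = 0 := by
    rw [hf]
    exact Comm.comm_sq hXX hYY hXYX hYXY
  have hρG : a * b * a⁻¹ * b⁻¹ ∈ G :=
    G.mul_mem (G.mul_mem (G.mul_mem ha.1.1 hb.1.1) (G.inv_mem ha.1.1)) (G.inv_mem hb.1.1)
  have hρQ : a * b * a⁻¹ * b⁻¹ ∈ quadraticElements G := by
    refine ⟨hρG, ⟨hZsq, hZne⟩, ?_⟩
    rintro t ⟨c, ht⟩
    have hc : (c • nl a) * (c • nl a) = 0 := smul_sq hXX c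
    have hmem : mkU (c • nl a) hc ∈ G := mkU_smul_mem ha.1 c hc
    have hcomm := Comm.comm_formula (mkU (c • nl a) hc) b (by rw [nl_mkU]; exact hc) hYY
      (by
        rw [nl_mkU, smul_mul_assoc, smul_mul_assoc, mul_smul_comm, hXYX, smul_zero, smul_zero])
      (by
        rw [nl_mkU, mul_smul_comm, smul_mul_assoc, hYXY, smul_zero])
    have ht' : t = mkU (c • nl a) hc * b * (mkU (c • nl a) hc)⁻¹ * b⁻¹ := by
      apply eq_of_nl_eq
      rw [hcomm, nl_mkU, nl_def t, ht]
      have e : ((a * b * a⁻¹ * b⁻¹ : LinearMap.GeneralLinearGroup k M) : M →ₗ[k] M) - 1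
          = nl (a * b * a⁻¹ * b⁻¹) := rfl
      rw [e, hf, add_sub_cancel_left, smul_sub, smul_mul_assoc, mul_smul_comm]
    rw [ht']
    exact G.mul_mem (G.mul_mem (G.mul_mem hmem hb.1.1) (G.inv_mem hmem)) (G.inv_mem hb.1.1)
  have hd : Module.finrank k ↥(LinearMap.range (nl a)) ≤
      Module.finrank k ↥(LinearMap.range (nl (a * b * a⁻¹ * b⁻¹))) := ha.2 _ hρQ
  have hlin := Comm.lin (nl a) (nl b) hXYX hYXY _ rfl (rank_eq hb ha)
    (by rw [← hf]; exact hd)
  rw [← hf] at hlin
  obtain ⟨hzd, hrange, hker⟩ := hlin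
  refine ⟨⟨hρQ, fun τ' hτ' => ?_⟩, hrange, hker⟩
  have h1 : commutatorRank (a * b * a⁻¹ * b⁻¹) = commutatorRank a := hzd
  rw [h1]
  exact ha.2 τ' hτ'

end Cfsg.Agent.Lib.Helper50.QT
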