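import Cfsg.Agent.Lib.Helper50.QtClass

set_option autoImplicit false
set_option linter.unusedSectionVars false

namespace Cfsg.Agent.Lib.Helper50.QT.Core

open Cfsg Cfsg.Agent.Lib.Helper50.QR Cfsg.Agent.Lib.Helper50.QP Cfsg.Agent.Lib.Helper50.QS

universe u v

variable {k : Type u} [Field k] {M : Type v} [AddCommGroup M] [Module k M]

theorem coe_inv_of_cube (g : LinearMap.GeneralLinearGroup k M)
    (h : nl g * nl g * nl g = 0) :
    ((g⁻¹ : LinearMap.GeneralLinearGroup k M) : M →ₗ[k] M) = 1 - nl g + nl g * nl g := by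
  apply Units.inv_eq_of_mul_eq_one_right
  rw [coe_eq g]
  have e : (1 + nl g) * (1 - nl g + nl g * nl g) = 1 + nl g * nl g * nl g := by noncomm_ring
  rw [e, h, add_zero]

theorem nl_inv_of_cube (g : LinearMap.GeneralLinearGroup k M)
    (h : nl g * nl g * nl g = 0) : nl g⁻¹ = - nl g + nl g * nl g := by
  rw [nl_def, coe_inv_of_cube g h]
  abel

theorem mul_zero_of {X Y : M →ₗ[k] M} {S : Submodule k M} (hY : LinearMap.range Y ≤ S)
    (hX : S ≤ LinearMap.ker X) : X * Y = 0 := by
  ext m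
  exact LinearMap.mem_ker.mp (hX (hY (LinearMap.mem_range_self Y m)))

/-- the subgroup of the elements `g` with `(g-1)M ≤ K`, `(g-1)K ≤ R`, `(g-1)R = 0` -/
def flagSub (K R : Submodule k M) : Subgroup (LinearMap.GeneralLinearGroup k M) where
  carrier := {g | LinearMap.range (nl g) ≤ K ∧ (∀ m ∈ K, nl g m ∈ R) ∧ (∀ m ∈ R, nl g m = 0)}
  one_mem' := by
    refine ⟨?_, ?_, ?_⟩
    · rw [nl_one]
      rintro _ ⟨m, rfl⟩
      exact K.zero_mem
    · intro m _
      rw [nl_one]
      exact R.zero_mem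
    · intro m _
      rw [nl_one]
      rfl
  mul_mem' := by
    rintro g h ⟨hg1, hg2, hg3⟩ ⟨hh1, hh2, hh3⟩
    have e : ∀ m, nl (g * h) m = nl g m + nl h m + nl g (nl h m) := by
      intro m
      rw [nl_mul]
      rfl
    refine ⟨?_, ?_, ?_⟩
    · rintro _ ⟨m, rfl⟩
      rw [e]
      exact K.add_mem (K.add_mem (hg1 (LinearMap.mem_range_self _ _))
        (hh1 (LinearMap.mem_range_self _ _))) (hg1 (LinearMap.mem_range_self _ _))
    · intro m hm
      rw [e, hg3 _ (hh2 m hm), add_zero]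
      exact R.add_mem (hg2 m hm) (hh2 m hm)
    · intro m hm
      rw [e, hh3 m hm, hg3 m hm, map_zero, add_zero, add_zero]
  inv_mem' := by
    rintro g ⟨hg1, hg2, hg3⟩
    have hcube : nl g * nl g * nl g = 0 := by
      ext m
      show nl g (nl g (nl g m)) = 0
      exact hg3 _ (hg2 _ (hg1 (LinearMap.mem_range_self _ _)))
    have e : ∀ m, nl g⁻¹ m = - nl g m + nl g (nl g m) := by
      intro m
      rw [nl_inv_of_cube g hcube]
      rfl
    refine ⟨?_, ?_, ?_⟩
    · rintro _ ⟨m, rfl⟩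
      rw [e]
      exact K.add_mem (K.neg_mem (hg1 (LinearMap.mem_range_self _ _)))
        (hg1 (LinearMap.mem_range_self _ _))
    · intro m hm
      rw [e, hg3 _ (hg2 m hm), add_zero]
      exact R.neg_mem (hg2 m hm)
    · intro m hm
      rw [e, hg3 m hm, map_zero, neg_zero, add_zero]

theorem mem_flagSub {K R : Submodule k M} {g : LinearMap.GeneralLinearGroup k M} :
    g ∈ flagSub K R ↔
      LinearMap.range (nl g) ≤ K ∧ (∀ m ∈ K, nl g m ∈ R) ∧ (∀ m ∈ R, nl g m = 0) := Iff.rfl

theorem nl_apply (g : LinearMap.GeneralLinearGroup k M) (m : M) :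
    nl g m = (g : M →ₗ[k] M) m - m := rfl

end Cfsg.Agent.Lib.Helper50.QT.Core

namespace Cfsg.Agent.Lib.Helper50.QT

open Polynomial Cfsg Cfsg.Agent.Lib.Helper50.QR Cfsg.Agent.Lib.Helper50.QP
  Cfsg.Agent.Lib.Helper50.QS

universe u v

variable {k : Type u} [Field k] {M : Type v} [AddCommGroup M] [Module k M] [FiniteDimensional k M]

/-- T-CORE: a unipotent, non-commuting pair of root subgroups lies in `U(D)`, `D` the root
subgroup of the commutator `[σ,τ]` -/
theorem sup_le_core (hk2 : ringChar k ≠ 2) (hk3 : Nat.card k ≠ 3)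
    {G : Subgroup (LinearMap.GeneralLinearGroup k M)}
    {σ τ : LinearMap.GeneralLinearGroup k M} (hσ : σ ∈ minimalQuadraticElements G)
    (hτ : τ ∈ minimalQuadraticElements G) (hz : IsNilpotent (zz (nl σ) (nl τ)))
    (hne : ⁅sameActionSubgroup G σ, sameActionSubgroup G τ⁆ ≠ ⊥) :
    ((sameActionSubgroup G σ ⊔ sameActionSubgroup G τ :
        Subgroup (LinearMap.GeneralLinearGroup k M)) :
      Set (LinearMap.GeneralLinearGroup k M)) ⊆
      Cfsg.quadraticUnipotentCore G (sameActionSubgroup G (σ * τ * σ⁻¹ * τ⁻¹)) := by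
  have h2 : (2 : k) ≠ 0 := Ring.two_ne_zero hk2
  obtain ⟨hρmin, -⟩ := comm_class hk2 hk3 hσ hτ hz hne
  have hρne : σ * τ * σ⁻¹ * τ⁻¹ ≠ 1 := self_ne_one hρmin
  obtain ⟨-, hρrange, hρker⟩ := (comm_props h2 hσ hτ hz).2 hρne
  generalize σ * τ * σ⁻¹ * τ⁻¹ = ρ at hρmin hρne hρrange hρker ⊢
  have hRA_CA : LinearMap.range (nl σ) ≤ LinearMap.ker (nl σ) :=
    range_le_ker_of_sq (quad_sq hσ.1.2.1)
  have hRB_CB : LinearMap.range (nl τ) ≤ LinearMap.ker (nl τ) :=
    range_le_ker_of_sq (quad_sq hτ.1.2.1)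
  have hR_CA : LinearMap.range (nl ρ) ≤ LinearMap.ker (nl σ) := by
    rw [hρrange]; exact sup_le (inf_le_left.trans hRA_CA) inf_le_right
  have hR_CB : LinearMap.range (nl ρ) ≤ LinearMap.ker (nl τ) := by
    rw [hρrange]; exact sup_le inf_le_right (inf_le_left.trans hRB_CB)
  have hRA_K : LinearMap.range (nl σ) ≤ LinearMap.ker (nl ρ) := by
    rw [hρker]; exact le_inf le_sup_right (hRA_CA.trans le_sup_left)
  have hRB_K : LinearMap.range (nl τ) ≤ LinearMap.ker (nl ρ) := by
    rw [hρker]; exact le_inf (hRB_CB.trans le_sup_left) le_sup_right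
  -- the fixed and commutator submodules of `D`
  have hfix : Cfsg.fixedSubmodule (sameActionSubgroup G ρ) = LinearMap.ker (nl ρ) := by
    apply le_antisymm
    · exact iInf₂_le ρ (self_mem hρmin)
    · exact le_iInf₂ fun t ht => (inN_of_mem hρmin ht).2
  have hcom : Cfsg.commutatorSubmodule (sameActionSubgroup G ρ) = LinearMap.range (nl ρ) := by
    apply le_antisymm
    · exact iSup₂_le fun t ht => (inN_of_mem hρmin ht).1
    · exact le_iSup₂_of_le ρ (self_mem hρmin) le_rfl
  -- `E(σ)` and `E(τ)` lie in the flag subgroup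
  have hE : sameActionSubgroup G σ ≤ Core.flagSub (LinearMap.ker (nl ρ)) (LinearMap.range (nl ρ)) := by
    intro e he
    have hin := inN_of_mem hσ he
    refine ⟨hin.1.trans hRA_K, ?_, ?_⟩
    · intro m hm
      by_cases he1 : e = 1
      · rw [he1, nl_one]
        exact Submodule.zero_mem _
      have hz' := nil_transfer hk2 hk3 hσ hτ hz he he1 (self_mem hτ) (self_ne_one hτ)
      obtain ⟨-, hBXB⟩ := pair_nil h2 (min_of_mem hσ he he1) hτ hz'
      have hm2 : m ∈ LinearMap.ker (nl σ) ⊔ LinearMap.range (nl τ) := by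
        rw [hρker] at hm
        exact hm.2
      obtain ⟨c, hc, r, ⟨n, rfl⟩, rfl⟩ := Submodule.mem_sup.mp hm2
      have hXc : nl e c = 0 := LinearMap.mem_ker.mp (hin.2 hc)
      rw [map_add, hXc, zero_add, hρrange]
      apply Submodule.mem_sup_left
      refine ⟨hin.1 (LinearMap.mem_range_self _ _), ?_⟩
      rw [SetLike.mem_coe, LinearMap.mem_ker]
      have h3 := congrArg (fun f : Module.End k M => f n) hBXB
      exact h3
    · intro m hm
      exact LinearMap.mem_ker.mp (hin.2 (hR_CA hm))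
  have hF : sameActionSubgroup G τ ≤ Core.flagSub (LinearMap.ker (nl ρ)) (LinearMap.range (nl ρ)) := by
    intro f hf
    have hin := inN_of_mem hτ hf
    refine ⟨hin.1.trans hRB_K, ?_, ?_⟩
    · intro m hm
      by_cases hf1 : f = 1
      · rw [hf1, nl_one]
        exact Submodule.zero_mem _
      have hz' := nil_transfer hk2 hk3 hσ hτ hz (self_mem hσ) (self_ne_one hσ) hf hf1
      obtain ⟨hAYA, -⟩ := pair_nil h2 hσ (min_of_mem hτ hf hf1) hz'
      have hm2 : m ∈ LinearMap.ker (nl τ) ⊔ LinearMap.range (nl σ) := by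
        rw [hρker] at hm
        exact hm.1
      obtain ⟨c, hc, r, ⟨n, rfl⟩, rfl⟩ := Submodule.mem_sup.mp hm2
      have hYc : nl f c = 0 := LinearMap.mem_ker.mp (hin.2 hc)
      rw [map_add, hYc, zero_add, hρrange]
      apply Submodule.mem_sup_right
      refine ⟨hin.1 (LinearMap.mem_range_self _ _), ?_⟩
      rw [SetLike.mem_coe, LinearMap.mem_ker]
      have h3 := congrArg (fun f : Module.End k M => f n) hAYA
      exact h3
    · intro m hm
      exact LinearMap.mem_ker.mp (hin.2 (hR_CB hm))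
  -- `E(σ)` and `E(τ)` centralize `D`
  have hcE : sameActionSubgroup G σ ≤
      Subgroup.centralizer (sameActionSubgroup G ρ : Set (LinearMap.GeneralLinearGroup k M)) := by
    intro e he
    rw [Subgroup.mem_centralizer_iff]
    intro t ht
    have hin := inN_of_mem hσ he
    have hint := inN_of_mem hρmin ht
    apply eq_of_nl_eq
    rw [nl_mul, nl_mul, Core.mul_zero_of (hin.1.trans hRA_K) hint.2,
      Core.mul_zero_of (hint.1.trans hR_CA) hin.2, add_comm (nl t) (nl e)]
  have hcF : sameActionSubgroup G τ ≤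
      Subgroup.centralizer (sameActionSubgroup G ρ : Set (LinearMap.GeneralLinearGroup k M)) := by
    intro f hf
    rw [Subgroup.mem_centralizer_iff]
    intro t ht
    have hin := inN_of_mem hτ hf
    have hint := inN_of_mem hρmin ht
    apply eq_of_nl_eq
    rw [nl_mul, nl_mul, Core.mul_zero_of (hin.1.trans hRB_K) hint.2,
      Core.mul_zero_of (hint.1.trans hR_CB) hin.2, add_comm (nl t) (nl f)]
  intro g hg
  obtain ⟨hg1, hg2, hg3⟩ := (sup_le hE hF) hg
  refine ⟨(sup_le subgroup_le subgroup_le) hg, ?_, ?_, ?_, ?_⟩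
  · exact Subgroup.centralizer_le_normalizer _ ((sup_le hcE hcF) hg)
  · intro m
    rw [hfix]
    exact hg1 (LinearMap.mem_range_self (nl g) m)
  · intro m hm
    rw [hfix] at hm
    rw [hcom]
    exact hg2 m hm
  · intro m hm
    rw [hcom] at hm
    have h3 := hg3 m hm
    rw [Core.nl_apply, sub_eq_zero] at h3
    exact h3

end Cfsg.Agent.Lib.Helper50.QT
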