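import Cfsg.Agent.Lib.Helper50.QtBase
import Cfsg.Agent.Lib.Helper50.QsRank

set_option autoImplicit false

namespace Cfsg.Agent.Lib.Helper50.QT.Dim

open Polynomial Cfsg Cfsg.Agent.Lib.Helper50.QR Cfsg.Agent.Lib.Helper50.QP
  Cfsg.Agent.Lib.Helper50.QS

universe u v

variable {k : Type u} [Field k] {M : Type v} [AddCommGroup M] [Module k M]

/-- conjugation by `g` as a linear endomorphism of `End k M` -/
noncomputable def conjL (g : LinearMap.GeneralLinearGroup k M) :
    (M →ₗ[k] M) →ₗ[k] (M →ₗ[k] M) :=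
  (LinearMap.mulLeft k (g : M →ₗ[k] M)) ∘ₗ
    (LinearMap.mulRight k ((g⁻¹ : LinearMap.GeneralLinearGroup k M) : M →ₗ[k] M))

theorem conjL_apply (g : LinearMap.GeneralLinearGroup k M) (X : M →ₗ[k] M) :
    conjL g X = (g : M →ₗ[k] M) * X * ((g⁻¹ : LinearMap.GeneralLinearGroup k M) : M →ₗ[k] M) := by
  simp [conjL, mul_assoc]

theorem conjL_inv_conjL (g : LinearMap.GeneralLinearGroup k M) (X : M →ₗ[k] M) :
    conjL g⁻¹ (conjL g X) = X := by
  rw [conjL_apply, conjL_apply, inv_inv]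
  have h1 : ((g⁻¹ : LinearMap.GeneralLinearGroup k M) : M →ₗ[k] M) * (g : M →ₗ[k] M) = 1 := by
    rw [← Units.val_mul, inv_mul_cancel, Units.val_one]
  calc ((g⁻¹ : LinearMap.GeneralLinearGroup k M) : M →ₗ[k] M) *
        ((g : M →ₗ[k] M) * X * ((g⁻¹ : LinearMap.GeneralLinearGroup k M) : M →ₗ[k] M)) *
        (g : M →ₗ[k] M)
      = (((g⁻¹ : LinearMap.GeneralLinearGroup k M) : M →ₗ[k] M) * (g : M →ₗ[k] M)) * X *
        (((g⁻¹ : LinearMap.GeneralLinearGroup k M) : M →ₗ[k] M) * (g : M →ₗ[k] M)) := by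
        simp only [mul_assoc]
    _ = X := by rw [h1, one_mul, mul_one]

theorem conjL_injective (g : LinearMap.GeneralLinearGroup k M) :
    Function.Injective (conjL g) :=
  Function.LeftInverse.injective (conjL_inv_conjL g)

theorem nl_image_conjBy (E : Subgroup (LinearMap.GeneralLinearGroup k M))
    (g : LinearMap.GeneralLinearGroup k M) :
    nl '' ((Cfsg.conjBy E g : Subgroup (LinearMap.GeneralLinearGroup k M)) :
        Set (LinearMap.GeneralLinearGroup k M)) =
      conjL g '' (nl '' (E : Set (LinearMap.GeneralLinearGroup k M))) := by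
  ext X
  constructor
  · rintro ⟨y, hy, rfl⟩
    obtain ⟨h, hh, rfl⟩ := hy
    refine ⟨nl h, ⟨h, hh, rfl⟩, ?_⟩
    rw [conjL_apply]
    exact (nl_conj g h).symm
  · rintro ⟨Y, ⟨h, hh, rfl⟩, rfl⟩
    refine ⟨g * h * g⁻¹, ⟨h, hh, rfl⟩, ?_⟩
    rw [conjL_apply]
    exact nl_conj g h

end Cfsg.Agent.Lib.Helper50.QT.Dim

namespace Cfsg.Agent.Lib.Helper50.QT

open Polynomial Cfsg Cfsg.Agent.Lib.Helper50.QR Cfsg.Agent.Lib.Helper50.QP
  Cfsg.Agent.Lib.Helper50.QS

universe u v

variable {k : Type u} [Field k] {M : Type v} [AddCommGroup M] [Module k M] [FiniteDimensional k M]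

/-- T-DIM (a): `dimS` is invariant under conjugation -/
theorem dimS_conj (E : Subgroup (LinearMap.GeneralLinearGroup k M))
    (g : LinearMap.GeneralLinearGroup k M) : dimS (Cfsg.conjBy E g) = dimS E := by
  unfold dimS
  rw [Dim.nl_image_conjBy, Submodule.span_image]
  exact (Submodule.equivMapOfInjective (Dim.conjL g) (Dim.conjL_injective g) _).finrank_eq.symm

/-- T-DIM (b): partners (non-unipotent pairs) have root subgroups of the same dimension -/
theorem dimS_partner (hk2 : ringChar k ≠ 2) (hk3 : Nat.card k ≠ 3)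
    {G : Subgroup (LinearMap.GeneralLinearGroup k M)}
    {σ τ : LinearMap.GeneralLinearGroup k M} (hσ : σ ∈ minimalQuadraticElements G)
    (hτ : τ ∈ minimalQuadraticElements G) (hnz : ¬ IsNilpotent (zz (nl σ) (nl τ))) :
    dimS (sameActionSubgroup G σ) = dimS (sameActionSubgroup G τ) := by
  obtain ⟨b, _, _, hb⟩ := rank_one_cond hk2 hk3 hσ hτ hnz σ (self_mem hσ) (self_ne_one hσ)
  rw [← dimS_conj (sameActionSubgroup G σ) b⁻¹, hb, dimS_conj]

end Cfsg.Agent.Lib.Helper50.QT
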