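import Cfsg.Agent.Lib.Helper50.QtClass

set_option autoImplicit false

namespace Cfsg.Agent.Lib.Helper50.QT

open Polynomial Cfsg Cfsg.Agent.Lib.Helper50.QR Cfsg.Agent.Lib.Helper50.QP
  Cfsg.Agent.Lib.Helper50.QS

universe u v

variable {k : Type u} [Field k] {M : Type v} [AddCommGroup M] [Module k M] [FiniteDimensional k M]

namespace Full

/-- every element of the span of `nl '' E(π)` is `nl h` for some `h ∈ E(π)` -/
theorem span_eq {G : Subgroup (LinearMap.GeneralLinearGroup k M)}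
    {π : LinearMap.GeneralLinearGroup k M} (hπ : π ∈ minimalQuadraticElements G)
    {Y : M →ₗ[k] M}
    (hY : Y ∈ Submodule.span k
      (nl '' (sameActionSubgroup G π : Set (LinearMap.GeneralLinearGroup k M)))) :
    ∃ h ∈ sameActionSubgroup G π, nl h = Y := by
  induction hY using Submodule.span_induction with
  | mem x hx =>
    obtain ⟨g, hg, rfl⟩ := hx
    exact ⟨g, hg, rfl⟩
  | zero => exact ⟨1, Subgroup.one_mem _, nl_one⟩
  | add x y _ _ ihx ihy =>
    obtain ⟨a, ha, rfl⟩ := ihx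
    obtain ⟨b, hb, rfl⟩ := ihy
    exact ⟨a * b, Subgroup.mul_mem _ ha hb, nl_mul_of_mem hπ ha hb⟩
  | smul c x _ ih =>
    obtain ⟨a, ha, rfl⟩ := ih
    obtain ⟨h, hh, e⟩ := (closure_props hπ ha).2 c
    exact ⟨h, hh, e⟩

end Full

/-- T-FULL: fullness of the commutator root subgroup from equality of dimensions -/
theorem full_of_dim (hk2 : ringChar k ≠ 2) (hk3 : Nat.card k ≠ 3)
    {G : Subgroup (LinearMap.GeneralLinearGroup k M)}
    {σ τ : LinearMap.GeneralLinearGroup k M} (hσ : σ ∈ minimalQuadraticElements G)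
    (hτ : τ ∈ minimalQuadraticElements G) (hz : IsNilpotent (zz (nl σ) (nl τ)))
    (hne : ⁅sameActionSubgroup G σ, sameActionSubgroup G τ⁆ ≠ ⊥)
    (hd : dimS (sameActionSubgroup G τ) = dimS (sameActionSubgroup G (σ * τ * σ⁻¹ * τ⁻¹))) :
    ∀ e ∈ sameActionSubgroup G σ, e ≠ 1 → ∀ t ∈ sameActionSubgroup G (σ * τ * σ⁻¹ * τ⁻¹),
      ∃ f ∈ sameActionSubgroup G τ, e * f * e⁻¹ * f⁻¹ = t := by
  intro e he he1 t ht
  have h2 : (2 : k) ≠ 0 := Ring.two_ne_zero hk2
  obtain ⟨hρ, hcl⟩ := comm_class hk2 hk3 hσ hτ hz hne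
  have hemin := min_of_mem hσ he he1
  -- the commutator formula for `(e, f)`
  have hform : ∀ f ∈ sameActionSubgroup G τ,
      nl (e * f * e⁻¹ * f⁻¹) = nl e * nl f - nl f * nl e := by
    intro f hf
    by_cases hf1 : f = 1
    · subst hf1
      rw [mul_one, mul_inv_cancel, inv_one, mul_one, nl_one, mul_zero, zero_mul, sub_zero]
    · exact (comm_props h2 hemin (min_of_mem hτ hf hf1)
        (nil_transfer hk2 hk3 hσ hτ hz he he1 hf hf1)).1
  -- the linear map `Y ↦ XY - YX`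
  obtain ⟨L, hL⟩ : ∃ L : (M →ₗ[k] M) →ₗ[k] (M →ₗ[k] M), ∀ Y, L Y = nl e * Y - Y * nl e :=
    ⟨LinearMap.mulLeft k (nl e) - LinearMap.mulRight k (nl e), fun Y => rfl⟩
  have hmaps : ∀ Y ∈ Submodule.span k
      (nl '' (sameActionSubgroup G τ : Set (LinearMap.GeneralLinearGroup k M))),
      L Y ∈ Submodule.span k
        (nl '' (sameActionSubgroup G (σ * τ * σ⁻¹ * τ⁻¹) :
          Set (LinearMap.GeneralLinearGroup k M))) := by
    intro Y hY
    obtain ⟨f, hf, rfl⟩ := Full.span_eq hτ hY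
    rw [hL, ← hform f hf]
    exact Submodule.subset_span ⟨_, (hcl e he f hf).1, rfl⟩
  have hinj : ∀ Y ∈ Submodule.span k
      (nl '' (sameActionSubgroup G τ : Set (LinearMap.GeneralLinearGroup k M))),
      L Y = 0 → Y = 0 := by
    intro Y hY h0
    obtain ⟨f, hf, rfl⟩ := Full.span_eq hτ hY
    by_contra hne0
    have hf1 : f ≠ 1 := by
      rintro rfl
      exact hne0 nl_one
    apply (hcl e he f hf).2 he1 hf1
    apply eq_one_of_nl
    rw [hform f hf, ← hL, h0]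
  -- restriction to the two spans
  obtain ⟨Lr, hLr⟩ : ∃ Lr : ↥(Submodule.span k
      (nl '' (sameActionSubgroup G τ : Set (LinearMap.GeneralLinearGroup k M)))) →ₗ[k]
      ↥(Submodule.span k (nl '' (sameActionSubgroup G (σ * τ * σ⁻¹ * τ⁻¹) :
          Set (LinearMap.GeneralLinearGroup k M)))), ∀ Y, (Lr Y : M →ₗ[k] M) = L Y :=
    ⟨(L.domRestrict _).codRestrict _ (fun Y => hmaps Y Y.2), fun Y => rfl⟩
  have hLr_inj : Function.Injective Lr := by
    rw [← LinearMap.ker_eq_bot, LinearMap.ker_eq_bot']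
    intro Y hY
    apply Subtype.ext
    apply hinj Y Y.2
    rw [← hLr, hY]
    rfl
  have hsurj : Function.Surjective Lr :=
    (LinearMap.injective_iff_surjective_of_finrank_eq_finrank hd).mp hLr_inj
  obtain ⟨Y, hY⟩ := hsurj ⟨nl t, Submodule.subset_span ⟨t, ht, rfl⟩⟩
  obtain ⟨f, hf, hfY⟩ := Full.span_eq hτ Y.2
  refine ⟨f, hf, eq_of_nl_eq ?_⟩
  rw [hform f hf, hfY, ← hL, ← hLr, hY]

end Cfsg.Agent.Lib.Helper50.QT
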