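import Mathlib

set_option autoImplicit false

namespace Cfsg.Agent.Lib.Helper50.QT

universe u v

namespace Jac

variable {k : Type u} [Field k] {V : Type v} [AddCommGroup V] [Module k V]

/-- The flag of a set `U` of endomorphisms: `K₀ = 0`, `K_{j+1} = {v | ∀ A ∈ U, A v ∈ K_j}`. -/
def flag (U : Set (Module.End k V)) : ℕ → Submodule k V
  | 0 => ⊥
  | (j + 1) => ⨅ A ∈ U, (flag U j).comap A

theorem flag_zero (U : Set (Module.End k V)) : flag U 0 = ⊥ := rfl

theorem mem_flag_succ (U : Set (Module.End k V)) (j : ℕ) (v : V) :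
    v ∈ flag U (j + 1) ↔ ∀ A ∈ U, A v ∈ flag U j := by
  show v ∈ ⨅ A ∈ U, (flag U j).comap A ↔ _
  simp only [Submodule.mem_iInf, Submodule.mem_comap]

theorem flag_le_succ (U : Set (Module.End k V)) (j : ℕ) : flag U j ≤ flag U (j + 1) := by
  induction j with
  | zero => rw [flag_zero]; exact bot_le
  | succ j ih =>
    intro v hv
    rw [mem_flag_succ] at hv ⊢
    intro A hA
    exact ih (hv A hA)

theorem flag_mono (U : Set (Module.End k V)) {i j : ℕ} (h : i ≤ j) : flag U i ≤ flag U j :=
  monotone_nat_of_le_succ (flag_le_succ U) h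

theorem flag_apply (U : Set (Module.End k V)) (A : Module.End k V) (hA : A ∈ U) (i : ℕ) (v : V)
    (hv : v ∈ flag U i) : A v ∈ flag U (i - 1) := by
  cases i with
  | zero =>
    rw [flag_zero, Submodule.mem_bot] at hv
    rw [hv, map_zero]
    exact zero_mem _
  | succ i => exact (mem_flag_succ U i v).1 hv A hA

/-- The flag only depends on the span. -/
theorem flag_span (U U' : Set (Module.End k V)) (h : ∀ A ∈ U', A ∈ Submodule.span k U) (j : ℕ) :
    flag U j ≤ flag U' j := by
  induction j with
  | zero => exact le_refl _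
  | succ j ih =>
    intro v hv
    rw [mem_flag_succ] at hv ⊢
    intro A hA
    apply ih
    have hle : Submodule.span k U ≤
        (flag U j).comap (LinearMap.applyₗ v : Module.End k V →ₗ[k] V) := by
      rw [Submodule.span_le]
      intro B hB
      exact hv B hB
    exact hle (h A hA)

theorem flag_bot_of_one (U : Set (Module.End k V)) (h : flag U 1 = ⊥) (j : ℕ) : flag U j = ⊥ := by
  induction j with
  | zero => rfl
  | succ j ih =>
    rw [eq_bot_iff]
    intro v hv
    rw [← h, mem_flag_succ]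
    rw [mem_flag_succ, ih] at hv
    exact hv

/-- Brackets of elements of the span stay in the span. -/
theorem span_bracket (U : Set (Module.End k V))
    (hbr : ∀ X ∈ U, ∀ Y ∈ U, X * Y - Y * X ∈ U) :
    ∀ X ∈ Submodule.span k U, ∀ Y ∈ Submodule.span k U, X * Y - Y * X ∈ Submodule.span k U := by
  have h1 : ∀ X ∈ U, ∀ Y ∈ Submodule.span k U, X * Y - Y * X ∈ Submodule.span k U := by
    intro X hX
    have hle : Submodule.span k U ≤ (Submodule.span k U).comap
        (LinearMap.mulLeft k X - LinearMap.mulRight k X) := by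
      rw [Submodule.span_le]
      intro Y hY
      show (LinearMap.mulLeft k X - LinearMap.mulRight k X) Y ∈ Submodule.span k U
      rw [LinearMap.sub_apply, LinearMap.mulLeft_apply, LinearMap.mulRight_apply]
      exact Submodule.subset_span (hbr X hX Y hY)
    intro Y hY
    have h2 := hle hY
    rw [Submodule.mem_comap, LinearMap.sub_apply, LinearMap.mulLeft_apply,
      LinearMap.mulRight_apply] at h2
    exact h2
  intro X hX Y hY
  have hle : Submodule.span k U ≤ (Submodule.span k U).comap
      (LinearMap.mulRight k Y - LinearMap.mulLeft k Y) := by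
    rw [Submodule.span_le]
    intro X' hX'
    show (LinearMap.mulRight k Y - LinearMap.mulLeft k Y) X' ∈ Submodule.span k U
    rw [LinearMap.sub_apply, LinearMap.mulLeft_apply, LinearMap.mulRight_apply]
    exact h1 X' hX' Y hY
  have h2 := hle hX
  rw [Submodule.mem_comap, LinearMap.sub_apply, LinearMap.mulLeft_apply,
    LinearMap.mulRight_apply] at h2
  exact h2

/-- The extension step: a saturated admissible subset which is not everything can be enlarged. -/
theorem extend [FiniteDimensional k V] (W : Set (Module.End k V))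
    (hsq : ∀ X ∈ W, X * X = 0) (hbr : ∀ X ∈ W, ∀ Y ∈ W, X * Y - Y * X ∈ W)
    (hsm : ∀ (c : k), ∀ X ∈ W, c • X ∈ W)
    (U : Set (Module.End k V)) (hUW : U ⊆ W) (h0U : (0 : Module.End k V) ∈ U)
    (hbrU : ∀ X ∈ U, ∀ Y ∈ U, X * Y - Y * X ∈ U) (hsmU : ∀ (c : k), ∀ X ∈ U, c • X ∈ U)
    (N : ℕ) (hN : flag U N = ⊤)
    (hsat : ∀ X ∈ W, X ∈ Submodule.span k U → X ∈ U)
    (W₀ : Module.End k V) (hW₀ : W₀ ∈ W) (hW₀U : W₀ ∉ U) :
    ∃ U' : Set (Module.End k V), U' ⊆ W ∧ (0 : Module.End k V) ∈ U' ∧
      (∀ X ∈ U', ∀ Y ∈ U', X * Y - Y * X ∈ U') ∧ (∀ (c : k), ∀ X ∈ U', c • X ∈ U') ∧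
      (∃ N', flag U' N' = ⊤) ∧
      Module.finrank k (Submodule.span k U) < Module.finrank k (Submodule.span k U') := by
  -- Step 1: an element outside `U` normalising `U`
  have hstep1 : ∃ W₁ ∈ W, W₁ ∉ U ∧ ∀ A ∈ U, W₁ * A - A * W₁ ∈ U := by
    by_contra hcon
    push Not at hcon
    have hseq : ∀ s : ℕ, ∃ B ∈ W, B ∉ U ∧ ∀ j, ∀ v ∈ flag U j, B v ∈ flag U (j + N - s) := by
      intro s
      induction s with
      | zero =>
        refine ⟨W₀, hW₀, hW₀U, fun j v _ => ?_⟩
        have h1 : flag U N ≤ flag U (j + N - 0) := flag_mono U (by omega)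
        rw [hN] at h1
        exact h1 Submodule.mem_top
      | succ s ih =>
        obtain ⟨B, hBW, hBU, hBD⟩ := ih
        obtain ⟨A, hA, hAB⟩ := hcon B hBW hBU
        refine ⟨B * A - A * B, hbr B hBW A (hUW hA), hAB, ?_⟩
        intro j v hv
        rw [LinearMap.sub_apply, Module.End.mul_apply, Module.End.mul_apply]
        cases j with
        | zero =>
          rw [flag_zero, Submodule.mem_bot] at hv
          simp only [hv, map_zero, sub_zero]
          exact zero_mem _
        | succ j =>
          apply sub_mem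
          · have h1 : A v ∈ flag U j := (mem_flag_succ U j v).1 hv A hA
            have h2 := hBD j (A v) h1
            have e : j + 1 + N - (s + 1) = j + N - s := by omega
            rw [e]
            exact h2
          · have h1 := hBD (j + 1) v hv
            have h2 := flag_apply U A hA _ _ h1
            have e : j + 1 + N - s - 1 = j + 1 + N - (s + 1) := by omega
            rw [e] at h2
            exact h2
    obtain ⟨B, _, hBU, hBD⟩ := hseq (2 * N)
    have hB0 : B = 0 := by
      apply LinearMap.ext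
      intro v
      have h1 := hBD N v (by rw [hN]; exact Submodule.mem_top)
      have e : N + N - 2 * N = 0 := by omega
      rw [e, flag_zero, Submodule.mem_bot] at h1
      rw [h1, LinearMap.zero_apply]
    exact hBU (hB0 ▸ h0U)
  obtain ⟨W₁, hW₁W, hW₁U, hcomm⟩ := hstep1
  -- Step 2: `W₁` preserves the flag
  have hinv : ∀ j, ∀ v ∈ flag U j, W₁ v ∈ flag U j := by
    intro j
    induction j with
    | zero =>
      intro v hv
      rw [flag_zero, Submodule.mem_bot] at hv
      rw [hv, map_zero]
      exact zero_mem _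
    | succ j ih =>
      intro v hv
      rw [mem_flag_succ]
      intro A hA
      have e : A (W₁ v) = W₁ (A v) - (W₁ * A - A * W₁) v := by
        rw [LinearMap.sub_apply, Module.End.mul_apply, Module.End.mul_apply]
        abel
      rw [e]
      exact sub_mem (ih _ ((mem_flag_succ U j v).1 hv A hA))
        ((mem_flag_succ U j v).1 hv _ (hcomm A hA))
  have hW₁sq : W₁ * W₁ = 0 := hsq W₁ hW₁W
  -- Step 3: the enlarged set
  refine ⟨U ∪ {X | ∃ c : k, X = c • W₁}, ?_, Or.inl h0U, ?_, ?_, ⟨2 * N, ?_⟩, ?_⟩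
  · rintro X (hX | ⟨c, rfl⟩)
    · exact hUW hX
    · exact hsm c W₁ hW₁W
  · rintro X (hX | ⟨c, rfl⟩) Y (hY | ⟨c', rfl⟩)
    · exact Or.inl (hbrU X hX Y hY)
    · left
      have e : X * (c' • W₁) - (c' • W₁) * X = (-c') • (W₁ * X - X * W₁) := by
        rw [mul_smul_comm, smul_mul_assoc, ← smul_sub, neg_smul, ← smul_neg, neg_sub]
      rw [e]
      exact hsmU _ _ (hcomm X hX)
    · left
      have e : (c • W₁) * Y - Y * (c • W₁) = c • (W₁ * Y - Y * W₁) := by
        rw [mul_smul_comm, smul_mul_assoc, ← smul_sub]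
      rw [e]
      exact hsmU _ _ (hcomm Y hY)
    · left
      have e : (c • W₁) * (c' • W₁) - (c' • W₁) * (c • W₁) = 0 := by
        rw [mul_smul_comm, smul_mul_assoc, mul_smul_comm, smul_mul_assoc, hW₁sq, smul_zero,
          smul_zero, smul_zero, sub_zero]
      rw [e]
      exact h0U
  · rintro c X (hX | ⟨c', rfl⟩)
    · exact Or.inl (hsmU c X hX)
    · exact Or.inr ⟨c * c', by rw [smul_smul]⟩
  · -- the flag of the enlarged set
    have key : ∀ j, flag U j ≤ flag (U ∪ {X | ∃ c : k, X = c • W₁}) (2 * j) := by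
      intro j
      induction j with
      | zero => exact le_refl _
      | succ j ih =>
        intro v hv
        have e : 2 * (j + 1) = (2 * j + 1) + 1 := by ring
        rw [e, mem_flag_succ]
        intro X hX
        rw [mem_flag_succ]
        intro Y hY
        apply ih
        rcases hX with hX | ⟨c, rfl⟩
        · have hXv : X v ∈ flag U j := (mem_flag_succ U j v).1 hv X hX
          rcases hY with hY | ⟨c', rfl⟩
          · exact flag_mono U (Nat.sub_le j 1) (flag_apply U Y hY j _ hXv)
          · rw [LinearMap.smul_apply]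
            exact Submodule.smul_mem _ _ (hinv j _ hXv)
        · have hWv : W₁ v ∈ flag U (j + 1) := hinv (j + 1) v hv
          rcases hY with hY | ⟨c', rfl⟩
          · rw [LinearMap.smul_apply, map_smul]
            exact Submodule.smul_mem _ _ ((mem_flag_succ U j _).1 hWv Y hY)
          · rw [LinearMap.smul_apply, LinearMap.smul_apply, map_smul, ← Module.End.mul_apply,
              hW₁sq, LinearMap.zero_apply, smul_zero, smul_zero]
            exact zero_mem _
    rw [eq_top_iff, ← hN]
    exact key N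
  · apply Submodule.finrank_lt_finrank_of_lt
    rw [SetLike.lt_iff_le_and_exists]
    refine ⟨Submodule.span_mono Set.subset_union_left, W₁,
      Submodule.subset_span (Or.inr ⟨1, (one_smul _ _).symm⟩), fun h => hW₁U (hsat W₁ hW₁W h)⟩

end Jac

/-- T-JAC (Jacobson's theorem on weakly closed sets, special case): a set of square-zero
endomorphisms of a non-zero finite-dimensional space which is closed under commutators and
scalar multiples has a common non-zero kernel vector -/
theorem exists_common_kernel {k : Type u} [Field k] {V : Type v} [AddCommGroup V] [Module k V]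
    [FiniteDimensional k V] [Nontrivial V] (W : Set (Module.End k V))
    (hsq : ∀ X ∈ W, X * X = 0) (hbr : ∀ X ∈ W, ∀ Y ∈ W, X * Y - Y * X ∈ W)
    (hsm : ∀ (c : k), ∀ X ∈ W, c • X ∈ W) (h0 : (0 : Module.End k V) ∈ W) :
    ∃ v : V, v ≠ 0 ∧ ∀ X ∈ W, X v = 0 := by
  classical
  -- the admissible subsets
  have hΦ0 : ({0} : Set (Module.End k V)) ⊆ W ∧ (0 : Module.End k V) ∈ ({0} : Set (Module.End k V)) ∧
      (∀ X ∈ ({0} : Set (Module.End k V)), ∀ Y ∈ ({0} : Set (Module.End k V)),
        X * Y - Y * X ∈ ({0} : Set (Module.End k V))) ∧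
      (∀ (c : k), ∀ X ∈ ({0} : Set (Module.End k V)), c • X ∈ ({0} : Set (Module.End k V))) ∧
      ∃ N, Jac.flag ({0} : Set (Module.End k V)) N = ⊤ := by
    refine ⟨?_, rfl, ?_, ?_, 1, ?_⟩
    · intro X hX
      rw [Set.mem_singleton_iff] at hX
      rw [hX]
      exact h0
    · intro X hX Y hY
      rw [Set.mem_singleton_iff] at hX hY ⊢
      rw [hX, hY, mul_zero, sub_zero]
    · intro c X hX
      rw [Set.mem_singleton_iff] at hX ⊢
      rw [hX, smul_zero]
    · rw [eq_top_iff]
      intro v _
      rw [Jac.mem_flag_succ]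
      intro A hA
      rw [Set.mem_singleton_iff] at hA
      rw [hA, LinearMap.zero_apply]
      exact zero_mem _
  have hbound : ∀ U : Set (Module.End k V),
      Module.finrank k (Submodule.span k U) ≤ Module.finrank k (Module.End k V) :=
    fun U => Submodule.finrank_le _
  -- a maximal admissible subset
  have hmax : ∃ U : Set (Module.End k V), (U ⊆ W ∧ (0 : Module.End k V) ∈ U ∧
      (∀ X ∈ U, ∀ Y ∈ U, X * Y - Y * X ∈ U) ∧ (∀ (c : k), ∀ X ∈ U, c • X ∈ U) ∧
      ∃ N, Jac.flag U N = ⊤) ∧
      ∀ U' : Set (Module.End k V), (U' ⊆ W ∧ (0 : Module.End k V) ∈ U' ∧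
        (∀ X ∈ U', ∀ Y ∈ U', X * Y - Y * X ∈ U') ∧ (∀ (c : k), ∀ X ∈ U', c • X ∈ U') ∧
        ∃ N, Jac.flag U' N = ⊤) →
        Module.finrank k (Submodule.span k U') ≤ Module.finrank k (Submodule.span k U) := by
    by_contra hcon
    push Not at hcon
    have hall : ∀ n : ℕ, ∃ U : Set (Module.End k V), (U ⊆ W ∧ (0 : Module.End k V) ∈ U ∧
        (∀ X ∈ U, ∀ Y ∈ U, X * Y - Y * X ∈ U) ∧ (∀ (c : k), ∀ X ∈ U, c • X ∈ U) ∧
        ∃ N, Jac.flag U N = ⊤) ∧ n ≤ Module.finrank k (Submodule.span k U) := by
      intro n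
      induction n with
      | zero => exact ⟨{0}, hΦ0, Nat.zero_le _⟩
      | succ n ih =>
        obtain ⟨U, hU, hn⟩ := ih
        obtain ⟨U', hU', hlt⟩ := hcon U hU
        exact ⟨U', hU', by omega⟩
    obtain ⟨U, _, hU⟩ := hall (Module.finrank k (Module.End k V) + 1)
    have := hbound U
    omega
  obtain ⟨U, ⟨hUW, h0U, hbrU, hsmU, N, hN⟩, hUmax⟩ := hmax
  -- saturate
  have hspan : Submodule.span k (W ∩ (Submodule.span k U : Set (Module.End k V))) =
      Submodule.span k U := by
    apply le_antisymm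
    · rw [Submodule.span_le]
      intro X hX
      exact hX.2
    · apply Submodule.span_mono
      intro X hX
      exact ⟨hUW hX, Submodule.subset_span hX⟩
  have hN₁ : Jac.flag (W ∩ (Submodule.span k U : Set (Module.End k V))) N = ⊤ := by
    rw [eq_top_iff, ← hN]
    exact Jac.flag_span U _ (fun A hA => hA.2) N
  have hbr₁ : ∀ X ∈ W ∩ (Submodule.span k U : Set (Module.End k V)),
      ∀ Y ∈ W ∩ (Submodule.span k U : Set (Module.End k V)),
      X * Y - Y * X ∈ W ∩ (Submodule.span k U : Set (Module.End k V)) :=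
    fun X hX Y hY => ⟨hbr X hX.1 Y hY.1, Jac.span_bracket U hbrU X hX.2 Y hY.2⟩
  have hsm₁ : ∀ (c : k), ∀ X ∈ W ∩ (Submodule.span k U : Set (Module.End k V)),
      c • X ∈ W ∩ (Submodule.span k U : Set (Module.End k V)) :=
    fun c X hX => ⟨hsm c X hX.1, Submodule.smul_mem _ c hX.2⟩
  have h0₁ : (0 : Module.End k V) ∈ W ∩ (Submodule.span k U : Set (Module.End k V)) :=
    ⟨h0, Submodule.zero_mem _⟩
  -- the saturated set is everything
  have hall : W ⊆ W ∩ (Submodule.span k U : Set (Module.End k V)) := by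
    intro W₀ hW₀
    by_contra hW₀U
    obtain ⟨U', hU'W, h0U', hbrU', hsmU', hN', hlt⟩ := Jac.extend W hsq hbr hsm
      (W ∩ (Submodule.span k U : Set (Module.End k V))) Set.inter_subset_left h0₁ hbr₁ hsm₁ N hN₁
      (fun X hX hXs => ⟨hX, by rw [hspan] at hXs; exact hXs⟩) W₀ hW₀ hW₀U
    have h1 := hUmax U' ⟨hU'W, h0U', hbrU', hsmU', hN'⟩
    rw [hspan] at hlt
    omega
  -- a common kernel vector
  have h1 : Jac.flag (W ∩ (Submodule.span k U : Set (Module.End k V))) 1 ≠ ⊥ := by
    intro h
    have h2 := Jac.flag_bot_of_one _ h N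
    rw [hN₁] at h2
    exact top_ne_bot h2
  obtain ⟨v, hv, hv0⟩ := Submodule.exists_mem_ne_zero_of_ne_bot h1
  refine ⟨v, hv0, fun X hX => ?_⟩
  have h2 := (Jac.mem_flag_succ _ 0 v).1 hv X (hall hX)
  rw [Jac.flag_zero, Submodule.mem_bot] at h2
  exact h2

end Cfsg.Agent.Lib.Helper50.QT
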