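import Cfsg.Agent.Lib.Helper50.QtIsoC
import Cfsg.Agent.Lib.Helper50.QtJac
import Cfsg.Agent.Lib.Helper50.QsConj

set_option autoImplicit false

namespace Cfsg.Agent.Lib.Helper50.QT

open Polynomial Cfsg Cfsg.Agent.Lib.Helper50.QR Cfsg.Agent.Lib.Helper50.QP
  Cfsg.Agent.Lib.Helper50.QS

universe u v

variable {k : Type u} [Field k] {M : Type v} [AddCommGroup M] [Module k M] [FiniteDimensional k M]

namespace Iso

omit [FiniteDimensional k M] in
theorem val_mul_inv (g : LinearMap.GeneralLinearGroup k M) :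
    (g : M →ₗ[k] M) * ((g⁻¹ : LinearMap.GeneralLinearGroup k M) : M →ₗ[k] M) = 1 := by
  rw [← Units.val_mul, mul_inv_cancel, Units.val_one]

omit [FiniteDimensional k M] in
theorem val_inv_mul (g : LinearMap.GeneralLinearGroup k M) :
    ((g⁻¹ : LinearMap.GeneralLinearGroup k M) : M →ₗ[k] M) * (g : M →ₗ[k] M) = 1 := by
  rw [← Units.val_mul, inv_mul_cancel, Units.val_one]

omit [FiniteDimensional k M] in
/-- conjugation formula for `zz` -/
theorem zz_conj (g a b : LinearMap.GeneralLinearGroup k M) :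
    zz (nl (g * a * g⁻¹)) (nl b) =
      (g : M →ₗ[k] M) * zz (nl a) (nl (g⁻¹ * b * g⁻¹⁻¹)) *
        ((g⁻¹ : LinearMap.GeneralLinearGroup k M) : M →ₗ[k] M) := by
  rw [nl_conj, nl_conj g⁻¹ b, inv_inv]
  unfold zz
  have e1 := val_mul_inv g
  have h1 : (g : M →ₗ[k] M) * (nl a *
        (((g⁻¹ : LinearMap.GeneralLinearGroup k M) : M →ₗ[k] M) * nl b * (g : M →ₗ[k] M)) +
        (((g⁻¹ : LinearMap.GeneralLinearGroup k M) : M →ₗ[k] M) * nl b * (g : M →ₗ[k] M)) * nl a) *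
        ((g⁻¹ : LinearMap.GeneralLinearGroup k M) : M →ₗ[k] M)
      = (g : M →ₗ[k] M) * nl a * ((g⁻¹ : LinearMap.GeneralLinearGroup k M) : M →ₗ[k] M) * nl b *
          ((g : M →ₗ[k] M) * ((g⁻¹ : LinearMap.GeneralLinearGroup k M) : M →ₗ[k] M)) +
        ((g : M →ₗ[k] M) * ((g⁻¹ : LinearMap.GeneralLinearGroup k M) : M →ₗ[k] M)) * nl b *
          ((g : M →ₗ[k] M) * nl a * ((g⁻¹ : LinearMap.GeneralLinearGroup k M) : M →ₗ[k] M)) := by
    noncomm_ring
  rw [h1, e1, mul_one, one_mul]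

/-- conjugates (by elements of `G`) of isolated elements are isolated -/
theorem isolated_conj {G : Subgroup (LinearMap.GeneralLinearGroup k M)}
    {a g : LinearMap.GeneralLinearGroup k M} (ha : Isolated G a) (hg : g ∈ G) :
    Isolated G (g * a * g⁻¹) := by
  refine ⟨conj_min ha.1 hg, fun b hb => ?_⟩
  have hb' : g⁻¹ * b * g⁻¹⁻¹ ∈ minimalQuadraticElements G := conj_min hb (G.inv_mem hg)
  obtain ⟨n, hn⟩ := ha.2 _ hb'
  refine ⟨n, ?_⟩
  rw [zz_conj, Units.conj_pow, hn, mul_zero, zero_mul]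

/-- non-zero scalar multiples of isolated elements are isolated -/
theorem isolated_smul {G : Subgroup (LinearMap.GeneralLinearGroup k M)}
    {a : LinearMap.GeneralLinearGroup k M} (ha : Isolated G a) {c : k} (hc : c ≠ 0) :
    Isolated G (mkU (c • nl a) (smul_sq (quad_sq ha.1.1.2.1) c)) := by
  refine ⟨⟨mkU_smul_quad ha.1.1 hc, fun τ hτ => ?_⟩, fun b hb => ?_⟩
  · have h1 : commutatorRank (mkU (c • nl a) (smul_sq (quad_sq ha.1.1.2.1) c))
        = commutatorRank a := by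
      show Module.finrank k (LinearMap.range (nl (mkU (c • nl a) _)))
        = Module.finrank k (LinearMap.range (nl a))
      rw [nl_mkU, LinearMap.range_smul _ _ hc]
    rw [h1]
    exact ha.1.2 τ hτ
  · rw [nl_mkU]
    have h1 : zz (c • nl a) (nl b) = c • zz (nl a) (nl b) := by
      unfold zz
      rw [smul_mul_assoc, mul_smul_comm, smul_add]
    rw [h1]
    exact (ha.2 b hb).smul c

end Iso

/-- T-ISO: in a quadratic pair every member of `𝒬_d` has a partner (no isolated elements) -/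
theorem exists_partner (hk2 : ringChar k ≠ 2) (hk3 : Nat.card k ≠ 3)
    {G : Subgroup (LinearMap.GeneralLinearGroup k M)} (hG : Cfsg.IsQuadraticPair G)
    {ρ : LinearMap.GeneralLinearGroup k M} (hρ : ρ ∈ minimalQuadraticElements G) :
    ∃ ρ' ∈ minimalQuadraticElements G, ¬ IsNilpotent (zz (nl ρ) (nl ρ')) := by
  by_contra hcon
  push Not at hcon
  have hiso : Isolated G ρ := ⟨hρ, hcon⟩
  have h2 : (2 : k) ≠ 0 := Ring.two_ne_zero hk2
  obtain ⟨m0, hm0⟩ := hG.1.1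
  have hnt : Nontrivial M := nontrivial_of_ne m0 0 hm0
  -- the weakly closed set
  obtain ⟨W, hWdef⟩ : ∃ W : Set (Module.End k M),
      W = {X | X = 0 ∨ ∃ a, Isolated G a ∧ X = nl a} := ⟨_, rfl⟩
  have hWmem : ∀ X, X ∈ W ↔ (X = 0 ∨ ∃ a, Isolated G a ∧ X = nl a) := by
    intro X; rw [hWdef]; rfl
  have h0 : (0 : Module.End k M) ∈ W := (hWmem 0).2 (Or.inl rfl)
  have hsq : ∀ X ∈ W, X * X = 0 := by
    intro X hX
    rcases (hWmem X).1 hX with rfl | ⟨a, ha, rfl⟩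
    · exact mul_zero 0
    · exact quad_sq ha.1.1.2.1
  have hbr : ∀ X ∈ W, ∀ Y ∈ W, X * Y - Y * X ∈ W := by
    intro X hX Y hY
    rcases (hWmem X).1 hX with rfl | ⟨a, ha, rfl⟩
    · rw [zero_mul, mul_zero, sub_zero]; exact h0
    rcases (hWmem Y).1 hY with rfl | ⟨b, hb, rfl⟩
    · rw [zero_mul, mul_zero, sub_zero]; exact h0
    have hc := comm_props h2 ha.1 hb.1 (ha.2 b hb.1)
    rw [← hc.1]
    by_cases hne : a * b * a⁻¹ * b⁻¹ = 1
    · rw [hne, nl_one]; exact h0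
    · exact (hWmem _).2 (Or.inr ⟨_, isolated_comm hk2 hk3 ha hb hne, rfl⟩)
  have hsm : ∀ (c : k), ∀ X ∈ W, c • X ∈ W := by
    intro c X hX
    rcases (hWmem X).1 hX with rfl | ⟨a, ha, rfl⟩
    · rw [smul_zero]; exact h0
    by_cases hc : c = 0
    · rw [hc, zero_smul]; exact h0
    · exact (hWmem _).2 (Or.inr ⟨_, Iso.isolated_smul ha hc, (nl_mkU _ _).symm⟩)
  obtain ⟨v, hv0, hv⟩ := exists_common_kernel W hsq hbr hsm h0
  -- the common kernel is `G`-invariant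
  obtain ⟨K0, hK0⟩ : ∃ K0 : Submodule k M, ∀ w, w ∈ K0 ↔ ∀ X ∈ W, X w = 0 := by
    refine ⟨⨅ X ∈ W, LinearMap.ker X, fun w => ?_⟩
    simp only [Submodule.mem_iInf, LinearMap.mem_ker]
  have hinv : ∀ g ∈ G, ∀ w ∈ K0, (g : M →ₗ[k] M) w ∈ K0 := by
    intro g hg w hw
    rw [hK0] at hw ⊢
    intro X hX
    rcases (hWmem X).1 hX with rfl | ⟨a, ha, rfl⟩
    · rfl
    have ha' : Isolated G (g⁻¹ * a * g⁻¹⁻¹) := Iso.isolated_conj ha (G.inv_mem hg)
    have h1 := hw _ ((hWmem _).2 (Or.inr ⟨_, ha', rfl⟩))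
    rw [nl_conj, inv_inv] at h1
    have h3 : (g : M →ₗ[k] M) ((((g⁻¹ : LinearMap.GeneralLinearGroup k M) : M →ₗ[k] M) *
        nl a * (g : M →ₗ[k] M)) w) = 0 := by rw [h1, map_zero]
    rw [← Module.End.mul_apply, ← mul_assoc, ← mul_assoc, Iso.val_mul_inv, one_mul,
      Module.End.mul_apply] at h3
    exact h3
  rcases hG.1.2 K0 hinv with hbot | htop
  · apply hv0
    have : v ∈ K0 := (hK0 v).2 hv
    rw [hbot] at this
    exact (Submodule.mem_bot k).1 this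
  · apply quad_ne hρ.1.2.1
    ext w
    have hw : w ∈ K0 := by rw [htop]; exact Submodule.mem_top
    rw [LinearMap.zero_apply]
    exact (hK0 w).1 hw _ ((hWmem _).2 (Or.inr ⟨ρ, hiso, rfl⟩))

end Cfsg.Agent.Lib.Helper50.QT
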