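import Cfsg.Agent.Lib.Helper50.QtComm

set_option autoImplicit false

namespace Cfsg.Agent.Lib.Helper50.QT

open Polynomial Cfsg Cfsg.Agent.Lib.Helper50.QR Cfsg.Agent.Lib.Helper50.QP
  Cfsg.Agent.Lib.Helper50.QS

universe u v

variable {k : Type u} [Field k] {M : Type v} [AddCommGroup M] [Module k M] [FiniteDimensional k M]

namespace IsoC

/-- the two noncommutative identities behind T-ISOC -/
theorem ident {R : Type*} [Ring R] (X Y T : R) (hXTX : X * T * X = 0) (hYTY : Y * T * Y = 0)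
    (hYXY : Y * X * Y = 0) :
    (X * Y - Y * X) * T * (X * Y - Y * X) =
      (X * (Y * T - T * Y) * X) * Y - Y * (X * (Y * T - T * Y) * X) := by
  have e1 : (X * Y - Y * X) * T * (X * Y - Y * X) =
      X * Y * T * X * Y - X * (Y * T * Y) * X - Y * (X * T * X) * Y + Y * X * T * Y * X := by
    noncomm_ring
  have e2 : (X * (Y * T - T * Y) * X) * Y - Y * (X * (Y * T - T * Y) * X) =
      X * Y * T * X * Y - X * T * (Y * X * Y) - (Y * X * Y) * T * X + Y * X * T * Y * X := by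
    noncomm_ring
  rw [e1, e2, hXTX, hYTY, hYXY]
  noncomm_ring

end IsoC

/-- T-ISOC: the commutator of two isolated elements is isolated (or trivial) -/
theorem isolated_comm (hk2 : ringChar k ≠ 2) (hk3 : Nat.card k ≠ 3)
    {G : Subgroup (LinearMap.GeneralLinearGroup k M)}
    {a b : LinearMap.GeneralLinearGroup k M} (ha : Isolated G a) (hb : Isolated G b)
    (hne : a * b * a⁻¹ * b⁻¹ ≠ 1) : Isolated G (a * b * a⁻¹ * b⁻¹) := by
  have h2 : (2 : k) ≠ 0 := Ring.two_ne_zero hk2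
  obtain ⟨hZ, hρ'⟩ := comm_props h2 ha.1 hb.1 (ha.2 b hb.1)
  obtain ⟨hρ, -, -⟩ := hρ' hne
  refine ⟨hρ, ?_⟩
  intro τ hτ
  by_contra hnz
  obtain ⟨p1, -, -⟩ := pair_core hk2 hk3 hρ hτ hnz
  -- `Z T Z ≠ 0`
  have hZTZ : nl (a * b * a⁻¹ * b⁻¹) * nl τ * nl (a * b * a⁻¹ * b⁻¹) ≠ 0 := by
    intro e
    apply nl_ne_zero hne
    ext m
    rw [LinearMap.zero_apply]
    apply p1
    have := congrArg (fun f : Module.End k M => f m) e
    simpa [Module.End.mul_apply] using this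
  -- isolation
  obtain ⟨hXTX, -⟩ := pair_nil h2 ha.1 hτ (ha.2 τ hτ)
  obtain ⟨hYTY, -⟩ := pair_nil h2 hb.1 hτ (hb.2 τ hτ)
  obtain ⟨-, hYXY⟩ := pair_nil h2 ha.1 hb.1 (ha.2 b hb.1)
  obtain ⟨hW, hW'⟩ := comm_props h2 hb.1 hτ (hb.2 τ hτ)
  have hid := IsoC.ident (nl a) (nl b) (nl τ) hXTX hYTY hYXY
  rw [← hZ, ← hW] at hid
  by_cases h1 : b * τ * b⁻¹ * τ⁻¹ = 1
  · rw [h1, nl_one] at hid
    apply hZTZ
    rw [hid]
    simp
  · obtain ⟨hc, -, -⟩ := hW' h1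
    obtain ⟨hXWX, -⟩ := pair_nil h2 ha.1 hc (ha.2 _ hc)
    apply hZTZ
    rw [hid, hXWX]
    simp

end Cfsg.Agent.Lib.Helper50.QT
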