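import Cfsg.Agent.Lib.Helper50.QtBase

set_option autoImplicit false

namespace Cfsg.Agent.Lib.Helper50.QT

open Polynomial Cfsg Cfsg.Agent.Lib.Helper50.QR Cfsg.Agent.Lib.Helper50.QP
  Cfsg.Agent.Lib.Helper50.QS

universe u v

variable {k : Type u} [Field k] {M : Type v} [AddCommGroup M] [Module k M] [FiniteDimensional k M]

namespace Nc2

/-- If the commutator of `σ` and `τ` commutes with `σ`, then `σ` commutes with `τ σ τ⁻¹`. -/
theorem comm_conj_of_comm {Γ : Type*} [Group Γ] (σ τ : Γ)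
    (h : (σ * τ * σ⁻¹ * τ⁻¹) * σ * (σ * τ * σ⁻¹ * τ⁻¹)⁻¹ * σ⁻¹ = 1) :
    σ * (τ * σ * τ⁻¹) = (τ * σ * τ⁻¹) * σ := by
  have h2 : (σ * τ * σ⁻¹ * τ⁻¹) * σ = σ * (σ * τ * σ⁻¹ * τ⁻¹) := by
    calc (σ * τ * σ⁻¹ * τ⁻¹) * σ
        = ((σ * τ * σ⁻¹ * τ⁻¹) * σ * (σ * τ * σ⁻¹ * τ⁻¹)⁻¹ * σ⁻¹) *
          (σ * (σ * τ * σ⁻¹ * τ⁻¹)) := by group
      _ = σ * (σ * τ * σ⁻¹ * τ⁻¹) := by rw [h, one_mul]
  have h3 : (τ * σ⁻¹ * τ⁻¹) * σ = σ * (τ * σ⁻¹ * τ⁻¹) := by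
    calc (τ * σ⁻¹ * τ⁻¹) * σ = σ⁻¹ * (σ * τ * σ⁻¹ * τ⁻¹ * σ) := by group
      _ = σ⁻¹ * (σ * (σ * τ * σ⁻¹ * τ⁻¹)) := by rw [h2]
      _ = σ * (τ * σ⁻¹ * τ⁻¹) := by group
  calc σ * (τ * σ * τ⁻¹)
      = (τ * σ * τ⁻¹) * ((τ * σ⁻¹ * τ⁻¹) * σ) * (τ * σ * τ⁻¹) := by group
    _ = (τ * σ * τ⁻¹) * (σ * (τ * σ⁻¹ * τ⁻¹)) * (τ * σ * τ⁻¹) := by rw [h3]
    _ = (τ * σ * τ⁻¹) * σ := by group

/-- The ring computation: if `A² = 0` and `A` commutes with `(1 + B) A (1 - B)`, then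
`A B A B A = 0`. -/
theorem ababa {R : Type*} [Ring R] (A B : R) (hA : A * A = 0)
    (hcomm : A * ((1 + B) * A * (1 - B)) = ((1 + B) * A * (1 - B)) * A) :
    A * B * A * B * A = 0 := by
  have hX : A * (A * ((1 + B) * A * (1 - B))) = A * (((1 + B) * A * (1 - B)) * A) := by
    rw [hcomm]
  have e1 : A * (A * ((1 + B) * A * (1 - B))) = 0 := by rw [← mul_assoc, hA, zero_mul]
  have e2 : A * (((1 + B) * A * (1 - B)) * A) =
      (A * A) * A - (A * A) * (B * A) + A * B * (A * A) - A * B * A * B * A := by noncomm_ring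
  rw [e1, e2, hA] at hX
  have e3 : A * B * A * B * A = (0 : R) * A - 0 * (B * A) + A * B * 0 -
      (0 * A - 0 * (B * A) + A * B * 0 - A * B * A * B * A) := by noncomm_ring
  rw [e3, ← hX]
  simp

end Nc2

/-- T-NC2 (a): a non-unipotent pair of root subgroups does not generate a group of class ≤ 2 -/
theorem not_class_two (hk2 : ringChar k ≠ 2) (hk3 : Nat.card k ≠ 3)
    {G : Subgroup (LinearMap.GeneralLinearGroup k M)}
    {σ τ : LinearMap.GeneralLinearGroup k M} (hσ : σ ∈ minimalQuadraticElements G)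
    (hτ : τ ∈ minimalQuadraticElements G) (hnz : ¬ IsNilpotent (zz (nl σ) (nl τ))) :
    ⁅⁅sameActionSubgroup G σ ⊔ sameActionSubgroup G τ,
        sameActionSubgroup G σ ⊔ sameActionSubgroup G τ⁆,
      sameActionSubgroup G σ ⊔ sameActionSubgroup G τ⁆ ≠ ⊥ := by
  intro hbot
  have hσP : σ ∈ sameActionSubgroup G σ ⊔ sameActionSubgroup G τ :=
    Subgroup.mem_sup_left (self_mem hσ)
  have hτP : τ ∈ sameActionSubgroup G σ ⊔ sameActionSubgroup G τ :=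
    Subgroup.mem_sup_right (self_mem hτ)
  have hcc : (σ * τ * σ⁻¹ * τ⁻¹) * σ * (σ * τ * σ⁻¹ * τ⁻¹)⁻¹ * σ⁻¹ ∈
      ⁅⁅sameActionSubgroup G σ ⊔ sameActionSubgroup G τ,
        sameActionSubgroup G σ ⊔ sameActionSubgroup G τ⁆,
      sameActionSubgroup G σ ⊔ sameActionSubgroup G τ⁆ :=
    Subgroup.commutator_mem_commutator (Subgroup.commutator_mem_commutator hσP hτP) hσP
  rw [hbot, Subgroup.mem_bot] at hcc
  have h1 := Nc2.comm_conj_of_comm σ τ hcc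
  have hA : nl σ * nl σ = 0 := quad_sq hσ.1.2.1
  have hB : nl τ * nl τ = 0 := quad_sq hτ.1.2.1
  have h4 := congrArg nl h1
  rw [nl_mul σ (τ * σ * τ⁻¹), nl_mul (τ * σ * τ⁻¹) σ, nl_conj τ σ, coe_eq τ,
    coe_inv_of_sq τ hB] at h4
  have hcomm : nl σ * ((1 + nl τ) * nl σ * (1 - nl τ)) =
      ((1 + nl τ) * nl σ * (1 - nl τ)) * nl σ := by
    calc nl σ * ((1 + nl τ) * nl σ * (1 - nl τ))
        = (nl σ + (1 + nl τ) * nl σ * (1 - nl τ) + nl σ * ((1 + nl τ) * nl σ * (1 - nl τ)))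
          - (nl σ + (1 + nl τ) * nl σ * (1 - nl τ)) := by abel
      _ = ((1 + nl τ) * nl σ * (1 - nl τ) + nl σ + ((1 + nl τ) * nl σ * (1 - nl τ)) * nl σ)
          - (nl σ + (1 + nl τ) * nl σ * (1 - nl τ)) := by rw [h4]
      _ = ((1 + nl τ) * nl σ * (1 - nl τ)) * nl σ := by abel
  have key := Nc2.ababa (nl σ) (nl τ) hA hcomm
  obtain ⟨p1, -, -⟩ := pair_core hk2 hk3 hσ hτ hnz
  apply quad_ne hσ.1.2.1
  apply LinearMap.ext
  intro m
  have hm : nl σ (nl τ (nl σ (nl τ (nl σ m)))) = 0 := by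
    have h5 := congrArg (fun f : M →ₗ[k] M => f m) key
    simpa [Module.End.mul_apply] using h5
  rw [LinearMap.zero_apply]
  exact p1 m (p1 (nl τ (nl σ m)) hm)

/-- T-NC2 (b): commuting root subgroups generate an abelian group -/
theorem comm_sup_of_comm {G : Subgroup (LinearMap.GeneralLinearGroup k M)}
    {σ τ : LinearMap.GeneralLinearGroup k M} (hσ : σ ∈ minimalQuadraticElements G)
    (hτ : τ ∈ minimalQuadraticElements G)
    (h : ⁅sameActionSubgroup G σ, sameActionSubgroup G τ⁆ = ⊥) :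
    ⁅sameActionSubgroup G σ ⊔ sameActionSubgroup G τ,
      sameActionSubgroup G σ ⊔ sameActionSubgroup G τ⁆ = ⊥ := by
  have hEE : sameActionSubgroup G σ ≤ Subgroup.centralizer (sameActionSubgroup G σ : Set _) :=
    fun a ha => Subgroup.mem_centralizer_iff.mpr (fun b hb => comm_of_mem hσ hb ha)
  have hFF : sameActionSubgroup G τ ≤ Subgroup.centralizer (sameActionSubgroup G τ : Set _) :=
    fun a ha => Subgroup.mem_centralizer_iff.mpr (fun b hb => comm_of_mem hτ hb ha)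
  have hEF : sameActionSubgroup G σ ≤ Subgroup.centralizer (sameActionSubgroup G τ : Set _) :=
    Subgroup.commutator_eq_bot_iff_le_centralizer.mp h
  have hFE : sameActionSubgroup G τ ≤ Subgroup.centralizer (sameActionSubgroup G σ : Set _) :=
    Subgroup.le_centralizer_iff.mp hEF
  rw [Subgroup.commutator_eq_bot_iff_le_centralizer]
  apply sup_le
  · rw [Subgroup.le_centralizer_iff]
    exact sup_le hEE hFE
  · rw [Subgroup.le_centralizer_iff]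
    exact sup_le hEF hFF

end Cfsg.Agent.Lib.Helper50.QT
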