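import Cfsg.Agent.Lib.Helper50.QtComm
import Cfsg.Agent.Lib.Helper50.QsConj

set_option autoImplicit false

namespace Cfsg.Agent.Lib.Helper50.QT.Trick

open Cfsg Cfsg.Agent.Lib.Helper50.QR Cfsg.Agent.Lib.Helper50.QP

universe u v

variable {k : Type u} [Field k] {M : Type v} [AddCommGroup M] [Module k M]

/-- `zz` of a simultaneous conjugate -/
theorem zz_conj (g : LinearMap.GeneralLinearGroup k M) (A B : Module.End k M) :
    zz ((g : Module.End k M) * A *
          ((g⁻¹ : LinearMap.GeneralLinearGroup k M) : Module.End k M))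
       ((g : Module.End k M) * B *
          ((g⁻¹ : LinearMap.GeneralLinearGroup k M) : Module.End k M)) =
      (g : Module.End k M) * zz A B *
        ((g⁻¹ : LinearMap.GeneralLinearGroup k M) : Module.End k M) := by
  have h2 : ((g⁻¹ : LinearMap.GeneralLinearGroup k M) : Module.End k M) *
      (g : Module.End k M) = 1 := Units.inv_mul g
  show (g : Module.End k M) * A *
        ((g⁻¹ : LinearMap.GeneralLinearGroup k M) : Module.End k M) *
      ((g : Module.End k M) * B *
        ((g⁻¹ : LinearMap.GeneralLinearGroup k M) : Module.End k M)) +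
      (g : Module.End k M) * B *
        ((g⁻¹ : LinearMap.GeneralLinearGroup k M) : Module.End k M) *
      ((g : Module.End k M) * A *
        ((g⁻¹ : LinearMap.GeneralLinearGroup k M) : Module.End k M)) =
      (g : Module.End k M) * (A * B + B * A) *
        ((g⁻¹ : LinearMap.GeneralLinearGroup k M) : Module.End k M)
  calc (g : Module.End k M) * A *
        ((g⁻¹ : LinearMap.GeneralLinearGroup k M) : Module.End k M) *
      ((g : Module.End k M) * B *
        ((g⁻¹ : LinearMap.GeneralLinearGroup k M) : Module.End k M)) +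
      (g : Module.End k M) * B *
        ((g⁻¹ : LinearMap.GeneralLinearGroup k M) : Module.End k M) *
      ((g : Module.End k M) * A *
        ((g⁻¹ : LinearMap.GeneralLinearGroup k M) : Module.End k M))
      = (g : Module.End k M) * A *
          (((g⁻¹ : LinearMap.GeneralLinearGroup k M) : Module.End k M) * (g : Module.End k M)) *
          B * ((g⁻¹ : LinearMap.GeneralLinearGroup k M) : Module.End k M) +
        (g : Module.End k M) * B *
          (((g⁻¹ : LinearMap.GeneralLinearGroup k M) : Module.End k M) * (g : Module.End k M)) *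
          A * ((g⁻¹ : LinearMap.GeneralLinearGroup k M) : Module.End k M) := by
        noncomm_ring
    _ = _ := by rw [h2]; noncomm_ring

/-- nilpotency is invariant under conjugation -/
theorem nilp_conj {g : LinearMap.GeneralLinearGroup k M} {W : Module.End k M}
    (h : IsNilpotent ((g : Module.End k M) * W *
      ((g⁻¹ : LinearMap.GeneralLinearGroup k M) : Module.End k M))) : IsNilpotent W := by
  obtain ⟨n, hn⟩ := h
  refine ⟨n, ?_⟩
  rw [Units.conj_pow] at hn
  have h2 : ((g⁻¹ : LinearMap.GeneralLinearGroup k M) : Module.End k M) *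
      (g : Module.End k M) = 1 := Units.inv_mul g
  calc W ^ n = (((g⁻¹ : LinearMap.GeneralLinearGroup k M) : Module.End k M) *
        (g : Module.End k M)) * W ^ n *
        (((g⁻¹ : LinearMap.GeneralLinearGroup k M) : Module.End k M) * (g : Module.End k M)) := by
        rw [h2, one_mul, mul_one]
    _ = ((g⁻¹ : LinearMap.GeneralLinearGroup k M) : Module.End k M) *
        ((g : Module.End k M) * W ^ n *
          ((g⁻¹ : LinearMap.GeneralLinearGroup k M) : Module.End k M)) * (g : Module.End k M) := by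
        noncomm_ring
    _ = 0 := by rw [hn, mul_zero, zero_mul]

/-- the conjugate of `1 + Y` by `1 + a`, `a² = 0` -/
theorem conj_formula {a Y : Module.End k M} :
    (1 - a) * Y * (1 + a) = Y - (a * Y - Y * a) - a * Y * a := by
  noncomm_ring

theorem sum_formula {Y Z T : Module.End k M} :
    (Y - Z) * T * (Y - Z) + (Y + Z) * T * (Y + Z) =
      (2 : k) • (Y * T * Y) + (2 : k) • (Z * T * Z) := by
  rw [two_smul, two_smul]; noncomm_ring

end Cfsg.Agent.Lib.Helper50.QT.Trick

namespace Cfsg.Agent.Lib.Helper50.QT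

open Polynomial Cfsg Cfsg.Agent.Lib.Helper50.QR Cfsg.Agent.Lib.Helper50.QP
  Cfsg.Agent.Lib.Helper50.QS

universe u v

variable {k : Type u} [Field k] {M : Type v} [AddCommGroup M] [Module k M] [FiniteDimensional k M]

/-- T-TRICK: a partner `ρ'` of the commutator `[σ,τ]` of a unipotent pair has a `G`-conjugate
which is a partner of `τ` -/
theorem exists_conj_partner (hk2 : ringChar k ≠ 2) (hk3 : Nat.card k ≠ 3)
    {G : Subgroup (LinearMap.GeneralLinearGroup k M)}
    {σ τ : LinearMap.GeneralLinearGroup k M} (hσ : σ ∈ minimalQuadraticElements G)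
    (hτ : τ ∈ minimalQuadraticElements G) (hz : IsNilpotent (zz (nl σ) (nl τ)))
    (hρ : σ * τ * σ⁻¹ * τ⁻¹ ≠ 1)
    {ρ' : LinearMap.GeneralLinearGroup k M} (hρ' : ρ' ∈ minimalQuadraticElements G)
    (hnz : ¬ IsNilpotent (zz (nl (σ * τ * σ⁻¹ * τ⁻¹)) (nl ρ'))) :
    ∃ g ∈ G, ¬ IsNilpotent (zz (nl τ) (nl (g * ρ' * g⁻¹))) := by
  have h2 : (2 : k) ≠ 0 := Ring.two_ne_zero hk2
  obtain ⟨hZ, hρ₀⟩ := comm_props h2 hσ hτ hz
  obtain ⟨hρ₀m, -, -⟩ := hρ₀ hρ
  obtain ⟨p1, -, -⟩ := pair_core hk2 hk3 hρ₀m hρ' hnz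
  by_cases hYT : IsNilpotent (zz (nl τ) (nl ρ'))
  swap
  · exact ⟨1, G.one_mem, by rw [one_mul, inv_one, mul_one]; exact hYT⟩
  obtain ⟨hYTY, -⟩ := pair_nil h2 hτ hρ' hYT
  obtain ⟨hXYX, -⟩ := pair_nil h2 hσ hτ hz
  have hXX := quad_sq hσ.1.2.1
  have key : ∀ c : k, ∃ e ∈ G,
      nl (e⁻¹ * τ * e) = nl τ - c • nl (σ * τ * σ⁻¹ * τ⁻¹) := by
    intro c
    refine ⟨mkU (c • nl σ) (smul_sq hXX c), mkU_smul_mem hσ.1 c _, ?_⟩
    have h := nl_conj (mkU (c • nl σ) (smul_sq hXX c))⁻¹ τ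
    rw [inv_inv] at h
    rw [h, hZ]
    show (1 - c • nl σ) * nl τ * (1 + c • nl σ) = _
    rw [Trick.conj_formula, smul_mul_assoc, mul_smul_comm, ← smul_sub, smul_mul_assoc,
      mul_smul_comm, hXYX, smul_zero, smul_zero, sub_zero]
  obtain ⟨e1, he1, hn1⟩ := key 1
  obtain ⟨e2, he2, hn2⟩ := key (-1)
  rw [one_smul] at hn1
  rw [neg_smul, one_smul, sub_neg_eq_add] at hn2
  have hτ1 : e1⁻¹ * τ * e1 ∈ minimalQuadraticElements G := by
    have h := conj_min hτ (G.inv_mem he1)
    rwa [inv_inv] at h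
  have hτ2 : e2⁻¹ * τ * e2 ∈ minimalQuadraticElements G := by
    have h := conj_min hτ (G.inv_mem he2)
    rwa [inv_inv] at h
  have hex : ¬ IsNilpotent (zz (nl (e1⁻¹ * τ * e1)) (nl ρ')) ∨
      ¬ IsNilpotent (zz (nl (e2⁻¹ * τ * e2)) (nl ρ')) := by
    by_contra hcon
    push Not at hcon
    obtain ⟨ha, hb⟩ := hcon
    obtain ⟨q1, -⟩ := pair_nil h2 hτ1 hρ' ha
    obtain ⟨q2, -⟩ := pair_nil h2 hτ2 hρ' hb
    rw [hn1] at q1
    rw [hn2] at q2
    have hsum := Trick.sum_formula (k := k) (Y := nl τ) (Z := nl (σ * τ * σ⁻¹ * τ⁻¹))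
      (T := nl ρ')
    rw [q1, q2, hYTY, smul_zero, zero_add, zero_add] at hsum
    have hZTZ : nl (σ * τ * σ⁻¹ * τ⁻¹) * nl ρ' * nl (σ * τ * σ⁻¹ * τ⁻¹) = 0 :=
      (smul_eq_zero.mp hsum.symm).resolve_left h2
    apply quad_ne hρ₀m.1.2.1
    ext m
    rw [LinearMap.zero_apply]
    apply p1
    show (nl (σ * τ * σ⁻¹ * τ⁻¹) * nl ρ' * nl (σ * τ * σ⁻¹ * τ⁻¹)) m = 0
    rw [hZTZ]; rfl
  rcases hex with h | h
  · refine ⟨e1, he1, fun hnil => h ?_⟩
    apply Trick.nilp_conj (g := e1)
    rw [← Trick.zz_conj, ← nl_conj, ← nl_conj]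
    have e : e1 * (e1⁻¹ * τ * e1) * e1⁻¹ = τ := by group
    rw [e]
    exact hnil
  · refine ⟨e2, he2, fun hnil => h ?_⟩
    apply Trick.nilp_conj (g := e2)
    rw [← Trick.zz_conj, ← nl_conj, ← nl_conj]
    have e : e2 * (e2⁻¹ * τ * e2) * e2⁻¹ = τ := by group
    rw [e]
    exact hnil

end Cfsg.Agent.Lib.Helper50.QT
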