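import Cfsg.Agent.Lib.Helper50.QtNil
import Cfsg.Agent.Lib.Helper50.QtFull
import Cfsg.Agent.Lib.Helper50.QtDim
import Cfsg.Agent.Lib.Helper50.QtTrick
import Cfsg.Agent.Lib.Helper50.QtIso
import Cfsg.Agent.Lib.Helper50.QtCl2
import Cfsg.Agent.Lib.Helper50.QtCore
import Cfsg.Agent.Lib.Helper50.QtNc2

/-!
# S5068, S5066: assembly (helper50)
-/

set_option autoImplicit false

namespace Cfsg.Agent.Lib.Helper50.QT

open Polynomial Cfsg Cfsg.Agent.Lib.Helper50.QR Cfsg.Agent.Lib.Helper50.QP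
  Cfsg.Agent.Lib.Helper50.QS

universe u v

variable {k : Type u} [Field k] {M : Type v} [AddCommGroup M] [Module k M] [FiniteDimensional k M]

section

variable {G : Subgroup (LinearMap.GeneralLinearGroup k M)}
  {σ τ : LinearMap.GeneralLinearGroup k M}

/-- the dimension of `E(τ)` equals that of the commutator root subgroup -/
theorem dim_eq (hk2 : ringChar k ≠ 2) (hk3 : Nat.card k ≠ 3) (hG : Cfsg.IsQuadraticPair G)
    (hσ : σ ∈ minimalQuadraticElements G) (hτ : τ ∈ minimalQuadraticElements G)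
    (hz : IsNilpotent (zz (nl σ) (nl τ)))
    (hne : ⁅sameActionSubgroup G σ, sameActionSubgroup G τ⁆ ≠ ⊥) :
    dimS (sameActionSubgroup G τ) = dimS (sameActionSubgroup G (σ * τ * σ⁻¹ * τ⁻¹)) := by
  obtain ⟨hρ, hcl⟩ := comm_class hk2 hk3 hσ hτ hz hne
  have hρ1 : σ * τ * σ⁻¹ * τ⁻¹ ≠ 1 :=
    (hcl σ (self_mem hσ) τ (self_mem hτ)).2 (self_ne_one hσ) (self_ne_one hτ)
  obtain ⟨ρ', hρ', hnz'⟩ := exists_partner hk2 hk3 hG hρ
  obtain ⟨g, hg, hnzg⟩ := exists_conj_partner hk2 hk3 hσ hτ hz hρ1 hρ' hnz'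
  calc dimS (sameActionSubgroup G τ)
      = dimS (sameActionSubgroup G (g * ρ' * g⁻¹)) :=
        dimS_partner hk2 hk3 hτ (conj_min hρ' hg) hnzg
    _ = dimS (Cfsg.conjBy (sameActionSubgroup G ρ') g) := by rw [conj_subgroup hρ' hg]
    _ = dimS (sameActionSubgroup G ρ') := dimS_conj _ _
    _ = dimS (sameActionSubgroup G (σ * τ * σ⁻¹ * τ⁻¹)) :=
        (dimS_partner hk2 hk3 hρ hρ' hnz').symm

/-- the commutator root subgroup: `[e, F] = [E, F] = E([σ,τ])` -/
theorem comm_eq (hk2 : ringChar k ≠ 2) (hk3 : Nat.card k ≠ 3) (hG : Cfsg.IsQuadraticPair G)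
    (hσ : σ ∈ minimalQuadraticElements G) (hτ : τ ∈ minimalQuadraticElements G)
    (hz : IsNilpotent (zz (nl σ) (nl τ)))
    (hne : ⁅sameActionSubgroup G σ, sameActionSubgroup G τ⁆ ≠ ⊥) :
    ⁅sameActionSubgroup G σ, sameActionSubgroup G τ⁆ =
        sameActionSubgroup G (σ * τ * σ⁻¹ * τ⁻¹) ∧
    ∀ e ∈ sameActionSubgroup G σ, e ≠ 1 →
      Subgroup.closure ((fun f : LinearMap.GeneralLinearGroup k M => e * f * e⁻¹ * f⁻¹) ''
        (sameActionSubgroup G τ : Set (LinearMap.GeneralLinearGroup k M))) =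
      sameActionSubgroup G (σ * τ * σ⁻¹ * τ⁻¹) := by
  obtain ⟨hρ, hcl⟩ := comm_class hk2 hk3 hσ hτ hz hne
  have hfull := full_of_dim hk2 hk3 hσ hτ hz hne (dim_eq hk2 hk3 hG hσ hτ hz hne)
  constructor
  · apply le_antisymm
    · rw [Subgroup.commutator_le]
      intro e he f hf
      exact (hcl e he f hf).1
    · intro t ht
      obtain ⟨f, hf, e⟩ := hfull σ (self_mem hσ) (self_ne_one hσ) t ht
      rw [← e]
      exact Subgroup.commutator_mem_commutator (self_mem hσ) hf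
  · intro e he he1
    apply le_antisymm
    · rw [Subgroup.closure_le]
      rintro _ ⟨f, hf, rfl⟩
      exact (hcl e he f hf).1
    · intro t ht
      obtain ⟨f, hf, e'⟩ := hfull e he he1 t ht
      exact Subgroup.subset_closure ⟨f, hf, e'⟩

/-- the statement of S5068 with `z` nilpotent in place of unipotency -/
theorem core68 (hk2 : ringChar k ≠ 2) (hk3 : Nat.card k ≠ 3) (hG : Cfsg.IsQuadraticPair G)
    (hσ : σ ∈ minimalQuadraticElements G) (hτ : τ ∈ minimalQuadraticElements G)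
    (hz : IsNilpotent (zz (nl σ) (nl τ))) :
    ⁅sameActionSubgroup G σ, sameActionSubgroup G τ⁆ = ⊥ ∨
    (⁅sameActionSubgroup G σ, sameActionSubgroup G τ⁆ ∈ Cfsg.quadraticRootSubgroups G ∧
      (∀ e ∈ sameActionSubgroup G σ, e ≠ 1 →
        Subgroup.closure ((fun f : LinearMap.GeneralLinearGroup k M => e * f * e⁻¹ * f⁻¹) ''
          (sameActionSubgroup G τ : Set (LinearMap.GeneralLinearGroup k M))) =
        ⁅sameActionSubgroup G σ, sameActionSubgroup G τ⁆) ∧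
      (∀ f ∈ sameActionSubgroup G τ, f ≠ 1 →
        Subgroup.closure ((fun e : LinearMap.GeneralLinearGroup k M => e * f * e⁻¹ * f⁻¹) ''
          (sameActionSubgroup G σ : Set (LinearMap.GeneralLinearGroup k M))) =
        ⁅sameActionSubgroup G σ, sameActionSubgroup G τ⁆) ∧
      ⁅sameActionSubgroup G σ ⊔ sameActionSubgroup G τ,
        sameActionSubgroup G σ ⊔ sameActionSubgroup G τ⁆ ≠ ⊥ ∧
      ⁅⁅sameActionSubgroup G σ ⊔ sameActionSubgroup G τ,
          sameActionSubgroup G σ ⊔ sameActionSubgroup G τ⁆,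
        sameActionSubgroup G σ ⊔ sameActionSubgroup G τ⁆ = ⊥ ∧
      ((sameActionSubgroup G σ ⊔ sameActionSubgroup G τ :
          Subgroup (LinearMap.GeneralLinearGroup k M)) :
        Set (LinearMap.GeneralLinearGroup k M)) ⊆
        Cfsg.quadraticUnipotentCore G ⁅sameActionSubgroup G σ, sameActionSubgroup G τ⁆) := by
  by_cases hne : ⁅sameActionSubgroup G σ, sameActionSubgroup G τ⁆ = ⊥
  · exact Or.inl hne
  right
  have hz' : IsNilpotent (zz (nl τ) (nl σ)) := by rwa [zz_comm (nl τ) (nl σ)]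
  have hne' : ⁅sameActionSubgroup G τ, sameActionSubgroup G σ⁆ ≠ ⊥ := by
    rwa [Subgroup.commutator_comm]
  obtain ⟨hρ, hcl⟩ := comm_class hk2 hk3 hσ hτ hz hne
  obtain ⟨hρ', -⟩ := comm_class hk2 hk3 hτ hσ hz' hne'
  obtain ⟨c1, c2⟩ := comm_eq hk2 hk3 hG hσ hτ hz hne
  obtain ⟨c1', c2'⟩ := comm_eq hk2 hk3 hG hτ hσ hz' hne'
  -- the two commutator root subgroups coincide
  have hinv : τ * σ * τ⁻¹ * σ⁻¹ = (σ * τ * σ⁻¹ * τ⁻¹)⁻¹ := by group
  have hρ1 : σ * τ * σ⁻¹ * τ⁻¹ ≠ 1 :=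
    (hcl σ (self_mem hσ) τ (self_mem hτ)).2 (self_ne_one hσ) (self_ne_one hτ)
  have hsame : sameActionSubgroup G (τ * σ * τ⁻¹ * σ⁻¹) =
      sameActionSubgroup G (σ * τ * σ⁻¹ * τ⁻¹) := by
    apply subgroup_eq_of_mem
    rw [hinv]
    exact mem_class_of_mem hρ (Subgroup.inv_mem _ (self_mem hρ)) (inv_ne_one.mpr hρ1)
  refine ⟨?_, ?_, ?_, ?_, class_two hk2 hk3 hσ hτ hz hne, ?_⟩
  · rw [c1]
    exact ⟨_, hρ, rfl⟩
  · intro e he he1
    rw [c2 e he he1, c1]
  · intro f hf hf1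
    rw [c1, ← hsame, ← c2' f hf hf1]
    -- the two generating sets are inverse to each other
    apply le_antisymm
    · rw [Subgroup.closure_le]
      rintro _ ⟨e, he, rfl⟩
      have h1 : e * f * e⁻¹ * f⁻¹ = (f * e * f⁻¹ * e⁻¹)⁻¹ := by group
      show e * f * e⁻¹ * f⁻¹ ∈ _
      rw [h1]
      exact Subgroup.inv_mem _ (Subgroup.subset_closure ⟨e, he, rfl⟩)
    · rw [Subgroup.closure_le]
      rintro _ ⟨e, he, rfl⟩
      have h1 : f * e * f⁻¹ * e⁻¹ = (e * f * e⁻¹ * f⁻¹)⁻¹ := by group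
      show f * e * f⁻¹ * e⁻¹ ∈ _
      rw [h1]
      exact Subgroup.inv_mem _ (Subgroup.subset_closure ⟨e, he, rfl⟩)
  · intro h
    apply hne
    rw [eq_bot_iff, ← h]
    exact Subgroup.commutator_mono le_sup_left le_sup_right
  · rw [c1]
    exact sup_le_core hk2 hk3 hσ hτ hz hne

/-- S5068 for `E = E(σ)`, `F = E(τ)` -/
theorem main68 (hk2 : ringChar k ≠ 2) (hk3 : Nat.card k ≠ 3) (hG : Cfsg.IsQuadraticPair G)
    (hσ : σ ∈ minimalQuadraticElements G) (hτ : τ ∈ minimalQuadraticElements G)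
    (hu : Cfsg.IsUnipotentOn (sameActionSubgroup G σ ⊔ sameActionSubgroup G τ)) :
    ⁅sameActionSubgroup G σ, sameActionSubgroup G τ⁆ = ⊥ ∨
    (⁅sameActionSubgroup G σ, sameActionSubgroup G τ⁆ ∈ Cfsg.quadraticRootSubgroups G ∧
      (∀ e ∈ sameActionSubgroup G σ, e ≠ 1 →
        Subgroup.closure ((fun f : LinearMap.GeneralLinearGroup k M => e * f * e⁻¹ * f⁻¹) ''
          (sameActionSubgroup G τ : Set (LinearMap.GeneralLinearGroup k M))) =
        ⁅sameActionSubgroup G σ, sameActionSubgroup G τ⁆) ∧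
      (∀ f ∈ sameActionSubgroup G τ, f ≠ 1 →
        Subgroup.closure ((fun e : LinearMap.GeneralLinearGroup k M => e * f * e⁻¹ * f⁻¹) ''
          (sameActionSubgroup G σ : Set (LinearMap.GeneralLinearGroup k M))) =
        ⁅sameActionSubgroup G σ, sameActionSubgroup G τ⁆) ∧
      ⁅sameActionSubgroup G σ ⊔ sameActionSubgroup G τ,
        sameActionSubgroup G σ ⊔ sameActionSubgroup G τ⁆ ≠ ⊥ ∧
      ⁅⁅sameActionSubgroup G σ ⊔ sameActionSubgroup G τ,
          sameActionSubgroup G σ ⊔ sameActionSubgroup G τ⁆,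
        sameActionSubgroup G σ ⊔ sameActionSubgroup G τ⁆ = ⊥ ∧
      ((sameActionSubgroup G σ ⊔ sameActionSubgroup G τ :
          Subgroup (LinearMap.GeneralLinearGroup k M)) :
        Set (LinearMap.GeneralLinearGroup k M)) ⊆
        Cfsg.quadraticUnipotentCore G ⁅sameActionSubgroup G σ, sameActionSubgroup G τ⁆) :=
  core68 hk2 hk3 hG hσ hτ
    (nil_of_unip hu (Subgroup.mem_sup_left (self_mem hσ)) (Subgroup.mem_sup_right (self_mem hτ)))

/-- S5066 for `E = E(σ)`, `F = E(τ)` -/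
theorem main66 (hk2 : ringChar k ≠ 2) (hk3 : Nat.card k ≠ 3) (hG : Cfsg.IsQuadraticPair G)
    (hσ : σ ∈ minimalQuadraticElements G) (hτ : τ ∈ minimalQuadraticElements G)
    (h2 : ⁅sameActionSubgroup G σ ⊔ sameActionSubgroup G τ,
        sameActionSubgroup G σ ⊔ sameActionSubgroup G τ⁆ ≠ ⊥ ∧
      ⁅⁅sameActionSubgroup G σ ⊔ sameActionSubgroup G τ,
          sameActionSubgroup G σ ⊔ sameActionSubgroup G τ⁆,
        sameActionSubgroup G σ ⊔ sameActionSubgroup G τ⁆ = ⊥) :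
    ⁅sameActionSubgroup G σ, sameActionSubgroup G τ⁆ ∈ Cfsg.quadraticRootSubgroups G ∧
    (∀ e ∈ sameActionSubgroup G σ, e ≠ 1 →
      Subgroup.closure ((fun f : LinearMap.GeneralLinearGroup k M => e * f * e⁻¹ * f⁻¹) ''
        (sameActionSubgroup G τ : Set (LinearMap.GeneralLinearGroup k M))) =
      ⁅sameActionSubgroup G σ, sameActionSubgroup G τ⁆) ∧
    (∀ f ∈ sameActionSubgroup G τ, f ≠ 1 →
      Subgroup.closure ((fun e : LinearMap.GeneralLinearGroup k M => e * f * e⁻¹ * f⁻¹) ''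
        (sameActionSubgroup G σ : Set (LinearMap.GeneralLinearGroup k M))) =
      ⁅sameActionSubgroup G σ, sameActionSubgroup G τ⁆) ∧
    ((sameActionSubgroup G σ ⊔ sameActionSubgroup G τ :
        Subgroup (LinearMap.GeneralLinearGroup k M)) :
      Set (LinearMap.GeneralLinearGroup k M)) ⊆
      Cfsg.quadraticUnipotentCore G ⁅sameActionSubgroup G σ, sameActionSubgroup G τ⁆ := by
  by_cases hz : IsNilpotent (zz (nl σ) (nl τ))
  · rcases core68 hk2 hk3 hG hσ hτ hz with h | ⟨a, b, c, -, -, d⟩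
    · exact absurd (comm_sup_of_comm hσ hτ h) h2.1
    · exact ⟨a, b, c, d⟩
  · exact absurd h2.2 (not_class_two hk2 hk3 hσ hτ hz)

end

end Cfsg.Agent.Lib.Helper50.QT
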