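import Cfsg.Agent.Lib.Helper50.QtBase

set_option autoImplicit false

namespace Cfsg.Agent.Lib.Helper50.QT

open Polynomial Cfsg Cfsg.Agent.Lib.Helper50.QR Cfsg.Agent.Lib.Helper50.QP
  Cfsg.Agent.Lib.Helper50.QS

universe u v

variable {k : Type u} [Field k] {M : Type v} [AddCommGroup M] [Module k M] [FiniteDimensional k M]

namespace Nil

/-- products of at least `n` maps `g - 1`, `g ∈ H`, vanish as soon as those of exactly `n` do -/
theorem prod_eq_zero_of_le {H : Subgroup (LinearMap.GeneralLinearGroup k M)} {n : ℕ}
    (hn : ∀ l : List (LinearMap.GeneralLinearGroup k M), (∀ g ∈ l, g ∈ H) → l.length = n →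
      (l.map nl).prod = 0)
    (l : List (LinearMap.GeneralLinearGroup k M)) (hl : ∀ g ∈ l, g ∈ H) (hlen : n ≤ l.length) :
    (l.map nl).prod = 0 := by
  have h1 : l = l.take n ++ l.drop n := (List.take_append_drop n l).symm
  rw [h1, List.map_append, List.prod_append]
  rw [hn (l.take n) (fun g hg => hl g (List.mem_of_mem_take hg))
    (by rw [List.length_take]; omega), zero_mul]

/-- the inductive statement: a product of `g - 1`'s times a power of `zz` vanishes when the total
length is at least `n` -/
theorem prod_mul_zz_pow {H : Subgroup (LinearMap.GeneralLinearGroup k M)} {n : ℕ}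
    (hn : ∀ l : List (LinearMap.GeneralLinearGroup k M), (∀ g ∈ l, g ∈ H) → l.length = n →
      (l.map nl).prod = 0)
    {a b : LinearMap.GeneralLinearGroup k M} (ha : a ∈ H) (hb : b ∈ H) (j : ℕ) :
    ∀ l : List (LinearMap.GeneralLinearGroup k M), (∀ g ∈ l, g ∈ H) → n ≤ l.length + 2 * j →
      (l.map nl).prod * zz (nl a) (nl b) ^ j = 0 := by
  induction j with
  | zero =>
    intro l hl hlen
    rw [pow_zero, mul_one]
    exact prod_eq_zero_of_le hn l hl (by omega)
  | succ j ih =>
    intro l hl hlen
    have e1 : (l.map nl).prod * zz (nl a) (nl b) ^ (j + 1)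
        = ((l ++ [a, b]).map nl).prod * zz (nl a) (nl b) ^ j
          + ((l ++ [b, a]).map nl).prod * zz (nl a) (nl b) ^ j := by
      rw [pow_succ', ← mul_assoc, List.map_append, List.prod_append, List.map_append,
        List.prod_append]
      simp only [List.map_cons, List.map_nil, List.prod_cons, List.prod_nil, mul_one]
      unfold zz
      rw [mul_add, add_mul]
    rw [e1]
    have hab : ∀ g ∈ l ++ [a, b], g ∈ H := by
      intro g hg
      rcases List.mem_append.1 hg with h | h
      · exact hl g h
      · simp only [List.mem_cons, List.not_mem_nil, or_false] at h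
        rcases h with rfl | rfl
        · exact ha
        · exact hb
    have hba : ∀ g ∈ l ++ [b, a], g ∈ H := by
      intro g hg
      rcases List.mem_append.1 hg with h | h
      · exact hl g h
      · simp only [List.mem_cons, List.not_mem_nil, or_false] at h
        rcases h with rfl | rfl
        · exact hb
        · exact ha
    rw [ih _ hab (by simp only [List.length_append, List.length_cons, List.length_nil]; omega),
      ih _ hba (by simp only [List.length_append, List.length_cons, List.length_nil]; omega),
      add_zero]

end Nil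

/-- T-NIL: in a group acting unipotently, `z = AB + BA` is nilpotent for `A = a - 1`,
`B = b - 1` -/
theorem nil_of_unip {H : Subgroup (LinearMap.GeneralLinearGroup k M)}
    (hH : Cfsg.IsUnipotentOn H) {a b : LinearMap.GeneralLinearGroup k M} (ha : a ∈ H)
    (hb : b ∈ H) : IsNilpotent (zz (nl a) (nl b)) := by
  obtain ⟨n, hn⟩ := hH
  have hn' : ∀ l : List (LinearMap.GeneralLinearGroup k M), (∀ g ∈ l, g ∈ H) → l.length = n →
      (l.map nl).prod = 0 := by
    intro l hl hlen
    have := hn l hl hlen
    rw [Basic.bind_pure_map l (fun a : LinearMap.GeneralLinearGroup k M => (a : M →ₗ[k] M))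
      (fun g : M →ₗ[k] M => g - 1)] at this
    exact this
  refine ⟨n, ?_⟩
  have h := Nil.prod_mul_zz_pow hn' ha hb n [] (by simp) (by simp only [List.length_nil]; omega)
  simpa using h

end Cfsg.Agent.Lib.Helper50.QT
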