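import Cfsg.Agent.Lib.Helper50.QsBase
import Cfsg.Agent.Lib.Helper50.QsConj

set_option autoImplicit false

namespace Cfsg.Agent.Lib.Helper50.QU

open Polynomial Cfsg Cfsg.Agent.Lib.Helper50.QR Cfsg.Agent.Lib.Helper50.QP
  Cfsg.Agent.Lib.Helper50.QS

universe u v

variable {k : Type u} [Field k] {M : Type v} [AddCommGroup M] [Module k M] [FiniteDimensional k M]

omit [FiniteDimensional k M] in
/-- the operator identity behind U-NONU: with `X² = 0 = Y²` and `XYX = 0 = YXY`,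
`(1+X)(1-Y)X(1+Y)(1-X) = X + XY - YX` -/
theorem nonU_conj_formula {X Y : Module.End k M} (hX : X * X = 0) (e1 : X * Y * X = 0)
    (e2 : Y * X * Y = 0) :
    (1 + X) * ((1 - Y) * X * (1 + Y)) * (1 - X) = X + X * Y - Y * X := by
  have hXX : ∀ Z : Module.End k M, X * (X * Z) = 0 := fun Z => by
    rw [← mul_assoc, hX, zero_mul]
  have e1' : X * (Y * X) = 0 := by rw [← mul_assoc, e1]
  have e2' : Y * (X * Y) = 0 := by rw [← mul_assoc, e2]
  simp only [mul_add, add_mul, mul_sub, sub_mul, mul_one, one_mul, mul_assoc, hX, hXX, e1', e2',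
    mul_zero, sub_zero, add_zero, sub_self]
  abel

/-- U-NONU: a rank one pair of root subgroups is not a unipotent pair -/
theorem nonnil_of_rankOne (hk2 : ringChar k ≠ 2) (hk3 : Nat.card k ≠ 3)
    {G : Subgroup (LinearMap.GeneralLinearGroup k M)}
    {σ τ : LinearMap.GeneralLinearGroup k M} (hσ : σ ∈ minimalQuadraticElements G)
    (hτ : τ ∈ minimalQuadraticElements G)
    (h : Cfsg.IsRankOnePair (sameActionSubgroup G σ) (sameActionSubgroup G τ)) :
    ¬ IsNilpotent (zz (nl σ) (nl τ)) := by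
  intro hz
  obtain ⟨b, hb, hb1, hconj⟩ := h.cond_left σ (self_mem hσ) (self_ne_one hσ)
  have hf : σ * (b⁻¹ * σ * b) * σ⁻¹ ∈ sameActionSubgroup G τ := by
    have h1 : b⁻¹ * σ * b ∈ Cfsg.conjBy (sameActionSubgroup G σ) b⁻¹ := by
      refine ⟨σ, self_mem hσ, ?_⟩
      show b⁻¹ * σ * b⁻¹⁻¹ = b⁻¹ * σ * b
      rw [inv_inv]
    rw [hconj] at h1
    obtain ⟨t, ht, hte⟩ := h1
    have hte' : σ⁻¹ * t * σ⁻¹⁻¹ = b⁻¹ * σ * b := hte
    have h2 : σ * (b⁻¹ * σ * b) * σ⁻¹ = t := by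
      rw [← hte']; group
    rw [h2]; exact ht
  have hX2 : nl σ * nl σ = 0 := quad_sq hσ.1.2.1
  have hY2 : nl b * nl b = 0 := mul_zero_of_mem hτ hb hb
  have hz' := nil_transfer hk2 hk3 hσ hτ hz (self_mem hσ) (self_ne_one hσ) hb hb1
  obtain ⟨e1, e2⟩ := pair_nil (Ring.two_ne_zero hk2) hσ (min_of_mem hτ hb hb1) hz'
  have hnf : nl (σ * (b⁻¹ * σ * b) * σ⁻¹) = nl σ + nl σ * nl b - nl b * nl σ := by
    have h3 : nl (b⁻¹ * σ * b) = (1 - nl b) * nl σ * (1 + nl b) := by
      have h4 := nl_conj b⁻¹ σ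
      rw [inv_inv] at h4
      rw [h4, coe_inv_of_sq b hY2, coe_eq b]
    rw [nl_conj, h3, coe_inv_of_sq σ hX2, coe_eq σ]
    exact nonU_conj_formula hX2 e1 e2
  have hF := inN_of_mem hτ hf
  rw [hnf] at hF
  have hkerY : LinearMap.ker (nl b) = LinearMap.ker (nl τ) := ker_of_mem hτ hb hb1
  have hranY : LinearMap.range (nl b) = LinearMap.range (nl τ) := range_of_mem hτ hb hb1
  have hYY : ∀ m : M, nl b (nl b m) = 0 := fun m => by
    rw [← Module.End.mul_apply, hY2, LinearMap.zero_apply]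
  have hi : LinearMap.ker (nl τ) ≤ LinearMap.ker (nl σ) := by
    intro m hm
    have hm' : nl b m = 0 := by
      rw [← hkerY] at hm
      exact LinearMap.mem_ker.mp hm
    have h4 : (nl σ + nl σ * nl b - nl b * nl σ) m = 0 := LinearMap.mem_ker.mp (hF.2 hm)
    have h5 : nl σ m - nl b (nl σ m) = 0 := by
      rw [LinearMap.sub_apply, LinearMap.add_apply, Module.End.mul_apply, Module.End.mul_apply,
        hm', map_zero, add_zero] at h4
      exact h4
    have h6 : nl b (nl σ m) = 0 := by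
      have h7 := congrArg (nl b) h5
      rw [map_sub, map_zero, hYY, sub_zero] at h7
      exact h7
    rw [h6, sub_zero] at h5
    exact LinearMap.mem_ker.mpr h5
  have hii : LinearMap.range (nl σ) ≤ LinearMap.range (nl τ) := by
    rintro _ ⟨m', rfl⟩
    rw [← hranY]
    obtain ⟨m, hm⟩ : ∃ m, m = m' - nl b m' := ⟨_, rfl⟩
    have h7 : m' = m + nl b m := by
      rw [hm, map_sub, hYY, sub_zero, sub_add_cancel]
    have h8 : (nl σ + nl σ * nl b - nl b * nl σ) m ∈ LinearMap.range (nl b) := by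
      rw [hranY]
      exact hF.1 ⟨m, rfl⟩
    have h9 : nl σ m' = (nl σ + nl σ * nl b - nl b * nl σ) m + nl b (nl σ m) := by
      rw [h7, LinearMap.sub_apply, LinearMap.add_apply, Module.End.mul_apply,
        Module.End.mul_apply, map_add, sub_add_cancel]
    rw [h9]
    exact Submodule.add_mem _ h8 ⟨_, rfl⟩
  have hN : InN (LinearMap.ker (nl τ)) (LinearMap.range (nl τ)) (nl σ) := ⟨hii, hi⟩
  exact h.ne (subgroup_eq_of_mem (mem_class_of_inN hτ hσ.1 hN))

end Cfsg.Agent.Lib.Helper50.QU
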