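import Cfsg.Agent.Lib.Helper50.QpFinal
import Cfsg.Agent.Lib.Helper50.QsBase
import Cfsg.Agent.Lib.Helper74.QuSl2Aux

set_option autoImplicit false

namespace Cfsg.Agent.Lib.Helper50.QU

open Polynomial Cfsg Cfsg.Agent.Lib.Helper50.QR Cfsg.Agent.Lib.Helper50.QP
  Cfsg.Agent.Lib.Helper50.QS

universe u v

variable {k : Type u} [Field k] {M : Type v} [AddCommGroup M] [Module k M] [FiniteDimensional k M]

/-- U-PSL: the explicit embedding `SL₂(K) → GL(M)` with image `genH A B` (hypotheses of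
`QP.final_strong`): upper unitriangular matrices go to maps `1 + X` with `X` killing `ker A`
and mapping into `range A`, lower ones similarly for `B`, compatibly with scalars from `k` -/
theorem exists_sl2 (hk2 : ringChar k ≠ 2) (hk3 : Nat.card k ≠ 3) {A B : Module.End k M}
    (hA : A * A = 0) (hB : B * B = 0) (hA0 : A ≠ 0)
    (h1 : ∀ m, A (B (A m)) = 0 → A m = 0) (h2 : ∀ m, B (A (B m)) = 0 → B m = 0)
    (h3 : ∀ g : k[X], (∀ m, aeval (A * B) g (A m) = 0) ∨
      (∀ m, aeval (A * B) g (A m) = 0 → A m = 0)) :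
    ∃ (K : Type v) (_ : Field K) (_ : Algebra k K)
      (φ : Matrix.SpecialLinearGroup (Fin 2) K →* LinearMap.GeneralLinearGroup k M),
      Function.Injective φ ∧ φ.range = genH A B ∧
      (∀ t : K, InN (LinearMap.ker A) (LinearMap.range A) (nl (φ (AG.uK t)))) ∧
      (∀ t : K, InN (LinearMap.ker B) (LinearMap.range B) (nl (φ (AG.lK t)))) ∧
      (∀ (c : k) (t : K), nl (φ (AG.uK (algebraMap k K c * t))) = c • nl (φ (AG.uK t))) ∧
      (∀ (c : k) (t : K), nl (φ (AG.lK (algebraMap k K c * t))) = c • nl (φ (AG.lK t))) :=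
  Cfsg.Agent.Lib.Helper74.QuSl2Aux.exists_sl2_aux hk2 hk3 hA hB hA0 h1 h2 h3

end Cfsg.Agent.Lib.Helper50.QU
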