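import Cfsg.Agent.Lib.Helper50.QsBase
import Cfsg.Agent.Lib.Helper50.QuSl2

set_option autoImplicit false

namespace Cfsg.Agent.Lib.Helper50.QU

open Polynomial Cfsg Cfsg.Agent.Lib.Helper50.QR Cfsg.Agent.Lib.Helper50.QP
  Cfsg.Agent.Lib.Helper50.QS

universe u v

variable {k : Type u} [Field k] {M : Type v} [AddCommGroup M] [Module k M] [FiniteDimensional k M]

/-- a field extension of a field `k` of characteristic `≠ 2` and order `≠ 3` has more than three
elements -/
private theorem h2_psl_card (hk2 : ringChar k ≠ 2) (hk3 : Nat.card k ≠ 3)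
    (K : Type v) [Field K] [Algebra k K] : 3 < ENat.card K := by
  by_contra hcon
  rw [not_lt] at hcon
  have hfin : Finite K := by
    rw [← ENat.card_lt_top]
    exact lt_of_le_of_lt hcon (by exact_mod_cast ENat.coe_lt_top 3)
  have hinj : Function.Injective (algebraMap k K) := (algebraMap k K).injective
  have hfink : Finite k := Finite.of_injective _ hinj
  have h1 : Nat.card k ≤ Nat.card K := Nat.card_le_card_of_injective _ hinj
  have h2 : Nat.card K ≤ 3 := by
    have hft := Fintype.ofFinite K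
    rw [ENat.card_eq_coe_fintype_card] at hcon
    rw [Nat.card_eq_fintype_card]
    exact_mod_cast hcon
  have h3 : 1 < Nat.card k := Finite.one_lt_card
  have h4 : Nat.card k = 2 := by omega
  have h5 : ((2 : ℕ) : k) = 0 := by
    have h6 := card_nsmul_eq_zero' (G := k) (x := (1 : k))
    rw [h4] at h6
    simpa using h6
  have h6 : ringChar k ∣ 2 := ringChar.dvd h5
  have h7 : ringChar k ≠ 1 := CharP.ringChar_ne_one
  rcases (Nat.dvd_prime Nat.prime_two).mp h6 with h | h
  · exact h7 h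
  · exact hk2 h

/-- the images of the elements of a one-parameter family `e t` with `nl` in the class of `σ` and
compatible with scalars lie in `E(σ)` -/
private theorem h2_mem_same {G : Subgroup (LinearMap.GeneralLinearGroup k M)}
    {σ : LinearMap.GeneralLinearGroup k M} (hσ : σ ∈ minimalQuadraticElements G)
    {K : Type v} [Field K] [Algebra k K]
    (φ : Matrix.SpecialLinearGroup (Fin 2) K →* LinearMap.GeneralLinearGroup k M)
    (hφG : φ.range ≤ G)
    (e : K → Matrix.SpecialLinearGroup (Fin 2) K)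
    (hN : ∀ t : K, InN (LinearMap.ker (nl σ)) (LinearMap.range (nl σ)) (nl (φ (e t))))
    (hs : ∀ (c : k) (t : K), nl (φ (e (algebraMap k K c * t))) = c • nl (φ (e t)))
    (t : K) : φ (e t) ∈ sameActionSubgroup G σ := by
  by_cases h1 : φ (e t) = 1
  · rw [h1]; exact Subgroup.one_mem _
  · apply Subgroup.subset_closure
    apply mem_class_of_inN hσ _ (hN t)
    refine ⟨hφG ⟨_, rfl⟩,
      ⟨InN.mul_eq_zero (range_le_ker_of_sq (quad_sq hσ.1.2.1)) (hN t) (hN t), nl_ne_zero h1⟩, ?_⟩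
    rintro ρ ⟨c, hρ⟩
    have h2 : ρ = φ (e (algebraMap k K c * t)) := by
      apply eq_of_nl_eq
      rw [hs c t, nl_def, hρ]
      show 1 + c • nl (φ (e t)) - 1 = c • nl (φ (e t))
      abel
    rw [h2]
    exact hφG ⟨_, rfl⟩

/-- U-PSL2: a non-unipotent pair of root subgroups contains an `SL₂(K)`-pair, `#K > 3` -/
theorem exists_psl2_pair (hk2 : ringChar k ≠ 2) (hk3 : Nat.card k ≠ 3)
    {G : Subgroup (LinearMap.GeneralLinearGroup k M)}
    {σ τ : LinearMap.GeneralLinearGroup k M} (hσ : σ ∈ minimalQuadraticElements G)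
    (hτ : τ ∈ minimalQuadraticElements G) (hnz : ¬ IsNilpotent (zz (nl σ) (nl τ))) :
    ∃ A₀ B₀ : Subgroup (LinearMap.GeneralLinearGroup k M),
      A₀ ≤ sameActionSubgroup G σ ∧ B₀ ≤ sameActionSubgroup G τ ∧
      ∃ (k₁ : Type v) (_ : Field k₁), 3 < ENat.card k₁ ∧ Cfsg.IsPSL2PairOver k₁ A₀ B₀ := by
  obtain ⟨p1, p2, p3⟩ := pair_core hk2 hk3 hσ hτ hnz
  obtain ⟨K, iF, iA, φ, hinj, hrange, hu, hl, hsu, hsl⟩ :=
    exists_sl2 hk2 hk3 (quad_sq hσ.1.2.1) (quad_sq hτ.1.2.1) (quad_ne hσ.1.2.1) p1 p2 p3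
  have hφG : φ.range ≤ G := by rw [hrange]; exact genH_le_G hσ hτ
  have h_top : upperUnipotentSL2 K ⊔ lowerUnipotentSL2 K = ⊤ := by
    rw [eq_top_iff]
    intro g _
    exact AG.mem_of_entries ⊤ _
      (fun a _ => Subgroup.mem_sup_left
        (show AG.uK a ∈ upperUnipotentSL2 K from Subgroup.subset_closure ⟨rfl, rfl, rfl⟩))
      (fun b _ => Subgroup.mem_sup_right
        (show AG.lK b ∈ lowerUnipotentSL2 K from Subgroup.subset_closure ⟨rfl, rfl, rfl⟩)) g
      (fun _ _ => trivial)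
  refine ⟨(upperUnipotentSL2 K).map φ, (lowerUnipotentSL2 K).map φ, ?_, ?_, K, iF, ?_, φ, ?_, ?_,
    rfl, rfl⟩
  · rw [Subgroup.map_le_iff_le_comap]
    apply (Subgroup.closure_le _).2
    rintro g ⟨h10, h00, h11⟩
    have hg : g = AG.uK (g.1 0 1) :=
      AG.ext2 (by rw [AG.uK00]; exact h00) (by rw [AG.uK01]) (by rw [AG.uK10]; exact h10)
        (by rw [AG.uK11]; exact h11)
    show φ g ∈ sameActionSubgroup G σ
    rw [hg]
    exact h2_mem_same hσ φ hφG AG.uK hu hsu _
  · rw [Subgroup.map_le_iff_le_comap]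
    apply (Subgroup.closure_le _).2
    rintro g ⟨h01, h00, h11⟩
    have hg : g = AG.lK (g.1 1 0) :=
      AG.ext2 (by rw [AG.lK00]; exact h00) (by rw [AG.lK01]; exact h01) (by rw [AG.lK10])
        (by rw [AG.lK11]; exact h11)
    show φ g ∈ sameActionSubgroup G τ
    rw [hg]
    exact h2_mem_same hτ φ hφG AG.lK hl hsl _
  · exact h2_psl_card hk2 hk3 K
  · rw [← Subgroup.map_sup, h_top, ← MonoidHom.range_eq_map]
  · rw [(MonoidHom.ker_eq_bot_iff φ).2 hinj]
    exact bot_le

end Cfsg.Agent.Lib.Helper50.QU
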