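import Mathlib
import Cfsg.Prelude.Def_RootSubgroups

set_option autoImplicit false

namespace Cfsg.Agent.Lib.Helper50.QU

open Cfsg

/-- the commutator of two subgroups of `K₀`, computed inside `K₀` -/
theorem tr2_comm_subgroupOf {H : Type*} [Group H] (K₀ A B : Subgroup H) (hA : A ≤ K₀)
    (hB : B ≤ K₀) : ⁅A.subgroupOf K₀, B.subgroupOf K₀⁆ = (⁅A, B⁆ : Subgroup H).subgroupOf K₀ := by
  have hAB : (⁅A, B⁆ : Subgroup H) ≤ K₀ := by
    rw [Subgroup.commutator_le]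
    intro g₁ h₁ g₂ h₂
    rw [commutatorElement_def]
    exact K₀.mul_mem (K₀.mul_mem (K₀.mul_mem (hA h₁) (hB h₂)) (K₀.inv_mem (hA h₁)))
      (K₀.inv_mem (hB h₂))
  apply Subgroup.map_injective K₀.subtype_injective
  rw [Subgroup.map_commutator, Subgroup.map_subgroupOf_eq_of_le hA,
    Subgroup.map_subgroupOf_eq_of_le hB, Subgroup.map_subgroupOf_eq_of_le hAB]

/-- U-TR2: the commutator case for subgroups of `K₀` holds inside `K₀` -/
theorem rootComm_subgroupOf {H : Type*} [Group H] (K₀ : Subgroup H) (S₀ : Set (Subgroup H))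
    (A B : Subgroup H) (hA : A ≤ K₀) (hB : B ≤ K₀) (h : Cfsg.RootCommutatorCase S₀ A B) :
    Cfsg.RootCommutatorCase ((fun A : Subgroup H => A.subgroupOf K₀) '' S₀)
      (A.subgroupOf K₀) (B.subgroupOf K₀) := by
  obtain ⟨h1, h2, h3, h4⟩ := h
  have hcomm := tr2_comm_subgroupOf K₀ A B hA hB
  have hAB : (⁅A, B⁆ : Subgroup H) ≤ K₀ := by
    rw [Subgroup.commutator_le]
    intro g₁ h₁ g₂ h₂
    rw [commutatorElement_def]
    exact K₀.mul_mem (K₀.mul_mem (K₀.mul_mem (hA h₁) (hB h₂)) (K₀.inv_mem (hA h₁)))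
      (K₀.inv_mem (hB h₂))
  have hsup : (A.subgroupOf K₀ ⊔ B.subgroupOf K₀).map K₀.subtype = A ⊔ B := by
    rw [Subgroup.map_sup, Subgroup.map_subgroupOf_eq_of_le hA, Subgroup.map_subgroupOf_eq_of_le hB]
  refine ⟨?_, ?_, ?_, ?_⟩
  · rw [hcomm]
    exact ⟨_, h1, rfl⟩
  · intro c hc x hx
    rw [hcomm, Subgroup.mem_subgroupOf] at hc
    have hx' : (x : H) ∈ A ⊔ B := by
      rw [← hsup]
      exact Subgroup.mem_map_of_mem K₀.subtype hx
    exact Subtype.ext (h2 _ hc _ hx')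
  · intro a ha ha1
    rw [Subgroup.mem_subgroupOf] at ha
    have ha1' : (a : H) ≠ 1 := fun h0 => ha1 (Subtype.ext h0)
    apply Subgroup.map_injective K₀.subtype_injective
    rw [MonoidHom.map_closure, hcomm, Subgroup.map_subgroupOf_eq_of_le hAB, ← h3 _ ha ha1']
    congr 1
    ext y
    constructor
    · rintro ⟨_, ⟨b, hb, rfl⟩, rfl⟩
      exact ⟨(b : H), Subgroup.mem_subgroupOf.mp hb, rfl⟩
    · rintro ⟨b, hb, rfl⟩
      exact ⟨_, ⟨⟨b, hB hb⟩, Subgroup.mem_subgroupOf.mpr hb, rfl⟩, rfl⟩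
  · intro b hb hb1
    rw [Subgroup.mem_subgroupOf] at hb
    have hb1' : (b : H) ≠ 1 := fun h0 => hb1 (Subtype.ext h0)
    apply Subgroup.map_injective K₀.subtype_injective
    rw [MonoidHom.map_closure, hcomm, Subgroup.map_subgroupOf_eq_of_le hAB, ← h4 _ hb hb1']
    congr 1
    ext y
    constructor
    · rintro ⟨_, ⟨a, ha, rfl⟩, rfl⟩
      exact ⟨(a : H), Subgroup.mem_subgroupOf.mp ha, rfl⟩
    · rintro ⟨a, ha, rfl⟩
      exact ⟨_, ⟨⟨a, hA ha⟩, Subgroup.mem_subgroupOf.mpr ha, rfl⟩, rfl⟩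

end Cfsg.Agent.Lib.Helper50.QU
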