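import Cfsg.Agent.Lib.Helper50.QuTr1
import Cfsg.Agent.Lib.Helper50.QuTr2

set_option autoImplicit false

namespace Cfsg.Agent.Lib.Helper50.QU

open Cfsg

/-- the statement of U-TR3 for an arbitrary name `K₀` of the generated subgroup (helper62) -/
theorem h62_rootSet_basics_aux {H : Type*} [Group H] (S₀ : Set (Subgroup H))
    (K₀ : Subgroup H) (hK₀ : K₀ = ⨆ B ∈ S₀, B)
    (hc : ∀ A ∈ S₀, ∀ a ∈ A, ∀ b ∈ A, a * b = b * a) (hne : ∀ A ∈ S₀, A ≠ ⊥)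
    (hconj : ∀ A ∈ S₀, ∀ g ∈ K₀, Cfsg.conjBy A g ∈ S₀)
    (hpair : ∀ A ∈ S₀, ∀ B ∈ S₀,
      ⁅A, B⁆ = ⊥ ∨ Cfsg.IsRankOnePair A B ∨ Cfsg.RootCommutatorCase S₀ A B) :
    Cfsg.IsRootSubgroupSet ((fun A : Subgroup H => A.subgroupOf K₀) '' S₀) := by
  have hle : ∀ A ∈ S₀, A ≤ K₀ := fun A hA => by
    rw [hK₀]; exact le_biSup (fun B : Subgroup H => B) hA
  refine ⟨?_, ?_, ?_, ?_, ?_⟩
  · rintro A' ⟨A, hA, rfl⟩
    refine ⟨⟨fun a b => ?_⟩⟩
    apply Subtype.ext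
    apply Subtype.ext
    exact hc A hA _ (Subgroup.mem_subgroupOf.mp a.2) _ (Subgroup.mem_subgroupOf.mp b.2)
  · rintro A' ⟨A, hA, rfl⟩ hbot
    rw [Subgroup.subgroupOf_eq_bot, disjoint_iff, inf_eq_left.mpr (hle A hA)] at hbot
    exact hne A hA hbot
  · rw [eq_top_iff]
    intro x _
    have h1 : K₀ ≤ (⨆ A' ∈ ((fun A : Subgroup H => A.subgroupOf K₀) '' S₀), A').map
        K₀.subtype := by
      rw [hK₀]
      apply iSup₂_le
      intro A hA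
      have h2 : A.subgroupOf (⨆ B ∈ S₀, B) ≤
          ⨆ A' ∈ ((fun A : Subgroup H => A.subgroupOf (⨆ B ∈ S₀, B)) '' S₀), A' :=
        le_biSup (fun B : Subgroup (⨆ B ∈ S₀, B : Subgroup H) => B) ⟨A, hA, rfl⟩
      have h3 := Subgroup.map_mono (f := (⨆ B ∈ S₀, B : Subgroup H).subtype) h2
      rw [Subgroup.map_subgroupOf_eq_of_le (hK₀ ▸ hle A hA)] at h3
      exact h3
    obtain ⟨y, hy, hyx⟩ := h1 x.2
    have : y = x := Subtype.ext hyx
    rw [← this]; exact hy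
  · rintro A' ⟨A, hA, rfl⟩ g
    refine ⟨Cfsg.conjBy A (g : H), hconj A hA g g.2, ?_⟩
    exact (h62_conjBy_subgroupOf K₀ A (hle A hA) g).symm
  · rintro A' ⟨A, hA, rfl⟩ B' ⟨B, hB, rfl⟩
    rcases hpair A hA B hB with h | h | h
    · left
      rw [Subgroup.commutator_eq_bot_iff_le_centralizer] at h ⊢
      intro a ha
      rw [Subgroup.mem_centralizer_iff]
      intro b hb
      apply Subtype.ext
      exact Subgroup.mem_centralizer_iff.mp (h (Subgroup.mem_subgroupOf.mp ha)) (b : H)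
        (Subgroup.mem_subgroupOf.mp hb)
    · right; left
      exact rankOne_subgroupOf K₀ A B (hle A hA) (hle B hB) h
    · right; right
      exact rootComm_subgroupOf K₀ S₀ A B (hle A hA) (hle B hB) h

/-- U-TR3: a set `S₀` of abelian non-identity subgroups, closed under conjugation by the group
`K₀` they generate and satisfying the pair axiom, is a set of abstract root subgroups of `K₀` -/
theorem rootSet_basics {H : Type*} [Group H] (S₀ : Set (Subgroup H))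
    (hc : ∀ A ∈ S₀, ∀ a ∈ A, ∀ b ∈ A, a * b = b * a) (hne : ∀ A ∈ S₀, A ≠ ⊥)
    (hconj : ∀ A ∈ S₀, ∀ g ∈ (⨆ B ∈ S₀, B), Cfsg.conjBy A g ∈ S₀)
    (hpair : ∀ A ∈ S₀, ∀ B ∈ S₀,
      ⁅A, B⁆ = ⊥ ∨ Cfsg.IsRankOnePair A B ∨ Cfsg.RootCommutatorCase S₀ A B) :
    Cfsg.IsRootSubgroupSet ((fun A : Subgroup H => A.subgroupOf (⨆ B ∈ S₀, B)) '' S₀) :=
  h62_rootSet_basics_aux S₀ _ rfl hc hne hconj hpair

end Cfsg.Agent.Lib.Helper50.QU
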