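import Cfsg.Agent.Lib.Helper50.QsRank
import Cfsg.Agent.Lib.Helper50.QsSpec
import Cfsg.Agent.Lib.Helper50.QtMain
import Cfsg.Agent.Lib.Helper50.QuTr3
import Cfsg.Agent.Lib.Helper50.QuNonU
import Cfsg.Agent.Lib.Helper50.QuPsl

/-!
# S5062: assembly (helper50)
-/

set_option autoImplicit false

namespace Cfsg.Agent.Lib.Helper50.QU

open Polynomial Cfsg Cfsg.Agent.Lib.Helper50.QR Cfsg.Agent.Lib.Helper50.QP
  Cfsg.Agent.Lib.Helper50.QS

universe u v

variable {k : Type u} [Field k] {M : Type v} [AddCommGroup M] [Module k M] [FiniteDimensional k M]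

theorem nilp_of_comm {H : Type*} [Group H] (E : Subgroup H)
    (h : ∀ a ∈ E, ∀ b ∈ E, a * b = b * a) : Group.IsNilpotent E := by
  let _i : CommGroup E :=
    { (inferInstance : Group E) with mul_comm := fun a b => Subtype.ext (h a a.2 b b.2) }
  exact CommGroup.isNilpotent

/-- a non-unipotent pair of root subgroups is a special rank one pair -/
theorem special_of_nonnil (hk2 : ringChar k ≠ 2) (hk3 : Nat.card k ≠ 3)
    {G : Subgroup (LinearMap.GeneralLinearGroup k M)}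
    {σ τ : LinearMap.GeneralLinearGroup k M} (hσ : σ ∈ minimalQuadraticElements G)
    (hτ : τ ∈ minimalQuadraticElements G) (hz : ¬ IsNilpotent (zz (nl σ) (nl τ))) :
    Cfsg.IsSpecialRankOnePair (sameActionSubgroup G σ) (sameActionSubgroup G τ) := by
  have hz' : ¬ IsNilpotent (zz (nl τ) (nl σ)) := by rwa [zz_comm (nl τ) (nl σ)]
  obtain ⟨n1, n2⟩ := spaces_of_nonnil hk2 hk3 hσ hτ hz
  have hR₁ := range_le_ker_of_sq (quad_sq hσ.1.2.1)
  refine ⟨⟨?_, ?_, ?_, rank_one_cond hk2 hk3 hσ hτ hz, rank_one_cond hk2 hk3 hτ hσ hz'⟩,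
    special_cond hk2 hk3 hσ hτ hz⟩
  · intro e
    apply quad_ne hτ.1.2.1
    have hN : InN (LinearMap.ker (nl σ)) (LinearMap.range (nl σ)) (nl τ) :=
      inN_of_mem hσ (by rw [e]; exact self_mem hτ)
    have h3 : LinearMap.range (nl τ) ≤ LinearMap.range (nl τ) ⊓ LinearMap.ker (nl σ) :=
      le_inf le_rfl (hN.1.trans hR₁)
    rw [n2, le_bot_iff] at h3
    exact LinearMap.range_eq_bot.mp h3
  · exact nilp_of_comm _ (fun a ha b hb => comm_of_mem hσ ha hb)
  · exact nilp_of_comm _ (fun a ha b hb => comm_of_mem hτ ha hb)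

/-- S5062 -/
theorem main62 (hk2 : ringChar k ≠ 2) (hk3 : Nat.card k ≠ 3)
    {G : Subgroup (LinearMap.GeneralLinearGroup k M)} (hG : Cfsg.IsQuadraticPair G) :
    Cfsg.IsRootSubgroupSet ((fun A : Subgroup (LinearMap.GeneralLinearGroup k M) =>
        A.subgroupOf (⨆ B ∈ Cfsg.quadraticRootSubgroups G, B)) ''
      Cfsg.quadraticRootSubgroups G) ∧
    (∀ A ∈ Cfsg.quadraticRootSubgroups G,
      ¬ Cfsg.IsIsolatedIn (Cfsg.FAdj (Cfsg.quadraticRootSubgroups G))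
        (Cfsg.quadraticRootSubgroups G) A) ∧
    (∀ A ∈ Cfsg.quadraticRootSubgroups G,
      ∀ B ∈ Cfsg.rankOnePartners (Cfsg.quadraticRootSubgroups G) A,
      ∃ A₀ B₀ : Subgroup (LinearMap.GeneralLinearGroup k M), A₀ ≤ A ∧ B₀ ≤ B ∧
        ∃ (k₁ : Type v) (_ : Field k₁), 3 < ENat.card k₁ ∧ Cfsg.IsPSL2PairOver k₁ A₀ B₀) := by
  refine ⟨?_, ?_, ?_⟩
  · apply rootSet_basics
    · rintro A ⟨σ, hσ, rfl⟩ a ha b hb
      exact comm_of_mem hσ ha hb
    · rintro A ⟨σ, hσ, rfl⟩ e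
      apply self_ne_one hσ
      have h := self_mem hσ
      rw [e] at h
      exact Subgroup.mem_bot.mp h
    · rintro A ⟨σ, hσ, rfl⟩ g hg
      have hgG : g ∈ G := by
        have hle : (⨆ B ∈ Cfsg.quadraticRootSubgroups G, B) ≤ G := by
          apply iSup₂_le
          rintro B ⟨ρ, -, rfl⟩
          exact subgroup_le
        exact hle hg
      exact ⟨g * σ * g⁻¹, conj_min hσ hgG, conj_subgroup hσ hgG⟩
    · rintro A ⟨σ, hσ, rfl⟩ B ⟨τ, hτ, rfl⟩
      by_cases hz : IsNilpotent (zz (nl σ) (nl τ))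
      · rcases QT.core68 hk2 hk3 hG hσ hτ hz with h | ⟨h1, h2, h3, -, h5, -⟩
        · exact Or.inl h
        · refine Or.inr (Or.inr ⟨h1, ?_, h2, h3⟩)
          intro c hc x hx
          have hcc : c ∈ ⁅sameActionSubgroup G σ ⊔ sameActionSubgroup G τ,
              sameActionSubgroup G σ ⊔ sameActionSubgroup G τ⁆ :=
            Subgroup.commutator_mono le_sup_left le_sup_right hc
          have h6 := Subgroup.commutator_mem_commutator hcc hx
          rw [h5, Subgroup.mem_bot, commutatorElement_def] at h6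
          have h7 : c * x = (c * x * c⁻¹ * x⁻¹) * (x * c) := by group
          rw [h7, h6, one_mul]
      · exact Or.inr (Or.inl (special_of_nonnil hk2 hk3 hσ hτ hz).1)
  · rintro A ⟨σ, hσ, rfl⟩ ⟨-, hiso⟩
    obtain ⟨ρ, hρ, hnz⟩ := QT.exists_partner hk2 hk3 hG hσ
    exact (hiso (sameActionSubgroup G ρ)).1
      ⟨⟨σ, hσ, rfl⟩, ⟨ρ, hρ, rfl⟩, (special_of_nonnil hk2 hk3 hσ hρ hnz).1⟩
  · rintro A ⟨σ, hσ, rfl⟩ B ⟨⟨τ, hτ, rfl⟩, hr⟩
    exact exists_psl2_pair hk2 hk3 hσ hτ (nonnil_of_rankOne hk2 hk3 hσ hτ hr)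

end Cfsg.Agent.Lib.Helper50.QU
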