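import Mathlib
import Cfsg.Prelude.Def_RootSubgroups

set_option autoImplicit false

namespace Cfsg.Agent.Lib.Helper50.QU

open Cfsg

/-- conjugation inside `K₀` versus conjugation in the ambient group (helper62) -/
theorem h62_conjBy_subgroupOf {H : Type*} [Group H] (K₀ A : Subgroup H) (hA : A ≤ K₀)
    (g : K₀) :
    Cfsg.conjBy (A.subgroupOf K₀) g = (Cfsg.conjBy A (g : H)).subgroupOf K₀ := by
  ext x
  simp only [Cfsg.conjBy, Subgroup.mem_map, Subgroup.mem_subgroupOf, MulEquiv.coe_toMonoidHom,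
    MulAut.conj_apply]
  constructor
  · rintro ⟨y, hy, rfl⟩
    exact ⟨(y : H), hy, by simp⟩
  · rintro ⟨y, hy, hyx⟩
    refine ⟨⟨y, hA hy⟩, hy, ?_⟩
    apply Subtype.ext
    simp [hyx]

/-- the one-sided condition transfers (helper62) -/
theorem h62_rankOneCondition_subgroupOf {H : Type*} [Group H] (K₀ A B : Subgroup H)
    (hA : A ≤ K₀) (hB : B ≤ K₀) (h : Cfsg.RankOneCondition A B) :
    Cfsg.RankOneCondition (A.subgroupOf K₀) (B.subgroupOf K₀) := by
  intro a' ha' ha'1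
  have ha : (a' : H) ∈ A := Subgroup.mem_subgroupOf.mp ha'
  have ha1 : (a' : H) ≠ 1 := fun e => ha'1 (Subtype.ext e)
  obtain ⟨b, hb, hb1, hc⟩ := h (a' : H) ha ha1
  refine ⟨⟨b, hB hb⟩, Subgroup.mem_subgroupOf.mpr hb, fun e => hb1 (congrArg Subtype.val e), ?_⟩
  rw [h62_conjBy_subgroupOf K₀ A hA, h62_conjBy_subgroupOf K₀ B hB]
  have e1 : (((⟨b, hB hb⟩ : K₀)⁻¹ : K₀) : H) = b⁻¹ := rfl
  have e2 : ((a'⁻¹ : K₀) : H) = (a' : H)⁻¹ := rfl
  rw [e1, e2, hc]

/-- U-TR1: a rank one pair of subgroups of `K₀` is a rank one pair inside `K₀` -/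
theorem rankOne_subgroupOf {H : Type*} [Group H] (K₀ A B : Subgroup H) (hA : A ≤ K₀)
    (hB : B ≤ K₀) (h : Cfsg.IsRankOnePair A B) :
    Cfsg.IsRankOnePair (A.subgroupOf K₀) (B.subgroupOf K₀) := by
  refine ⟨?_, ?_, ?_, h62_rankOneCondition_subgroupOf K₀ A B hA hB h.cond_left,
    h62_rankOneCondition_subgroupOf K₀ B A hB hA h.cond_right⟩
  · intro e
    rw [Subgroup.subgroupOf_inj, inf_eq_left.mpr hA, inf_eq_left.mpr hB] at e
    exact h.ne e
  · have := h.nilpotent_left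
    exact Group.nilpotent_of_mulEquiv (Subgroup.subgroupOfEquivOfLe hA).symm
  · have := h.nilpotent_right
    exact Group.nilpotent_of_mulEquiv (Subgroup.subgroupOfEquivOfLe hB).symm

end Cfsg.Agent.Lib.Helper50.QU
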