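import Cfsg.Agent.Lib.Helper50.QuMain

/-!
# S5069 foundation (helper50)

`Comp G A` is the connectivity component of `A` in the graph of rank one pairs on `Σ(G)`,
`GC G A` the subgroup generated by its members.
-/

set_option autoImplicit false

namespace Cfsg.Agent.Lib.Helper50.QV

open Polynomial Cfsg Cfsg.Agent.Lib.Helper50.QR Cfsg.Agent.Lib.Helper50.QP
  Cfsg.Agent.Lib.Helper50.QS

universe u v

variable {k : Type u} [Field k] {M : Type v} [AddCommGroup M] [Module k M] [FiniteDimensional k M]

/-- the connectivity component of `A` in the graph of rank one pairs on `Σ(G)` -/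
abbrev Comp (G : Subgroup (LinearMap.GeneralLinearGroup k M))
    (A : Subgroup (LinearMap.GeneralLinearGroup k M)) :
    Set (Subgroup (LinearMap.GeneralLinearGroup k M)) :=
  Cfsg.componentOf (Cfsg.FAdj (Cfsg.quadraticRootSubgroups G)) (Cfsg.quadraticRootSubgroups G) A

/-- the subgroup generated by the members of the component of `A` -/
abbrev GC (G : Subgroup (LinearMap.GeneralLinearGroup k M))
    (A : Subgroup (LinearMap.GeneralLinearGroup k M)) :
    Subgroup (LinearMap.GeneralLinearGroup k M) :=
  ⨆ B ∈ Comp G A, B

end Cfsg.Agent.Lib.Helper50.QV
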