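import Cfsg.Agent.Lib.Helper50.QuadRoot

set_option autoImplicit false

namespace Cfsg.Agent.Lib.Helper50.QV

open Cfsg Cfsg.Agent.Lib.Helper50.QR

universe u v

variable {k : Type u} [Field k] {M : Type v} [AddCommGroup M] [Module k M] [FiniteDimensional k M]

/-! ### auxiliary lemmas for V-CLIFF (helper97) -/

omit [FiniteDimensional k M] in
theorem clif_nl_comm {a b : LinearMap.GeneralLinearGroup k M} (h : a * b = b * a) :
    nl a * nl b = nl b * nl a := by
  have h1 : (a : M →ₗ[k] M) * (b : M →ₗ[k] M) = (b : M →ₗ[k] M) * (a : M →ₗ[k] M) := by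
    rw [← Units.val_mul, ← Units.val_mul, h]
  rw [nl_def, nl_def, sub_mul, mul_sub, mul_sub, mul_sub, sub_mul, sub_mul, h1]
  simp only [mul_one, one_mul]

omit [FiniteDimensional k M] in
theorem clif_coe_nl_comm {a b : LinearMap.GeneralLinearGroup k M} (h : a * b = b * a) :
    (a : M →ₗ[k] M) * nl b = nl b * (a : M →ₗ[k] M) := by
  have h1 : (a : M →ₗ[k] M) * (b : M →ₗ[k] M) = (b : M →ₗ[k] M) * (a : M →ₗ[k] M) := by
    rw [← Units.val_mul, ← Units.val_mul, h]
  rw [nl_def, mul_sub, sub_mul, h1, mul_one, one_mul]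

omit [FiniteDimensional k M] in
theorem clif_nl_inv (g : LinearMap.GeneralLinearGroup k M) :
    nl g⁻¹ = -(((g⁻¹ : LinearMap.GeneralLinearGroup k M) : M →ₗ[k] M) * nl g) := by
  have h1 : ((g⁻¹ : LinearMap.GeneralLinearGroup k M) : M →ₗ[k] M) * (g : M →ₗ[k] M) = 1 := by
    rw [← Units.val_mul, inv_mul_cancel, Units.val_one]
  rw [nl_def, nl_def, mul_sub, h1, mul_one]
  abel

/-- a subspace invariant under a subgroup -/
def ClifInv (H : Subgroup (LinearMap.GeneralLinearGroup k M)) (S : Submodule k M) : Prop :=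
  ∀ g ∈ H, ∀ w ∈ S, (g : M →ₗ[k] M) w ∈ S

/-- a minimal non-zero invariant subspace -/
def ClifMin (H : Subgroup (LinearMap.GeneralLinearGroup k M)) (S : Submodule k M) : Prop :=
  S ≠ ⊥ ∧ ClifInv H S ∧ ∀ T : Submodule k M, ClifInv H T → T ≤ S → T = ⊥ ∨ T = S

omit [FiniteDimensional k M] in
theorem clif_map_inv_map (h : LinearMap.GeneralLinearGroup k M) (T : Submodule k M) :
    (T.map (h : M →ₗ[k] M)).map ((h⁻¹ : LinearMap.GeneralLinearGroup k M) : M →ₗ[k] M) = T := by
  have h1 : ((h⁻¹ : LinearMap.GeneralLinearGroup k M) : M →ₗ[k] M).comp (h : M →ₗ[k] M) =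
      LinearMap.id := by
    have h2 : ((h⁻¹ : LinearMap.GeneralLinearGroup k M) : M →ₗ[k] M) * (h : M →ₗ[k] M) = 1 := by
      rw [← Units.val_mul, inv_mul_cancel, Units.val_one]
    exact h2
  rw [← Submodule.map_comp, h1, Submodule.map_id]

omit [FiniteDimensional k M] in
theorem clif_map_map_inv (h : LinearMap.GeneralLinearGroup k M) (T : Submodule k M) :
    (T.map ((h⁻¹ : LinearMap.GeneralLinearGroup k M) : M →ₗ[k] M)).map (h : M →ₗ[k] M) = T := by
  have h1 := clif_map_inv_map h⁻¹ T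
  rw [inv_inv] at h1
  exact h1

omit [FiniteDimensional k M] in
/-- the image of an invariant subspace under an element normalizing the group is invariant -/
theorem clif_inv_map {H : Subgroup (LinearMap.GeneralLinearGroup k M)} {T : Submodule k M}
    (hT : ClifInv H T) (h : LinearMap.GeneralLinearGroup k M)
    (hh : ∀ x ∈ H, h⁻¹ * x * h ∈ H) : ClifInv H (T.map (h : M →ₗ[k] M)) := by
  intro x hx w hw
  obtain ⟨w0, hw0, rfl⟩ := hw
  refine ⟨((h⁻¹ * x * h : LinearMap.GeneralLinearGroup k M) : M →ₗ[k] M) w0,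
    hT _ (hh x hx) w0 hw0, ?_⟩
  have h1 : (h : M →ₗ[k] M) * ((h⁻¹ * x * h : LinearMap.GeneralLinearGroup k M) : M →ₗ[k] M) =
      (x : M →ₗ[k] M) * (h : M →ₗ[k] M) := by
    rw [← Units.val_mul, ← Units.val_mul]
    congr 1
    group
  have h2 := congrArg (fun f : M →ₗ[k] M => f w0) h1
  exact h2

omit [FiniteDimensional k M] in
theorem clif_min_map {H : Subgroup (LinearMap.GeneralLinearGroup k M)} {S : Submodule k M}
    (hS : ClifMin H S) (h : LinearMap.GeneralLinearGroup k M)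
    (hh : ∀ x ∈ H, h⁻¹ * x * h ∈ H) (hh' : ∀ x ∈ H, h * x * h⁻¹ ∈ H) :
    ClifMin H (S.map (h : M →ₗ[k] M)) := by
  obtain ⟨hS0, hSinv, hSmin⟩ := hS
  refine ⟨?_, clif_inv_map hSinv h hh, ?_⟩
  · intro e
    apply hS0
    rw [← clif_map_inv_map h S, e, Submodule.map_bot]
  · intro T hT hTle
    have hT1 : ClifInv H (T.map ((h⁻¹ : LinearMap.GeneralLinearGroup k M) : M →ₗ[k] M)) := by
      apply clif_inv_map hT h⁻¹
      intro x hx
      rw [inv_inv]
      exact hh' x hx
    have hT1le : T.map ((h⁻¹ : LinearMap.GeneralLinearGroup k M) : M →ₗ[k] M) ≤ S := by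
      rw [← clif_map_inv_map h S]
      exact Submodule.map_mono hTle
    rcases hSmin _ hT1 hT1le with e | e
    · left
      rw [← clif_map_map_inv h T, e, Submodule.map_bot]
    · right
      rw [← clif_map_map_inv h T, e]

/-- Clifford: the sum of the minimal invariant subspaces of a normal subgroup -/
theorem clif_ss_of_normal {H H₁ : Subgroup (LinearMap.GeneralLinearGroup k M)} (hle : H ≤ H₁)
    (hn : ∀ g ∈ H₁, ∀ x ∈ H, g * x * g⁻¹ ∈ H)
    (h : sSup {S : Submodule k M | ClifMin H₁ S} = ⊤) :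
    sSup {S : Submodule k M | ClifMin H S} = ⊤ := by
  rw [eq_top_iff, ← h]
  apply sSup_le
  intro S hS
  obtain ⟨hS0, hSinv, hSmin⟩ := hS
  have hne : {T : Submodule k M | T ≠ ⊥ ∧ ClifInv H T ∧ T ≤ S}.Nonempty :=
    ⟨S, hS0, fun g hg => hSinv g (hle hg), le_rfl⟩
  obtain ⟨S₀, hS₀mem, hS₀min⟩ :=
    WellFounded.has_min (wellFounded_lt (α := Submodule k M)) _ hne
  have hS₀ : ClifMin H S₀ := by
    refine ⟨hS₀mem.1, hS₀mem.2.1, ?_⟩
    intro T hT hTle
    by_contra hcon
    push Not at hcon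
    exact hS₀min T ⟨hcon.1, hT, hTle.trans hS₀mem.2.2⟩ (lt_of_le_of_ne hTle hcon.2)
  have htr : ∀ g ∈ H₁, ClifMin H (S₀.map (g : M →ₗ[k] M)) := by
    intro g hg
    apply clif_min_map hS₀ g
    · intro x hx
      have h1 := hn g⁻¹ (H₁.inv_mem hg) x hx
      rw [inv_inv] at h1
      exact h1
    · intro x hx
      exact hn g hg x hx
  obtain ⟨T', hT'⟩ : ∃ T' : Submodule k M,
      T' = ⨆ g : H₁, S₀.map ((g : LinearMap.GeneralLinearGroup k M) : M →ₗ[k] M) := ⟨_, rfl⟩
  have hT'inv : ClifInv H₁ T' := by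
    intro g hg w hw
    have h1 : T'.map (g : M →ₗ[k] M) ≤ T' := by
      rw [hT', Submodule.map_iSup]
      apply iSup_le
      intro x
      rw [← Submodule.map_comp]
      have h2 : (g : M →ₗ[k] M).comp ((x : LinearMap.GeneralLinearGroup k M) : M →ₗ[k] M) =
          (((⟨g, hg⟩ * x : H₁) : LinearMap.GeneralLinearGroup k M) : M →ₗ[k] M) := by
        rw [Subgroup.coe_mul, Units.val_mul]
        rfl
      rw [h2]
      exact le_iSup (fun g : H₁ =>
        S₀.map ((g : LinearMap.GeneralLinearGroup k M) : M →ₗ[k] M)) (⟨g, hg⟩ * x)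
    exact h1 ⟨w, hw, rfl⟩
  have hT'le : T' ≤ S := by
    rw [hT']
    apply iSup_le
    intro g
    rintro _ ⟨w, hw, rfl⟩
    exact hSinv g g.2 w (hS₀mem.2.2 hw)
  have hT'ne : T' ≠ ⊥ := by
    intro e
    apply hS₀mem.1
    rw [eq_bot_iff, ← e, hT']
    refine le_trans ?_ (le_iSup (fun g : H₁ =>
        S₀.map ((g : LinearMap.GeneralLinearGroup k M) : M →ₗ[k] M)) 1)
    intro w hw
    exact ⟨w, hw, rfl⟩
  have hT'eq : T' = S := (hSmin T' hT'inv hT'le).resolve_left hT'ne
  rw [← hT'eq, hT']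
  exact iSup_le fun g => le_sSup (htr g g.2)

omit [FiniteDimensional k M] in
/-- a commutative unipotent group whose minimal invariant subspaces span the space is trivial -/
theorem clif_eq_bot {W : Subgroup (LinearMap.GeneralLinearGroup k M)}
    (hc : ∀ a ∈ W, ∀ b ∈ W, a * b = b * a) (hu : ∀ a ∈ W, IsNilpotent (nl a))
    (hss : sSup {S : Submodule k M | ClifMin W S} = ⊤) : W = ⊥ := by
  rw [eq_bot_iff]
  intro w hw
  rw [Subgroup.mem_bot]
  apply eq_one_of_nl
  have hker : LinearMap.ker (nl w) = ⊤ := by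
    rw [eq_top_iff, ← hss]
    apply sSup_le
    intro S hS
    obtain ⟨hS0, hSinv, hSmin⟩ := hS
    have hnlS : ∀ m ∈ S, nl w m ∈ S := by
      intro m hm
      rw [nl_def]
      exact S.sub_mem (hSinv w hw m hm) hm
    have hpowS : ∀ j : ℕ, ∀ m ∈ S, (nl w ^ j) m ∈ S := by
      intro j
      induction j with
      | zero => intro m hm; exact hm
      | succ j ih =>
        intro m hm
        rw [pow_succ]
        exact ih _ (hnlS m hm)
    have hTinv : ClifInv W (LinearMap.ker (nl w) ⊓ S) := by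
      intro x hx m hm
      refine ⟨?_, hSinv x hx m hm.2⟩
      show (x : M →ₗ[k] M) m ∈ LinearMap.ker (nl w)
      rw [LinearMap.mem_ker]
      have h1 := clif_coe_nl_comm (hc x hx w hw)
      have h2 := congrArg (fun f : M →ₗ[k] M => f m) h1
      have h3 : (x : M →ₗ[k] M) (nl w m) = nl w ((x : M →ₗ[k] M) m) := h2
      rw [← h3, LinearMap.mem_ker.mp hm.1, map_zero]
    have hTne : LinearMap.ker (nl w) ⊓ S ≠ ⊥ := by
      obtain ⟨s, hs, hs0⟩ := (Submodule.ne_bot_iff S).mp hS0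
      obtain ⟨n, hn⟩ := hu w hw
      have hex : ∃ n : ℕ, (nl w ^ n) s = 0 := ⟨n, by rw [hn]; rfl⟩
      classical
      have hn0 : (nl w ^ Nat.find hex) s = 0 := Nat.find_spec hex
      have hpos : Nat.find hex ≠ 0 := by
        intro e
        rw [e, pow_zero] at hn0
        exact hs0 hn0
      obtain ⟨j, hj⟩ := Nat.exists_eq_succ_of_ne_zero hpos
      have hj0 : (nl w ^ j) s ≠ 0 := Nat.find_min hex (by omega)
      intro e
      apply hj0
      have h1 : (nl w ^ j) s ∈ LinearMap.ker (nl w) ⊓ S := by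
        refine ⟨?_, hpowS j s hs⟩
        show (nl w ^ j) s ∈ LinearMap.ker (nl w)
        rw [LinearMap.mem_ker]
        have h2 : nl w ((nl w ^ j) s) = (nl w ^ (j + 1)) s := by
          rw [pow_succ']
          rfl
        rw [h2, ← Nat.succ_eq_add_one, ← hj]
        exact hn0
      rw [e] at h1
      exact (Submodule.mem_bot k).mp h1
    have h4 := (hSmin _ hTinv inf_le_right).resolve_left hTne
    rw [← h4]
    exact inf_le_left
  exact LinearMap.ker_eq_top.mp hker

/-! ### the two statements -/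

/-- V-CLIFF (a): in a commutative group generated by unipotent elements all elements are
unipotent -/
theorem unip_of_comm_closure (S : Set (LinearMap.GeneralLinearGroup k M))
    (hS : ∀ g ∈ S, IsNilpotent (nl g))
    (hc : ∀ a ∈ Subgroup.closure S, ∀ b ∈ Subgroup.closure S, a * b = b * a) :
    ∀ g ∈ Subgroup.closure S, IsNilpotent (nl g) := by
  intro g hg
  induction hg using Subgroup.closure_induction with
  | mem x hx => exact hS x hx
  | one =>
    rw [nl_one]
    exact IsNilpotent.zero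
  | mul x y hx hy ihx ihy =>
    rw [nl_mul]
    have hxy : Commute (nl x) (nl y) := clif_nl_comm (hc x hx y hy)
    have h1 : IsNilpotent (nl x + nl y) := Commute.isNilpotent_add hxy ihx ihy
    have h2 : IsNilpotent (nl x * nl y) := Commute.isNilpotent_mul_right hxy ihx
    have h3 : Commute (nl x + nl y) (nl x * nl y) := by
      apply Commute.add_left
      · exact Commute.mul_right (Commute.refl _) hxy
      · exact Commute.mul_right hxy.symm (Commute.refl _)
    exact Commute.isNilpotent_add h3 h1 h2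
  | inv x hx ihx =>
    rw [clif_nl_inv]
    apply IsNilpotent.neg
    have h1 : Commute ((x⁻¹ : LinearMap.GeneralLinearGroup k M) : M →ₗ[k] M) (nl x) :=
      clif_coe_nl_comm (by group)
    exact Commute.isNilpotent_mul_left h1 ihx

/-- V-CLIFF (b) (Clifford): a subnormal subgroup `N` of an irreducible group meets every
commutative unipotent group `V` normalized by `N` trivially -/
theorem inf_eq_bot_of_subnormal {G G₀ G₁ N V : Subgroup (LinearMap.GeneralLinearGroup k M)}
    (hG : Cfsg.IsIrreducibleFor G)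
    (h0 : G₀ ≤ G) (hn0 : ∀ g ∈ G, ∀ x ∈ G₀, g * x * g⁻¹ ∈ G₀)
    (h1 : G₁ ≤ G₀) (hn1 : ∀ g ∈ G₀, ∀ x ∈ G₁, g * x * g⁻¹ ∈ G₁)
    (h2 : N ≤ G₁) (hn2 : ∀ g ∈ G₁, ∀ x ∈ N, g * x * g⁻¹ ∈ N)
    (hVc : ∀ a ∈ V, ∀ b ∈ V, a * b = b * a) (hVu : ∀ a ∈ V, IsNilpotent (nl a))
    (hVn : ∀ n ∈ N, ∀ a ∈ V, n * a * n⁻¹ ∈ V) : V ⊓ N = ⊥ := by
  have hG' : sSup {S : Submodule k M | ClifMin G S} = ⊤ := by
    rw [eq_top_iff]
    apply le_sSup
    refine ⟨?_, ?_, ?_⟩
    · obtain ⟨m, hm⟩ := hG.1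
      intro e
      have h3 : m ∈ (⊤ : Submodule k M) := Submodule.mem_top
      rw [e] at h3
      exact hm ((Submodule.mem_bot k).mp h3)
    · intro g _ w _
      exact Submodule.mem_top
    · intro T hT _
      exact hG.2 T hT
  have h0' := clif_ss_of_normal h0 hn0 hG'
  have h1' := clif_ss_of_normal h1 hn1 h0'
  have h2' := clif_ss_of_normal h2 hn2 h1'
  have h3' := clif_ss_of_normal (inf_le_right : V ⊓ N ≤ N)
    (fun g hg x hx => ⟨hVn g hg x hx.1, N.mul_mem (N.mul_mem hg hx.2) (N.inv_mem hg)⟩) h2'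
  exact clif_eq_bot (fun a ha b hb => hVc a ha.1 b hb.1) (fun a ha => hVu a ha.1) h3'

end Cfsg.Agent.Lib.Helper50.QV
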