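import Cfsg.Agent.Lib.Helper50.QvConj

set_option autoImplicit false

namespace Cfsg.Agent.Lib.Helper50.QV

open Polynomial Cfsg Cfsg.Agent.Lib.Helper50.QR Cfsg.Agent.Lib.Helper50.QP
  Cfsg.Agent.Lib.Helper50.QS

universe u v

variable {k : Type u} [Field k] {M : Type v} [AddCommGroup M] [Module k M] [FiniteDimensional k M]

variable {G : Subgroup (LinearMap.GeneralLinearGroup k M)}
  {σ₀ : LinearMap.GeneralLinearGroup k M}

/-- V-CLS: inside the group it generates, a component is a class of abstract root subgroups -/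
theorem root_class (hk2 : ringChar k ≠ 2) (hk3 : Nat.card k ≠ 3) (hG : Cfsg.IsQuadraticPair G)
    (hσ₀ : σ₀ ∈ minimalQuadraticElements G) :
    Cfsg.IsRootSubgroupClass
      ((fun A : Subgroup (LinearMap.GeneralLinearGroup k M) =>
          A.subgroupOf (GC G (sameActionSubgroup G σ₀))) '' Comp G (sameActionSubgroup G σ₀)) := by
  have hne : ∀ A ∈ Cfsg.quadraticRootSubgroups G, A ≠ ⊥ := by
    rintro A ⟨σ, hσ, rfl⟩ e
    apply self_ne_one hσ
    have h := self_mem hσ
    rw [e] at h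
    exact Subgroup.mem_bot.mp h
  refine ⟨?_, ?_⟩
  · apply Cfsg.Agent.Lib.Helper50.QU.rootSet_basics (Comp G (sameActionSubgroup G σ₀))
    · intro A hA a ha b hb
      obtain ⟨σ, hσ, rfl⟩ := hA.1
      exact comm_of_mem hσ ha hb
    · intro A hA
      exact hne A hA.1
    · intro A hA g hg
      exact conj_mem_comp hk2 hk3 hG hσ₀ hA hg
    · intro A hA B hB
      obtain ⟨σ, hσ, rfl⟩ := hA.1
      obtain ⟨τ, hτ, rfl⟩ := hB.1
      by_cases hz : IsNilpotent (zz (nl σ) (nl τ))
      · rcases Cfsg.Agent.Lib.Helper50.QT.core68 hk2 hk3 hG hσ hτ hz with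
          h | ⟨h1, h2, h3, -, h5, -⟩
        · exact Or.inl h
        · refine Or.inr (Or.inr ⟨?_, ?_, h2, h3⟩)
          · have hcomm := comm_mem_comp hk2 hk3 hG hσ hτ hz (hne _ h1)
            rw [comp_eq_of_mem hA] at hcomm
            exact hcomm
          · intro c hc x hx
            have hcc : c ∈ ⁅sameActionSubgroup G σ ⊔ sameActionSubgroup G τ,
                sameActionSubgroup G σ ⊔ sameActionSubgroup G τ⁆ :=
              Subgroup.commutator_mono le_sup_left le_sup_right hc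
            have h6 := Subgroup.commutator_mem_commutator hcc hx
            rw [h5, Subgroup.mem_bot, commutatorElement_def] at h6
            have h7 : c * x = (c * x * c⁻¹ * x⁻¹) * (x * c) := by group
            rw [h7, h6, one_mul]
      · exact Or.inr (Or.inl
          (Cfsg.Agent.Lib.Helper50.QU.special_of_nonnil hk2 hk3 hσ hτ hz).1)
  · refine ⟨⟨_, ⟨sameActionSubgroup G σ₀, comp_self ⟨σ₀, hσ₀, rfl⟩, rfl⟩⟩, ?_⟩
    rintro A' ⟨A, hA, rfl⟩ B' ⟨B, hB, rfl⟩
    obtain ⟨g, hg, hBA⟩ := exists_conj hσ₀ hA hB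
    refine ⟨⟨g, hg⟩, ?_⟩
    show B.subgroupOf (GC G (sameActionSubgroup G σ₀)) =
      Cfsg.conjBy (A.subgroupOf (GC G (sameActionSubgroup G σ₀))) ⟨g, hg⟩
    rw [Cfsg.Agent.Lib.Helper50.QU.h62_conjBy_subgroupOf _ A (le_gc hA) ⟨g, hg⟩, hBA]

end Cfsg.Agent.Lib.Helper50.QV
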