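import Cfsg.Agent.Lib.Helper50.QvConn

set_option autoImplicit false
set_option linter.unusedVariables false

namespace Cfsg.Agent.Lib.Helper50.QV

open Polynomial Cfsg Cfsg.Agent.Lib.Helper50.QR Cfsg.Agent.Lib.Helper50.QP
  Cfsg.Agent.Lib.Helper50.QS

universe u v

variable {k : Type u} [Field k] {M : Type v} [AddCommGroup M] [Module k M] [FiniteDimensional k M]

variable {G : Subgroup (LinearMap.GeneralLinearGroup k M)}
  {σ₀ : LinearMap.GeneralLinearGroup k M}

namespace ConjAux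

/-- membership in a conjugate subgroup -/
theorem mem_conjBy_iff {X : Type*} [Group X] (A : Subgroup X) (g x : X) :
    x ∈ Cfsg.conjBy A g ↔ g⁻¹ * x * g ∈ A := by
  constructor
  · rintro ⟨a, ha, rfl⟩
    have e : g⁻¹ * (MulAut.conj g).toMonoidHom a * g = a := by
      simp [MulAut.conj_apply, mul_assoc]
    rw [e]
    exact ha
  · intro hx
    refine ⟨g⁻¹ * x * g, hx, ?_⟩
    simp [MulAut.conj_apply, mul_assoc]

/-- conjugating twice -/
theorem conjBy_conjBy {X : Type*} [Group X] (A : Subgroup X) (g h : X) :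
    Cfsg.conjBy (Cfsg.conjBy A g) h = Cfsg.conjBy A (h * g) := by
  ext x
  rw [mem_conjBy_iff, mem_conjBy_iff, mem_conjBy_iff]
  have e : g⁻¹ * (h⁻¹ * x * h) * g = (h * g)⁻¹ * x * (h * g) := by group
  rw [e]

theorem conjBy_one' {X : Type*} [Group X] (A : Subgroup X) : Cfsg.conjBy A 1 = A := by
  ext x
  rw [mem_conjBy_iff]
  simp

end ConjAux

open ConjAux

/-- V-CONJ (a): a component is closed under conjugation by the group it generates -/
theorem conj_mem_comp (hk2 : ringChar k ≠ 2) (hk3 : Nat.card k ≠ 3) (hG : Cfsg.IsQuadraticPair G)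
    (hσ₀ : σ₀ ∈ minimalQuadraticElements G)
    {A : Subgroup (LinearMap.GeneralLinearGroup k M)}
    (hA : A ∈ Comp G (sameActionSubgroup G σ₀)) {g : LinearMap.GeneralLinearGroup k M}
    (hg : g ∈ GC G (sameActionSubgroup G σ₀)) :
    Cfsg.conjBy A g ∈ Comp G (sameActionSubgroup G σ₀) := by
  obtain ⟨⟨σ, hσ, rfl⟩, hreach⟩ := hA
  have hgG : g ∈ G := gc_le hg
  have hρ : g * σ * g⁻¹ ∈ minimalQuadraticElements G := conj_min hσ hgG
  by_contra hnot
  rw [conj_subgroup hσ hgG] at hnot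
  -- every member of the component commutes with `E ρ`
  have hcomm : ∀ C ∈ Comp G (sameActionSubgroup G σ₀),
      C ≤ Subgroup.centralizer
        (sameActionSubgroup G (g * σ * g⁻¹) : Set (LinearMap.GeneralLinearGroup k M)) := by
    intro C hC
    obtain ⟨τ, hτ, rfl⟩ := hC.1
    rw [← Subgroup.commutator_eq_bot_iff_le_centralizer]
    by_contra hne
    have h1 := mem_comp_of_not_comm hk2 hk3 hG hτ hρ hne
    rw [comp_eq_of_mem hC] at h1
    exact hnot h1
  have hgc : g ∈ Subgroup.centralizer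
      (sameActionSubgroup G (g * σ * g⁻¹) : Set (LinearMap.GeneralLinearGroup k M)) := by
    have hle : GC G (sameActionSubgroup G σ₀) ≤ Subgroup.centralizer
        (sameActionSubgroup G (g * σ * g⁻¹) : Set (LinearMap.GeneralLinearGroup k M)) :=
      iSup₂_le hcomm
    exact hle hg
  -- hence `g` centralizes `E σ`
  have hfixel : ∀ a ∈ sameActionSubgroup G σ, g⁻¹ * a * g = a := by
    intro a ha
    have hmem : g * a * g⁻¹ ∈ sameActionSubgroup G (g * σ * g⁻¹) := by
      rw [← conj_subgroup hσ hgG, mem_conjBy_iff]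
      have e : g⁻¹ * (g * a * g⁻¹) * g = a := by group
      rw [e]
      exact ha
    have hc := Subgroup.mem_centralizer_iff.1 hgc _ hmem
    have h2 : g * a = g * (g * a * g⁻¹) := by
      rw [← hc]
      group
    have h3 : a = g * a * g⁻¹ := mul_left_cancel h2
    calc g⁻¹ * a * g = g⁻¹ * (g * a * g⁻¹) * g := by rw [← h3]
      _ = a := by group
  have hfix : Cfsg.conjBy (sameActionSubgroup G σ) g = sameActionSubgroup G σ := by
    ext x
    rw [mem_conjBy_iff]
    constructor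
    · intro hx
      have h1 := hfixel _ hx
      have h2 : g⁻¹ * (g⁻¹ * x * g) * g = g⁻¹ * x * g := h1
      have h3 : g⁻¹ * x * g = x := by
        have h4 : g⁻¹ * (g⁻¹ * x * g) * g = g⁻¹ * x * g := h2
        have h5 : g * (g⁻¹ * (g⁻¹ * x * g) * g) * g⁻¹ = g * (g⁻¹ * x * g) * g⁻¹ := by rw [h4]
        have h6 : g * (g⁻¹ * (g⁻¹ * x * g) * g) * g⁻¹ = g⁻¹ * x * g := by group
        have h7 : g * (g⁻¹ * x * g) * g⁻¹ = x := by group
        rw [h6, h7] at h5
        exact h5
      rw [← h3]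
      exact hx
    · intro hx
      rw [hfixel x hx]
      exact hx
  apply hnot
  rw [← conj_subgroup hσ hgG, hfix]
  exact ⟨⟨σ, hσ, rfl⟩, hreach⟩

/-- every member of the component of `E σ₀` is a conjugate of `E σ₀` under the group generated
by the component -/
theorem ConjAux.exists_conj_base {C : Subgroup (LinearMap.GeneralLinearGroup k M)}
    (hC : Relation.ReflTransGen (Cfsg.FAdj (Cfsg.quadraticRootSubgroups G))
      (sameActionSubgroup G σ₀) C) :
    ∃ g ∈ GC G (sameActionSubgroup G σ₀), C = Cfsg.conjBy (sameActionSubgroup G σ₀) g := by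
  induction hC with
  | refl => exact ⟨1, Subgroup.one_mem _, (conjBy_one' _).symm⟩
  | tail hab hbc ih =>
    rename_i C C'
    obtain ⟨g, hg, hCg⟩ := ih
    have hCP : C ∈ Comp G (sameActionSubgroup G σ₀) := ⟨hbc.1, hab⟩
    have hC'P : C' ∈ Comp G (sameActionSubgroup G σ₀) := ⟨hbc.2.1, hab.tail hbc⟩
    obtain ⟨σ, hσ, hCσ⟩ := hbc.1
    have haC : σ ∈ C := by
      rw [hCσ]
      exact self_mem hσ
    obtain ⟨b, hb, -, hconj⟩ := hbc.2.2.cond_left σ haC (self_ne_one hσ)
    have hC' : C' = Cfsg.conjBy C (σ * b⁻¹) := by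
      have h1 : Cfsg.conjBy (Cfsg.conjBy C' σ⁻¹) σ = Cfsg.conjBy (Cfsg.conjBy C b⁻¹) σ := by
        rw [hconj]
      rw [conjBy_conjBy, conjBy_conjBy, mul_inv_cancel, conjBy_one'] at h1
      exact h1
    refine ⟨σ * b⁻¹ * g, ?_, ?_⟩
    · exact Subgroup.mul_mem _ (Subgroup.mul_mem _ (le_gc hCP haC)
        (Subgroup.inv_mem _ (le_gc hC'P hb))) hg
    · rw [hC', hCg, conjBy_conjBy]

/-- V-CONJ (b): the members of a component are conjugate under the group it generates -/
theorem exists_conj (hσ₀ : σ₀ ∈ minimalQuadraticElements G)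
    {A B : Subgroup (LinearMap.GeneralLinearGroup k M)}
    (hA : A ∈ Comp G (sameActionSubgroup G σ₀)) (hB : B ∈ Comp G (sameActionSubgroup G σ₀)) :
    ∃ g ∈ GC G (sameActionSubgroup G σ₀), B = Cfsg.conjBy A g := by
  obtain ⟨g₁, hg₁, hA'⟩ := ConjAux.exists_conj_base hA.2
  obtain ⟨g₂, hg₂, hB'⟩ := ConjAux.exists_conj_base hB.2
  refine ⟨g₂ * g₁⁻¹, Subgroup.mul_mem _ hg₂ (Subgroup.inv_mem _ hg₁), ?_⟩
  rw [hA', conjBy_conjBy, inv_mul_cancel_right]
  exact hB'

end Cfsg.Agent.Lib.Helper50.QV
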