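import Cfsg.Agent.Lib.Helper50.QuMain

/-!
# S5069: the refined conjugation trick (helper50, after helper8's `QT.exists_conj_partner`)
-/

set_option autoImplicit false

namespace Cfsg.Agent.Lib.Helper50.QV

open Polynomial Cfsg Cfsg.Agent.Lib.Helper50.QR Cfsg.Agent.Lib.Helper50.QP
  Cfsg.Agent.Lib.Helper50.QS Cfsg.Agent.Lib.Helper50.QT

universe u v

variable {k : Type u} [Field k] {M : Type v} [AddCommGroup M] [Module k M] [FiniteDimensional k M]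

/-- a partner `ρ'` of the commutator `[σ,τ]` of a unipotent pair has a conjugate under `E(σ)`
which is a partner of `τ` -/
theorem exists_conj_partner' (hk2 : ringChar k ≠ 2) (hk3 : Nat.card k ≠ 3)
    {G : Subgroup (LinearMap.GeneralLinearGroup k M)}
    {σ τ : LinearMap.GeneralLinearGroup k M} (hσ : σ ∈ minimalQuadraticElements G)
    (hτ : τ ∈ minimalQuadraticElements G) (hz : IsNilpotent (zz (nl σ) (nl τ)))
    (hρ : σ * τ * σ⁻¹ * τ⁻¹ ≠ 1)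
    {ρ' : LinearMap.GeneralLinearGroup k M} (hρ' : ρ' ∈ minimalQuadraticElements G)
    (hnz : ¬ IsNilpotent (zz (nl (σ * τ * σ⁻¹ * τ⁻¹)) (nl ρ'))) :
    ∃ g ∈ sameActionSubgroup G σ, ¬ IsNilpotent (zz (nl τ) (nl (g * ρ' * g⁻¹))) := by
  have h2 : (2 : k) ≠ 0 := Ring.two_ne_zero hk2
  obtain ⟨hZ, hρ₀⟩ := comm_props h2 hσ hτ hz
  obtain ⟨hρ₀m, -, -⟩ := hρ₀ hρ
  obtain ⟨p1, -, -⟩ := pair_core hk2 hk3 hρ₀m hρ' hnz
  by_cases hYT : IsNilpotent (zz (nl τ) (nl ρ'))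
  swap
  · exact ⟨1, Subgroup.one_mem _, by rw [one_mul, inv_one, mul_one]; exact hYT⟩
  obtain ⟨hYTY, -⟩ := pair_nil h2 hτ hρ' hYT
  obtain ⟨hXYX, -⟩ := pair_nil h2 hσ hτ hz
  have hXX := quad_sq hσ.1.2.1
  have key : ∀ c : k, ∃ e ∈ sameActionSubgroup G σ,
      nl (e⁻¹ * τ * e) = nl τ - c • nl (σ * τ * σ⁻¹ * τ⁻¹) := by
    intro c
    have hmem : mkU (c • nl σ) (smul_sq hXX c) ∈ sameActionSubgroup G σ := by
      obtain ⟨h, hh, e⟩ := (closure_props hσ (self_mem hσ)).2 c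
      have : mkU (c • nl σ) (smul_sq hXX c) = h := by
        apply eq_of_nl_eq
        rw [e, nl_mkU]
      rw [this]
      exact hh
    refine ⟨mkU (c • nl σ) (smul_sq hXX c), hmem, ?_⟩
    have h := nl_conj (mkU (c • nl σ) (smul_sq hXX c))⁻¹ τ
    rw [inv_inv] at h
    rw [h, hZ]
    show (1 - c • nl σ) * nl τ * (1 + c • nl σ) = _
    rw [Trick.conj_formula, smul_mul_assoc, mul_smul_comm, ← smul_sub, smul_mul_assoc,
      mul_smul_comm, hXYX, smul_zero, smul_zero, sub_zero]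
  obtain ⟨e1, he1, hn1⟩ := key 1
  obtain ⟨e2, he2, hn2⟩ := key (-1)
  rw [one_smul] at hn1
  rw [neg_smul, one_smul, sub_neg_eq_add] at hn2
  have he1G : e1 ∈ G := subgroup_le he1
  have he2G : e2 ∈ G := subgroup_le he2
  have hτ1 : e1⁻¹ * τ * e1 ∈ minimalQuadraticElements G := by
    have h := conj_min hτ (G.inv_mem he1G)
    rwa [inv_inv] at h
  have hτ2 : e2⁻¹ * τ * e2 ∈ minimalQuadraticElements G := by
    have h := conj_min hτ (G.inv_mem he2G)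
    rwa [inv_inv] at h
  have hex : ¬ IsNilpotent (zz (nl (e1⁻¹ * τ * e1)) (nl ρ')) ∨
      ¬ IsNilpotent (zz (nl (e2⁻¹ * τ * e2)) (nl ρ')) := by
    by_contra hcon
    push Not at hcon
    obtain ⟨ha, hb⟩ := hcon
    obtain ⟨q1, -⟩ := pair_nil h2 hτ1 hρ' ha
    obtain ⟨q2, -⟩ := pair_nil h2 hτ2 hρ' hb
    rw [hn1] at q1
    rw [hn2] at q2
    have hsum := Trick.sum_formula (k := k) (Y := nl τ) (Z := nl (σ * τ * σ⁻¹ * τ⁻¹))
      (T := nl ρ')
    rw [q1, q2, hYTY, smul_zero, zero_add, zero_add] at hsum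
    have hZTZ : nl (σ * τ * σ⁻¹ * τ⁻¹) * nl ρ' * nl (σ * τ * σ⁻¹ * τ⁻¹) = 0 :=
      (smul_eq_zero.mp hsum.symm).resolve_left h2
    apply quad_ne hρ₀m.1.2.1
    ext m
    rw [LinearMap.zero_apply]
    apply p1
    show (nl (σ * τ * σ⁻¹ * τ⁻¹) * nl ρ' * nl (σ * τ * σ⁻¹ * τ⁻¹)) m = 0
    rw [hZTZ]; rfl
  rcases hex with h | h
  · refine ⟨e1, he1, fun hnil => h ?_⟩
    apply Trick.nilp_conj (g := e1)
    rw [← Trick.zz_conj, ← nl_conj, ← nl_conj]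
    have e : e1 * (e1⁻¹ * τ * e1) * e1⁻¹ = τ := by group
    rw [e]
    exact hnil
  · refine ⟨e2, he2, fun hnil => h ?_⟩
    apply Trick.nilp_conj (g := e2)
    rw [← Trick.zz_conj, ← nl_conj, ← nl_conj]
    have e : e2 * (e2⁻¹ * τ * e2) * e2⁻¹ = τ := by group
    rw [e]
    exact hnil

end Cfsg.Agent.Lib.Helper50.QV
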