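import Cfsg.Agent.Lib.Helper50.QvGraph
import Cfsg.Agent.Lib.Helper50.QvTrick

set_option autoImplicit false

namespace Cfsg.Agent.Lib.Helper50.QV

open Polynomial Cfsg Cfsg.Agent.Lib.Helper50.QR Cfsg.Agent.Lib.Helper50.QP
  Cfsg.Agent.Lib.Helper50.QS

universe u v

variable {k : Type u} [Field k] {M : Type v} [AddCommGroup M] [Module k M] [FiniteDimensional k M]

variable {G : Subgroup (LinearMap.GeneralLinearGroup k M)}
  {σ τ : LinearMap.GeneralLinearGroup k M}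

open scoped commutatorElement in
/-- V-CONN (a): the commutator root subgroup of a unipotent, non-commuting pair of root
subgroups lies in the component of the first one -/
theorem comm_mem_comp (hk2 : ringChar k ≠ 2) (hk3 : Nat.card k ≠ 3) (hG : Cfsg.IsQuadraticPair G)
    (hσ : σ ∈ minimalQuadraticElements G) (hτ : τ ∈ minimalQuadraticElements G)
    (hz : IsNilpotent (zz (nl σ) (nl τ)))
    (hne : ⁅sameActionSubgroup G σ, sameActionSubgroup G τ⁆ ≠ ⊥) :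
    ⁅sameActionSubgroup G σ, sameActionSubgroup G τ⁆ ∈ Comp G (sameActionSubgroup G σ) := by
  have hz' : IsNilpotent (zz (nl τ) (nl σ)) := by rwa [zz_comm (nl τ) (nl σ)]
  have hcomm : ⁅sameActionSubgroup G τ, sameActionSubgroup G σ⁆ =
      ⁅sameActionSubgroup G σ, sameActionSubgroup G τ⁆ := Subgroup.commutator_comm _ _
  have hne' : ⁅sameActionSubgroup G τ, sameActionSubgroup G σ⁆ ≠ ⊥ := by rwa [hcomm]
  obtain ⟨hρ, -⟩ := Cfsg.Agent.Lib.Helper50.QT.comm_class hk2 hk3 hτ hσ hz' hne'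
  have hρ1 : τ * σ * τ⁻¹ * σ⁻¹ ≠ 1 := self_ne_one hρ
  obtain ⟨heq, -⟩ := Cfsg.Agent.Lib.Helper50.QT.comm_eq hk2 hk3 hG hτ hσ hz' hne'
  obtain ⟨ρ', hρ', hnz⟩ := Cfsg.Agent.Lib.Helper50.QT.exists_partner hk2 hk3 hG hρ
  obtain ⟨g, hg, hnzg⟩ := exists_conj_partner' hk2 hk3 hτ hσ hz' hρ1 hρ' hnz
  have hgG : g ∈ G := subgroup_le hg
  have hρ'' : g * ρ' * g⁻¹ ∈ minimalQuadraticElements G := conj_min hρ' hgG
  -- `g` commutes with the commutator (class two)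
  have hct := Cfsg.Agent.Lib.Helper50.QT.class_two hk2 hk3 hτ hσ hz' hne'
  have hgρ : g * (τ * σ * τ⁻¹ * σ⁻¹) * g⁻¹ = τ * σ * τ⁻¹ * σ⁻¹ := by
    have h0 : ⁅τ, σ⁆ ∈ ⁅sameActionSubgroup G τ ⊔ sameActionSubgroup G σ,
        sameActionSubgroup G τ ⊔ sameActionSubgroup G σ⁆ :=
      Subgroup.commutator_mem_commutator
        ((le_sup_left : sameActionSubgroup G τ ≤ _) (self_mem hτ))
        ((le_sup_right : sameActionSubgroup G σ ≤ _) (self_mem hσ))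
    have h1 : ⁅⁅τ, σ⁆, g⁆ ∈ ⁅⁅sameActionSubgroup G τ ⊔ sameActionSubgroup G σ,
        sameActionSubgroup G τ ⊔ sameActionSubgroup G σ⁆,
        sameActionSubgroup G τ ⊔ sameActionSubgroup G σ⁆ :=
      Subgroup.commutator_mem_commutator h0
        ((le_sup_left : sameActionSubgroup G τ ≤ _) hg)
    rw [hct, Subgroup.mem_bot] at h1
    have h2 : (τ * σ * τ⁻¹ * σ⁻¹) * g * (τ * σ * τ⁻¹ * σ⁻¹)⁻¹ * g⁻¹ = 1 := h1
    have h3 : g * (τ * σ * τ⁻¹ * σ⁻¹) * g⁻¹ =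
        ((τ * σ * τ⁻¹ * σ⁻¹) * g * (τ * σ * τ⁻¹ * σ⁻¹)⁻¹ * g⁻¹)⁻¹ * (τ * σ * τ⁻¹ * σ⁻¹) := by
      group
    rw [h3, h2, inv_one, one_mul]
  have hnz2 : ¬ IsNilpotent (zz (nl (τ * σ * τ⁻¹ * σ⁻¹)) (nl (g * ρ' * g⁻¹))) := by
    intro hcon
    have h1 := Cfsg.Agent.Lib.Helper50.QT.Iso.zz_conj g (τ * σ * τ⁻¹ * σ⁻¹) (g * ρ' * g⁻¹)
    rw [hgρ] at h1
    have e : g⁻¹ * (g * ρ' * g⁻¹) * g⁻¹⁻¹ = ρ' := by group
    rw [e] at h1
    rw [h1] at hcon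
    exact hnz (Cfsg.Agent.Lib.Helper50.QT.Trick.nilp_conj hcon)
  have hnz3 : ¬ IsNilpotent (zz (nl (g * ρ' * g⁻¹)) (nl (τ * σ * τ⁻¹ * σ⁻¹))) := by
    rwa [zz_comm]
  have e1 : Cfsg.FAdj (Cfsg.quadraticRootSubgroups G) (sameActionSubgroup G σ)
      (sameActionSubgroup G (g * ρ' * g⁻¹)) :=
    ⟨⟨σ, hσ, rfl⟩, ⟨_, hρ'', rfl⟩,
      (Cfsg.Agent.Lib.Helper50.QU.special_of_nonnil hk2 hk3 hσ hρ'' hnzg).1⟩
  have e2 : Cfsg.FAdj (Cfsg.quadraticRootSubgroups G) (sameActionSubgroup G (g * ρ' * g⁻¹))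
      (sameActionSubgroup G (τ * σ * τ⁻¹ * σ⁻¹)) :=
    ⟨⟨_, hρ'', rfl⟩, ⟨_, hρ, rfl⟩,
      (Cfsg.Agent.Lib.Helper50.QU.special_of_nonnil hk2 hk3 hρ'' hρ hnz3).1⟩
  rw [← hcomm, heq]
  exact ⟨⟨_, hρ, rfl⟩, Relation.ReflTransGen.tail (Relation.ReflTransGen.single e1) e2⟩

/-- V-CONN (b): non-commuting root subgroups lie in the same component -/
theorem mem_comp_of_not_comm (hk2 : ringChar k ≠ 2) (hk3 : Nat.card k ≠ 3)
    (hG : Cfsg.IsQuadraticPair G)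
    (hσ : σ ∈ minimalQuadraticElements G) (hτ : τ ∈ minimalQuadraticElements G)
    (hne : ⁅sameActionSubgroup G σ, sameActionSubgroup G τ⁆ ≠ ⊥) :
    sameActionSubgroup G τ ∈ Comp G (sameActionSubgroup G σ) := by
  by_cases hz : IsNilpotent (zz (nl σ) (nl τ))
  · have h1 := comm_mem_comp hk2 hk3 hG hσ hτ hz hne
    have hz' : IsNilpotent (zz (nl τ) (nl σ)) := by rwa [zz_comm (nl τ) (nl σ)]
    have hcomm : ⁅sameActionSubgroup G τ, sameActionSubgroup G σ⁆ =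
        ⁅sameActionSubgroup G σ, sameActionSubgroup G τ⁆ := Subgroup.commutator_comm _ _
    have hne' : ⁅sameActionSubgroup G τ, sameActionSubgroup G σ⁆ ≠ ⊥ := by rwa [hcomm]
    have h2 := comm_mem_comp hk2 hk3 hG hτ hσ hz' hne'
    rw [hcomm] at h2
    have hsymm : Std.Symm (Cfsg.FAdj (Cfsg.quadraticRootSubgroups G)) :=
      ⟨fun A B h => ⟨h.2.1, h.1, Cfsg.RankOnePair_symm h.2.2⟩⟩
    exact ⟨⟨τ, hτ, rfl⟩, h1.2.trans (Relation.ReflTransGen.stdSymm.symm _ _ h2.2)⟩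
  · exact ⟨⟨τ, hτ, rfl⟩, Relation.ReflTransGen.single ⟨⟨σ, hσ, rfl⟩, ⟨τ, hτ, rfl⟩,
      (Cfsg.Agent.Lib.Helper50.QU.special_of_nonnil hk2 hk3 hσ hτ hz).1⟩⟩

end Cfsg.Agent.Lib.Helper50.QV
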