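import Mathlib

set_option autoImplicit false

namespace Cfsg.Agent.Lib.Helper50.QV

universe u v

/-- V-FIN: a family of pairwise commuting non-commutative subgroups of `GL(M)`, `M` finite
dimensional, is finite -/
theorem finite_of_commuting {k : Type u} [Field k] {M : Type v} [AddCommGroup M] [Module k M]
    [FiniteDimensional k M] {ι : Type*} (H : ι → Subgroup (LinearMap.GeneralLinearGroup k M))
    (hcomm : ∀ i j, i ≠ j → ⁅H i, H j⁆ = ⊥)
    (hnc : ∀ i, ∃ a ∈ H i, ∃ b ∈ H i, a * b ≠ b * a) : Finite ι := by
  classical
  by_contra hfin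
  rw [not_finite_iff_infinite] at hfin
  choose a ha b hb hab using hnc
  obtain ⟨v, hv⟩ : ∃ v : ι → Module.End k M,
      v = fun i => ((a i : LinearMap.GeneralLinearGroup k M) : M →ₗ[k] M) := ⟨_, rfl⟩
  have hfg : (Submodule.span k (Set.range v)).FG := IsNoetherian.noetherian _
  obtain ⟨s', hs', hspan⟩ := (Submodule.fg_span_iff_fg_span_finset_subset _).mp hfg
  have hj : ∀ x : Module.End k M, ∃ j, x ∈ s' → v j = x := by
    intro x
    by_cases hx : x ∈ s'
    · obtain ⟨j, hj⟩ := hs' hx
      exact ⟨j, fun _ => hj⟩
    · exact ⟨Classical.arbitrary ι, fun h => absurd h hx⟩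
  choose j hj using hj
  obtain ⟨i, hi⟩ := Infinite.exists_notMem_finset (s'.image j)
  have hmem : v i ∈ Submodule.span k (s' : Set (Module.End k M)) := by
    rw [← hspan]
    exact Submodule.subset_span (Set.mem_range_self i)
  have hle : Submodule.span k (s' : Set (Module.End k M)) ≤
      Subalgebra.toSubmodule (Subalgebra.centralizer k
        {((b i : LinearMap.GeneralLinearGroup k M) : Module.End k M)}) := by
    rw [Submodule.span_le]
    intro x hx
    have hx' : x ∈ s' := hx
    have hne : j x ≠ i := by
      intro e
      apply hi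
      rw [Finset.mem_image]
      exact ⟨x, hx', e⟩
    have h1 : a (j x) ∈ Subgroup.centralizer (H i : Set (LinearMap.GeneralLinearGroup k M)) :=
      (Subgroup.commutator_eq_bot_iff_le_centralizer.mp (hcomm (j x) i hne)) (ha (j x))
    have h2 : b i * a (j x) = a (j x) * b i := Subgroup.mem_centralizer_iff.mp h1 (b i) (hb i)
    show x ∈ Subalgebra.centralizer k
        {((b i : LinearMap.GeneralLinearGroup k M) : Module.End k M)}
    rw [Subalgebra.mem_centralizer_iff]
    intro y hy
    rw [Set.mem_singleton_iff] at hy
    rw [hy, ← hj x hx', hv]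
    show ((b i : LinearMap.GeneralLinearGroup k M) : Module.End k M) *
        ((a (j x) : LinearMap.GeneralLinearGroup k M) : Module.End k M) =
      ((a (j x) : LinearMap.GeneralLinearGroup k M) : Module.End k M) *
        ((b i : LinearMap.GeneralLinearGroup k M) : Module.End k M)
    rw [← Units.val_mul, ← Units.val_mul, h2]
  have h3 := hle hmem
  have h3' : v i ∈ Subalgebra.centralizer k
        {((b i : LinearMap.GeneralLinearGroup k M) : Module.End k M)} := h3
  rw [Subalgebra.mem_centralizer_iff] at h3'
  have h4 := h3' _ (Set.mem_singleton _)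
  rw [hv] at h4
  have h5 : ((b i : LinearMap.GeneralLinearGroup k M) : Module.End k M) *
        ((a i : LinearMap.GeneralLinearGroup k M) : Module.End k M) =
      ((a i : LinearMap.GeneralLinearGroup k M) : Module.End k M) *
        ((b i : LinearMap.GeneralLinearGroup k M) : Module.End k M) := h4
  rw [← Units.val_mul, ← Units.val_mul] at h5
  exact hab i (Units.ext h5).symm

end Cfsg.Agent.Lib.Helper50.QV
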