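import Cfsg.Agent.Lib.Helper50.QvBase

set_option autoImplicit false
set_option linter.unusedSectionVars false

namespace Cfsg.Agent.Lib.Helper50.QV

open Polynomial Cfsg Cfsg.Agent.Lib.Helper50.QR Cfsg.Agent.Lib.Helper50.QP
  Cfsg.Agent.Lib.Helper50.QS

universe u v

variable {k : Type u} [Field k] {M : Type v} [AddCommGroup M] [Module k M] [FiniteDimensional k M]

variable {G : Subgroup (LinearMap.GeneralLinearGroup k M)}
  {A B C A' : Subgroup (LinearMap.GeneralLinearGroup k M)}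

/-- the adjacency relation of the rank one graph is symmetric (helper18) -/
theorem fadj_symm {Λ : Set (Subgroup (LinearMap.GeneralLinearGroup k M))}
    {X Y : Subgroup (LinearMap.GeneralLinearGroup k M)} (h : Cfsg.FAdj Λ X Y) :
    Cfsg.FAdj Λ Y X :=
  ⟨h.2.1, h.1, Cfsg.RankOnePair_symm h.2.2⟩

/-- reachability in the rank one graph is symmetric (helper18) -/
theorem fadj_rtg_symm {Λ : Set (Subgroup (LinearMap.GeneralLinearGroup k M))}
    {X Y : Subgroup (LinearMap.GeneralLinearGroup k M)}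
    (h : Relation.ReflTransGen (Cfsg.FAdj Λ) X Y) : Relation.ReflTransGen (Cfsg.FAdj Λ) Y X := by
  induction h with
  | refl => exact Relation.ReflTransGen.refl
  | tail _ hbc ih => exact Relation.ReflTransGen.head (fadj_symm hbc) ih

/-- V-GRAPH (a) -/
theorem comp_self (hA : A ∈ Cfsg.quadraticRootSubgroups G) : A ∈ Comp G A :=
  ⟨hA, Relation.ReflTransGen.refl⟩

/-- V-GRAPH (b): components are equivalence classes (the adjacency relation is symmetric) -/
theorem comp_eq_of_mem (hB : B ∈ Comp G A) : Comp G B = Comp G A := by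
  obtain ⟨hBS, hAB⟩ := hB
  have hBA := fadj_rtg_symm hAB
  ext C
  constructor
  · rintro ⟨hC, hBC⟩
    exact ⟨hC, hAB.trans hBC⟩
  · rintro ⟨hC, hAC⟩
    exact ⟨hC, hBA.trans hAC⟩

/-- V-GRAPH (c) -/
theorem comp_of_pair (hB : B ∈ Comp G A) (hC : C ∈ Cfsg.quadraticRootSubgroups G)
    (h : Cfsg.IsRankOnePair B C) : C ∈ Comp G A :=
  ⟨hC, hB.2.tail ⟨hB.1, hC, h⟩⟩

/-- V-GRAPH (d) -/
theorem le_gc (hB : B ∈ Comp G A) : B ≤ GC G A :=
  le_iSup₂_of_le B hB le_rfl

/-- V-GRAPH (e) -/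
theorem gc_le : GC G A ≤ G := by
  apply iSup₂_le
  rintro B ⟨⟨σ, -, rfl⟩, -⟩
  exact Cfsg.Agent.Lib.Helper50.QR.subgroup_le

/-- V-GRAPH (f) -/
theorem gc_le_g0 : GC G A ≤ ⨆ B ∈ Cfsg.quadraticRootSubgroups G, B :=
  iSup₂_le (fun B hB => le_iSup₂_of_le B hB.1 le_rfl)

/-- V-GRAPH (g): elementwise commuting components generate commuting subgroups -/
theorem comm_gc_of_comm (h : ∀ B ∈ Comp G A, ∀ C ∈ Comp G A', ⁅B, C⁆ = ⊥) :
    ⁅GC G A, GC G A'⁆ = ⊥ := by
  rw [Subgroup.commutator_eq_bot_iff_le_centralizer]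
  apply iSup₂_le
  intro B hB
  rw [← Subgroup.commutator_eq_bot_iff_le_centralizer, Subgroup.commutator_comm,
    Subgroup.commutator_eq_bot_iff_le_centralizer]
  apply iSup₂_le
  intro C hC
  rw [← Subgroup.commutator_eq_bot_iff_le_centralizer, Subgroup.commutator_comm]
  exact h B hB C hC

end Cfsg.Agent.Lib.Helper50.QV
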