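import Mathlib
import Cfsg.Prelude.Def_CaseTheorems

set_option autoImplicit false

namespace Cfsg.Agent.Lib.Helper50.QV

open Cfsg

/-- V-QS: quasisimplicity of a subgroup from perfectness and the normal subgroup dichotomy -/
theorem quasisimple_of {H : Type*} [Group H] (K : Subgroup H) (hperf : K ≤ ⁅K, K⁆)
    (hnc : ∃ a ∈ K, ∃ b ∈ K, a * b ≠ b * a)
    (hN : ∀ N : Subgroup H, N ≤ K → (∀ g ∈ K, ∀ n ∈ N, g * n * g⁻¹ ∈ N) →
      N = K ∨ N ≤ Subgroup.centralizer (K : Set H)) :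
    Cfsg.IsQuasisimple ↥K := by
  refine ⟨?_, ?_⟩
  · rw [Subgroup.isPerfect_iff]
    refine le_antisymm ?_ hperf
    rw [Subgroup.commutator_le]
    intro g₁ h₁ g₂ h₂
    rw [commutatorElement_def]
    exact K.mul_mem (K.mul_mem (K.mul_mem h₁ h₂) (K.inv_mem h₁)) (K.inv_mem h₂)
  · obtain ⟨a, ha, b, hb, hab⟩ := hnc
    have hne : (QuotientGroup.mk (⟨a, ha⟩ : ↥K) : ↥K ⧸ Subgroup.center ↥K) ≠ 1 := by
      intro h1
      rw [QuotientGroup.eq_one_iff] at h1
      have h2 := (Subgroup.mem_center_iff.1 h1) ⟨b, hb⟩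
      have h3 := congrArg Subtype.val h2
      exact hab h3.symm
    have hnt : Nontrivial (↥K ⧸ Subgroup.center ↥K) := ⟨⟨_, 1, hne⟩⟩
    refine { exists_pair_ne := hnt.exists_pair_ne, eq_bot_or_eq_top_of_normal := ?_ }
    intro M hM
    -- the preimage of `M` in `K`, as a subgroup of `H`
    obtain ⟨N', hN'⟩ : ∃ N' : Subgroup ↥K,
        N' = M.comap (QuotientGroup.mk' (Subgroup.center ↥K)) := ⟨_, rfl⟩
    have hN'n : N'.Normal := by
      rw [hN']
      exact Subgroup.Normal.comap hM _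
    have hle : N'.map K.subtype ≤ K := by
      rintro _ ⟨n, _, rfl⟩
      exact n.2
    have hconj : ∀ g ∈ K, ∀ n ∈ N'.map K.subtype, g * n * g⁻¹ ∈ N'.map K.subtype := by
      rintro g hg _ ⟨n, hn, rfl⟩
      exact ⟨⟨g, hg⟩ * n * ⟨g, hg⟩⁻¹, hN'n.conj_mem n hn ⟨g, hg⟩, rfl⟩
    have hMeq : ∀ x : ↥K ⧸ Subgroup.center ↥K, x ∈ M ↔ ∃ k ∈ N', (QuotientGroup.mk k : _) = x := by
      intro x
      constructor
      · intro hx
        obtain ⟨k, rfl⟩ := QuotientGroup.mk_surjective x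
        exact ⟨k, by rw [hN']; exact hx, rfl⟩
      · rintro ⟨k, hk, rfl⟩
        rw [hN'] at hk
        exact hk
    rcases hN (N'.map K.subtype) hle hconj with h | h
    · right
      rw [eq_top_iff]
      intro x _
      obtain ⟨k, rfl⟩ := QuotientGroup.mk_surjective x
      rw [hMeq]
      have hk : (k : H) ∈ N'.map K.subtype := by
        rw [h]
        exact k.2
      obtain ⟨n, hn, hnk⟩ := hk
      have : n = k := Subtype.ext hnk
      exact ⟨k, this ▸ hn, rfl⟩
    · left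
      rw [eq_bot_iff]
      intro x hx
      obtain ⟨k, hk, rfl⟩ := (hMeq x).1 hx
      rw [Subgroup.mem_bot, QuotientGroup.eq_one_iff, Subgroup.mem_center_iff]
      intro g
      have hk' : (k : H) ∈ Subgroup.centralizer (K : Set H) := h ⟨k, hk, rfl⟩
      have := (Subgroup.mem_centralizer_iff.1 hk') (g : H) g.2
      exact Subtype.ext this

end Cfsg.Agent.Lib.Helper50.QV
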