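import Cfsg.Agent.Lib.Helper50.QvN2
import Cfsg.Agent.Lib.Helper50.QvQs
import Cfsg.Agent.Lib.Helper50.QvCls
import Cfsg.Agent.Lib.Helper50.QvFin

/-!
# S5069: assembly (helper50)
-/

set_option autoImplicit false

namespace Cfsg.Agent.Lib.Helper50.QV

open Polynomial Cfsg Cfsg.Agent.Lib.Helper50.QR Cfsg.Agent.Lib.Helper50.QP
  Cfsg.Agent.Lib.Helper50.QS

universe u v

variable {k : Type u} [Field k] {M : Type v} [AddCommGroup M] [Module k M] [FiniteDimensional k M]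

omit [FiniteDimensional k M] in
/-- commuting quadratic elements form a unipotent pair -/
theorem nil_of_commute {σ τ : LinearMap.GeneralLinearGroup k M} (hσ : nl σ * nl σ = 0)
    (hτ : nl τ * nl τ = 0) (h : σ * τ = τ * σ) : IsNilpotent (zz (nl σ) (nl τ)) := by
  have e : nl σ * nl τ = nl τ * nl σ := by
    have h1 := congrArg nl h
    rw [nl_mul, nl_mul] at h1
    have h2 : nl σ * nl τ = (nl σ + nl τ + nl σ * nl τ) - (nl σ + nl τ) := by abel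
    rw [h2, h1]
    abel
  have e2 : nl σ * nl τ * (nl σ * nl τ) = 0 := by
    calc nl σ * nl τ * (nl σ * nl τ) = nl σ * (nl τ * nl σ) * nl τ := by noncomm_ring
      _ = nl σ * (nl σ * nl τ) * nl τ := by rw [e]
      _ = (nl σ * nl σ) * (nl τ * nl τ) := by noncomm_ring
      _ = 0 := by rw [hσ, zero_mul]
  refine ⟨2, ?_⟩
  unfold zz
  rw [← e, pow_two, add_mul, mul_add, e2, add_zero, add_zero]

/-- the set of connectivity components of the graph of rank one pairs on `Σ(G)` -/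
def Comps (G : Subgroup (LinearMap.GeneralLinearGroup k M)) :
    Set (Set (Subgroup (LinearMap.GeneralLinearGroup k M))) :=
  {P | ∃ σ ∈ minimalQuadraticElements G, P = Comp G (sameActionSubgroup G σ)}

variable {G : Subgroup (LinearMap.GeneralLinearGroup k M)}

theorem comps_eq_of_mem {P Q : Set (Subgroup (LinearMap.GeneralLinearGroup k M))}
    (hP : P ∈ Comps G) (hQ : Q ∈ Comps G) {A : Subgroup (LinearMap.GeneralLinearGroup k M)}
    (hAP : A ∈ P) (hAQ : A ∈ Q) : P = Q := by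
  obtain ⟨σ, -, rfl⟩ := hP
  obtain ⟨τ, -, rfl⟩ := hQ
  rw [← comp_eq_of_mem hAP, ← comp_eq_of_mem hAQ]

theorem comps_comm (hk2 : ringChar k ≠ 2) (hk3 : Nat.card k ≠ 3) (hG : Cfsg.IsQuadraticPair G)
    {P Q : Set (Subgroup (LinearMap.GeneralLinearGroup k M))}
    (hP : P ∈ Comps G) (hQ : Q ∈ Comps G) (hne : P ≠ Q) :
    ⁅(⨆ A ∈ P, A), (⨆ A ∈ Q, A)⁆ = ⊥ := by
  obtain ⟨σ, hσ, rfl⟩ := hP
  obtain ⟨τ, hτ, rfl⟩ := hQ
  apply comm_gc_of_comm
  intro B hB C hC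
  by_contra hBC
  obtain ⟨β, hβ, rfl⟩ := hB.1
  obtain ⟨γ, hγ, rfl⟩ := hC.1
  have h1 := mem_comp_of_not_comm hk2 hk3 hG hβ hγ hBC
  apply hne
  rw [← comp_eq_of_mem hB, ← comp_eq_of_mem hC, comp_eq_of_mem h1]

theorem gc_noncomm (hk2 : ringChar k ≠ 2) (hk3 : Nat.card k ≠ 3) (hG : Cfsg.IsQuadraticPair G)
    {σ : LinearMap.GeneralLinearGroup k M} (hσ : σ ∈ minimalQuadraticElements G) :
    ∃ a ∈ GC G (sameActionSubgroup G σ), ∃ b ∈ GC G (sameActionSubgroup G σ), a * b ≠ b * a := by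
  obtain ⟨τ, hτ, hnz⟩ := QT.exists_partner hk2 hk3 hG hσ
  have hσS : sameActionSubgroup G σ ∈ Cfsg.quadraticRootSubgroups G := ⟨σ, hσ, rfl⟩
  have hτP : sameActionSubgroup G τ ∈ Comp G (sameActionSubgroup G σ) :=
    comp_of_pair (comp_self hσS) ⟨τ, hτ, rfl⟩ (QU.special_of_nonnil hk2 hk3 hσ hτ hnz).1
  refine ⟨σ, le_gc (comp_self hσS) (self_mem hσ), τ, le_gc hτP (self_mem hτ), fun h => hnz ?_⟩
  exact nil_of_commute (quad_sq hσ.1.2.1) (quad_sq hτ.1.2.1) h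

theorem gc_perfect (hk2 : ringChar k ≠ 2) (hk3 : Nat.card k ≠ 3) (hG : Cfsg.IsQuadraticPair G)
    {σ : LinearMap.GeneralLinearGroup k M} (hσ : σ ∈ minimalQuadraticElements G) :
    GC G (sameActionSubgroup G σ) ≤
      ⁅GC G (sameActionSubgroup G σ), GC G (sameActionSubgroup G σ)⁆ := by
  apply iSup₂_le
  intro B hB
  obtain ⟨β, hβ, rfl⟩ := hB.1
  obtain ⟨γ, hγ, hnz⟩ := QT.exists_partner hk2 hk3 hG hβ
  have hγP : sameActionSubgroup G γ ∈ Comp G (sameActionSubgroup G σ) :=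
    comp_of_pair hB ⟨γ, hγ, rfl⟩ (QU.special_of_nonnil hk2 hk3 hβ hγ hnz).1
  have hle : sameActionSubgroup G β ⊔ sameActionSubgroup G γ ≤ GC G (sameActionSubgroup G σ) :=
    sup_le (le_gc hB) (le_gc hγP)
  exact le_sup_left.trans ((sup_perfect hk2 hk3 hβ hγ hnz).trans
    (Subgroup.commutator_mono hle hle))

theorem gc_quasisimple (hk2 : ringChar k ≠ 2) (hk3 : Nat.card k ≠ 3)
    (hG : Cfsg.IsQuadraticPair G)
    {σ : LinearMap.GeneralLinearGroup k M} (hσ : σ ∈ minimalQuadraticElements G) :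
    Cfsg.IsQuasisimple ↥(GC G (sameActionSubgroup G σ)) :=
  quasisimple_of _ (gc_perfect hk2 hk3 hG hσ) (gc_noncomm hk2 hk3 hG hσ)
    (fun N hN hNn => normal_sub hk2 hk3 hG hσ N hN hNn)

/-- S5069 -/
theorem main69 (hk2 : ringChar k ≠ 2) (hk3 : Nat.card k ≠ 3) (hG : Cfsg.IsQuadraticPair G) :
    ∃ (r : ℕ) (part : Fin r → Set (Subgroup (LinearMap.GeneralLinearGroup k M))),
      (⋃ i, part i) = Cfsg.quadraticRootSubgroups G ∧
      (∀ i j, i ≠ j → Disjoint (part i) (part j)) ∧ (∀ i, (part i).Nonempty) ∧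
      (∀ i j, i ≠ j → ⁅(⨆ A ∈ part i, A), (⨆ A ∈ part j, A)⁆ = ⊥) ∧
      (∀ i, Cfsg.IsQuasisimple ↥(⨆ A ∈ part i, A) ∧
        Cfsg.IsRootSubgroupClass ((fun A : Subgroup (LinearMap.GeneralLinearGroup k M) =>
          A.subgroupOf (⨆ B ∈ part i, B)) '' (part i)) ∧
        ∀ A ∈ part i, ∀ B ∈ Cfsg.rankOnePartners (part i) A,
          ∃ A₀ B₀ : Subgroup (LinearMap.GeneralLinearGroup k M), A₀ ≤ A ∧ B₀ ≤ B ∧
          ∃ (k₁ : Type v) (_ : Field k₁), 3 < ENat.card k₁ ∧ Cfsg.IsPSL2PairOver k₁ A₀ B₀) := by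
  classical
  have hfin : Finite ↥(Comps G) := by
    apply finite_of_commuting (fun P : ↥(Comps G) => ⨆ A ∈ P.1, A)
    · intro P Q hPQ
      exact comps_comm hk2 hk3 hG P.2 Q.2 (fun h => hPQ (Subtype.ext h))
    · rintro ⟨P, σ, hσ, rfl⟩
      exact gc_noncomm hk2 hk3 hG hσ
  obtain ⟨e⟩ : Nonempty (↥(Comps G) ≃ Fin (Nat.card ↥(Comps G))) := ⟨Finite.equivFin _⟩
  refine ⟨Nat.card ↥(Comps G), fun i => (e.symm i).1, ?_, ?_, ?_, ?_, ?_⟩
  · ext A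
    constructor
    · intro hA
      obtain ⟨i, hi⟩ := Set.mem_iUnion.mp hA
      obtain ⟨σ, hσ, hP⟩ := (e.symm i).2
      rw [hP] at hi
      exact hi.1
    · rintro ⟨σ, hσ, rfl⟩
      refine Set.mem_iUnion.mpr ⟨e ⟨Comp G (sameActionSubgroup G σ), σ, hσ, rfl⟩, ?_⟩
      show sameActionSubgroup G σ ∈ (e.symm (e ⟨Comp G (sameActionSubgroup G σ), σ, hσ, rfl⟩)).1
      rw [e.symm_apply_apply]
      exact comp_self ⟨σ, hσ, rfl⟩
  · intro i j hij
    rw [Set.disjoint_left]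
    intro A hAi hAj
    apply hij
    have h : e.symm i = e.symm j :=
      Subtype.ext (comps_eq_of_mem (e.symm i).2 (e.symm j).2 hAi hAj)
    exact e.symm.injective h
  · intro i
    obtain ⟨σ, hσ, hP⟩ := (e.symm i).2
    refine ⟨sameActionSubgroup G σ, ?_⟩
    show sameActionSubgroup G σ ∈ (e.symm i).1
    rw [hP]
    exact comp_self ⟨σ, hσ, rfl⟩
  · intro i j hij
    exact comps_comm hk2 hk3 hG (e.symm i).2 (e.symm j).2
      (fun h => hij (e.symm.injective (Subtype.ext h)))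
  · intro i
    obtain ⟨σ, hσ, hP⟩ := (e.symm i).2
    show Cfsg.IsQuasisimple ↥(⨆ A ∈ (e.symm i).1, A) ∧
      Cfsg.IsRootSubgroupClass ((fun A : Subgroup (LinearMap.GeneralLinearGroup k M) =>
        A.subgroupOf (⨆ B ∈ (e.symm i).1, B)) '' (e.symm i).1) ∧
      ∀ A ∈ (e.symm i).1, ∀ B ∈ Cfsg.rankOnePartners (e.symm i).1 A,
        ∃ A₀ B₀ : Subgroup (LinearMap.GeneralLinearGroup k M), A₀ ≤ A ∧ B₀ ≤ B ∧
        ∃ (k₁ : Type v) (_ : Field k₁), 3 < ENat.card k₁ ∧ Cfsg.IsPSL2PairOver k₁ A₀ B₀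
    rw [hP]
    refine ⟨gc_quasisimple hk2 hk3 hG hσ, root_class hk2 hk3 hG hσ, ?_⟩
    rintro A hA B ⟨hB, hr⟩
    obtain ⟨α, hα, rfl⟩ := hA.1
    obtain ⟨β, hβ, rfl⟩ := hB.1
    exact QU.exists_psl2_pair hk2 hk3 hα hβ (QU.nonnil_of_rankOne hk2 hk3 hα hβ hr)

end Cfsg.Agent.Lib.Helper50.QV
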