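import Cfsg.Agent.Lib.Helper50.QvTorus
import Cfsg.Agent.Lib.Helper50.QsConj

set_option autoImplicit false

namespace Cfsg.Agent.Lib.Helper50.QV

open Polynomial Cfsg Cfsg.Agent.Lib.Helper50.QR Cfsg.Agent.Lib.Helper50.QP
  Cfsg.Agent.Lib.Helper50.QS

universe u v

variable {k : Type u} [Field k] {M : Type v} [AddCommGroup M] [Module k M] [FiniteDimensional k M]

/-- a scalar `t ≠ 0` with `t² ≠ 1` -/
theorem sup_perfect_scalar (hk2 : ringChar k ≠ 2) (hk3 : Nat.card k ≠ 3) :
    ∃ t : k, t ≠ 0 ∧ t ^ 2 ≠ 1 := by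
  by_contra hcon
  push Not at hcon
  have h2 : (2 : k) ≠ 0 := Ring.two_ne_zero hk2
  have h1 : (1 : k) ≠ -1 := by
    intro h
    apply h2
    have : (2 : k) = 1 + 1 := by norm_num
    rw [this]
    nth_rewrite 2 [h]
    ring
  have hall : ∀ t : k, t = 0 ∨ t = 1 ∨ t = -1 := by
    intro t
    by_cases ht : t = 0
    · exact Or.inl ht
    · right
      have h := hcon t ht
      have h' : (t - 1) * (t + 1) = 0 := by linear_combination h
      rcases mul_eq_zero.1 h' with h3 | h3
      · left; linear_combination h3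
      · right; linear_combination h3
  apply hk3
  have huniv : (Set.univ : Set k) = {0, 1, -1} := by
    ext t
    simp only [Set.mem_univ, Set.mem_insert_iff, Set.mem_singleton_iff, true_iff]
    exact hall t
  have h0 : (0 : k) ≠ -1 := by
    intro h
    have : (1 : k) = 0 := by
      have h' := congrArg (fun x : k => -x) h
      simpa using h'.symm
    exact one_ne_zero this
  rw [← Set.ncard_univ]
  exact Set.ncard_eq_three.mpr ⟨0, 1, -1, zero_ne_one, h0, h1, huniv⟩

/-- one half of `sup_perfect` -/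
theorem sup_perfect_half (hk2 : ringChar k ≠ 2) (hk3 : Nat.card k ≠ 3)
    {G : Subgroup (LinearMap.GeneralLinearGroup k M)}
    {σ τ : LinearMap.GeneralLinearGroup k M} (hσ : σ ∈ minimalQuadraticElements G)
    (hτ : τ ∈ minimalQuadraticElements G) (hnz : ¬ IsNilpotent (zz (nl σ) (nl τ))) :
    sameActionSubgroup G σ ≤
      ⁅sameActionSubgroup G σ ⊔ sameActionSubgroup G τ,
        sameActionSubgroup G σ ⊔ sameActionSubgroup G τ⁆ := by
  intro e he
  by_cases he1 : e = 1
  · rw [he1]; exact Subgroup.one_mem _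
  have hemin : e ∈ minimalQuadraticElements G := min_of_mem hσ he he1
  have hnz' : ¬ IsNilpotent (zz (nl e) (nl τ)) :=
    nonnil_transfer hk2 hk3 hσ hτ hnz he he1 (self_mem hτ) (self_ne_one hτ)
  have hEe : sameActionSubgroup G e = sameActionSubgroup G σ :=
    subgroup_eq_of_mem (mem_class_of_mem hσ he he1)
  have hgen : genH (nl e) (nl τ) ≤ sameActionSubgroup G σ ⊔ sameActionSubgroup G τ := by
    have := genH_le_sup hemin hτ
    rwa [hEe] at this
  obtain ⟨p1, p2, p3⟩ := pair_core hk2 hk3 hemin hτ hnz'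
  have hA : nl e * nl e = 0 := quad_sq hemin.1.2.1
  have hB : nl τ * nl τ = 0 := quad_sq hτ.1.2.1
  have hA0 : nl e ≠ 0 := quad_ne hemin.1.2.1
  obtain ⟨t, ht0, ht2⟩ := sup_perfect_scalar (k := k) hk2 hk3
  obtain ⟨h, hh, hhA, hAh⟩ := exists_torus_elt hk2 hk3 hA hB hA0 p1 p2 p3 t ht0
  -- endomorphism identities
  have e1 : (h : Module.End k M) * nl e = t • nl e := by
    ext m
    exact hhA m
  have e2 : nl e * (h : Module.End k M) = t⁻¹ • nl e := by
    ext m
    exact hAh m
  have hinv : (h : Module.End k M) * ((h⁻¹ : LinearMap.GeneralLinearGroup k M) : Module.End k M) = 1 := by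
    rw [← Units.val_mul, mul_inv_cancel, Units.val_one]
  have e3 : nl e * ((h⁻¹ : LinearMap.GeneralLinearGroup k M) : Module.End k M) = t • nl e := by
    have : nl e = t⁻¹ • (nl e * ((h⁻¹ : LinearMap.GeneralLinearGroup k M) : Module.End k M)) := by
      rw [← smul_mul_assoc, ← e2, mul_assoc, hinv, mul_one]
    rw [this, smul_smul, mul_inv_cancel₀ ht0, one_smul, ← this]
  -- the element e_c
  have hc0 : t ^ 2 - 1 ≠ 0 := sub_ne_zero.2 ht2
  obtain ⟨ec, hec, hnl⟩ := (closure_props hσ he).2 ((t ^ 2 - 1)⁻¹)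
  have hcomm : h * ec * h⁻¹ * ec⁻¹ = e := by
    apply eq_of_nl_eq
    rw [nl_mul, nl_conj, nl_inv_of_mem hσ hec, hnl]
    have e4 : (h : Module.End k M) * ((t ^ 2 - 1)⁻¹ • nl e) *
        ((h⁻¹ : LinearMap.GeneralLinearGroup k M) : Module.End k M) =
        ((t ^ 2 - 1)⁻¹ * t ^ 2) • nl e := by
      rw [mul_smul_comm, smul_mul_assoc, e1, smul_mul_assoc, e3, smul_smul, smul_smul]
      congr 1
      ring
    rw [e4]
    have e5 : ((t ^ 2 - 1)⁻¹ * t ^ 2) • nl e * -((t ^ 2 - 1)⁻¹ • nl e) = 0 := by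
      rw [mul_neg, smul_mul_assoc, mul_smul_comm, hA, smul_zero, smul_zero, neg_zero]
    rw [e5, add_zero, ← sub_eq_add_neg, ← sub_smul]
    have e6 : (t ^ 2 - 1)⁻¹ * t ^ 2 - (t ^ 2 - 1)⁻¹ = 1 := by
      field_simp
    rw [e6, one_smul]
  rw [← hcomm]
  exact Subgroup.commutator_mem_commutator (hgen hh) (Subgroup.mem_sup_left hec)

/-- V-PERF: a non-unipotent pair of root subgroups generates a perfect group -/
theorem sup_perfect (hk2 : ringChar k ≠ 2) (hk3 : Nat.card k ≠ 3)
    {G : Subgroup (LinearMap.GeneralLinearGroup k M)}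
    {σ τ : LinearMap.GeneralLinearGroup k M} (hσ : σ ∈ minimalQuadraticElements G)
    (hτ : τ ∈ minimalQuadraticElements G) (hnz : ¬ IsNilpotent (zz (nl σ) (nl τ))) :
    sameActionSubgroup G σ ⊔ sameActionSubgroup G τ ≤
      ⁅sameActionSubgroup G σ ⊔ sameActionSubgroup G τ,
        sameActionSubgroup G σ ⊔ sameActionSubgroup G τ⁆ := by
  have hnz' : ¬ IsNilpotent (zz (nl τ) (nl σ)) := by rwa [zz_comm (nl τ) (nl σ)]
  apply sup_le
  · exact sup_perfect_half hk2 hk3 hσ hτ hnz
  · have := sup_perfect_half hk2 hk3 hτ hσ hnz'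
    rwa [sup_comm] at this

end Cfsg.Agent.Lib.Helper50.QV
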