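import Cfsg.Agent.S5017
import Cfsg.Agent.Lib.Helper50.QuTr1

set_option autoImplicit false

namespace Cfsg.Agent.Lib.Helper50.QV

open Cfsg

/-- V-R1: a perfect rank one group `A ⊔ B` (inside any group) with `A` abelian has only the
obvious normal subgroups -/
theorem rank_one_normal {H : Type*} [Group H] {A B N : Subgroup H} (h : Cfsg.IsRankOnePair A B)
    (hA : ∀ a ∈ A, ∀ b ∈ A, a * b = b * a) (hperf : A ⊔ B ≤ ⁅A ⊔ B, A ⊔ B⁆)
    (hN : N ≤ A ⊔ B) (hNn : ∀ g ∈ A ⊔ B, ∀ n ∈ N, g * n * g⁻¹ ∈ N) :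
    N = A ⊔ B ∨ N ≤ Subgroup.centralizer ((A ⊔ B : Subgroup H) : Set H) := by
  obtain ⟨X, hX⟩ : ∃ X : Subgroup H, X = A ⊔ B := ⟨_, rfl⟩
  rw [← hX] at hperf hN hNn ⊢
  have hAX : A ≤ X := hX ▸ le_sup_left
  have hBX : B ≤ X := hX ▸ le_sup_right
  have hpair := Cfsg.Agent.Lib.Helper50.QU.rankOne_subgroupOf X A B hAX hBX h
  have htop : A.subgroupOf X ⊔ B.subgroupOf X = ⊤ := by
    rw [← Subgroup.subgroupOf_sup hAX hBX, ← hX, Subgroup.subgroupOf_self]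
  have hNn' : (N.subgroupOf X).Normal := by
    constructor
    intro n hn g
    exact hNn g.1 g.2 n.1 hn
  rcases (Cfsg.Agent.S5017.result (X := ↥X) ⟨htop, hpair⟩).1 (N.subgroupOf X) hNn' with h1 | h2
  · left
    apply le_antisymm hN
    refine le_trans hperf ?_
    rw [Subgroup.commutator_le]
    intro g₁ hg₁ g₂ hg₂
    have hmap : (A.subgroupOf X).map (QuotientGroup.mk' (N.subgroupOf X)) = ⊤ := by
      have e := Subgroup.map_sup (N.subgroupOf X) (A.subgroupOf X)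
        (QuotientGroup.mk' (N.subgroupOf X))
      rw [h1, Subgroup.map_top_of_surjective _ (QuotientGroup.mk'_surjective _)] at e
      have e2 : (N.subgroupOf X).map (QuotientGroup.mk' (N.subgroupOf X)) = ⊥ := by
        rw [(Subgroup.map_eq_bot_iff _), QuotientGroup.ker_mk']
      rw [e2, bot_sup_eq] at e
      exact e.symm
    obtain ⟨a, ha, hae⟩ : (QuotientGroup.mk' (N.subgroupOf X)) ⟨g₁, hg₁⟩ ∈
        (A.subgroupOf X).map (QuotientGroup.mk' (N.subgroupOf X)) := by rw [hmap]; trivial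
    obtain ⟨b, hb, hbe⟩ : (QuotientGroup.mk' (N.subgroupOf X)) ⟨g₂, hg₂⟩ ∈
        (A.subgroupOf X).map (QuotientGroup.mk' (N.subgroupOf X)) := by rw [hmap]; trivial
    have hab : a * b = b * a := Subtype.ext (hA a.1 ha b.1 hb)
    have hker : (QuotientGroup.mk' (N.subgroupOf X))
        ((⟨g₁, hg₁⟩ : ↥X) * (⟨g₂, hg₂⟩ : ↥X) * (⟨g₁, hg₁⟩ : ↥X)⁻¹ * (⟨g₂, hg₂⟩ : ↥X)⁻¹) = 1 := by
      have e1 : (QuotientGroup.mk' (N.subgroupOf X))
          ((⟨g₁, hg₁⟩ : ↥X) * (⟨g₂, hg₂⟩ : ↥X) * (⟨g₁, hg₁⟩ : ↥X)⁻¹ * (⟨g₂, hg₂⟩ : ↥X)⁻¹) =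
          (QuotientGroup.mk' (N.subgroupOf X)) (a * b * a⁻¹ * b⁻¹) := by
        simp only [map_mul, map_inv, hae, hbe]
      rw [e1, hab]
      simp
    rw [QuotientGroup.mk'_apply, QuotientGroup.eq_one_iff] at hker
    exact hker
  · right
    intro n hn
    rw [Subgroup.mem_centralizer_iff]
    intro x hx
    have hc : (⟨n, hN hn⟩ : ↥X) ∈ Subgroup.center X :=
      h2 (show (⟨n, hN hn⟩ : ↥X) ∈ N.subgroupOf X from hn)
    rw [Subgroup.mem_center_iff] at hc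
    exact congrArg Subtype.val (hc ⟨x, hx⟩)

end Cfsg.Agent.Lib.Helper50.QV
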