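import Cfsg.Agent.Lib.Helper50.QvConj
import Cfsg.Agent.Lib.Helper50.QvR1
import Cfsg.Agent.Lib.Helper50.QvPerf

set_option autoImplicit false

namespace Cfsg.Agent.Lib.Helper50.QV

open Polynomial Cfsg Cfsg.Agent.Lib.Helper50.QR Cfsg.Agent.Lib.Helper50.QP
  Cfsg.Agent.Lib.Helper50.QS

universe u v

variable {k : Type u} [Field k] {M : Type v} [AddCommGroup M] [Module k M] [FiniteDimensional k M]

variable {G : Subgroup (LinearMap.GeneralLinearGroup k M)}
  {σ₀ σ : LinearMap.GeneralLinearGroup k M}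

/-- V-N1: if a normal subgroup `N` of the group generated by a component contains no member
of the component, then every member commutes with its `N`-conjugates -/
theorem comm_conj_of_normal (hk2 : ringChar k ≠ 2) (hk3 : Nat.card k ≠ 3)
    (hG : Cfsg.IsQuadraticPair G) (hσ₀ : σ₀ ∈ minimalQuadraticElements G)
    {N : Subgroup (LinearMap.GeneralLinearGroup k M)}
    (hN : N ≤ GC G (sameActionSubgroup G σ₀))
    (hNn : ∀ g ∈ GC G (sameActionSubgroup G σ₀), ∀ n ∈ N, g * n * g⁻¹ ∈ N)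
    (hno : ∀ A ∈ Comp G (sameActionSubgroup G σ₀), ¬ A ≤ N)
    (hσ : σ ∈ minimalQuadraticElements G)
    (hσP : sameActionSubgroup G σ ∈ Comp G (sameActionSubgroup G σ₀))
    {m : LinearMap.GeneralLinearGroup k M} (hm : m ∈ N) :
    ⁅sameActionSubgroup G σ, Cfsg.conjBy (sameActionSubgroup G σ) m⁆ = ⊥ := by
  have hmGC : m ∈ GC G (sameActionSubgroup G σ₀) := hN hm
  have hmG : m ∈ G := gc_le hmGC
  have hσGC : sameActionSubgroup G σ ≤ GC G (sameActionSubgroup G σ₀) := le_gc hσP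
  have hρP0 : Cfsg.conjBy (sameActionSubgroup G σ) m ∈ Comp G (sameActionSubgroup G σ₀) :=
    conj_mem_comp hk2 hk3 hG hσ₀ hσP hmGC
  have hEρ0 : Cfsg.conjBy (sameActionSubgroup G σ) m = sameActionSubgroup G (m * σ * m⁻¹) :=
    conj_subgroup hσ hmG
  have hρ0 : m * σ * m⁻¹ ∈ minimalQuadraticElements G := conj_min hσ hmG
  obtain ⟨ρ, hρdef⟩ : ∃ ρ : LinearMap.GeneralLinearGroup k M, ρ = m * σ * m⁻¹ := ⟨_, rfl⟩
  rw [← hρdef] at hEρ0 hρ0
  have hρP : sameActionSubgroup G ρ ∈ Comp G (sameActionSubgroup G σ₀) := by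
    rw [← hEρ0]; exact hρP0
  have hρGC : sameActionSubgroup G ρ ≤ GC G (sameActionSubgroup G σ₀) := le_gc hρP
  by_cases hz : IsNilpotent (zz (nl σ) (nl ρ))
  · -- the unipotent case: the commutator group would be a member of the component inside `N`
    rw [hEρ0]
    by_contra hne
    have hDP : ⁅sameActionSubgroup G σ, sameActionSubgroup G ρ⁆ ∈
        Comp G (sameActionSubgroup G σ₀) := by
      have h1 := comm_mem_comp hk2 hk3 hG hσ hρ0 hz hne
      rwa [comp_eq_of_mem hσP] at h1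
    apply hno _ hDP
    rw [Subgroup.commutator_le]
    intro e he c hc
    rw [← hEρ0] at hc
    obtain ⟨e', he', rfl⟩ := hc
    rw [commutatorElement_def]
    show e * (m * e' * m⁻¹) * e⁻¹ * (m * e' * m⁻¹)⁻¹ ∈ N
    have hcomm : e * e' = e' * e := comm_of_mem hσ he he'
    have h1 : e * m * e⁻¹ ∈ N := hNn e (hσGC he) m hm
    have h2 : (e * e') * m⁻¹ * (e * e')⁻¹ ∈ N :=
      hNn _ (hσGC (Subgroup.mul_mem _ he he')) _ (N.inv_mem hm)
    have h3 : e' * m * e'⁻¹ ∈ N := hNn e' (hσGC he') m hm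
    have e5 : e'⁻¹ * e⁻¹ * e' = e⁻¹ := by
      have e6 : e'⁻¹ * e⁻¹ = (e * e')⁻¹ := by group
      rw [e6, hcomm]; group
    have e4 : e * (m * e' * m⁻¹) * e⁻¹ * (m * e' * m⁻¹)⁻¹ =
        (e * m * e⁻¹) * ((e * e') * m⁻¹ * (e * e')⁻¹) * (e' * m * e'⁻¹) * m⁻¹ := by
      have e7 : (e * m * e⁻¹) * ((e * e') * m⁻¹ * (e * e')⁻¹) * (e' * m * e'⁻¹) * m⁻¹ =
          e * m * e' * m⁻¹ * (e'⁻¹ * e⁻¹ * e') * m * e'⁻¹ * m⁻¹ := by group
      rw [e7, e5]; group
    rw [e4]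
    exact N.mul_mem (N.mul_mem (N.mul_mem h1 h2) h3) (N.inv_mem hm)
  · -- the non-unipotent case is impossible
    exfalso
    have hpair : Cfsg.IsRankOnePair (sameActionSubgroup G σ) (sameActionSubgroup G ρ) :=
      (Cfsg.Agent.Lib.Helper50.QU.special_of_nonnil hk2 hk3 hσ hρ0 hz).1
    have hperf := sup_perfect hk2 hk3 hσ hρ0 hz
    have hXGC : sameActionSubgroup G σ ⊔ sameActionSubgroup G ρ ≤
        GC G (sameActionSubgroup G σ₀) := sup_le hσGC hρGC
    have hNXn : ∀ g ∈ sameActionSubgroup G σ ⊔ sameActionSubgroup G ρ,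
        ∀ n ∈ N ⊓ (sameActionSubgroup G σ ⊔ sameActionSubgroup G ρ),
          g * n * g⁻¹ ∈ N ⊓ (sameActionSubgroup G σ ⊔ sameActionSubgroup G ρ) := by
      intro g hg n hn
      exact ⟨hNn g (hXGC hg) n hn.1,
        Subgroup.mul_mem _ (Subgroup.mul_mem _ hg hn.2) (Subgroup.inv_mem _ hg)⟩
    rcases rank_one_normal hpair (fun a ha b hb => comm_of_mem hσ ha hb) hperf
      (inf_le_right : N ⊓ (sameActionSubgroup G σ ⊔ sameActionSubgroup G ρ) ≤ _) hNXn
      with h1 | h2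
    · apply hno _ hσP
      have h3 : sameActionSubgroup G σ ≤
          N ⊓ (sameActionSubgroup G σ ⊔ sameActionSubgroup G ρ) := by
        rw [h1]; exact le_sup_left
      exact h3.trans inf_le_left
    · have hσX : σ ∈ sameActionSubgroup G σ ⊔ sameActionSubgroup G ρ :=
        (le_sup_left : sameActionSubgroup G σ ≤ _) (self_mem hσ)
      have hρX : ρ ∈ sameActionSubgroup G σ ⊔ sameActionSubgroup G ρ :=
        (le_sup_right : sameActionSubgroup G ρ ≤ _) (self_mem hρ0)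
      have hgN : σ⁻¹ * ρ ∈ N := by
        have h3 : σ⁻¹ * m * σ⁻¹⁻¹ ∈ N :=
          hNn σ⁻¹ (hσGC (Subgroup.inv_mem _ (self_mem hσ))) m hm
        have e : σ⁻¹ * ρ = (σ⁻¹ * m * σ⁻¹⁻¹) * m⁻¹ := by rw [hρdef]; group
        rw [e]; exact N.mul_mem h3 (N.inv_mem hm)
      have hgX : σ⁻¹ * ρ ∈ sameActionSubgroup G σ ⊔ sameActionSubgroup G ρ :=
        Subgroup.mul_mem _ (Subgroup.inv_mem _ hσX) hρX
      have hc := (Subgroup.mem_centralizer_iff.mp (h2 ⟨hgN, hgX⟩)) σ hσX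
      have hcomm : σ * ρ = ρ * σ := by
        have e1 : σ * (σ⁻¹ * ρ) = ρ := by group
        rw [e1] at hc
        have e2 : σ * (σ⁻¹ * ρ * σ) = ρ * σ := by group
        rw [← e2, ← hc]
      have hXW : nl σ * nl ρ = nl ρ * nl σ := by
        have e1 := congrArg nl hcomm
        rw [nl_mul, nl_mul] at e1
        have e2 : nl σ * nl ρ = (nl σ + nl ρ + nl σ * nl ρ) - (nl σ + nl ρ) := by abel
        rw [e2, e1]; abel
      have hX2 : nl σ * nl σ = 0 := quad_sq hσ.1.2.1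
      apply hz
      refine ⟨2, ?_⟩
      unfold zz
      rw [← hXW]
      have e2 : (nl σ * nl ρ + nl σ * nl ρ) ^ 2 = 4 • (nl σ * (nl ρ * nl σ) * nl ρ) := by
        noncomm_ring
      rw [e2, ← hXW]
      have e3 : nl σ * (nl σ * nl ρ) * nl ρ = (nl σ * nl σ) * nl ρ * nl ρ := by noncomm_ring
      rw [e3, hX2]
      simp

end Cfsg.Agent.Lib.Helper50.QV
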