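import Cfsg.Agent.Lib.Helper50.QvConn

set_option autoImplicit false

namespace Cfsg.Agent.Lib.Helper50.QV

open Polynomial Cfsg Cfsg.Agent.Lib.Helper50.QR Cfsg.Agent.Lib.Helper50.QP
  Cfsg.Agent.Lib.Helper50.QS

universe u v

variable {k : Type u} [Field k] {M : Type v} [AddCommGroup M] [Module k M] [FiniteDimensional k M]

variable {G : Subgroup (LinearMap.GeneralLinearGroup k M)}
  {σ₀ : LinearMap.GeneralLinearGroup k M}

/-- V-NRM (a): `G₀ = ⟨Σ⟩` is normalized by `G` -/
theorem g0_normal : ∀ g ∈ G, ∀ x ∈ (⨆ B ∈ Cfsg.quadraticRootSubgroups G, B),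
    g * x * g⁻¹ ∈ (⨆ B ∈ Cfsg.quadraticRootSubgroups G, B) := by
  intro g hg x hx
  have hmap : (⨆ B ∈ Cfsg.quadraticRootSubgroups G, B).map (MulAut.conj g).toMonoidHom ≤
      ⨆ B ∈ Cfsg.quadraticRootSubgroups G, B := by
    rw [Subgroup.map_iSup]
    refine iSup_le fun B => ?_
    rw [Subgroup.map_iSup]
    refine iSup_le fun hB => ?_
    obtain ⟨σ, hσ, rfl⟩ := hB
    have h1 : (sameActionSubgroup G σ).map (MulAut.conj g).toMonoidHom =
        sameActionSubgroup G (g * σ * g⁻¹) := conj_subgroup hσ hg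
    rw [h1]
    exact le_iSup₂_of_le (sameActionSubgroup G (g * σ * g⁻¹))
      ⟨g * σ * g⁻¹, conj_min hσ hg, rfl⟩ le_rfl
  exact hmap ⟨x, hx, rfl⟩

/-- V-NRM (b): the group generated by a component is normalized by `G₀` -/
theorem gc_normal (hk2 : ringChar k ≠ 2) (hk3 : Nat.card k ≠ 3) (hG : Cfsg.IsQuadraticPair G)
    (hσ₀ : σ₀ ∈ minimalQuadraticElements G) :
    ∀ g ∈ (⨆ B ∈ Cfsg.quadraticRootSubgroups G, B), ∀ x ∈ GC G (sameActionSubgroup G σ₀),
      g * x * g⁻¹ ∈ GC G (sameActionSubgroup G σ₀) := by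
  have hle : (⨆ B ∈ Cfsg.quadraticRootSubgroups G, B) ≤
      Subgroup.normalizer ((GC G (sameActionSubgroup G σ₀) :
        Subgroup (LinearMap.GeneralLinearGroup k M)) : Set (LinearMap.GeneralLinearGroup k M)) := by
    refine iSup₂_le fun B hB => ?_
    by_cases hBP : B ∈ Comp G (sameActionSubgroup G σ₀)
    · exact (le_gc hBP).trans Subgroup.le_normalizer
    · obtain ⟨τ, hτ, rfl⟩ := hB
      refine le_trans ?_ (Subgroup.centralizer_le_normalizer _)
      rw [← Subgroup.commutator_eq_bot_iff_le_centralizer, Subgroup.commutator_comm,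
        Subgroup.commutator_eq_bot_iff_le_centralizer]
      refine iSup₂_le fun A hA => ?_
      rw [← Subgroup.commutator_eq_bot_iff_le_centralizer]
      by_contra hne
      have hAcomp := comp_eq_of_mem hA
      obtain ⟨⟨σ, hσ, rfl⟩, -⟩ := hA
      have h1 := mem_comp_of_not_comm hk2 hk3 hG hσ hτ hne
      rw [hAcomp] at h1
      exact hBP h1
  intro g hg x hx
  exact (Subgroup.mem_set_normalizer_iff.mp (hle hg) x).mp hx

end Cfsg.Agent.Lib.Helper50.QV
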