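import Cfsg.Agent.Lib.Helper50.QvN1
import Cfsg.Agent.Lib.Helper50.QvClif
import Cfsg.Agent.Lib.Helper50.QvNrm

set_option autoImplicit false

namespace Cfsg.Agent.Lib.Helper50.QV

open Polynomial Cfsg Cfsg.Agent.Lib.Helper50.QR Cfsg.Agent.Lib.Helper50.QP
  Cfsg.Agent.Lib.Helper50.QS

universe u v

variable {k : Type u} [Field k] {M : Type v} [AddCommGroup M] [Module k M] [FiniteDimensional k M]

variable {G : Subgroup (LinearMap.GeneralLinearGroup k M)}
  {σ₀ : LinearMap.GeneralLinearGroup k M}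

/-- auxiliary for V-N2: if `N` contains no member of the component, then `N` centralizes every
member of the component -/
theorem n2_comm_aux (hk2 : ringChar k ≠ 2) (hk3 : Nat.card k ≠ 3)
    (hG : Cfsg.IsQuadraticPair G) (hσ₀ : σ₀ ∈ minimalQuadraticElements G)
    {N : Subgroup (LinearMap.GeneralLinearGroup k M)}
    (hN : N ≤ GC G (sameActionSubgroup G σ₀))
    (hNn : ∀ g ∈ GC G (sameActionSubgroup G σ₀), ∀ n ∈ N, g * n * g⁻¹ ∈ N)
    (hno : ∀ A ∈ Comp G (sameActionSubgroup G σ₀), ¬ A ≤ N)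
    {σ : LinearMap.GeneralLinearGroup k M}
    (hσ : σ ∈ minimalQuadraticElements G)
    (hσP : sameActionSubgroup G σ ∈ Comp G (sameActionSubgroup G σ₀))
    {m e : LinearMap.GeneralLinearGroup k M} (hm : m ∈ N) (he : e ∈ sameActionSubgroup G σ) :
    m * e = e * m := by
  classical
  obtain ⟨S, hS⟩ : ∃ S : Set (LinearMap.GeneralLinearGroup k M),
      S = {x | ∃ n ∈ N, ∃ a ∈ sameActionSubgroup G σ, x = n * a * n⁻¹} := ⟨_, rfl⟩
  have hSmem : ∀ n ∈ N, ∀ a ∈ sameActionSubgroup G σ, n * a * n⁻¹ ∈ S := by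
    intro n hn a ha
    rw [hS]
    exact ⟨n, hn, a, ha, rfl⟩
  have hSelim : ∀ x ∈ S, ∃ n ∈ N, ∃ a ∈ sameActionSubgroup G σ, x = n * a * n⁻¹ := by
    intro x hx
    rw [hS] at hx
    exact hx
  -- the generators commute pairwise
  have hpair : ∀ x ∈ S, ∀ y ∈ S, x * y = y * x := by
    intro x hx y hy
    obtain ⟨n, hn, a, ha, rfl⟩ := hSelim x hx
    obtain ⟨n', hn', a', ha', rfl⟩ := hSelim y hy
    have h1 := comm_conj_of_normal hk2 hk3 hG hσ₀ hN hNn hno hσ hσP
      (N.mul_mem (N.inv_mem hn) hn')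
    have h2 : (n⁻¹ * n') * a' * (n⁻¹ * n')⁻¹ ∈
        Cfsg.conjBy (sameActionSubgroup G σ) (n⁻¹ * n') :=
      Subgroup.mem_map.2 ⟨a', ha', rfl⟩
    have h4 : a * ((n⁻¹ * n') * a' * (n⁻¹ * n')⁻¹) = ((n⁻¹ * n') * a' * (n⁻¹ * n')⁻¹) * a :=
      ((Subgroup.mem_centralizer_iff.1
        ((Subgroup.commutator_eq_bot_iff_le_centralizer.1 h1) ha)) _ h2).symm
    calc n * a * n⁻¹ * (n' * a' * n'⁻¹)
        = n * (a * ((n⁻¹ * n') * a' * (n⁻¹ * n')⁻¹)) * n⁻¹ := by group
      _ = n * (((n⁻¹ * n') * a' * (n⁻¹ * n')⁻¹) * a) * n⁻¹ := by rw [h4]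
      _ = n' * a' * n'⁻¹ * (n * a * n⁻¹) := by group
  -- the closure is commutative
  have hVc : ∀ a ∈ Subgroup.closure S, ∀ b ∈ Subgroup.closure S, a * b = b * a := by
    have h1 : ∀ a ∈ S, ∀ b ∈ Subgroup.closure S, a * b = b * a := by
      intro a ha b hb
      have hle : Subgroup.closure S ≤
          Subgroup.centralizer ({a} : Set (LinearMap.GeneralLinearGroup k M)) := by
        rw [Subgroup.closure_le]
        intro s hs
        rw [SetLike.mem_coe, Subgroup.mem_centralizer_iff]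
        intro h hh
        rw [Set.mem_singleton_iff] at hh
        rw [hh]
        exact hpair a ha s hs
      exact (Subgroup.mem_centralizer_iff.1 (hle hb)) a rfl
    intro a ha b hb
    have hle : Subgroup.closure S ≤
        Subgroup.centralizer ({b} : Set (LinearMap.GeneralLinearGroup k M)) := by
      rw [Subgroup.closure_le]
      intro s hs
      rw [SetLike.mem_coe, Subgroup.mem_centralizer_iff]
      intro h hh
      rw [Set.mem_singleton_iff] at hh
      rw [hh]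
      exact (h1 s hs b hb).symm
    exact ((Subgroup.mem_centralizer_iff.1 (hle ha)) b rfl).symm
  -- its elements are unipotent
  have hVu : ∀ a ∈ Subgroup.closure S, IsNilpotent (nl a) := by
    apply unip_of_comm_closure S _ hVc
    intro x hx
    obtain ⟨n, hn, a, ha, rfl⟩ := hSelim x hx
    refine ⟨2, ?_⟩
    rw [pow_two, nl_conj]
    have h1 : ((n⁻¹ : LinearMap.GeneralLinearGroup k M) : M →ₗ[k] M) * (n : M →ₗ[k] M) = 1 := by
      rw [← Units.val_mul, inv_mul_cancel, Units.val_one]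
    calc (n : M →ₗ[k] M) * nl a * ((n⁻¹ : LinearMap.GeneralLinearGroup k M) : M →ₗ[k] M) *
          ((n : M →ₗ[k] M) * nl a * ((n⁻¹ : LinearMap.GeneralLinearGroup k M) : M →ₗ[k] M))
        = (n : M →ₗ[k] M) * nl a *
          (((n⁻¹ : LinearMap.GeneralLinearGroup k M) : M →ₗ[k] M) * (n : M →ₗ[k] M)) * nl a *
          ((n⁻¹ : LinearMap.GeneralLinearGroup k M) : M →ₗ[k] M) := by noncomm_ring
      _ = 0 := by
        rw [h1, mul_one, mul_assoc (n : M →ₗ[k] M), mul_zero_of_mem hσ ha ha, mul_zero, zero_mul]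
  -- `N` normalizes the closure
  have hVn : ∀ n ∈ N, ∀ a ∈ Subgroup.closure S, n * a * n⁻¹ ∈ Subgroup.closure S := by
    intro n hn a ha
    induction ha using Subgroup.closure_induction with
    | mem x hx =>
      obtain ⟨n', hn', a', ha', rfl⟩ := hSelim x hx
      apply Subgroup.subset_closure
      have e1 : n * (n' * a' * n'⁻¹) * n⁻¹ = (n * n') * a' * (n * n')⁻¹ := by group
      rw [e1]
      exact hSmem _ (N.mul_mem hn hn') a' ha'
    | one =>
      have e1 : n * (1 : LinearMap.GeneralLinearGroup k M) * n⁻¹ = 1 := by group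
      rw [e1]
      exact Subgroup.one_mem _
    | mul x y hx hy ihx ihy =>
      have e1 : n * (x * y) * n⁻¹ = (n * x * n⁻¹) * (n * y * n⁻¹) := by group
      rw [e1]
      exact Subgroup.mul_mem _ ihx ihy
    | inv x hx ih =>
      have e1 : n * x⁻¹ * n⁻¹ = (n * x * n⁻¹)⁻¹ := by group
      rw [e1]
      exact Subgroup.inv_mem _ ih
  have h0 : (⨆ B ∈ Cfsg.quadraticRootSubgroups G, B) ≤ G := by
    apply iSup₂_le
    intro B hB
    obtain ⟨τ, hτ, rfl⟩ := hB
    exact subgroup_le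
  have hbot : Subgroup.closure S ⊓ N = ⊥ :=
    inf_eq_bot_of_subnormal hG.1 h0 g0_normal gc_le_g0 (gc_normal hk2 hk3 hG hσ₀) hN hNn
      hVc hVu hVn
  have hx : e⁻¹ * (m * e * m⁻¹) ∈ Subgroup.closure S ⊓ N := by
    refine Subgroup.mem_inf.2 ⟨?_, ?_⟩
    · apply Subgroup.mul_mem
      · apply Subgroup.subset_closure
        have e1 : e⁻¹ = 1 * e⁻¹ * (1 : LinearMap.GeneralLinearGroup k M)⁻¹ := by group
        rw [e1]
        exact hSmem 1 N.one_mem e⁻¹ (Subgroup.inv_mem _ he)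
      · apply Subgroup.subset_closure
        exact hSmem m hm e he
    · have h1 : e⁻¹ * m * e⁻¹⁻¹ ∈ N := hNn e⁻¹ (le_gc hσP (Subgroup.inv_mem _ he)) m hm
      have e1 : e⁻¹ * (m * e * m⁻¹) = (e⁻¹ * m * e⁻¹⁻¹) * m⁻¹ := by group
      rw [e1]
      exact N.mul_mem h1 (N.inv_mem hm)
  rw [hbot, Subgroup.mem_bot] at hx
  calc m * e = e * (e⁻¹ * (m * e * m⁻¹)) * m := by group
    _ = e * m := by rw [hx, mul_one]

/-- V-N2: the normal subgroups of the group generated by a component -/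
theorem normal_sub (hk2 : ringChar k ≠ 2) (hk3 : Nat.card k ≠ 3)
    (hG : Cfsg.IsQuadraticPair G) (hσ₀ : σ₀ ∈ minimalQuadraticElements G)
    (N : Subgroup (LinearMap.GeneralLinearGroup k M))
    (hN : N ≤ GC G (sameActionSubgroup G σ₀))
    (hNn : ∀ g ∈ GC G (sameActionSubgroup G σ₀), ∀ n ∈ N, g * n * g⁻¹ ∈ N) :
    N = GC G (sameActionSubgroup G σ₀) ∨
      N ≤ Subgroup.centralizer ((GC G (sameActionSubgroup G σ₀) :
        Subgroup (LinearMap.GeneralLinearGroup k M)) : Set (LinearMap.GeneralLinearGroup k M)) := by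
  classical
  by_cases hex : ∃ A ∈ Comp G (sameActionSubgroup G σ₀), A ≤ N
  · left
    obtain ⟨A, hA, hAN⟩ := hex
    apply le_antisymm hN
    apply iSup₂_le
    intro B hB
    obtain ⟨g, hg, rfl⟩ := exists_conj hσ₀ hA hB
    intro x hx
    obtain ⟨a, ha, rfl⟩ := Subgroup.mem_map.1 hx
    exact hNn g hg a (hAN ha)
  · right
    have hno : ∀ A ∈ Comp G (sameActionSubgroup G σ₀), ¬ A ≤ N := by
      intro A hA hAN
      exact hex ⟨A, hA, hAN⟩
    rw [Subgroup.le_centralizer_iff]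
    apply iSup₂_le
    intro B hB
    obtain ⟨σ, hσ, rfl⟩ : B ∈ Cfsg.quadraticRootSubgroups G := hB.1
    intro e he
    rw [Subgroup.mem_centralizer_iff]
    intro m hm
    exact n2_comm_aux hk2 hk3 hG hσ₀ hN hNn hno hσ hB hm he

end Cfsg.Agent.Lib.Helper50.QV
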