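import Cfsg.Agent.Lib.Helper50.QvPerf
import Cfsg.Agent.Lib.Helper50.QtIso
import Cfsg.Agent.Lib.Helper50.QtComm

/-!
# S5074 foundation (helper50): `G = G₀ · C_G(G₀)` for a quadratic pair

`psi P S m` is the action of a `2 × 2` matrix `m` over `k` through the matrix units
`PS, P, SPS, SP` (for `P² = 0 = S²`, `PSP = P`), extended by the identity.
-/

set_option autoImplicit false

namespace Cfsg.Agent.Lib.Helper50.QW

open Cfsg

universe u v

variable {k : Type u} [Field k] {M : Type v} [AddCommGroup M] [Module k M]

/-- the action of a `2 × 2` matrix through the matrix units `PS, P, SPS, SP` -/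
def psi (P S : Module.End k M) (m : Matrix (Fin 2) (Fin 2) k) : Module.End k M :=
  1 + (m 0 0 - 1) • (P * S) + m 0 1 • P + m 1 0 • (S * P * S) + (m 1 1 - 1) • (S * P)

end Cfsg.Agent.Lib.Helper50.QW
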