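import Cfsg.Agent.Lib.Helper50.QwBase

/-!
# S5074 piece W-FAM (helper50): the scalar families of `STS` and `ST - TS`

Stated relative to a subgroup `K` containing `a` and normalized by `G` (for S5063); the
versions for `K = G` are `fam_STS`, `fam_comm`.
-/

set_option autoImplicit false

namespace Cfsg.Agent.Lib.Helper50.QW

open Polynomial Cfsg Cfsg.Agent.Lib.Helper50.QR Cfsg.Agent.Lib.Helper50.QP

universe u v

variable {k : Type u} [Field k] {M : Type v} [AddCommGroup M] [Module k M]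

/-- ring computation: `a⁻¹ x_c a x_c⁻¹ = 1 + cY - c²X` -/
theorem fam_alg1 {R : Type*} [Ring R] [Algebra k R] {T S : R} (hT : T * T = 0) (hS : S * S = 0)
    (hTST : T * S * T = 0) (c : k) :
    (1 - T) * ((1 + c • S) * (1 + T) * (1 - c • S)) =
      1 + c • (S * T - T * S) - (c * c) • (S * T * S) := by
  have hT' : ∀ Z : R, T * (T * Z) = 0 := fun Z => by rw [← mul_assoc, hT, zero_mul]
  have hS' : ∀ Z : R, S * (S * Z) = 0 := fun Z => by rw [← mul_assoc, hS, zero_mul]
  have hTST1 : T * (S * T) = 0 := by rw [← mul_assoc, hTST]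
  have hTST' : ∀ Z : R, T * (S * (T * Z)) = 0 := fun Z => by
    rw [← mul_assoc, ← mul_assoc, hTST, zero_mul]
  simp only [mul_add, add_mul, mul_sub, sub_mul, mul_one, one_mul, smul_mul_assoc,
    mul_smul_comm, smul_sub, smul_add, mul_assoc, hT, hS, hT', hS', hTST1, hTST', smul_zero,
    mul_zero]
  module

/-- ring computation: `(1 + eY - e²X)(1 - eY - e²X) = 1 - 2e²X` -/
theorem fam_alg2 {R : Type*} [Ring R] [Algebra k R] {Y X : R} (hYY : Y * Y = 0)
    (hXY : X * Y = 0) (hYX : Y * X = 0) (hXX : X * X = 0) (e : k) :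
    (1 + e • Y - (e * e) • X) * (1 + (-e) • Y - ((-e) * (-e)) • X) =
      1 + (-(2 * e * e)) • X := by
  simp only [mul_add, add_mul, mul_sub, sub_mul, mul_one, one_mul, smul_mul_assoc,
    mul_smul_comm, hYY, hXY, hYX, hXX, smul_zero]
  module

/-- ring computation: `(1 + pX)(1 - qX) = 1 + (p - q)X` -/
theorem fam_alg3 {R : Type*} [Ring R] [Algebra k R] {X : R} (hXX : X * X = 0) (p q : k) :
    (1 + p • X) * (1 - q • X) = 1 + (p - q) • X := by
  simp only [mul_add, add_mul, mul_sub, sub_mul, mul_one, one_mul, smul_mul_assoc,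
    mul_smul_comm, hXX, smul_zero]
  module

/-- ring computation: `Y = ST - TS`, `X = STS` square to zero and annihilate each other -/
theorem fam_alg4 {R : Type*} [Ring R] {T S : R} (hT : T * T = 0) (hS : S * S = 0)
    (hTST : T * S * T = 0) :
    (S * T - T * S) * (S * T - T * S) = 0 ∧ S * T * S * (S * T - T * S) = 0 ∧
    (S * T - T * S) * (S * T * S) = 0 ∧ S * T * S * (S * T * S) = 0 := by
  refine ⟨?_, ?_, ?_, ?_⟩
  · have : (S * T - T * S) * (S * T - T * S) =
        S * (T * S * T) - S * (T * T) * S - T * (S * S) * T + T * S * T * S := by noncomm_ring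
    rw [this, hTST, hS, hT]; simp
  · have : S * T * S * (S * T - T * S) = S * T * (S * S) * T - S * (T * S * T) * S := by
      noncomm_ring
    rw [this, hS, hTST]; simp
  · have : (S * T - T * S) * (S * T * S) = S * (T * S * T) * S - T * (S * S) * T * S := by
      noncomm_ring
    rw [this, hS, hTST]; simp
  · have : S * T * S * (S * T * S) = S * T * (S * S) * T * S := by noncomm_ring
    rw [this, hS]; simp

/-- the commutator elements `a⁻¹ x_c a x_c⁻¹ = 1 + cY - c²X` of `K` -/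
theorem fam_elt {G K : Subgroup (LinearMap.GeneralLinearGroup k M)}
    {a x : LinearMap.GeneralLinearGroup k M}
    (hKn : ∀ g ∈ G, ∀ z ∈ K, g * z * g⁻¹ ∈ K) (ha : a ∈ K) (hx : x ∈ quadraticElements G)
    (hT : nl a * nl a = 0) (hTST : nl a * nl x * nl a = 0) (c : k) :
    ∃ g ∈ K, (g : Module.End k M) =
      1 + c • (nl x * nl a - nl a * nl x) - (c * c) • (nl x * nl a * nl x) := by
  have hS : nl x * nl x = 0 := quad_sq hx.2.1
  have hxc : mkU (c • nl x) (smul_sq hS c) ∈ G := mkU_smul_mem hx c _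
  refine ⟨a⁻¹ * (mkU (c • nl x) (smul_sq hS c) * a * (mkU (c • nl x) (smul_sq hS c))⁻¹),
    K.mul_mem (K.inv_mem ha) (hKn _ hxc a ha), ?_⟩
  rw [Units.val_mul, Units.val_mul, Units.val_mul, coe_inv_of_sq a hT, coe_eq a]
  have e1 : ((mkU (c • nl x) (smul_sq hS c) : LinearMap.GeneralLinearGroup k M) :
      Module.End k M) = 1 + c • nl x := rfl
  have e2 : (((mkU (c • nl x) (smul_sq hS c))⁻¹ : LinearMap.GeneralLinearGroup k M) :
      Module.End k M) = 1 - c • nl x := rfl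
  rw [e1, e2]
  exact fam_alg1 hT hS hTST c

theorem fam_comm_gen {G K : Subgroup (LinearMap.GeneralLinearGroup k M)}
    {a x : LinearMap.GeneralLinearGroup k M}
    (hKn : ∀ g ∈ G, ∀ z ∈ K, g * z * g⁻¹ ∈ K) (ha : a ∈ K) (hx : x ∈ quadraticElements G)
    (hT : nl a * nl a = 0) (hTST : nl a * nl x * nl a = 0) (hSTS : nl x * nl a * nl x = 0) :
    Fam K (nl x * nl a - nl a * nl x) := by
  have hS : nl x * nl x = 0 := quad_sq hx.2.1
  refine ⟨(fam_alg4 hT hS hTST).1, fun c => ?_⟩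
  obtain ⟨g, hg, e⟩ := fam_elt hKn ha hx hT hTST c
  refine ⟨g, hg, ?_⟩
  rw [e, hSTS, smul_zero, sub_zero]

theorem fam_STS_gen (h2 : (2 : k) ≠ 0) {G K : Subgroup (LinearMap.GeneralLinearGroup k M)}
    {a x : LinearMap.GeneralLinearGroup k M}
    (hKn : ∀ g ∈ G, ∀ z ∈ K, g * z * g⁻¹ ∈ K) (ha : a ∈ K) (hx : x ∈ quadraticElements G)
    (hT : nl a * nl a = 0) (hTST : nl a * nl x * nl a = 0) :
    Fam K (nl x * nl a * nl x) := by
  have hS : nl x * nl x = 0 := quad_sq hx.2.1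
  obtain ⟨hYY, hXY, hYX, hXX⟩ := fam_alg4 hT hS hTST
  -- the elements `1 - 2e²X`
  have hstep : ∀ e : k, ∃ g ∈ K, (g : Module.End k M) =
      1 + (-(2 * e * e)) • (nl x * nl a * nl x) := by
    intro e
    obtain ⟨g1, hg1, e1⟩ := fam_elt hKn ha hx hT hTST e
    obtain ⟨g2, hg2, e2⟩ := fam_elt hKn ha hx hT hTST (-e)
    refine ⟨g1 * g2, K.mul_mem hg1 hg2, ?_⟩
    rw [Units.val_mul, e1, e2]
    exact fam_alg2 hYY hXY hYX hXX e
  refine ⟨hXX, fun c => ?_⟩
  obtain ⟨g1, hg1, e1⟩ := hstep ((-c / 2 + 1) / 2)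
  obtain ⟨g2, hg2, e2⟩ := hstep ((-c / 2 - 1) / 2)
  refine ⟨g1 * g2⁻¹, K.mul_mem hg1 (K.inv_mem hg2), ?_⟩
  have hnl2 : nl g2 = (-(2 * ((-c / 2 - 1) / 2) * ((-c / 2 - 1) / 2))) • (nl x * nl a * nl x) := by
    rw [nl_def, e2, add_sub_cancel_left]
  have hsq2 : nl g2 * nl g2 = 0 := by
    rw [hnl2]
    exact smul_sq hXX _
  rw [Units.val_mul, coe_inv_of_sq g2 hsq2, e1, hnl2, fam_alg3 hXX]
  congr 2
  field_simp
  ring

theorem fam_STS (h2 : (2 : k) ≠ 0) {G : Subgroup (LinearMap.GeneralLinearGroup k M)}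
    {a x : LinearMap.GeneralLinearGroup k M} (ha : a ∈ G) (hx : x ∈ quadraticElements G)
    (hT : nl a * nl a = 0) (hTST : nl a * nl x * nl a = 0) :
    Fam G (nl x * nl a * nl x) :=
  fam_STS_gen h2 (fun g hg z hz => G.mul_mem (G.mul_mem hg hz) (G.inv_mem hg)) ha hx hT hTST

theorem fam_comm {G : Subgroup (LinearMap.GeneralLinearGroup k M)}
    {a x : LinearMap.GeneralLinearGroup k M} (ha : a ∈ G) (hx : x ∈ quadraticElements G)
    (hT : nl a * nl a = 0) (hTST : nl a * nl x * nl a = 0) (hSTS : nl x * nl a * nl x = 0) :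
    Fam G (nl x * nl a - nl a * nl x) :=
  fam_comm_gen (fun g hg z hz => G.mul_mem (G.mul_mem hg hz) (G.inv_mem hg)) ha hx hT hTST hSTS

end Cfsg.Agent.Lib.Helper50.QW
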