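import Cfsg.Agent.Lib.Helper50.QwBase

/-!
# S5074 piece W-HT (helper50): the torus element is `psi P S [[t, t⁻¹ - t], [0, t⁻¹]]`
-/

set_option autoImplicit false

namespace Cfsg.Agent.Lib.Helper50.QW

open Cfsg

universe u v

variable {k : Type u} [Field k] {M : Type v} [AddCommGroup M] [Module k M]

theorem torus_eq_psi {T S P h : Module.End k M} (hT : T * T = 0) (hS : S * S = 0)
    (hPP : P * P = 0) (hPSP : P * S * P = P) (hTSP : T * S * P = T) (hTP : T * P = 0)
    (hPST : ∀ m, P (S (T m)) = T m) (hPker : ∀ m, T m = 0 → P m = 0)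
    (hPran : ∀ m, ∃ m', P m = T m') {t : k} (ht : t ≠ 0)
    (hA : ∀ m, h (T m) = t • T m)
    (hB : ∀ m, h (((1 + S) * T * (1 - S)) m) = t⁻¹ • ((1 + S) * T * (1 - S)) m)
    (hC : ∀ m, T m = 0 → ((1 + S) * T * (1 - S)) m = 0 → h m = m) :
    h = psi P S !![t, t⁻¹ - t; 0, t⁻¹] := by
  have hTT : ∀ x, T (T x) = 0 := fun x => by
    have h1 := LinearMap.congr_fun hT x
    simpa using h1
  have hSS : ∀ x, S (S x) = 0 := fun x => by
    have h1 := LinearMap.congr_fun hS x
    simpa using h1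
  have hTSP' : ∀ x, T (S (P x)) = T x := fun x => by
    have h1 := LinearMap.congr_fun hTSP x
    simpa using h1
  have hTP' : ∀ x, T (P x) = 0 := fun x => by
    have h1 := LinearMap.congr_fun hTP x
    simpa using h1
  have hψ : ∀ x, psi P S !![t, t⁻¹ - t; 0, t⁻¹] x =
      x + (t - 1) • P (S x) + (t⁻¹ - t) • P x + (t⁻¹ - 1) • S (P x) := by
    intro x
    simp [psi]
  -- on `range T`
  have ψA : ∀ x, psi P S !![t, t⁻¹ - t; 0, t⁻¹] (T x) = t • T x := by
    intro x
    rw [hψ, hPST, hPker (T x) (hTT x), map_zero]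
    module
  -- on `range ((1 + S) T)`
  have ψB : ∀ x, psi P S !![t, t⁻¹ - t; 0, t⁻¹] (T x + S (T x)) = t⁻¹ • (T x + S (T x)) := by
    intro x
    have h1 : S (T x + S (T x)) = S (T x) := by rw [map_add, hSS, add_zero]
    have h2 : P (T x + S (T x)) = T x := by
      rw [map_add, hPker (T x) (hTT x), hPST, zero_add]
    rw [hψ, h1, h2, hPST]
    module
  have hhB : ∀ x, h (T x + S (T x)) = t⁻¹ • (T x + S (T x)) := by
    intro x
    have h1 := hB (x + S x)
    have h2 : ((1 + S) * T * (1 - S)) (x + S x) = T x + S (T x) := by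
      simp only [Module.End.mul_apply, LinearMap.add_apply, LinearMap.sub_apply,
        Module.End.one_apply, map_add, map_sub, hSS, map_zero]
      abel
    rw [h2] at h1
    exact h1
  -- on the common kernel
  have ψC : ∀ c, T c = 0 → T (S c) = 0 → psi P S !![t, t⁻¹ - t; 0, t⁻¹] c = c := by
    intro c h1 h2
    rw [hψ, hPker c h1, hPker (S c) h2, map_zero]
    module
  have hhC : ∀ c, T c = 0 → T (S c) = 0 → h c = c := by
    intro c h1 h2
    apply hC c h1
    simp only [Module.End.mul_apply, LinearMap.add_apply, LinearMap.sub_apply,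
      Module.End.one_apply, map_sub, h1, h2, map_zero, sub_zero, add_zero]
  apply LinearMap.ext
  intro m
  obtain ⟨m', hm'⟩ := hPran m
  obtain ⟨m'', hm''⟩ := hPran (S m)
  have hc1 : T (m - P (S m) - S (P m)) = 0 := by
    rw [map_sub, map_sub, hTP', hTSP']
    abel
  have hc2 : T (S (m - P (S m) - S (P m))) = 0 := by
    rw [map_sub, map_sub, map_sub, map_sub, hTSP', hSS, map_zero]
    abel
  have hm : m = T (m'' - m') + (T m' + S (T m')) + (m - P (S m) - S (P m)) := by
    rw [map_sub, ← hm', ← hm'']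
    abel
  have hsum : ∀ a b c : M, h a = psi P S !![t, t⁻¹ - t; 0, t⁻¹] a →
      h b = psi P S !![t, t⁻¹ - t; 0, t⁻¹] b → h c = psi P S !![t, t⁻¹ - t; 0, t⁻¹] c →
      h (a + b + c) = psi P S !![t, t⁻¹ - t; 0, t⁻¹] (a + b + c) := by
    intro a b c h1 h2 h3
    rw [map_add, map_add, map_add, map_add, h1, h2, h3]
  rw [hm]
  exact hsum _ _ _ (by rw [hA, ψA]) (by rw [hhB, ψB]) (by rw [hhC _ hc1 hc2, ψC _ hc1 hc2])

end Cfsg.Agent.Lib.Helper50.QW
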