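import Cfsg.Agent.Lib.Helper50.QwRank

/-!
# S5074 piece W-NIL (helper50): a unipotent mixed pair has `TST = 0`

`a ∈ 𝒬_d` (`T = nl a`), `x ∈ 𝒬(G)` (`S = nl x`): if `TS` is not injective on `range T`,
then `TST = 0`.
-/

set_option autoImplicit false

namespace Cfsg.Agent.Lib.Helper50.QW

open Polynomial Cfsg Cfsg.Agent.Lib.Helper50.QR Cfsg.Agent.Lib.Helper50.QP
  Cfsg.Agent.Lib.Helper50.QS

universe u v

variable {k : Type u} [Field k] {M : Type v} [AddCommGroup M] [Module k M]

/-- a non-zero scalar family of `G` gives a quadratic element of `G` -/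
theorem quad_of_fam {G : Subgroup (LinearMap.GeneralLinearGroup k M)}
    {Y : Module.End k M} (hY : Fam G Y) (hY0 : Y ≠ 0) :
    mkU Y hY.1 ∈ quadraticElements G := by
  refine ⟨?_, ⟨?_, ?_⟩, ?_⟩
  · obtain ⟨g, hg, e⟩ := hY.2 1
    have : mkU Y hY.1 = g := by
      apply Units.ext
      rw [e, one_smul]
      rfl
    rw [this]
    exact hg
  · show nl (mkU Y hY.1) * nl (mkU Y hY.1) = 0
    rw [nl_mkU]
    exact hY.1
  · show nl (mkU Y hY.1) ≠ 0
    rw [nl_mkU]
    exact hY0
  · rintro t ⟨c, ht⟩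
    obtain ⟨g, hg, e⟩ := hY.2 c
    have : t = g := by
      apply Units.ext
      rw [e, ht]
      show 1 + c • nl (mkU Y hY.1) = 1 + c • Y
      rw [nl_mkU]
    rw [this]
    exact hg

/-- ring computation: the commutator of `T` with `(1 + cS) T (1 - cS)` -/
theorem nil_comm_alg {R : Type*} [Ring R] [Algebra k R] {T S : R} (hT : T * T = 0) (c : k) :
    T * ((1 + c • S) * T * (1 - c • S)) - ((1 + c • S) * T * (1 - c • S)) * T =
      (2 * c) • (T * S * T) + (c * c) • (S * T * S * T - T * S * T * S) := by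
  have hT' : ∀ X : R, T * (T * X) = 0 := fun X => by rw [← mul_assoc, hT, zero_mul]
  simp only [mul_add, add_mul, mul_sub, sub_mul, mul_one, one_mul, smul_mul_assoc,
    mul_smul_comm, smul_sub, smul_add, mul_assoc, hT, hT', smul_zero, mul_zero]
  module

/-- ring computation: the four products of `Z = TST` and `N = STST - TSTS` vanish -/
theorem nil_ZN_alg {R : Type*} [Ring R] {T S : R} (hT : T * T = 0) (hS : S * S = 0)
    (h5 : T * S * T * S * T = 0) :
    T * S * T * (T * S * T) = 0 ∧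
    T * S * T * (S * T * S * T - T * S * T * S) = 0 ∧
    (S * T * S * T - T * S * T * S) * (T * S * T) = 0 ∧
    (S * T * S * T - T * S * T * S) * (S * T * S * T - T * S * T * S) = 0 := by
  refine ⟨?_, ?_, ?_, ?_⟩
  · have : T * S * T * (T * S * T) = T * S * (T * T) * S * T := by noncomm_ring
    rw [this, hT]; simp
  · have : T * S * T * (S * T * S * T - T * S * T * S) =
        T * S * T * S * T * S * T - T * S * (T * T) * S * T * S := by noncomm_ring
    rw [this, hT, h5]; simp
  · have : (S * T * S * T - T * S * T * S) * (T * S * T) =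
        S * T * S * (T * T) * S * T - T * S * (T * S * T * S * T) := by noncomm_ring
    rw [this, hT, h5]; simp
  · have : (S * T * S * T - T * S * T * S) * (S * T * S * T - T * S * T * S) =
        S * (T * S * T * S * T) * S * T - S * T * S * (T * T) * S * T * S
          - T * S * T * (S * S) * T * S * T + T * S * T * S * T * S * T * S := by noncomm_ring
    rw [this, hT, hS, h5]; simp

/-- ring computation: `(1 + 2cZ + c²N)(1 - (-2cZ + c²N)) = 1 + 4cZ` -/
theorem nil_prod_alg {R : Type*} [Ring R] [Algebra k R] {Z N : R} (hZZ : Z * Z = 0)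
    (hZN : Z * N = 0) (hNZ : N * Z = 0) (hNN : N * N = 0) (c : k) :
    (1 + ((2 * c) • Z + (c * c) • N)) * (1 - ((2 * (-c)) • Z + ((-c) * (-c)) • N)) =
      1 + (4 * c) • Z := by
  simp only [mul_add, add_mul, mul_sub, mul_one, one_mul, smul_mul_assoc,
    mul_smul_comm, hZZ, hZN, hNZ, hNN, smul_zero]
  module

variable [FiniteDimensional k M]

theorem mixed_nil (hk2 : ringChar k ≠ 2) (hk3 : Nat.card k ≠ 3)
    {G : Subgroup (LinearMap.GeneralLinearGroup k M)}
    {a x : LinearMap.GeneralLinearGroup k M} (ha : a ∈ minimalQuadraticElements G)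
    (hx : x ∈ quadraticElements G) {m₀ : M} (h0 : nl a (nl x (nl a m₀)) = 0)
    (h1 : nl a m₀ ≠ 0) :
    nl a * nl x * nl a = 0 := by
  have h2 : (2 : k) ≠ 0 := Ring.two_ne_zero hk2
  have h4 : (4 : k) ≠ 0 := by
    have : (4 : k) = 2 * 2 := by norm_num
    rw [this]
    exact mul_ne_zero h2 h2
  have hT : nl a * nl a = 0 := quad_sq ha.1.2.1
  have hS : nl x * nl x = 0 := quad_sq hx.2.1
  have hxc : ∀ c : k, mkU (c • nl x) (smul_sq hS c) ∈ G := fun c => mkU_smul_mem hx c _
  have hb : ∀ c : k, mkU (c • nl x) (smul_sq hS c) * a * (mkU (c • nl x) (smul_sq hS c))⁻¹ ∈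
      minimalQuadraticElements G := fun c => conj_min ha (hxc c)
  have hnlb : ∀ c : k,
      nl (mkU (c • nl x) (smul_sq hS c) * a * (mkU (c • nl x) (smul_sq hS c))⁻¹) =
        (1 + c • nl x) * nl a * (1 - c • nl x) := by
    intro c
    rw [nl_conj]
    rfl
  have hnil : ∀ c : k, IsNilpotent (zz (nl a)
      (nl (mkU (c • nl x) (smul_sq hS c) * a * (mkU (c • nl x) (smul_sq hS c))⁻¹))) := by
    intro c
    by_contra hnz
    have hbot := (spaces_of_nonnil hk2 hk3 ha (hb c) hnz).1
    have hmem : nl a m₀ ∈ LinearMap.range (nl a) ⊓ LinearMap.ker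
        (nl (mkU (c • nl x) (smul_sq hS c) * a * (mkU (c • nl x) (smul_sq hS c))⁻¹)) := by
      refine ⟨⟨m₀, rfl⟩, ?_⟩
      rw [SetLike.mem_coe, LinearMap.mem_ker, hnlb]
      show (1 + c • nl x) (nl a ((1 - c • nl x) (nl a m₀))) = 0
      have e1 : nl a (nl a m₀) = 0 := by
        rw [← Module.End.mul_apply, hT, LinearMap.zero_apply]
      have e2 : nl a ((1 - c • nl x) (nl a m₀)) = 0 := by
        rw [LinearMap.sub_apply, map_sub, Module.End.one_apply, e1, LinearMap.smul_apply,
          map_smul, h0, smul_zero, sub_zero]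
      rw [e2, map_zero]
    rw [hbot, Submodule.mem_bot] at hmem
    exact h1 hmem
  have h5 : nl a * nl x * nl a * nl x * nl a = 0 := by
    have h := (pair_nil h2 ha (hb 1) (hnil 1)).1
    rw [hnlb, one_smul] at h
    have e : nl a * ((1 + nl x) * nl a * (1 - nl x)) * nl a =
        (nl a * nl a) * (1 - nl x) * nl a + nl a * nl x * (nl a * nl a)
          - nl a * nl x * nl a * nl x * nl a := by noncomm_ring
    rw [e, hT] at h
    simpa using h
  obtain ⟨hZZ, hZN, hNZ, hNN⟩ := nil_ZN_alg hT hS h5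
  -- the commutators
  have hW : ∀ c : k,
      nl (a * (mkU (c • nl x) (smul_sq hS c) * a * (mkU (c • nl x) (smul_sq hS c))⁻¹) * a⁻¹ *
        (mkU (c • nl x) (smul_sq hS c) * a * (mkU (c • nl x) (smul_sq hS c))⁻¹)⁻¹) =
      (2 * c) • (nl a * nl x * nl a) +
        (c * c) • (nl x * nl a * nl x * nl a - nl a * nl x * nl a * nl x) := by
    intro c
    rw [(QT.comm_props h2 ha (hb c) (hnil c)).1, hnlb]
    exact nil_comm_alg hT c
  have hWG : ∀ c : k,
      a * (mkU (c • nl x) (smul_sq hS c) * a * (mkU (c • nl x) (smul_sq hS c))⁻¹) * a⁻¹ *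
        (mkU (c • nl x) (smul_sq hS c) * a * (mkU (c • nl x) (smul_sq hS c))⁻¹)⁻¹ ∈ G := by
    intro c
    have hbG := (hb c).1.1
    exact G.mul_mem (G.mul_mem (G.mul_mem ha.1.1 hbG) (G.inv_mem ha.1.1)) (G.inv_mem hbG)
  have hWsq : ∀ c : k,
      ((2 * c) • (nl a * nl x * nl a) +
        (c * c) • (nl x * nl a * nl x * nl a - nl a * nl x * nl a * nl x)) *
      ((2 * c) • (nl a * nl x * nl a) +
        (c * c) • (nl x * nl a * nl x * nl a - nl a * nl x * nl a * nl x)) = 0 := by
    intro c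
    simp only [mul_add, add_mul, smul_mul_assoc, mul_smul_comm, hZZ, hZN, hNZ, hNN, smul_zero,
      add_zero]
  have hF : Fam G (nl a * nl x * nl a) := by
    refine ⟨hZZ, fun c => ?_⟩
    refine ⟨_, G.mul_mem (hWG (c / 4)) (G.inv_mem (hWG (-(c / 4)))), ?_⟩
    rw [Units.val_mul, coe_inv_of_sq _ (by rw [hW]; exact hWsq _), coe_eq, hW, hW,
      nil_prod_alg hZZ hZN hNZ hNN]
    congr 2
    field_simp
  by_contra hZ
  have hq := quad_of_fam hF hZ
  have hle := ha.2 _ hq
  have hlt := rank_TST_lt (S := nl x) (T := nl a) h0 h1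
  have hle' : Module.finrank k (LinearMap.range (nl a)) ≤
      Module.finrank k (LinearMap.range (nl (mkU _ hF.1))) := hle
  rw [nl_mkU] at hle'
  omega

end Cfsg.Agent.Lib.Helper50.QW
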