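import Cfsg.Agent.Lib.Helper50.QwBase

/-!
# S5074 piece W-P (helper50): the partial inverse `P = λ⁻¹ T`, `λ = TS` on `range T`
-/

set_option autoImplicit false

namespace Cfsg.Agent.Lib.Helper50.QW

open Cfsg

universe u v

variable {k : Type u} [Field k] {M : Type v} [AddCommGroup M] [Module k M] [FiniteDimensional k M]

theorem exists_P {T S : Module.End k M} (hT : T * T = 0)
    (hII : ∀ m, T (S (T m)) = 0 → T m = 0) :
    ∃ P : Module.End k M, P * P = 0 ∧ P * S * P = P ∧ T * S * P = T ∧ T * P = 0 ∧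
      (∀ m, P (S (T m)) = T m) ∧ (∀ m, T m = 0 → P m = 0) ∧ (∀ m, ∃ m', P m = T m') := by
  classical
  -- `lam = T ∘ S` restricted to `range T`
  let R : Submodule k M := LinearMap.range T
  have hmaps : ∀ x ∈ R, (T * S) x ∈ R := fun x _ => ⟨S x, rfl⟩
  let lam : R →ₗ[k] R := (T * S).restrict hmaps
  have hlam_apply : ∀ x : R, ((lam x : R) : M) = T (S (x : M)) := fun x => rfl
  have hinj : Function.Injective lam := by
    rw [← LinearMap.ker_eq_bot, LinearMap.ker_eq_bot']
    intro x hx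
    obtain ⟨m, hm⟩ := x.2
    have h1 : T (S (x : M)) = 0 := by
      rw [← hlam_apply, hx]; rfl
    rw [← hm] at h1
    have h2 := hII m h1
    apply Subtype.ext
    rw [← hm, h2]; rfl
  let e : R ≃ₗ[k] R := LinearEquiv.ofInjectiveEndo lam hinj
  have he : ∀ x : R, e x = lam x := fun x => congrFun (LinearEquiv.coe_ofInjectiveEndo lam hinj) x
  -- `P = lam⁻¹ ∘ T`
  let P : Module.End k M := R.subtype ∘ₗ (e.symm : R →ₗ[k] R) ∘ₗ T.rangeRestrict
  have hP_apply : ∀ m, P m = ((e.symm (T.rangeRestrict m) : R) : M) := fun m => rfl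
  have hTSP : ∀ m, T (S (P m)) = T m := by
    intro m
    rw [hP_apply, ← hlam_apply, ← he, LinearEquiv.apply_symm_apply]
    rfl
  have hPran : ∀ m, ∃ m', P m = T m' := by
    intro m
    obtain ⟨m', hm'⟩ := (e.symm (T.rangeRestrict m)).2
    exact ⟨m', by rw [hP_apply, hm']⟩
  have hTT : ∀ m, T (T m) = 0 := fun m => by
    have := congrArg (fun f : Module.End k M => f m) hT
    simpa using this
  have hTP : ∀ m, T (P m) = 0 := by
    intro m
    obtain ⟨m', hm'⟩ := hPran m
    rw [hm', hTT]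
  have hPker : ∀ m, T m = 0 → P m = 0 := by
    intro m hm
    have h1 : T.rangeRestrict m = 0 := Subtype.ext hm
    rw [hP_apply, h1, map_zero]; rfl
  have hPST : ∀ m, P (S (T m)) = T m := by
    intro m
    rw [hP_apply]
    have h1 : T.rangeRestrict (S (T m)) = e ⟨T m, ⟨m, rfl⟩⟩ := by
      rw [he]
      apply Subtype.ext
      rw [hlam_apply]; rfl
    rw [h1, LinearEquiv.symm_apply_apply]
  refine ⟨P, ?_, ?_, ?_, ?_, hPST, hPker, hPran⟩
  · ext m
    show P (P m) = 0
    exact hPker _ (hTP m)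
  · ext m
    show P (S (P m)) = P m
    obtain ⟨m', hm'⟩ := hPran m
    rw [hm', hPST]
  · ext m
    show T (S (P m)) = T m
    exact hTSP m
  · ext m
    show T (P m) = 0
    exact hTP m

end Cfsg.Agent.Lib.Helper50.QW
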