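import Cfsg.Agent.Lib.Helper50.QwBase

/-!
# S5074 piece W-RK (helper50): rank lemmas, part 1
-/

set_option autoImplicit false

namespace Cfsg.Agent.Lib.Helper50.QW

open Cfsg

universe u v

variable {k : Type u} [Field k] {M : Type v} [AddCommGroup M] [Module k M] [FiniteDimensional k M]

theorem rank_STS (S T : Module.End k M) :
    Module.finrank k (LinearMap.range (S * T * S)) ≤ Module.finrank k (LinearMap.range T) := by
  have h1 : LinearMap.range (S * T * S) ≤ (LinearMap.range T).map S := by
    rintro _ ⟨m, rfl⟩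
    exact ⟨T (S m), ⟨S m, rfl⟩, rfl⟩
  exact (Submodule.finrank_mono h1).trans (Submodule.finrank_map_le S (LinearMap.range T))

theorem range_add_STS {S T : Module.End k M} (hTST : T * S * T = 0) :
    LinearMap.range (S + S * T * S) = LinearMap.range S := by
  apply le_antisymm
  · rintro _ ⟨m, rfl⟩
    refine ⟨m + T (S m), ?_⟩
    simp [map_add]
  · have hkey : S = (S + S * T * S) * (1 - T * S) := by
      have h2 : S * T * S * (T * S) = S * (T * S * T) * S := by simp only [mul_assoc]
      calc S = S - S * (T * S * T) * S := by rw [hTST]; simp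
        _ = (S + S * T * S) * (1 - T * S) := by
            rw [← h2]; noncomm_ring
    rintro _ ⟨m, rfl⟩
    refine ⟨(1 - T * S) m, ?_⟩
    conv_rhs => rw [hkey]
    rfl

theorem rank_TST_lt {S T : Module.End k M} {m₀ : M} (h0 : T (S (T m₀)) = 0) (h1 : T m₀ ≠ 0) :
    Module.finrank k (LinearMap.range (T * S * T)) < Module.finrank k (LinearMap.range T) := by
  let f : LinearMap.range T →ₗ[k] M := (T * S).domRestrict (LinearMap.range T)
  have hrange : LinearMap.range f = LinearMap.range (T * S * T) := by
    ext y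
    constructor
    · rintro ⟨⟨x, ⟨m, rfl⟩⟩, rfl⟩
      exact ⟨m, rfl⟩
    · rintro ⟨m, rfl⟩
      exact ⟨⟨T m, ⟨m, rfl⟩⟩, rfl⟩
  have hker : LinearMap.ker f ≠ ⊥ := by
    intro hbot
    have hmem : (⟨T m₀, ⟨m₀, rfl⟩⟩ : LinearMap.range T) ∈ LinearMap.ker f := by
      rw [LinearMap.mem_ker]
      exact h0
    rw [hbot, Submodule.mem_bot] at hmem
    exact h1 (congrArg Subtype.val hmem)
  have hpos : 0 < Module.finrank k (LinearMap.ker f) := by
    rcases Nat.eq_zero_or_pos (Module.finrank k (LinearMap.ker f)) with h | h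
    · exact absurd (Submodule.finrank_eq_zero.mp h) hker
    · exact h
  have hrn := LinearMap.finrank_range_add_finrank_ker f
  rw [hrange] at hrn
  omega

end Cfsg.Agent.Lib.Helper50.QW
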