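import Cfsg.Agent.Lib.Helper50.QwBase

/-!
# S5074 piece W-RK2 (helper50): rank lemmas, part 2
-/

set_option autoImplicit false

namespace Cfsg.Agent.Lib.Helper50.QW

open Cfsg

universe u v

variable {k : Type u} [Field k] {M : Type v} [AddCommGroup M] [Module k M] [FiniteDimensional k M]

theorem rank_split {S P : Module.End k M} (hS : S * S = 0) (hPP : P * P = 0)
    (hPSP : P * S * P = P) (hP0 : P ≠ 0) :
    Module.finrank k (LinearMap.range (S - S * P * S)) < Module.finrank k (LinearMap.range S) := by
  have hle1 : LinearMap.range (S - S * P * S) ≤ LinearMap.range S := by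
    rintro _ ⟨m, rfl⟩
    refine ⟨m - P (S m), ?_⟩
    simp [map_sub]
  have hle2 : LinearMap.range (S * P * S) ≤ LinearMap.range S := by
    rintro _ ⟨m, rfl⟩
    exact ⟨P (S m), rfl⟩
  have hdisj : LinearMap.range (S - S * P * S) ⊓ LinearMap.range (S * P * S) = ⊥ := by
    rw [eq_bot_iff]
    rintro w ⟨⟨u, hu⟩, ⟨v, hv⟩⟩
    rw [Submodule.mem_bot]
    -- apply S * P
    have e1 : (S * P) * (S * P * S) = S * P * S := by
      calc (S * P) * (S * P * S) = S * (P * S * P) * S := by simp only [mul_assoc]
        _ = S * P * S := by rw [hPSP]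
    have e2 : (S * P) * (S - S * P * S) = 0 := by
      calc (S * P) * (S - S * P * S) = S * P * S - S * (P * S * P) * S := by
            simp only [mul_sub, mul_assoc]
        _ = 0 := by rw [hPSP]; simp
    have h1 : (S * P) w = w := by
      rw [← hv]
      exact congrArg (fun f : Module.End k M => f v) e1
    have h2 : (S * P) w = 0 := by
      rw [← hu]
      have := congrArg (fun f : Module.End k M => f u) e2
      simpa using this
    rw [← h1, h2]
  have hne : LinearMap.range (S * P * S) ≠ ⊥ := by
    intro hbot
    apply hP0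
    have hz : S * P * S = 0 := LinearMap.range_eq_bot.mp hbot
    calc P = P * S * P := hPSP.symm
      _ = P * S * (P * S * P) := congrArg (fun X => P * S * X) hPSP.symm
      _ = P * (S * P * S) * P := by simp only [mul_assoc]
      _ = 0 := by rw [hz]; simp
  have hpos : 0 < Module.finrank k (LinearMap.range (S * P * S)) := by
    rcases Nat.eq_zero_or_pos (Module.finrank k (LinearMap.range (S * P * S))) with h | h
    · exact absurd (Submodule.finrank_eq_zero.mp h) hne
    · exact h
  have hsum := Submodule.finrank_sup_add_finrank_inf_eq (LinearMap.range (S - S * P * S))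
    (LinearMap.range (S * P * S))
  rw [hdisj, finrank_bot, add_zero] at hsum
  have hmono := Submodule.finrank_mono (sup_le hle1 hle2)
  omega

theorem rank_comm {S T : Module.End k M} (hSTS : S * T * S = 0) :
    Module.finrank k (LinearMap.range (S * T - T * S)) ≤ Module.finrank k (LinearMap.range T) := by
  let f : LinearMap.range T →ₗ[k] M := S.domRestrict (LinearMap.range T)
  have hrange : LinearMap.range f = LinearMap.range (S * T) := by
    ext y
    constructor
    · rintro ⟨⟨x, ⟨m, rfl⟩⟩, rfl⟩
      exact ⟨m, rfl⟩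
    · rintro ⟨m, rfl⟩
      exact ⟨⟨T m, ⟨m, rfl⟩⟩, rfl⟩
  -- range (T S) embeds into ker f
  have hTS : LinearMap.range (T * S) ≤ (LinearMap.ker f).map (LinearMap.range T).subtype := by
    rintro _ ⟨m, rfl⟩
    refine ⟨⟨T (S m), ⟨S m, rfl⟩⟩, ?_, rfl⟩
    rw [SetLike.mem_coe, LinearMap.mem_ker]
    show S (T (S m)) = 0
    have := congrArg (fun g : Module.End k M => g m) hSTS
    simpa using this
  have h1 : Module.finrank k (LinearMap.range (T * S)) ≤ Module.finrank k (LinearMap.ker f) :=
    (Submodule.finrank_mono hTS).trans (Submodule.finrank_map_le _ _)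
  have hsub : LinearMap.range (S * T - T * S) ≤ LinearMap.range (S * T) ⊔ LinearMap.range (T * S) := by
    rintro _ ⟨m, rfl⟩
    rw [LinearMap.sub_apply]
    exact Submodule.sub_mem _ (Submodule.mem_sup_left ⟨m, rfl⟩) (Submodule.mem_sup_right ⟨m, rfl⟩)
  have h2 := Submodule.finrank_mono hsub
  have h3 := Submodule.finrank_add_le_finrank_add_finrank (LinearMap.range (S * T))
    (LinearMap.range (T * S))
  have hrn := LinearMap.finrank_range_add_finrank_ker f
  rw [hrange] at hrn
  omega

end Cfsg.Agent.Lib.Helper50.QW
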