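import Cfsg.Agent.Lib.Helper50.QwBase

/-!
# S5074 piece W-TORUS (helper50): torus elements of `genH A B ≅ SL₂(K)` with their full action
-/

set_option autoImplicit false

namespace Cfsg.Agent.Lib.Helper50.QW

open Polynomial Cfsg Cfsg.Agent.Lib.Helper50.QR Cfsg.Agent.Lib.Helper50.QP

universe u v

variable {k : Type u} [Field k] {M : Type v} [AddCommGroup M] [Module k M] [FiniteDimensional k M]

omit [FiniteDimensional k M] in
/-- every element of `genH A B` fixes `ker A ⊓ ker B` pointwise -/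
theorem torus_genH_fix {A B : Module.End k M} (g : LinearMap.GeneralLinearGroup k M)
    (hg : g ∈ genH A B) (m : M) (hAm : A m = 0) (hBm : B m = 0) :
    (g : Module.End k M) m = m := by
  unfold genH at hg
  induction hg using Subgroup.closure_induction with
  | mem z hz =>
    rcases hz with ⟨c, hc⟩ | ⟨c, hc⟩
    · rw [hc]
      simp [hAm]
    · rw [hc]
      simp [hBm]
  | one => simp
  | mul u w _ _ hu hw =>
    rw [Units.val_mul, Module.End.mul_apply, hw, hu]
  | inv u _ hu =>
    have h5 : ((u⁻¹ : LinearMap.GeneralLinearGroup k M) : Module.End k M)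
        ((u : Module.End k M) m) = m := by
      rw [← Module.End.mul_apply, ← Units.val_mul, inv_mul_cancel]
      simp
    rw [hu] at h5
    exact h5

theorem exists_torus_full (hk2 : ringChar k ≠ 2) (hk3 : Nat.card k ≠ 3) {A B : Module.End k M}
    (hA : A * A = 0) (hB : B * B = 0) (hA0 : A ≠ 0)
    (h1 : ∀ m, A (B (A m)) = 0 → A m = 0) (h2 : ∀ m, B (A (B m)) = 0 → B m = 0)
    (h3 : ∀ g : k[X], (∀ m, aeval (A * B) g (A m) = 0) ∨
      (∀ m, aeval (A * B) g (A m) = 0 → A m = 0))
    (t : k) (ht : t ≠ 0) :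
    ∃ h ∈ genH A B, (∀ m, (h : Module.End k M) (A m) = t • A m) ∧
      (∀ m, (h : Module.End k M) (B m) = t⁻¹ • B m) ∧
      (∀ m, A m = 0 → B m = 0 → (h : Module.End k M) m = m) := by
  obtain ⟨K, _, _, lam, act, Φ, -, -, -, hU, hL, hlast⟩ :=
    final_strong hk2 hk3 hA hB hA0 h1 h2 h3
  have hτ : algebraMap k K t ≠ 0 := (map_ne_zero (algebraMap k K)).2 ht
  obtain ⟨D, hD⟩ : ∃ D : Matrix.SpecialLinearGroup (Fin 2) K,
      D.1 = !![algebraMap k K t, 0; 0, (algebraMap k K t)⁻¹] :=
    ⟨⟨!![algebraMap k K t, 0; 0, (algebraMap k K t)⁻¹], by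
      simp [Matrix.det_fin_two, hτ]⟩, rfl⟩
  have hΦg : Φ (Φ.symm D) = D := Φ.apply_symm_apply _
  have h10 : (Φ (Φ.symm D)).1 1 0 = 0 := by
    rw [hΦg, hD]
    simp
  have h00 : (Φ (Φ.symm D)).1 0 0 = algebraMap k K t := by
    rw [hΦg, hD]
    simp
  have hAm : ∀ m, (((Φ.symm D : genH A B) : LinearMap.GeneralLinearGroup k M) :
      Module.End k M) (A m) = t • A m := by
    intro m
    have h5 := hlast (Φ.symm D) h10 ⟨A m, ⟨m, rfl⟩⟩
    rw [h00, AlgHom.commutes, Module.algebraMap_end_apply] at h5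
    simpa using h5
  have hconj : (Φ.symm D : genH A B) *
      ⟨mkU ((1 : k) • A) (smul_sq0 hA 1), mkU_A_mem B hA 1⟩ =
      ⟨mkU ((t ^ 2) • A) (smul_sq0 hA (t ^ 2)), mkU_A_mem B hA (t ^ 2)⟩ * Φ.symm D := by
    apply Φ.injective
    rw [map_mul, map_mul, hΦg, hU 1 _ rfl, hU (t ^ 2) _ rfl]
    apply Subtype.ext
    show D.1 * (AG.uK (algebraMap k K 1)).1 = (AG.uK (algebraMap k K (t ^ 2))).1 * D.1
    rw [hD]
    simp only [AG.uK, map_one, map_pow]
    rw [Matrix.mul_fin_two, Matrix.mul_fin_two]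
    have h6 : (algebraMap k K t) ^ 2 * (algebraMap k K t)⁻¹ = algebraMap k K t := by
      field_simp
    simp [h6]
  have hGA : (((Φ.symm D : genH A B) : LinearMap.GeneralLinearGroup k M) : Module.End k M) * A =
      (t ^ 2) • (A * (((Φ.symm D : genH A B) : LinearMap.GeneralLinearGroup k M) :
        Module.End k M)) := by
    have e := congrArg (fun x : genH A B =>
      ((x : LinearMap.GeneralLinearGroup k M) : Module.End k M)) hconj
    simp only [Subgroup.coe_mul, Units.val_mul, coe_mkU, one_smul] at e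
    rw [mul_add, add_mul, mul_one, one_mul, smul_mul_assoc] at e
    exact add_left_cancel e
  have hAinv : ∀ m, A ((((Φ.symm D : genH A B) : LinearMap.GeneralLinearGroup k M) :
      Module.End k M) m) = t⁻¹ • A m := by
    intro m
    have e := congrArg (fun f : Module.End k M => f m) hGA
    simp only [Module.End.mul_apply, LinearMap.smul_apply] at e
    rw [hAm] at e
    have h7 : A ((((Φ.symm D : genH A B) : LinearMap.GeneralLinearGroup k M) :
        Module.End k M) m) = (t ^ 2)⁻¹ • (t • A m) := by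
      rw [e, smul_smul, inv_mul_cancel₀ (pow_ne_zero 2 ht), one_smul]
    rw [h7, smul_smul]
    congr 1
    field_simp
  -- the lower unipotent family
  have hconjB : (Φ.symm D : genH A B) *
      ⟨mkU ((t ^ 2) • B) (smul_sq0 hB (t ^ 2)), mkU_B_mem A hB (t ^ 2)⟩ =
      ⟨mkU ((1 : k) • B) (smul_sq0 hB 1), mkU_B_mem A hB 1⟩ * Φ.symm D := by
    apply Φ.injective
    rw [map_mul, map_mul, hΦg, hL (t ^ 2) _ rfl, hL 1 _ rfl]
    apply Subtype.ext
    show D.1 * (AG.lK (algebraMap k K (t ^ 2) * lam)).1 =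
      (AG.lK (algebraMap k K 1 * lam)).1 * D.1
    rw [hD]
    simp only [AG.lK, map_one, map_pow]
    rw [Matrix.mul_fin_two, Matrix.mul_fin_two]
    have h6 : (algebraMap k K t)⁻¹ * ((algebraMap k K t) ^ 2 * lam) =
        lam * algebraMap k K t := by
      field_simp
    simp [h6]
  have hGB : (t ^ 2) • ((((Φ.symm D : genH A B) : LinearMap.GeneralLinearGroup k M) :
      Module.End k M) * B) =
      B * (((Φ.symm D : genH A B) : LinearMap.GeneralLinearGroup k M) : Module.End k M) := by
    have e := congrArg (fun x : genH A B =>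
      ((x : LinearMap.GeneralLinearGroup k M) : Module.End k M)) hconjB
    simp only [Subgroup.coe_mul, Units.val_mul, coe_mkU, one_smul] at e
    rw [mul_add, add_mul, mul_one, one_mul, mul_smul_comm] at e
    exact add_left_cancel e
  have hBm : ∀ m, (((Φ.symm D : genH A B) : LinearMap.GeneralLinearGroup k M) :
      Module.End k M) (B m) = t⁻¹ • B m := by
    intro m
    have eB := congrArg (fun f : Module.End k M => f m) hGB
    simp only [Module.End.mul_apply, LinearMap.smul_apply] at eB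
    have hv : (((Φ.symm D : genH A B) : LinearMap.GeneralLinearGroup k M) :
        Module.End k M) (B m) - t⁻¹ • B m =
        B ((t ^ 2)⁻¹ • (((Φ.symm D : genH A B) : LinearMap.GeneralLinearGroup k M) :
          Module.End k M) m - t⁻¹ • m) := by
      rw [map_sub, map_smul, map_smul, ← eB, smul_smul, inv_mul_cancel₀ (pow_ne_zero 2 ht),
        one_smul]
    have hAv : A ((((Φ.symm D : genH A B) : LinearMap.GeneralLinearGroup k M) :
        Module.End k M) (B m) - t⁻¹ • B m) = 0 := by
      rw [map_sub, map_smul, hAinv (B m), sub_self]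
    have h8 := h2 ((t ^ 2)⁻¹ • (((Φ.symm D : genH A B) : LinearMap.GeneralLinearGroup k M) :
          Module.End k M) m - t⁻¹ • m) (by rw [← hv, hAv, map_zero])
    rw [← hv] at h8
    exact sub_eq_zero.mp h8
  exact ⟨_, (Φ.symm D).2, hAm, hBm, fun m hm1 hm2 => torus_genH_fix _ (Φ.symm D).2 m hm1 hm2⟩

end Cfsg.Agent.Lib.Helper50.QW
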