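import Cfsg.Agent.Lib.Helper50.QwBase

/-!
# S5074 piece W-UNIT (helper50): `psi P S` is multiplicative
-/

set_option autoImplicit false

namespace Cfsg.Agent.Lib.Helper50.QW

open Cfsg

universe u v

variable {k : Type u} [Field k] {M : Type v} [AddCommGroup M] [Module k M]

theorem psi_one (P S : Module.End k M) : psi P S 1 = 1 := by
  simp [psi]

/-- word reduction rules for `P² = 0`, `S² = 0`, `PSP = P` (right-associated normal form) -/
theorem wunit_rules {P S : Module.End k M} (hP : P * P = 0) (hS : S * S = 0)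
    (hPSP : P * S * P = P) :
    (∀ x : Module.End k M, P * (P * x) = 0) ∧ (∀ x : Module.End k M, S * (S * x) = 0) ∧
      P * (S * P) = P ∧ (∀ x : Module.End k M, P * (S * (P * x)) = P * x) := by
  refine ⟨fun x => ?_, fun x => ?_, ?_, fun x => ?_⟩
  · rw [← mul_assoc, hP, zero_mul]
  · rw [← mul_assoc, hS, zero_mul]
  · rw [← mul_assoc, hPSP]
  · rw [← mul_assoc, ← mul_assoc, hPSP]

theorem psi_mul {P S : Module.End k M} (hP : P * P = 0) (hS : S * S = 0) (hPSP : P * S * P = P)
    (m m' : Matrix (Fin 2) (Fin 2) k) : psi P S (m * m') = psi P S m * psi P S m' := by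
  obtain ⟨h1, h2, h3, h4⟩ := wunit_rules hP hS hPSP
  simp only [psi, Matrix.mul_apply, Fin.sum_univ_two, mul_add, add_mul, smul_mul_assoc,
    mul_smul_comm, mul_one, one_mul, mul_assoc, hP, hS, h1, h2, h3, h4, smul_zero, mul_zero,
    zero_mul, add_zero, zero_add]
  module

theorem psi_lower (P S : Module.End k M) (u : k) :
    psi P S !![1, 0; u, 1] = 1 + u • (S * P * S) := by
  simp [psi]

/-- conjugation by `1 + cS` acts on `psi` as conjugation by the lower unitriangular matrix -/
theorem psi_conj {P S : Module.End k M} (hP : P * P = 0) (hS : S * S = 0) (hPSP : P * S * P = P)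
    (c : k) (m : Matrix (Fin 2) (Fin 2) k) :
    (1 + c • S) * psi P S m * (1 - c • S) = psi P S (!![1, 0; c, 1] * m * !![1, 0; -c, 1]) := by
  obtain ⟨h1, h2, h3, h4⟩ := wunit_rules hP hS hPSP
  simp only [psi, Matrix.mul_apply, Fin.sum_univ_two, mul_add, add_mul, mul_sub, sub_mul,
    smul_mul_assoc, mul_smul_comm, mul_one, one_mul, mul_assoc, hP, hS, h1, h2, h3, h4, smul_zero,
    mul_zero, zero_mul, add_zero, zero_add, sub_zero, Matrix.of_apply, Matrix.cons_val_zero,
    Matrix.cons_val_one, Matrix.cons_val', Matrix.cons_val_fin_one, Matrix.empty_val',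
    Matrix.head_cons, Matrix.head_fin_const, Matrix.cons_val_succ]
  module

end Cfsg.Agent.Lib.Helper50.QW
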