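import Cfsg.Agent.Lib.Helper50.QwSL
import Cfsg.Agent.Lib.Helper50.QwUnit
import Cfsg.Agent.Lib.Helper50.QwP
import Cfsg.Agent.Lib.Helper50.QwTorus
import Cfsg.Agent.Lib.Helper50.QwHT
import Cfsg.Agent.Lib.Helper50.QwRank
import Cfsg.Agent.Lib.Helper50.QwRank2
import Cfsg.Agent.Lib.Helper50.QwNil
import Cfsg.Agent.Lib.Helper50.QwFam
import Cfsg.Agent.Lib.Helper50.QvNrm

/-!
# S5074 (helper50): `G = G₀ · C_G(G₀)` for a quadratic pair — assembly

`G₀ = ⟨Σ⟩`, `G₁ = G₀ ⊔ (G ⊓ C(G₀))`.  Every quadratic element of `G` lies in `G₁`, by strong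
induction on its commutator rank.
-/

set_option autoImplicit false

namespace Cfsg.Agent.Lib.Helper50.QW

open Polynomial Cfsg Cfsg.Agent.Lib.Helper50.QR Cfsg.Agent.Lib.Helper50.QP
  Cfsg.Agent.Lib.Helper50.QS

universe u v

variable {k : Type u} [Field k] {M : Type v} [AddCommGroup M] [Module k M] [FiniteDimensional k M]

variable {G : Subgroup (LinearMap.GeneralLinearGroup k M)}

/-- the subgroup generated by the root subgroups -/
def gZero (G : Subgroup (LinearMap.GeneralLinearGroup k M)) :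
    Subgroup (LinearMap.GeneralLinearGroup k M) :=
  ⨆ A ∈ Cfsg.quadraticRootSubgroups G, A

/-- `G₀ · C_G(G₀)` -/
def gOne (G : Subgroup (LinearMap.GeneralLinearGroup k M)) :
    Subgroup (LinearMap.GeneralLinearGroup k M) :=
  gZero G ⊔ (G ⊓ Subgroup.centralizer (gZero G : Set (LinearMap.GeneralLinearGroup k M)))

omit [FiniteDimensional k M] in
theorem le_gZero {σ : LinearMap.GeneralLinearGroup k M} (hσ : σ ∈ minimalQuadraticElements G) :
    sameActionSubgroup G σ ≤ gZero G :=
  le_iSup₂ (f := fun (A : Subgroup (LinearMap.GeneralLinearGroup k M))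
    (_ : A ∈ Cfsg.quadraticRootSubgroups G) => A) (sameActionSubgroup G σ) ⟨σ, hσ, rfl⟩

omit [FiniteDimensional k M] in
theorem min_mem_gZero {σ : LinearMap.GeneralLinearGroup k M}
    (hσ : σ ∈ minimalQuadraticElements G) : σ ∈ gZero G :=
  le_gZero hσ (self_mem hσ)

omit [FiniteDimensional k M] in
theorem gZero_le : gZero G ≤ G := by
  refine iSup₂_le fun A hA => ?_
  obtain ⟨σ, -, rfl⟩ := hA
  exact subgroup_le

omit [FiniteDimensional k M] in
theorem gZero_le_gOne : gZero G ≤ gOne G := le_sup_left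

omit [FiniteDimensional k M] in
theorem min_of_rank_le {ρ q : LinearMap.GeneralLinearGroup k M}
    (hρ : ρ ∈ minimalQuadraticElements G) (hq : q ∈ quadraticElements G)
    (hle : Module.finrank k (LinearMap.range (nl q)) ≤ Module.finrank k (LinearMap.range (nl ρ))) :
    q ∈ minimalQuadraticElements G :=
  ⟨hq, fun τ hτ => le_trans hle (hρ.2 τ hτ)⟩

/-- a partner `ρ'` of `ρ ∈ 𝒬_d`: `nl ρ' · nl ρ` is injective on `range (nl ρ')` -/
theorem partner_kill (hk2 : ringChar k ≠ 2) (hk3 : Nat.card k ≠ 3)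
    (hG : Cfsg.IsQuadraticPair G)
    {ρ : LinearMap.GeneralLinearGroup k M} (hρ : ρ ∈ minimalQuadraticElements G) :
    ∃ ρ' ∈ minimalQuadraticElements G, ∀ m, nl ρ' (nl ρ (nl ρ' m)) = 0 → nl ρ' m = 0 := by
  obtain ⟨ρ', hρ', hnz⟩ := QT.exists_partner hk2 hk3 hG hρ
  exact ⟨ρ', hρ', (pair_core hk2 hk3 hρ hρ' hnz).2.1⟩

omit [FiniteDimensional k M] in
/-- if `nl ρ' · X · nl ρ' = 0` for a partner then contradiction -/
theorem partner_absurd {ρ ρ' : LinearMap.GeneralLinearGroup k M}
    (hρ' : ρ' ∈ minimalQuadraticElements G)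
    (hkill : ∀ m, nl ρ' (nl ρ (nl ρ' m)) = 0 → nl ρ' m = 0)
    (h0 : nl ρ' * nl ρ * nl ρ' = 0) : False := by
  apply quad_ne hρ'.1.2.1
  ext m
  rw [LinearMap.zero_apply]
  apply hkill
  have := congrArg (fun f : Module.End k M => f m) h0
  simpa using this

omit [FiniteDimensional k M] in
/-- the homomorphism `SL₂(k) → GL(M)` through the matrix units -/
noncomputable def psiHom {P S : Module.End k M} (hP : P * P = 0) (hS : S * S = 0)
    (hPSP : P * S * P = P) :
    Matrix.SpecialLinearGroup (Fin 2) k →* LinearMap.GeneralLinearGroup k M where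
  toFun m := ⟨psi P S m.1, psi P S (m⁻¹).1, by
    rw [← psi_mul hP hS hPSP, ← Matrix.SpecialLinearGroup.coe_mul, mul_inv_cancel,
      Matrix.SpecialLinearGroup.coe_one, psi_one], by
    rw [← psi_mul hP hS hPSP, ← Matrix.SpecialLinearGroup.coe_mul, inv_mul_cancel,
      Matrix.SpecialLinearGroup.coe_one, psi_one]⟩
  map_one' := Units.ext (psi_one P S)
  map_mul' a b := Units.ext (psi_mul hP hS hPSP a.1 b.1)

/-- SPLIT: if `TS` is injective on `range T`, a piece `S₁ = SPS ≠ 0` of `S` lies in `K`, for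
a subgroup `K` normalized by `G` and containing the root subgroups of `a` and `x a x⁻¹` -/
theorem split_gen (hk2 : ringChar k ≠ 2) (hk3 : Nat.card k ≠ 3)
    {K : Subgroup (LinearMap.GeneralLinearGroup k M)}
    (hKn : ∀ g ∈ G, ∀ z ∈ K, g * z * g⁻¹ ∈ K)
    {a x : LinearMap.GeneralLinearGroup k M} (ha : a ∈ minimalQuadraticElements G)
    (hx : x ∈ quadraticElements G)
    (hKa : sameActionSubgroup G a ≤ K) (hKa' : sameActionSubgroup G (x * a * x⁻¹) ≤ K)
    (hII : ∀ m, nl a (nl x (nl a m)) = 0 → nl a m = 0) :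
    ∃ S₁ : Module.End k M, S₁ ≠ 0 ∧ S₁ * S₁ = 0 ∧ S₁ * nl x = 0 ∧ nl x * S₁ = 0 ∧
      (∀ c : k, ∃ g ∈ K, (g : Module.End k M) = 1 + c • S₁) ∧
      Module.finrank k (LinearMap.range (nl x - S₁)) <
        Module.finrank k (LinearMap.range (nl x)) := by
  have h2 : (2 : k) ≠ 0 := Ring.two_ne_zero hk2
  have hT : nl a * nl a = 0 := quad_sq ha.1.2.1
  have hS : nl x * nl x = 0 := quad_sq hx.2.1
  obtain ⟨P, hPP, hPSP, hTSP, hTP, hPST, hPker, hPran⟩ := exists_P hT hII
  have hP0 : P ≠ 0 := by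
    intro e
    apply quad_ne ha.1.2.1
    rw [← hTSP, e, mul_zero]
  refine ⟨nl x * P * nl x, ?_, ?_, ?_, ?_, ?_, rank_split hS hPP hPSP hP0⟩
  · intro e
    apply hP0
    calc P = P * (nl x * P * nl x) * P := by
          rw [← mul_assoc, ← mul_assoc, hPSP, hPSP]
      _ = 0 := by rw [e, mul_zero, zero_mul]
  · calc nl x * P * nl x * (nl x * P * nl x) = nl x * P * (nl x * nl x) * P * nl x := by
          noncomm_ring
      _ = 0 := by rw [hS, mul_zero, zero_mul, zero_mul]
  · rw [mul_assoc, hS, mul_zero]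
  · rw [← mul_assoc, ← mul_assoc, hS, zero_mul, zero_mul]
  · have ha' : x * a * x⁻¹ ∈ minimalQuadraticElements G := conj_min ha hx.1
    have hT' : nl (x * a * x⁻¹) = (1 + nl x) * nl a * (1 - nl x) := by
      rw [nl_conj, coe_inv_of_sq x hS, coe_eq x]
    have hnz : ¬ IsNilpotent (zz (nl a) (nl (x * a * x⁻¹))) := by
      apply nonnil_of_spaces h2 ha ha'
      · rw [eq_bot_iff]
        rintro r ⟨⟨m, rfl⟩, hr⟩
        rw [SetLike.mem_coe, LinearMap.mem_ker, hT'] at hr
        rw [Submodule.mem_bot]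
        apply hII
        have h1 : (1 - nl x) * ((1 + nl x) * nl a * (1 - nl x)) * nl a =
            -(nl a * nl x * nl a) := by
          calc (1 - nl x) * ((1 + nl x) * nl a * (1 - nl x)) * nl a
              = (1 - nl x * nl x) * (nl a * nl a) - (1 - nl x * nl x) * (nl a * nl x * nl a) := by
                noncomm_ring
            _ = -(nl a * nl x * nl a) := by
                rw [hS, hT, mul_zero, sub_zero, one_mul, zero_sub]
        have h3 : ((1 - nl x) * ((1 + nl x) * nl a * (1 - nl x)) * nl a) m = 0 := by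
          rw [Module.End.mul_apply, Module.End.mul_apply, hr, map_zero]
        rw [h1] at h3
        simpa using h3
      · rw [eq_bot_iff]
        rintro r ⟨⟨m, rfl⟩, hr⟩
        rw [SetLike.mem_coe, LinearMap.mem_ker, hT'] at hr
        rw [Submodule.mem_bot, hT']
        have h1 : nl a * ((1 + nl x) * nl a * (1 - nl x)) =
            nl a * nl x * nl a * (1 - nl x) := by
          calc nl a * ((1 + nl x) * nl a * (1 - nl x))
              = nl a * nl a * (1 - nl x) + nl a * nl x * nl a * (1 - nl x) := by noncomm_ring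
            _ = nl a * nl x * nl a * (1 - nl x) := by rw [hT, zero_mul, zero_add]
        have h3 : (nl a * ((1 + nl x) * nl a * (1 - nl x))) m = 0 := by
          rw [Module.End.mul_apply, hr]
        rw [h1] at h3
        have h4 : nl a ((1 - nl x) m) = 0 := by
          apply hII
          simpa using h3
        show (1 + nl x) (nl a ((1 - nl x) m)) = 0
        rw [h4, map_zero]
    obtain ⟨p1, p2, p3⟩ := pair_core hk2 hk3 ha ha' hnz
    have hA0 : nl a ≠ 0 := quad_ne ha.1.2.1
    have hB : nl (x * a * x⁻¹) * nl (x * a * x⁻¹) = 0 := quad_sq ha'.1.2.1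
    have hgen : genH (nl a) (nl (x * a * x⁻¹)) ≤ K :=
      le_trans (genH_le_sup ha ha') (sup_le hKa hKa')
    have htor : ∀ t : k, t ≠ 0 → ∃ h ∈ K,
        (h : Module.End k M) = psi P (nl x) !![t, t⁻¹ - t; 0, t⁻¹] := by
      intro t ht
      obtain ⟨h, hh, hhA, hhB, hhC⟩ := exists_torus_full hk2 hk3 hT hB hA0 p1 p2 p3 t ht
      refine ⟨h, hgen hh, ?_⟩
      rw [hT'] at hhB hhC
      exact torus_eq_psi hT hS hPP hPSP hTSP hTP hPST hPker hPran ht hhA hhB hhC
    obtain ⟨α, hα0, hα1⟩ := QV.sup_perfect_scalar hk2 hk3 (k := k)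
    have hφ : ∀ m : Matrix.SpecialLinearGroup (Fin 2) k,
        ((psiHom hPP hS hPSP m : LinearMap.GeneralLinearGroup k M) : Module.End k M) =
          psi P (nl x) m.1 := fun m => rfl
    have hD : ∀ t : k, t ≠ 0 → ∀ m : Matrix.SpecialLinearGroup (Fin 2) k,
        m.1 = !![t, t⁻¹ - t; 0, t⁻¹] → m ∈ K.comap (psiHom hPP hS hPSP) := by
      intro t ht m hm
      obtain ⟨h, hh, e⟩ := htor t ht
      rw [Subgroup.mem_comap]
      have : psiHom hPP hS hPSP m = h := Units.ext (by rw [hφ, hm, e])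
      rw [this]
      exact hh
    have hN : ∀ (c : k) (y m : Matrix.SpecialLinearGroup (Fin 2) k),
        y.1 = !![1, 0; c, 1] → m ∈ K.comap (psiHom hPP hS hPSP) →
        y * m * y⁻¹ ∈ K.comap (psiHom hPP hS hPSP) := by
      intro c y m hy hm
      rw [Subgroup.mem_comap] at hm ⊢
      have hxc : mkU (c • nl x) (smul_sq hS c) ∈ G := mkU_smul_mem hx c _
      have hyinv : (y⁻¹).1 = !![1, 0; -c, 1] := by
        rw [Matrix.SpecialLinearGroup.coe_inv, hy, Matrix.adjugate_fin_two_of, neg_zero]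
      have : psiHom hPP hS hPSP (y * m * y⁻¹) =
          mkU (c • nl x) (smul_sq hS c) * psiHom hPP hS hPSP m *
            (mkU (c • nl x) (smul_sq hS c))⁻¹ := by
        apply Units.ext
        rw [hφ, Units.val_mul, Units.val_mul, hφ]
        have e1 : ((mkU (c • nl x) (smul_sq hS c) : LinearMap.GeneralLinearGroup k M) :
            Module.End k M) = 1 + c • nl x := rfl
        have e2 : (((mkU (c • nl x) (smul_sq hS c))⁻¹ : LinearMap.GeneralLinearGroup k M) :
            Module.End k M) = 1 - c • nl x := rfl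
        rw [e1, e2, psi_conj hPP hS hPSP, Matrix.SpecialLinearGroup.coe_mul,
          Matrix.SpecialLinearGroup.coe_mul, hy, hyinv]
      rw [this]
      exact hKn _ hxc _ hm
    have key := sl2_lower_mem h2 hα0 hα1 (K.comap (psiHom hPP hS hPSP)) hD hN
    intro c
    have hdet : Matrix.det !![(1 : k), 0; c, 1] = 1 := by
      simp [Matrix.det_fin_two]
    obtain ⟨yc, hyc⟩ : ∃ yc : Matrix.SpecialLinearGroup (Fin 2) k, yc.1 = !![1, 0; c, 1] :=
      ⟨⟨!![1, 0; c, 1], hdet⟩, rfl⟩
    have hmem := Subgroup.mem_comap.1 (key c yc hyc)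
    refine ⟨_, hmem, ?_⟩
    rw [hφ, hyc]
    exact psi_lower P (nl x) c

/-- SPLIT for `K = G₀` -/
theorem split (hk2 : ringChar k ≠ 2) (hk3 : Nat.card k ≠ 3)
    {a x : LinearMap.GeneralLinearGroup k M} (ha : a ∈ minimalQuadraticElements G)
    (hx : x ∈ quadraticElements G)
    (hII : ∀ m, nl a (nl x (nl a m)) = 0 → nl a m = 0) :
    ∃ S₁ : Module.End k M, S₁ * S₁ = 0 ∧ S₁ * nl x = 0 ∧ nl x * S₁ = 0 ∧
      (∀ c : k, ∃ g ∈ gZero G, (g : Module.End k M) = 1 + c • S₁) ∧
      Module.finrank k (LinearMap.range (nl x - S₁)) <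
        Module.finrank k (LinearMap.range (nl x)) := by
  obtain ⟨S₁, -, h⟩ := split_gen hk2 hk3 (K := gZero G) QV.g0_normal ha hx (le_gZero ha)
    (le_gZero (conj_min ha hx.1)) hII
  exact ⟨S₁, h⟩

/-- Step 1+2: for a bad `y` and `a ∈ 𝒬_d`: `T S T = 0` -/
theorem step2 (hk2 : ringChar k ≠ 2) (hk3 : Nat.card k ≠ 3) {n : ℕ}
    (ih : ∀ y ∈ quadraticElements G, Module.finrank k (LinearMap.range (nl y)) < n → y ∈ gOne G)
    {a y : LinearMap.GeneralLinearGroup k M} (ha : a ∈ minimalQuadraticElements G)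
    (hy : y ∈ quadraticElements G) (hn : Module.finrank k (LinearMap.range (nl y)) = n)
    (hbad : y ∉ gOne G) :
    nl a * nl y * nl a = 0 := by
  by_contra hne
  have hII : ∀ m, nl a (nl y (nl a m)) = 0 → nl a m = 0 := by
    intro m h0
    by_contra h1
    exact hne (mixed_nil hk2 hk3 ha hy h0 h1)
  obtain ⟨S₁, hS₁, hS₁S, hSS₁, hfam, hrk⟩ := split hk2 hk3 ha hy hII
  have hS : nl y * nl y = 0 := quad_sq hy.2.1
  apply hbad
  obtain ⟨g₁, hg₁, e₁⟩ := hfam 1
  rw [one_smul] at e₁
  by_cases h0 : nl y - S₁ = 0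
  · have : y = g₁ := by
      apply Units.ext
      rw [e₁, coe_eq y, sub_eq_zero.1 h0]
    rw [this]
    exact gZero_le_gOne hg₁
  · have hsq : (nl y - S₁) * (nl y - S₁) = 0 := by
      calc (nl y - S₁) * (nl y - S₁) = nl y * nl y - nl y * S₁ - S₁ * nl y + S₁ * S₁ := by
            noncomm_ring
        _ = 0 := by rw [hS, hSS₁, hS₁S, hS₁]; simp
    have hF : Fam G (nl y - S₁) := by
      refine ⟨hsq, fun c => ?_⟩
      obtain ⟨gc, hgc, ec⟩ := hfam c
      have hxc : mkU (c • nl y) (smul_sq hS c) ∈ G := mkU_smul_mem hy c _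
      refine ⟨gc⁻¹ * mkU (c • nl y) (smul_sq hS c), G.mul_mem (G.inv_mem (gZero_le hgc)) hxc, ?_⟩
      have h3 : gc⁻¹ * mkU (c • nl y) (smul_sq hS c) = mkU (c • (nl y - S₁)) (smul_sq hsq c) := by
        rw [inv_mul_eq_iff_eq_mul]
        apply Units.ext
        rw [Units.val_mul, ec]
        show 1 + c • nl y = (1 + c • S₁) * (1 + c • (nl y - S₁))
        calc 1 + c • nl y = 1 + c • nl y + (c * c) • (S₁ * nl y - S₁ * S₁) := by
              rw [hS₁S, hS₁]; simp
          _ = (1 + c • S₁) * (1 + c • (nl y - S₁)) := by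
              simp only [smul_sub, mul_add, add_mul, mul_sub, mul_one, one_mul,
                smul_mul_assoc, mul_smul_comm]
              module
      rw [h3]
      rfl
    have hq : mkU (nl y - S₁) hF.1 ∈ quadraticElements G := quad_of_fam hF h0
    have hmem : mkU (nl y - S₁) hF.1 ∈ gOne G := by
      apply ih _ hq
      rw [nl_mkU, ← hn]
      exact hrk
    have : y = g₁ * mkU (nl y - S₁) hF.1 := by
      apply Units.ext
      rw [Units.val_mul, e₁, coe_eq y]
      show 1 + nl y = (1 + S₁) * (1 + (nl y - S₁))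
      calc 1 + nl y = 1 + nl y + (S₁ * nl y - S₁ * S₁) := by rw [hS₁S, hS₁]; simp
        _ = (1 + S₁) * (1 + (nl y - S₁)) := by noncomm_ring
    rw [this]
    exact (gOne G).mul_mem (gZero_le_gOne hg₁) hmem

/-- Step 3: for a bad `y` and `a ∈ 𝒬_d`: `S T S = 0` -/
theorem step3 (hk2 : ringChar k ≠ 2) (hk3 : Nat.card k ≠ 3) (hG : Cfsg.IsQuadraticPair G) {n : ℕ}
    (ih : ∀ y ∈ quadraticElements G, Module.finrank k (LinearMap.range (nl y)) < n → y ∈ gOne G)
    {a y : LinearMap.GeneralLinearGroup k M} (ha : a ∈ minimalQuadraticElements G)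
    (hy : y ∈ quadraticElements G) (hn : Module.finrank k (LinearMap.range (nl y)) = n)
    (hbad : y ∉ gOne G) :
    nl y * nl a * nl y = 0 := by
  by_contra hX
  have h2 : (2 : k) ≠ 0 := Ring.two_ne_zero hk2
  have hT : nl a * nl a = 0 := quad_sq ha.1.2.1
  have hS : nl y * nl y = 0 := quad_sq hy.2.1
  have hTST := step2 hk2 hk3 ih ha hy hn hbad
  have hfam := fam_STS h2 ha.1.1 hy hT hTST
  have hξq : mkU _ hfam.1 ∈ quadraticElements G := quad_of_fam hfam hX
  have hξmin : mkU _ hfam.1 ∈ minimalQuadraticElements G :=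
    min_of_rank_le ha hξq (by rw [nl_mkU]; exact rank_STS _ _)
  have hξ0 : mkU _ hfam.1 ∈ gZero G := min_mem_gZero hξmin
  -- the element `y ξ = 1 + S + X`
  have hSX : nl y * (nl y * nl a * nl y) = 0 := by
    rw [← mul_assoc, ← mul_assoc, hS, zero_mul, zero_mul]
  have hXS : nl y * nl a * nl y * nl y = 0 := by
    rw [mul_assoc, hS, mul_zero]
  have hnl2 : nl (y * mkU _ hfam.1) = nl y + nl y * nl a * nl y := by
    rw [nl_mul, nl_mkU, hSX, add_zero]
  have hrange : LinearMap.range (nl y + nl y * nl a * nl y) = LinearMap.range (nl y) :=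
    range_add_STS hTST
  have hne2 : nl y + nl y * nl a * nl y ≠ 0 := by
    intro e
    apply quad_ne hy.2.1
    rw [e, LinearMap.range_zero] at hrange
    exact LinearMap.range_eq_bot.1 hrange.symm
  have hF2 : Fam G (nl y + nl y * nl a * nl y) := by
    refine ⟨?_, fun c => ?_⟩
    · calc (nl y + nl y * nl a * nl y) * (nl y + nl y * nl a * nl y)
          = nl y * nl y + nl y * (nl y * nl a * nl y) + nl y * nl a * nl y * nl y
            + nl y * nl a * (nl y * nl y) * nl a * nl y := by noncomm_ring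
        _ = 0 := by rw [hS, hSX, hXS]; simp
    · obtain ⟨gc, hgc, ec⟩ := hfam.2 c
      refine ⟨mkU (c • nl y) (smul_sq hS c) * gc, G.mul_mem (mkU_smul_mem hy c _) hgc, ?_⟩
      rw [Units.val_mul, ec]
      show (1 + c • nl y) * (1 + c • (nl y * nl a * nl y)) = 1 + c • (nl y + nl y * nl a * nl y)
      calc (1 + c • nl y) * (1 + c • (nl y * nl a * nl y))
          = 1 + c • nl y + c • (nl y * nl a * nl y)
            + (c * c) • (nl y * (nl y * nl a * nl y)) := by
            simp only [mul_add, add_mul, mul_one, one_mul, smul_mul_assoc, mul_smul_comm]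
            module
        _ = 1 + c • (nl y + nl y * nl a * nl y) := by
            rw [hSX, smul_zero, add_zero, smul_add, add_assoc]
  have hq2 : y * mkU _ hfam.1 ∈ quadraticElements G := by
    have : y * mkU _ hfam.1 = mkU _ hF2.1 := by
      apply eq_of_nl_eq
      rw [hnl2, nl_mkU]
    rw [this]
    exact quad_of_fam hF2 hne2
  have hn2 : Module.finrank k (LinearMap.range (nl (y * mkU _ hfam.1))) = n := by
    rw [hnl2, hrange, hn]
  have hbad2 : y * mkU _ hfam.1 ∉ gOne G := by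
    intro h
    apply hbad
    have := (gOne G).mul_mem h ((gOne G).inv_mem (gZero_le_gOne hξ0))
    rwa [mul_inv_cancel_right] at this
  obtain ⟨ρ, hρ, hkill⟩ := partner_kill hk2 hk3 hG hξmin
  have e1 := step2 hk2 hk3 ih hρ hy hn hbad
  have e2 := step2 hk2 hk3 ih hρ hq2 hn2 hbad2
  apply partner_absurd hρ hkill
  rw [nl_mkU]
  rw [hnl2, mul_add, add_mul, e1, zero_add] at e2
  exact e2

/-- Step 4: a bad `y` commutes with every `a ∈ 𝒬_d` -/
theorem step4 (hk2 : ringChar k ≠ 2) (hk3 : Nat.card k ≠ 3) (hG : Cfsg.IsQuadraticPair G) {n : ℕ}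
    (ih : ∀ y ∈ quadraticElements G, Module.finrank k (LinearMap.range (nl y)) < n → y ∈ gOne G)
    {a y : LinearMap.GeneralLinearGroup k M} (ha : a ∈ minimalQuadraticElements G)
    (hy : y ∈ quadraticElements G) (hn : Module.finrank k (LinearMap.range (nl y)) = n)
    (hbad : y ∉ gOne G) :
    nl y * nl a = nl a * nl y := by
  by_contra hne
  have hT : nl a * nl a = 0 := quad_sq ha.1.2.1
  have hS : nl y * nl y = 0 := quad_sq hy.2.1
  have hTST := step2 hk2 hk3 ih ha hy hn hbad
  have hSTS := step3 hk2 hk3 hG ih ha hy hn hbad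
  have hfam := fam_comm ha.1.1 hy hT hTST hSTS
  have hY0 : nl y * nl a - nl a * nl y ≠ 0 := sub_ne_zero.2 hne
  have hηq : mkU _ hfam.1 ∈ quadraticElements G := quad_of_fam hfam hY0
  have hηmin : mkU _ hfam.1 ∈ minimalQuadraticElements G :=
    min_of_rank_le ha hηq (by rw [nl_mkU]; exact rank_comm hSTS)
  -- the conjugate `a y a⁻¹ = 1 + S - Y`
  have hq3 : a * y * a⁻¹ ∈ quadraticElements G := conj_quad hy ha.1.1
  have hnl3 : nl (a * y * a⁻¹) = nl y - (nl y * nl a - nl a * nl y) := by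
    rw [nl_conj, coe_inv_of_sq a hT, coe_eq a]
    calc (1 + nl a) * nl y * (1 - nl a)
        = nl y - (nl y * nl a - nl a * nl y) - nl a * nl y * nl a := by noncomm_ring
      _ = nl y - (nl y * nl a - nl a * nl y) := by rw [hTST, sub_zero]
  have hn3 : Module.finrank k (LinearMap.range (nl (a * y * a⁻¹))) = n := by
    rw [nl_conj, Conj.range_conj, Conj.finrank_map, hn]
  have hbad3 : a * y * a⁻¹ ∉ gOne G := by
    intro h
    apply hbad
    have ha1 : a ∈ gOne G := gZero_le_gOne (min_mem_gZero ha)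
    have := (gOne G).mul_mem ((gOne G).mul_mem ((gOne G).inv_mem ha1) h) ha1
    have e : a⁻¹ * (a * y * a⁻¹) * a = y := by group
    rwa [e] at this
  obtain ⟨ρ, hρ, hkill⟩ := partner_kill hk2 hk3 hG hηmin
  have e1 := step2 hk2 hk3 ih hρ hy hn hbad
  have e2 := step2 hk2 hk3 ih hρ hq3 hn3 hbad3
  apply partner_absurd hρ hkill
  rw [nl_mkU]
  rw [hnl3, mul_sub, sub_mul, e1, zero_sub, neg_eq_zero] at e2
  exact e2

/-- every quadratic element of `G` lies in `G₁` -/
theorem mem_gOne (hk2 : ringChar k ≠ 2) (hk3 : Nat.card k ≠ 3) (hG : Cfsg.IsQuadraticPair G) :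
    ∀ (n : ℕ), ∀ y ∈ quadraticElements G,
      Module.finrank k (LinearMap.range (nl y)) = n → y ∈ gOne G := by
  intro n
  induction n using Nat.strong_induction_on with
  | _ n IH =>
    intro y hy hn
    by_contra hbad
    have ih : ∀ z ∈ quadraticElements G,
        Module.finrank k (LinearMap.range (nl z)) < n → z ∈ gOne G :=
      fun z hz hlt => IH _ hlt z hz rfl
    apply hbad
    apply Subgroup.mem_sup_right
    refine ⟨hy.1, ?_⟩
    show y ∈ Subgroup.centralizer (gZero G : Set (LinearMap.GeneralLinearGroup k M))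
    rw [Subgroup.mem_centralizer_iff]
    have hle : gZero G ≤ Subgroup.centralizer {y} := by
      refine iSup₂_le fun A hA => ?_
      obtain ⟨σ, -, rfl⟩ := hA
      refine (Subgroup.closure_le _).2 fun τ hτ => ?_
      have hc := step4 hk2 hk3 hG ih hτ.1 hy hn hbad
      rw [SetLike.mem_coe, Subgroup.mem_centralizer_iff]
      intro z hz
      rw [Set.mem_singleton_iff] at hz
      subst hz
      apply Units.ext
      rw [Units.val_mul, Units.val_mul, coe_eq z, coe_eq τ]
      calc (1 + nl z) * (1 + nl τ) = 1 + nl z + nl τ + nl z * nl τ := by noncomm_ring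
        _ = 1 + nl z + nl τ + nl τ * nl z := by rw [hc]
        _ = (1 + nl τ) * (1 + nl z) := by noncomm_ring
    intro h hh
    have := hle hh
    rw [Subgroup.mem_centralizer_iff] at this
    exact (this y rfl).symm

/-- **S5074**: `G = G₀ · C_G(G₀)` -/
theorem main (hk2 : ringChar k ≠ 2) (hk3 : Nat.card k ≠ 3) (hG : Cfsg.IsQuadraticPair G) :
    gOne G = G := by
  apply le_antisymm
  · exact sup_le gZero_le inf_le_left
  · conv_lhs => rw [← hG.2]
    exact (Subgroup.closure_le _).2 fun y hy => mem_gOne hk2 hk3 hG _ y hy rfl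

end Cfsg.Agent.Lib.Helper50.QW
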