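import Mathlib

/-!
# S5074 piece W-SL (helper50): a generation lemma in `SL₂(k)`

A subgroup of `SL₂(k)` containing the matrices `[[t, t⁻¹ - t], [0, t⁻¹]]` (`t ≠ 0`) and
normalized by the lower unitriangular matrices contains the lower unitriangular matrices.
-/

set_option autoImplicit false

namespace Cfsg.Agent.Lib.Helper50.QW

open Matrix

/-- W-SL auxiliary: upper triangular element of `SL₂(k)`. -/
def wslU {k : Type*} [Field k] (t b : k) (ht : t ≠ 0) : Matrix.SpecialLinearGroup (Fin 2) k :=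
  ⟨!![t, b; 0, t⁻¹], by rw [Matrix.det_fin_two_of, mul_inv_cancel₀ ht]; ring⟩

/-- W-SL auxiliary: lower unitriangular element of `SL₂(k)`. -/
def wslY {k : Type*} [Field k] (u : k) : Matrix.SpecialLinearGroup (Fin 2) k :=
  ⟨!![1, 0; u, 1], by rw [Matrix.det_fin_two_of]; ring⟩

/-- W-SL auxiliary: the Weyl element of `SL₂(k)`. -/
def wslW {k : Type*} [Field k] : Matrix.SpecialLinearGroup (Fin 2) k :=
  ⟨!![0, 1; -1, 0], by rw [Matrix.det_fin_two_of]; ring⟩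

theorem wslU_congr {k : Type*} [Field k] {t t' b b' : k} (ht : t ≠ 0) (ht' : t' ≠ 0)
    (h1 : t = t') (h2 : b = b') : wslU t b ht = wslU t' b' ht' := by
  subst h1; subst h2; rfl

theorem wsl_eq_of_val {k : Type*} [Field k] {A B : Matrix.SpecialLinearGroup (Fin 2) k}
    (h : A.1 = B.1) : A = B := Subtype.ext h

theorem wslU_mul {k : Type*} [Field k] (t b s c : k) (ht : t ≠ 0) (hs : s ≠ 0) :
    wslU t b ht * wslU s c hs = wslU (t * s) (t * c + b * s⁻¹) (mul_ne_zero ht hs) := by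
  apply wsl_eq_of_val
  show !![t, b; 0, t⁻¹] * !![s, c; 0, s⁻¹] = !![t * s, t * c + b * s⁻¹; 0, (t * s)⁻¹]
  rw [Matrix.mul_fin_two, mul_inv]
  simp

theorem wslU_one {k : Type*} [Field k] : wslU (1 : k) 0 one_ne_zero = 1 := by
  apply wsl_eq_of_val
  show !![(1 : k), 0; 0, 1⁻¹] = (1 : Matrix (Fin 2) (Fin 2) k)
  rw [inv_one, Matrix.one_fin_two]

theorem wslY_mul {k : Type*} [Field k] (u v : k) : wslY u * wslY v = wslY (u + v) := by
  apply wsl_eq_of_val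
  show !![(1 : k), 0; u, 1] * !![1, 0; v, 1] = !![1, 0; u + v, 1]
  rw [Matrix.mul_fin_two]
  congr 1
  simp

theorem wslY_zero {k : Type*} [Field k] : wslY (0 : k) = 1 := by
  apply wsl_eq_of_val
  show !![(1 : k), 0; 0, 1] = (1 : Matrix (Fin 2) (Fin 2) k)
  rw [Matrix.one_fin_two]

theorem wslY_inv {k : Type*} [Field k] (u : k) : (wslY u)⁻¹ = wslY (-u) := by
  apply inv_eq_of_mul_eq_one_right
  rw [wslY_mul, add_neg_cancel, wslY_zero]

theorem sl2_lower_mem {k : Type*} [Field k] (h2 : (2 : k) ≠ 0) {α : k} (hα0 : α ≠ 0)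
    (hα1 : α ^ 2 ≠ 1) (Γ : Subgroup (Matrix.SpecialLinearGroup (Fin 2) k))
    (hD : ∀ (t : k), t ≠ 0 → ∀ m : Matrix.SpecialLinearGroup (Fin 2) k,
      m.1 = !![t, t⁻¹ - t; 0, t⁻¹] → m ∈ Γ)
    (hN : ∀ (c : k) (y m : Matrix.SpecialLinearGroup (Fin 2) k),
      y.1 = !![1, 0; c, 1] → m ∈ Γ → y * m * y⁻¹ ∈ Γ) :
    ∀ (u : k) (y : Matrix.SpecialLinearGroup (Fin 2) k), y.1 = !![1, 0; u, 1] → y ∈ Γ := by
  -- the torus-like elements
  have hDmem : ∀ (t : k) (ht : t ≠ 0), wslU t (t⁻¹ - t) ht ∈ Γ := fun t ht => hD t ht _ rfl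
  have hαi : α⁻¹ ≠ 0 := inv_ne_zero hα0
  -- Step 1
  have hA : wslU α⁻¹ (α⁻¹ - α) hαi ∈ Γ := by
    have h := hN (-1) (wslY (-1)) (wslU α (α⁻¹ - α) hα0) rfl (hDmem α hα0)
    have e : wslY (-1) * wslU α (α⁻¹ - α) hα0 * (wslY (-1))⁻¹ = wslU α⁻¹ (α⁻¹ - α) hαi := by
      rw [mul_inv_eq_iff_eq_mul]
      apply wsl_eq_of_val
      show !![(1 : k), 0; -1, 1] * !![α, α⁻¹ - α; 0, α⁻¹] =
        !![α⁻¹, α⁻¹ - α; 0, α⁻¹⁻¹] * !![1, 0; -1, 1]
      rw [Matrix.mul_fin_two, Matrix.mul_fin_two, inv_inv]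
      congr 1
      ext i j
      fin_cases i <;> fin_cases j <;> simp
    rw [e] at h
    exact h
  -- Step 2 and 3: an upper unitriangular element with nonzero entry
  have hu0 : (2 : k) * α ^ 2 * (1 - α ^ 2) ≠ 0 := by
    refine mul_ne_zero (mul_ne_zero h2 (pow_ne_zero 2 hα0)) ?_
    intro h
    apply hα1
    linear_combination -h
  have hX0 : wslU 1 (2 * α ^ 2 * (1 - α ^ 2)) one_ne_zero ∈ Γ := by
    have hα2 : α ^ 2 ≠ 0 := pow_ne_zero 2 hα0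
    have h1 := Γ.mul_mem hA (hDmem α⁻¹ hαi)
    have h3 := Γ.mul_mem (hDmem (α ^ 2) hα2) h1
    rw [wslU_mul, wslU_mul] at h3
    have e : wslU (α ^ 2 * (α⁻¹ * α⁻¹))
        (α ^ 2 * (α⁻¹ * (α⁻¹⁻¹ - α⁻¹) + (α⁻¹ - α) * α⁻¹⁻¹) + ((α ^ 2)⁻¹ - α ^ 2) * (α⁻¹ * α⁻¹)⁻¹)
        (mul_ne_zero hα2 (mul_ne_zero hαi hαi)) = wslU 1 (2 * α ^ 2 * (1 - α ^ 2)) one_ne_zero := by
      apply wslU_congr
      · field_simp
      · field_simp
        ring
    rw [e] at h3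
    exact h3
  -- Step 4: conjugation by the torus
  have hconj : ∀ (β u : k), β ≠ 0 → wslU 1 u one_ne_zero ∈ Γ →
      wslU 1 (β ^ 2 * u) one_ne_zero ∈ Γ := by
    intro β u hβ hu
    have hβi : β⁻¹ ≠ 0 := inv_ne_zero hβ
    have h3 := Γ.mul_mem (Γ.mul_mem (hDmem β hβ) hu) (hDmem β⁻¹ hβi)
    rw [wslU_mul, wslU_mul] at h3
    have e : wslU (β * 1 * β⁻¹) (β * 1 * (β⁻¹⁻¹ - β⁻¹) + (β * u + (β⁻¹ - β) * 1⁻¹) * β⁻¹⁻¹)
        (mul_ne_zero (mul_ne_zero hβ one_ne_zero) hβi) = wslU 1 (β ^ 2 * u) one_ne_zero := by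
      apply wslU_congr
      · field_simp
      · field_simp
        ring
    rw [e] at h3
    exact h3
  -- Step 5: all upper unitriangular elements
  have hadd : ∀ u v : k, wslU 1 u one_ne_zero ∈ Γ → wslU 1 v one_ne_zero ∈ Γ →
      wslU 1 (u - v) one_ne_zero ∈ Γ := by
    intro u v hu hv
    have h := Γ.mul_mem hu (Γ.inv_mem hv)
    have e : wslU 1 u one_ne_zero * (wslU 1 v one_ne_zero)⁻¹ = wslU (1 : k) (u - v) one_ne_zero := by
      rw [mul_inv_eq_iff_eq_mul, wslU_mul]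
      apply wslU_congr
      · ring
      · simp
    rw [e] at h
    exact h
  have hzero : wslU (1 : k) 0 one_ne_zero ∈ Γ := by rw [wslU_one]; exact Γ.one_mem
  have hsq : ∀ β : k, wslU 1 (β ^ 2 * (2 * α ^ 2 * (1 - α ^ 2))) one_ne_zero ∈ Γ := by
    intro β
    by_cases hβ : β = 0
    · have e : wslU 1 (β ^ 2 * (2 * α ^ 2 * (1 - α ^ 2))) one_ne_zero = wslU (1 : k) 0 one_ne_zero := by
        apply wslU_congr _ _ rfl
        rw [hβ]; ring
      rw [e]; exact hzero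
    · exact hconj β _ hβ hX0
  have hX : ∀ u : k, wslU 1 u one_ne_zero ∈ Γ := by
    intro u
    have h := hadd _ _ (hsq ((u / (2 * α ^ 2 * (1 - α ^ 2)) + 1) / 2))
      (hsq ((u / (2 * α ^ 2 * (1 - α ^ 2)) - 1) / 2))
    have e : wslU 1 (((u / (2 * α ^ 2 * (1 - α ^ 2)) + 1) / 2) ^ 2 * (2 * α ^ 2 * (1 - α ^ 2)) -
        ((u / (2 * α ^ 2 * (1 - α ^ 2)) - 1) / 2) ^ 2 * (2 * α ^ 2 * (1 - α ^ 2))) one_ne_zero =
        wslU (1 : k) u one_ne_zero := by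
      apply wslU_congr _ _ rfl
      field_simp
      ring
    rw [e] at h
    exact h
  -- Step 6: the Weyl element
  have hW : (wslW : Matrix.SpecialLinearGroup (Fin 2) k) ∈ Γ := by
    have h := Γ.mul_mem (hN 1 (wslY 1) (wslU 1 1 one_ne_zero) rfl (hX 1)) (hX 2)
    have e : wslY 1 * wslU 1 1 one_ne_zero * (wslY 1)⁻¹ * wslU 1 2 one_ne_zero =
        (wslW : Matrix.SpecialLinearGroup (Fin 2) k) := by
      rw [wslY_inv]
      apply wsl_eq_of_val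
      show !![(1 : k), 0; 1, 1] * !![1, 1; 0, 1⁻¹] * !![1, 0; -1, 1] * !![1, 2; 0, 1⁻¹] =
        !![0, 1; -1, 0]
      rw [Matrix.mul_fin_two, Matrix.mul_fin_two, Matrix.mul_fin_two, inv_one]
      ext i j
      fin_cases i <;> fin_cases j <;> simp <;> ring
    rw [e] at h
    exact h
  intro u y hy
  have e : y = wslW * wslU 1 (-u) one_ne_zero * (wslW)⁻¹ := by
    rw [eq_mul_inv_iff_mul_eq]
    apply wsl_eq_of_val
    show y.1 * !![(0 : k), 1; -1, 0] = !![0, 1; -1, 0] * !![1, -u; 0, 1⁻¹]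
    rw [hy, Matrix.mul_fin_two, Matrix.mul_fin_two, inv_one]
    ext i j
    fin_cases i <;> fin_cases j <;> simp
  rw [e]
  exact Γ.mul_mem (Γ.mul_mem hW (hX (-u))) (Γ.inv_mem hW)

end Cfsg.Agent.Lib.Helper50.QW
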