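import Cfsg.Agent.Lib.Helper50.QwMain

/-!
# S5063 foundation (helper50): the central product decomposition of a quadratic pair

* `Dec Γ Q`: `Γ` is a central product of finitely many quasisimple subgroups normalized by `Γ`,
  each generated by its elements of `Q`, and together containing `Q ∩ Γ`.
* `Inv N W`, `MinInv N W`: (minimal non-zero) `N`-invariant subspaces; `resHom`: the restriction
  homomorphism `N → GL(W)`.
* `cQuad G`: the quadratic elements of `G` centralizing `G₀`; `nSub G` the subgroup they generate.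
-/

set_option autoImplicit false

namespace Cfsg.Agent.Lib.Helper50.QX

open Cfsg Cfsg.Agent.Lib.Helper50.QR Cfsg.Agent.Lib.Helper50.QW

universe u v

/-- `Γ` is a central product of finitely many quasisimple subgroups normalized by `Γ`, each
generated by its elements of `Q`, and together containing `Q ∩ Γ` -/
def Dec {A : Type*} [Group A] (Γ : Subgroup A) (Q : Set A) : Prop :=
  ∃ 𝒦 : Set (Subgroup A), 𝒦.Finite ∧
    (∀ K ∈ 𝒦, K ≤ Γ ∧ (∀ g ∈ Γ, ∀ z ∈ K, g * z * g⁻¹ ∈ K) ∧ Cfsg.IsQuasisimple ↥K ∧
      Subgroup.closure (Q ∩ (K : Set A)) = K) ∧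
    (∀ K ∈ 𝒦, ∀ K' ∈ 𝒦, K ≠ K' → ⁅K, K'⁆ = ⊥) ∧
    sSup 𝒦 = Γ ∧ Q ∩ (Γ : Set A) ⊆ ⋃ K ∈ 𝒦, (K : Set A)

variable {k : Type u} [Field k] {M : Type v} [AddCommGroup M] [Module k M]

/-- `W` is invariant under `N` -/
def Inv (N : Subgroup (LinearMap.GeneralLinearGroup k M)) (W : Submodule k M) : Prop :=
  ∀ g ∈ N, ∀ w ∈ W, (g : Module.End k M) w ∈ W

/-- `W` is a minimal non-zero `N`-invariant subspace -/
def MinInv (N : Subgroup (LinearMap.GeneralLinearGroup k M)) (W : Submodule k M) : Prop :=
  W ≠ ⊥ ∧ Inv N W ∧ ∀ W' : Submodule k M, W' ≤ W → Inv N W' → W' = ⊥ ∨ W' = W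

/-- restriction of `N` to an invariant subspace -/
def resHom {N : Subgroup (LinearMap.GeneralLinearGroup k M)} {W : Submodule k M}
    (hW : Inv N W) : ↥N →* LinearMap.GeneralLinearGroup k ↥W where
  toFun g := ⟨((g : LinearMap.GeneralLinearGroup k M) : Module.End k M).restrict (hW g.1 g.2),
    (((g : LinearMap.GeneralLinearGroup k M)⁻¹ : LinearMap.GeneralLinearGroup k M) :
      Module.End k M).restrict (hW g.1⁻¹ (N.inv_mem g.2)), by
    ext w
    show ((g : LinearMap.GeneralLinearGroup k M) : Module.End k M)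
      ((((g : LinearMap.GeneralLinearGroup k M)⁻¹ : LinearMap.GeneralLinearGroup k M) :
        Module.End k M) (w : M)) = (w : M)
    rw [← Module.End.mul_apply, ← Units.val_mul, mul_inv_cancel, Units.val_one,
      Module.End.one_apply], by
    ext w
    show (((g : LinearMap.GeneralLinearGroup k M)⁻¹ : LinearMap.GeneralLinearGroup k M) :
        Module.End k M) (((g : LinearMap.GeneralLinearGroup k M) : Module.End k M) (w : M)) = (w : M)
    rw [← Module.End.mul_apply, ← Units.val_mul, inv_mul_cancel, Units.val_one,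
      Module.End.one_apply]⟩
  map_one' := by
    apply Units.ext
    ext w
    rfl
  map_mul' a b := by
    apply Units.ext
    ext w
    rfl

theorem resHom_apply {N : Subgroup (LinearMap.GeneralLinearGroup k M)} {W : Submodule k M}
    (hW : Inv N W) (g : ↥N) (w : ↥W) :
    ((((resHom hW g : LinearMap.GeneralLinearGroup k ↥W) : Module.End k ↥W) w : ↥W) : M) =
      ((g : LinearMap.GeneralLinearGroup k M) : Module.End k M) (w : M) := rfl

/-- the quadratic elements of `G` centralizing `G₀` -/
def cQuad (G : Subgroup (LinearMap.GeneralLinearGroup k M)) :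
    Set (LinearMap.GeneralLinearGroup k M) :=
  quadraticElements G ∩
    (Subgroup.centralizer (gZero G : Set (LinearMap.GeneralLinearGroup k M)) :
      Set (LinearMap.GeneralLinearGroup k M))

/-- the subgroup generated by the quadratic elements of `G` centralizing `G₀` -/
def nSub (G : Subgroup (LinearMap.GeneralLinearGroup k M)) :
    Subgroup (LinearMap.GeneralLinearGroup k M) :=
  Subgroup.closure (cQuad G)

end Cfsg.Agent.Lib.Helper50.QX
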