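import Cfsg.Agent.Lib.Helper50.QxBase
import Cfsg.Agent.Lib.Helper50.QvMain

/-!
# S5063 piece X-COMP1 (helper50): the minimal quadratic elements of a component group
`K = GC G (E σ)`
-/

set_option autoImplicit false

namespace Cfsg.Agent.Lib.Helper50.QX

open Cfsg Cfsg.Agent.Lib.Helper50.QR Cfsg.Agent.Lib.Helper50.QW Cfsg.Agent.Lib.Helper50.QV

universe u v

variable {k : Type u} [Field k] {M : Type v} [AddCommGroup M] [Module k M] [FiniteDimensional k M]

variable {G : Subgroup (LinearMap.GeneralLinearGroup k M)}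

/-- a partner of `ξ` (with `E ξ` in the component of `E σ`) inside the same component -/
theorem partner_in_comp (hk2 : ringChar k ≠ 2) (hk3 : Nat.card k ≠ 3)
    (hG : Cfsg.IsQuadraticPair G) {σ ξ : LinearMap.GeneralLinearGroup k M}
    (hξ : ξ ∈ minimalQuadraticElements G)
    (hξc : sameActionSubgroup G ξ ∈ Comp G (sameActionSubgroup G σ)) :
    ∃ ρ ∈ minimalQuadraticElements G,
      sameActionSubgroup G ρ ∈ Comp G (sameActionSubgroup G σ) ∧
      ∀ m, nl ρ (nl ξ (nl ρ m)) = 0 → nl ρ m = 0 := by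
  obtain ⟨ρ, hρ, hnz⟩ := QT.exists_partner hk2 hk3 hG hξ
  exact ⟨ρ, hρ, comp_of_pair hξc ⟨ρ, hρ, rfl⟩ (QU.special_of_nonnil hk2 hk3 hξ hρ hnz).1,
    (QS.pair_core hk2 hk3 hξ hρ hnz).2.1⟩

/-- a minimal quadratic element lying in the component group has its root subgroup in the
component -/
theorem mem_comp_of_mem_gc (hk2 : ringChar k ≠ 2) (hk3 : Nat.card k ≠ 3)
    (hG : Cfsg.IsQuadraticPair G) {σ ξ : LinearMap.GeneralLinearGroup k M}
    (hσ : σ ∈ minimalQuadraticElements G) (hξ : ξ ∈ minimalQuadraticElements G)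
    (hξK : ξ ∈ GC G (sameActionSubgroup G σ)) :
    sameActionSubgroup G ξ ∈ Comp G (sameActionSubgroup G σ) := by
  have hξS : sameActionSubgroup G ξ ∈ Cfsg.quadraticRootSubgroups G := ⟨ξ, hξ, rfl⟩
  by_cases hcomp : Comp G (sameActionSubgroup G ξ) = Comp G (sameActionSubgroup G σ)
  · rw [← hcomp]
    exact comp_self hξS
  · exfalso
    obtain ⟨ρ, hρ, hnz⟩ := QT.exists_partner hk2 hk3 hG hξ
    have hρc : sameActionSubgroup G ρ ∈ Comp G (sameActionSubgroup G ξ) :=
      comp_of_pair (comp_self hξS) ⟨ρ, hρ, rfl⟩ (QU.special_of_nonnil hk2 hk3 hξ hρ hnz).1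
    have hρK : ρ ∈ GC G (sameActionSubgroup G ξ) := le_gc hρc (self_mem hρ)
    have hcomm : ⁅GC G (sameActionSubgroup G ξ), GC G (sameActionSubgroup G σ)⁆ = ⊥ :=
      comps_comm hk2 hk3 hG ⟨ξ, hξ, rfl⟩ ⟨σ, hσ, rfl⟩ hcomp
    rw [Subgroup.commutator_eq_bot_iff_le_centralizer] at hcomm
    have h1 := hcomm hρK
    rw [Subgroup.mem_centralizer_iff] at h1
    exact hnz (nil_of_commute (quad_sq hξ.1.2.1) (quad_sq hρ.1.2.1) (h1 ξ hξK))

/-- an element commuting with the minimal quadratic elements of the component centralizes the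
component group -/
theorem mem_centralizer_gc {σ x : LinearMap.GeneralLinearGroup k M}
    (h : ∀ a ∈ minimalQuadraticElements G,
      sameActionSubgroup G a ∈ Comp G (sameActionSubgroup G σ) → nl x * nl a = nl a * nl x) :
    x ∈ Subgroup.centralizer
      (GC G (sameActionSubgroup G σ) : Set (LinearMap.GeneralLinearGroup k M)) := by
  rw [Subgroup.mem_centralizer_iff]
  have hle : GC G (sameActionSubgroup G σ) ≤ Subgroup.centralizer {x} := by
    refine iSup₂_le fun B hB => ?_
    obtain ⟨β, hβ, rfl⟩ := hB.1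
    refine (Subgroup.closure_le _).2 fun τ hτ => ?_
    have hEq : sameActionSubgroup G τ = sameActionSubgroup G β := by
      unfold sameActionSubgroup
      congr 1
      ext ρ
      unfold sameActionClass
      rw [Set.mem_setOf_eq, Set.mem_setOf_eq, hτ.2.1, hτ.2.2]
    have hc := h τ hτ.1 (by rw [hEq]; exact hB)
    rw [SetLike.mem_coe, Subgroup.mem_centralizer_iff]
    intro z hz
    rw [Set.mem_singleton_iff] at hz
    rw [hz]
    apply Units.ext
    rw [Units.val_mul, Units.val_mul, coe_eq x, coe_eq τ]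
    calc (1 + nl x) * (1 + nl τ) = 1 + nl x + nl τ + nl x * nl τ := by noncomm_ring
      _ = 1 + nl x + nl τ + nl τ * nl x := by rw [hc]
      _ = (1 + nl τ) * (1 + nl x) := by noncomm_ring
  intro g hg
  have h2 := hle hg
  rw [Subgroup.mem_centralizer_iff] at h2
  exact (h2 x rfl).symm

end Cfsg.Agent.Lib.Helper50.QX
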