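import Cfsg.Agent.Lib.Helper50.QxBase
import Cfsg.Agent.Lib.Helper50.QvMain

/-!
# S5063 piece X-COMP2 (helper50): the finite set of component groups `GC G (E σ)`
-/

set_option autoImplicit false

namespace Cfsg.Agent.Lib.Helper50.QX

open Cfsg Cfsg.Agent.Lib.Helper50.QR Cfsg.Agent.Lib.Helper50.QW Cfsg.Agent.Lib.Helper50.QV

universe u v

variable {k : Type u} [Field k] {M : Type v} [AddCommGroup M] [Module k M] [FiniteDimensional k M]

variable {G : Subgroup (LinearMap.GeneralLinearGroup k M)}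

/-- the set of component groups -/
def compGroups (G : Subgroup (LinearMap.GeneralLinearGroup k M)) :
    Set (Subgroup (LinearMap.GeneralLinearGroup k M)) :=
  {K | ∃ σ ∈ minimalQuadraticElements G, K = GC G (sameActionSubgroup G σ)}

theorem compGroups_finite (hk2 : ringChar k ≠ 2) (hk3 : Nat.card k ≠ 3)
    (hG : Cfsg.IsQuadraticPair G) : (compGroups G).Finite := by
  classical
  have hfin : Finite ↥(Comps G) := by
    apply finite_of_commuting (fun P : ↥(Comps G) => ⨆ A ∈ P.1, A)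
    · intro P Q hPQ
      exact comps_comm hk2 hk3 hG P.2 Q.2 (fun h => hPQ (Subtype.ext h))
    · rintro ⟨P, σ, hσ, rfl⟩
      exact gc_noncomm hk2 hk3 hG hσ
  have h1 : (Comps G).Finite := Set.finite_coe_iff.mp hfin
  refine (h1.image (fun P => ⨆ A ∈ P, A)).subset ?_
  rintro K ⟨σ, hσ, rfl⟩
  exact ⟨Comp G (sameActionSubgroup G σ), ⟨σ, hσ, rfl⟩, rfl⟩

theorem compGroups_comm (hk2 : ringChar k ≠ 2) (hk3 : Nat.card k ≠ 3)
    (hG : Cfsg.IsQuadraticPair G) :
    ∀ K ∈ compGroups G, ∀ K' ∈ compGroups G, K ≠ K' → ⁅K, K'⁆ = ⊥ := by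
  rintro K ⟨σ, hσ, rfl⟩ K' ⟨τ, hτ, rfl⟩ hne
  refine comps_comm hk2 hk3 hG ⟨σ, hσ, rfl⟩ ⟨τ, hτ, rfl⟩ (fun h => hne ?_)
  show (⨆ B ∈ Comp G (sameActionSubgroup G σ), B) = ⨆ B ∈ Comp G (sameActionSubgroup G τ), B
  rw [h]

theorem sSup_compGroups : sSup (compGroups G) = gZero G := by
  apply le_antisymm
  · apply sSup_le
    rintro K ⟨σ, hσ, rfl⟩
    exact gc_le_g0
  · unfold gZero
    apply iSup₂_le
    rintro A ⟨σ, hσ, rfl⟩
    exact (le_gc (comp_self ⟨σ, hσ, rfl⟩)).trans (le_sSup ⟨σ, hσ, rfl⟩)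

theorem gc_closure_quad {σ : LinearMap.GeneralLinearGroup k M} :
    Subgroup.closure (quadraticElements G ∩
      (GC G (sameActionSubgroup G σ) : Set (LinearMap.GeneralLinearGroup k M))) =
      GC G (sameActionSubgroup G σ) := by
  apply le_antisymm
  · exact (Subgroup.closure_le _).2 (fun x hx => hx.2)
  · apply iSup₂_le
    intro B hB
    obtain ⟨β, hβ, hBβ⟩ := hB.1
    rw [hBβ]
    apply Subgroup.closure_mono
    intro τ hτ
    refine ⟨hτ.1.1, ?_⟩
    apply le_gc hB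
    rw [hBβ]
    exact Subgroup.subset_closure hτ

end Cfsg.Agent.Lib.Helper50.QX
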