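import Cfsg.Agent.Lib.Helper50.QxBase

/-!
# S5063 piece X-CORR (helper50): restriction to `W` is injective and preserves and reflects
quadratic elements, when the elements of `N` lie in a subalgebra `𝒞` of `End M` whose
members are determined by their restriction to `W`
-/

set_option autoImplicit false

namespace Cfsg.Agent.Lib.Helper50.QX

open Cfsg Cfsg.Agent.Lib.Helper50.QR Cfsg.Agent.Lib.Helper50.QW

universe u v

variable {k : Type u} [Field k] {M : Type v} [AddCommGroup M] [Module k M]

/-- the nilpotent part of the restriction is the restriction of the nilpotent part -/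
theorem corr_nl_apply {N : Subgroup (LinearMap.GeneralLinearGroup k M)} {W : Submodule k M}
    (hW : Inv N W) (n : ↥N) (w : ↥W) :
    ((((resHom hW n : LinearMap.GeneralLinearGroup k ↥W) : Module.End k ↥W) - 1) w : M) =
      (((n : LinearMap.GeneralLinearGroup k M) : Module.End k M) - 1) (w : M) := by
  rw [LinearMap.sub_apply, LinearMap.sub_apply, Submodule.coe_sub, resHom_apply]
  rfl

theorem res_injective {N : Subgroup (LinearMap.GeneralLinearGroup k M)} {W : Submodule k M}
    (hW : Inv N W) (𝒞 : Subalgebra k (Module.End k M))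
    (hN : ∀ n ∈ N, (n : Module.End k M) ∈ 𝒞)
    (hinj : ∀ Z ∈ 𝒞, (∀ w ∈ W, Z w = 0) → Z = 0) :
    Function.Injective (resHom hW) := by
  intro n n' h
  have hZ : ((n : LinearMap.GeneralLinearGroup k M) : Module.End k M) -
      ((n' : LinearMap.GeneralLinearGroup k M) : Module.End k M) = 0 := by
    apply hinj _ (𝒞.sub_mem (hN _ n.2) (hN _ n'.2))
    intro w hw
    have h1 : ((n : LinearMap.GeneralLinearGroup k M) : Module.End k M) w =
        ((n' : LinearMap.GeneralLinearGroup k M) : Module.End k M) w :=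
      congrArg (fun g : LinearMap.GeneralLinearGroup k ↥W =>
        (((g : Module.End k ↥W) ⟨w, hw⟩ : ↥W) : M)) h
    rw [LinearMap.sub_apply, h1, sub_self]
  apply Subtype.ext
  apply Units.ext
  exact sub_eq_zero.mp hZ

theorem res_quad_iff {N : Subgroup (LinearMap.GeneralLinearGroup k M)} {W : Submodule k M}
    (hW : Inv N W) (𝒞 : Subalgebra k (Module.End k M))
    (hN : ∀ n ∈ N, (n : Module.End k M) ∈ 𝒞)
    (hinj : ∀ Z ∈ 𝒞, (∀ w ∈ W, Z w = 0) → Z = 0) (n : ↥N) :
    (n : LinearMap.GeneralLinearGroup k M) ∈ quadraticElements N ↔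
      resHom hW n ∈ quadraticElements (resHom hW).range := by
  obtain ⟨X, hX⟩ : ∃ X : Module.End k M,
      X = ((n : LinearMap.GeneralLinearGroup k M) : Module.End k M) - 1 := ⟨_, rfl⟩
  obtain ⟨X', hX'⟩ : ∃ X' : Module.End k ↥W,
      X' = ((resHom hW n : LinearMap.GeneralLinearGroup k ↥W) : Module.End k ↥W) - 1 :=
    ⟨_, rfl⟩
  have hX𝒞 : X ∈ 𝒞 := by
    rw [hX]
    exact 𝒞.sub_mem (hN _ n.2) 𝒞.one_mem
  have hap : ∀ w : ↥W, ((X' w : ↥W) : M) = X (w : M) := by
    intro w
    rw [hX, hX']
    exact corr_nl_apply hW n w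
  have hap' : ∀ (w : M) (hw : w ∈ W), X w = ((X' ⟨w, hw⟩ : ↥W) : M) :=
    fun w hw => (hap ⟨w, hw⟩).symm
  constructor
  · rintro ⟨-, ⟨hsq, hne⟩, hfam⟩
    rw [← hX] at hsq hne
    refine ⟨⟨n, rfl⟩, ⟨?_, ?_⟩, ?_⟩
    · rw [← hX']
      apply LinearMap.ext
      intro w
      apply Subtype.ext
      rw [Module.End.mul_apply, hap, hap, ← Module.End.mul_apply, hsq]
      rfl
    · rw [← hX']
      intro h0
      apply hne
      apply hinj _ hX𝒞
      intro w hw
      rw [hap' w hw, h0]
      rfl
    · rintro τ' ⟨c, hc⟩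
      rw [← hX'] at hc
      have hsq' : (c • X) * (c • X) = 0 := by
        rw [smul_mul_smul_comm, hsq, smul_zero]
      have ht : mkU (c • X) hsq' ∈ N := hfam ⟨c, by rw [← hX]; rfl⟩
      refine ⟨⟨_, ht⟩, ?_⟩
      apply Units.ext
      apply LinearMap.ext
      intro w
      apply Subtype.ext
      rw [resHom_apply, hc, LinearMap.add_apply, LinearMap.smul_apply, Submodule.coe_add,
        Submodule.coe_smul, hap]
      rfl
  · rintro ⟨-, ⟨hsq, hne⟩, hfam⟩
    rw [← hX'] at hsq hne
    have hsqM : X * X = 0 := by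
      apply hinj _ (𝒞.mul_mem hX𝒞 hX𝒞)
      intro w hw
      rw [Module.End.mul_apply, hap' w hw, ← hap, ← Module.End.mul_apply, hsq]
      rfl
    refine ⟨n.2, ⟨?_, ?_⟩, ?_⟩
    · rw [← hX]
      exact hsqM
    · rw [← hX]
      intro h0
      apply hne
      apply LinearMap.ext
      intro w
      apply Subtype.ext
      rw [hap, h0]
      rfl
    · rintro τ ⟨c, hc⟩
      rw [← hX] at hc
      have hsq' : (c • X') * (c • X') = 0 := by
        rw [smul_mul_smul_comm, hsq, smul_zero]
      have hmem : mkU (c • X') hsq' ∈ (resHom hW).range := hfam ⟨c, by rw [← hX']; rfl⟩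
      obtain ⟨n', hn'⟩ := hmem
      have hZ : ((n' : LinearMap.GeneralLinearGroup k M) : Module.End k M) -
          (τ : Module.End k M) = 0 := by
        apply hinj
        · rw [hc]
          exact 𝒞.sub_mem (hN _ n'.2) (𝒞.add_mem 𝒞.one_mem (𝒞.smul_mem hX𝒞 c))
        · intro w hw
          have h1 : ((n' : LinearMap.GeneralLinearGroup k M) : Module.End k M) w =
              ((((mkU (c • X') hsq' : LinearMap.GeneralLinearGroup k ↥W) :
                Module.End k ↥W) ⟨w, hw⟩ : ↥W) : M) := by
            rw [← hn']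
            rfl
          have h2 : ((((mkU (c • X') hsq' : LinearMap.GeneralLinearGroup k ↥W) :
              Module.End k ↥W) ⟨w, hw⟩ : ↥W) : M) = w + c • X w := by
            show (((1 + c • X' : Module.End k ↥W) ⟨w, hw⟩ : ↥W) : M) = w + c • X w
            rw [LinearMap.add_apply, LinearMap.smul_apply, Submodule.coe_add,
              Submodule.coe_smul, hap]
            rfl
          rw [LinearMap.sub_apply, h1, h2, hc, LinearMap.add_apply, LinearMap.smul_apply]
          simp
      have hτ : τ = (n' : LinearMap.GeneralLinearGroup k M) :=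
        Units.ext (sub_eq_zero.mp hZ).symm
      rw [hτ]
      exact n'.2

end Cfsg.Agent.Lib.Helper50.QX
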