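import Cfsg.Agent.Lib.Helper50.QxBase

/-!
# S5063 piece X-DIM (helper50): a minimal `N`-invariant subspace is proper when `N` commutes
with a non-trivial quadratic element
-/

set_option autoImplicit false

namespace Cfsg.Agent.Lib.Helper50.QX

open Cfsg Cfsg.Agent.Lib.Helper50.QR Cfsg.Agent.Lib.Helper50.QW

universe u v

variable {k : Type u} [Field k] {M : Type v} [AddCommGroup M] [Module k M] [FiniteDimensional k M]

theorem res_dim_lt {N : Subgroup (LinearMap.GeneralLinearGroup k M)} {W : Submodule k M}
    (hW : MinInv N W) {a : LinearMap.GeneralLinearGroup k M} (ha : ∀ n ∈ N, n * a = a * n)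
    (hsq : nl a * nl a = 0) (hne : nl a ≠ 0) :
    Module.finrank k ↥W < Module.finrank k M := by
  have hWtop : W ≠ ⊤ := by
    intro hWt
    obtain ⟨hW0, hWinv, hWmin⟩ := hW
    -- `n` commutes with `nl a`
    have hcomm : ∀ n ∈ N, (n : Module.End k M) * nl a = nl a * (n : Module.End k M) := by
      intro n hn
      have h1 : (n : Module.End k M) * (a : Module.End k M) =
          (a : Module.End k M) * (n : Module.End k M) := by
        rw [← Units.val_mul, ← Units.val_mul, ha n hn]
      rw [nl_def, mul_sub, sub_mul, h1, mul_one, one_mul]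
    have hKinv : Inv N (LinearMap.ker (nl a)) := by
      intro n hn w hw
      rw [LinearMap.mem_ker] at hw ⊢
      have h2 : nl a ((n : Module.End k M) w) = (nl a * (n : Module.End k M)) w := rfl
      rw [h2, ← hcomm n hn, Module.End.mul_apply, hw, map_zero]
    have hKle : LinearMap.ker (nl a) ≤ W := by rw [hWt]; exact le_top
    rcases hWmin _ hKle hKinv with hK | hK
    · -- `nl a` injective, but `nl a (nl a m) = 0`
      apply hne
      ext m
      have h3 : nl a m ∈ LinearMap.ker (nl a) := by
        rw [LinearMap.mem_ker]
        have h4 : nl a (nl a m) = (nl a * nl a) m := rfl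
        rw [h4, hsq]; rfl
      rw [hK, Submodule.mem_bot] at h3
      rw [h3]; rfl
    · apply hne
      rw [hWt] at hK
      exact LinearMap.ker_eq_top.mp hK
  exact Submodule.finrank_lt hWtop

end Cfsg.Agent.Lib.Helper50.QX
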