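import Cfsg.Agent.Lib.Helper50.QxBase

/-!
# S5063 piece X-FIN (helper50): from a finite set of commuting subgroups to a family indexed
by `Fin s` (pure group theory)
-/

set_option autoImplicit false

namespace Cfsg.Agent.Lib.Helper50.QX

theorem dec_to_fin {A : Type*} [Group A] {Γ : Subgroup A} {Q : Set A} (hQ : Q ⊆ (Γ : Set A))
    (h : Dec Γ Q) :
    ∃ (s : ℕ) (Gi : Fin s → Subgroup A),
      (∀ i, Gi i ≤ Γ ∧ ∀ g ∈ Γ, (Gi i).map (MulAut.conj g).toMonoidHom = Gi i) ∧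
      (∀ i j, i ≠ j → ⁅Gi i, Gi j⁆ = ⊥) ∧ (⨆ i, Gi i) = Γ ∧
      (∀ i, Cfsg.IsQuasisimple ↥(Gi i) ∧ Subgroup.closure (Q ∩ (Gi i : Set A)) = Gi i) ∧
      Q ⊆ ⋃ i, (Gi i : Set A) := by
  classical
  obtain ⟨𝒦, hfin, hK, hcomm, hsup, hcov⟩ := h
  letI : Fintype ↥𝒦 := hfin.fintype
  obtain ⟨e⟩ : Nonempty (Fin (Fintype.card ↥𝒦) ≃ ↥𝒦) := ⟨(Fintype.equivFin ↥𝒦).symm⟩
  refine ⟨Fintype.card ↥𝒦, fun i => (e i).1, ?_, ?_, ?_, ?_, ?_⟩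
  · intro i
    obtain ⟨h1, h2, -, -⟩ := hK _ (e i).2
    refine ⟨h1, fun g hg => ?_⟩
    apply le_antisymm
    · rintro x ⟨z, hz, rfl⟩
      exact h2 g hg z hz
    · intro x hx
      refine ⟨g⁻¹ * x * g, ?_, ?_⟩
      · have h3 := h2 g⁻¹ (Γ.inv_mem hg) x hx
        rwa [inv_inv] at h3
      · simp only [MulEquiv.coe_toMonoidHom, MulAut.conj_apply]
        group
  · intro i j hij
    apply hcomm _ (e i).2 _ (e j).2
    intro heq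
    exact hij (e.injective (Subtype.ext heq))
  · rw [← hsup, sSup_eq_iSup']
    exact e.iSup_comp (g := fun K : ↥𝒦 => (K : Subgroup A))
  · intro i
    obtain ⟨-, -, h3, h4⟩ := hK _ (e i).2
    exact ⟨h3, h4⟩
  · intro x hx
    obtain ⟨K, hK', hxK⟩ := Set.mem_iUnion₂.mp (hcov ⟨hx, hQ hx⟩)
    rw [Set.mem_iUnion]
    refine ⟨e.symm ⟨K, hK'⟩, ?_⟩
    show x ∈ ((e (e.symm ⟨K, hK'⟩) : ↥𝒦) : Subgroup A)
    rw [Equiv.apply_symm_apply]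
    exact hxK

end Cfsg.Agent.Lib.Helper50.QX
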