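import Cfsg.Agent.Lib.Helper50.QxBase
import Cfsg.Agent.Lib.Helper50.QvMain

/-!
# S5063 piece X-KC (helper50): `G = K · C_G(K)` for a component group `K = GC G (E σ)`
-/

set_option autoImplicit false

namespace Cfsg.Agent.Lib.Helper50.QX

open Cfsg Cfsg.Agent.Lib.Helper50.QR Cfsg.Agent.Lib.Helper50.QW Cfsg.Agent.Lib.Helper50.QV

universe u v

variable {k : Type u} [Field k] {M : Type v} [AddCommGroup M] [Module k M] [FiniteDimensional k M]

variable {G : Subgroup (LinearMap.GeneralLinearGroup k M)}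

theorem le_gc_sup_centralizer (hk2 : ringChar k ≠ 2) (hk3 : Nat.card k ≠ 3)
    (hG : Cfsg.IsQuadraticPair G) {σ : LinearMap.GeneralLinearGroup k M}
    (hσ : σ ∈ minimalQuadraticElements G) :
    G ≤ GC G (sameActionSubgroup G σ) ⊔ Subgroup.centralizer
      (GC G (sameActionSubgroup G σ) : Set (LinearMap.GeneralLinearGroup k M)) := by
  have hmain : G ≤ gOne G := (QW.main hk2 hk3 hG).ge
  have hZ : (⨆ B ∈ Cfsg.quadraticRootSubgroups G, B) ≤
      GC G (sameActionSubgroup G σ) ⊔ Subgroup.centralizer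
        (GC G (sameActionSubgroup G σ) : Set (LinearMap.GeneralLinearGroup k M)) := by
    refine iSup₂_le fun B hB => ?_
    by_cases hBP : B ∈ Comp G (sameActionSubgroup G σ)
    · exact (le_gc hBP).trans le_sup_left
    · obtain ⟨τ, hτ, rfl⟩ := hB
      refine le_trans ?_ le_sup_right
      rw [← Subgroup.commutator_eq_bot_iff_le_centralizer, Subgroup.commutator_comm,
        Subgroup.commutator_eq_bot_iff_le_centralizer]
      refine iSup₂_le fun A hA => ?_
      rw [← Subgroup.commutator_eq_bot_iff_le_centralizer]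
      by_contra hne
      have hAcomp := comp_eq_of_mem hA
      obtain ⟨⟨σ', hσ', rfl⟩, -⟩ := hA
      have h1 := mem_comp_of_not_comm hk2 hk3 hG hσ' hτ hne
      rw [hAcomp] at h1
      exact hBP h1
  have hC : G ⊓ Subgroup.centralizer (gZero G : Set (LinearMap.GeneralLinearGroup k M)) ≤
      GC G (sameActionSubgroup G σ) ⊔ Subgroup.centralizer
        (GC G (sameActionSubgroup G σ) : Set (LinearMap.GeneralLinearGroup k M)) := by
    refine le_trans inf_le_right (le_trans ?_ le_sup_right)
    exact Subgroup.centralizer_le (SetLike.coe_subset_coe.mpr gc_le_g0)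
  exact hmain.trans (sup_le hZ hC)

theorem gc_normal_G (hk2 : ringChar k ≠ 2) (hk3 : Nat.card k ≠ 3)
    (hG : Cfsg.IsQuadraticPair G) {σ : LinearMap.GeneralLinearGroup k M}
    (hσ : σ ∈ minimalQuadraticElements G) :
    ∀ g ∈ G, ∀ z ∈ GC G (sameActionSubgroup G σ), g * z * g⁻¹ ∈ GC G (sameActionSubgroup G σ) := by
  have hle := le_gc_sup_centralizer hk2 hk3 hG hσ
  have hle2 : GC G (sameActionSubgroup G σ) ⊔ Subgroup.centralizer
      (GC G (sameActionSubgroup G σ) : Set (LinearMap.GeneralLinearGroup k M)) ≤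
      Subgroup.normalizer ((GC G (sameActionSubgroup G σ) :
        Subgroup (LinearMap.GeneralLinearGroup k M)) : Set (LinearMap.GeneralLinearGroup k M)) :=
    sup_le Subgroup.le_normalizer (Subgroup.centralizer_le_normalizer _)
  intro g hg z hz
  exact (Subgroup.mem_set_normalizer_iff.mp (hle2 (hle hg)) z).mp hz

end Cfsg.Agent.Lib.Helper50.QX
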