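import Cfsg.Agent.Lib.Helper50.QxBase

/-!
# S5063 piece X-MIN (helper50): existence of a minimal non-zero invariant subspace
-/

set_option autoImplicit false

namespace Cfsg.Agent.Lib.Helper50.QX

open Cfsg Cfsg.Agent.Lib.Helper50.QR Cfsg.Agent.Lib.Helper50.QW

universe u v

variable {k : Type u} [Field k] {M : Type v} [AddCommGroup M] [Module k M] [FiniteDimensional k M]

theorem exists_minInv (N : Subgroup (LinearMap.GeneralLinearGroup k M)) (hM : ∃ m : M, m ≠ 0) :
    ∃ W : Submodule k M, MinInv N W := by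
  classical
  have hne : ∃ n : ℕ, ∃ W : Submodule k M, W ≠ ⊥ ∧ Inv N W ∧ Module.finrank k W = n := by
    refine ⟨_, ⊤, ?_, ?_, rfl⟩
    · obtain ⟨m, hm⟩ := hM
      intro h
      have h1 : m ∈ (⊤ : Submodule k M) := Submodule.mem_top
      rw [h, Submodule.mem_bot] at h1
      exact hm h1
    · intro g _ w _
      exact Submodule.mem_top
  obtain ⟨W, hW0, hWinv, hWn⟩ := Nat.find_spec hne
  refine ⟨W, hW0, hWinv, ?_⟩
  intro W' hle hinv'
  by_cases h0 : W' = ⊥
  · exact Or.inl h0
  · right
    have h1 : Nat.find hne ≤ Module.finrank k W' := Nat.find_min' hne ⟨W', h0, hinv', rfl⟩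
    rw [← hWn] at h1
    exact Submodule.eq_of_le_of_finrank_le hle h1

end Cfsg.Agent.Lib.Helper50.QX
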