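import Cfsg.Agent.Lib.Helper50.QxBase

/-!
# S5063 piece X-N (helper50): the subgroup `nSub G` generated by the quadratic elements of `G`
centralizing `G₀`
-/

set_option autoImplicit false

namespace Cfsg.Agent.Lib.Helper50.QX

open Cfsg Cfsg.Agent.Lib.Helper50.QR Cfsg.Agent.Lib.Helper50.QW

universe u v

variable {k : Type u} [Field k] {M : Type v} [AddCommGroup M] [Module k M]

variable {G : Subgroup (LinearMap.GeneralLinearGroup k M)}

theorem nSub_le : nSub G ≤ G :=
  (Subgroup.closure_le G).2 (fun _ hx => hx.1.1)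

theorem nSub_le_centralizer :
    nSub G ≤ Subgroup.centralizer (gZero G : Set (LinearMap.GeneralLinearGroup k M)) :=
  (Subgroup.closure_le _).2 (fun _ hx => hx.2)

theorem cQuad_subset : cQuad G ⊆ quadraticElements (nSub G) := by
  rintro σ ⟨hσ, hσC⟩
  refine ⟨Subgroup.subset_closure ⟨hσ, hσC⟩, hσ.2.1, ?_⟩
  rintro τ ⟨c, hτ⟩
  by_cases hc : c = 0
  · have : τ = 1 := by
      apply Units.ext
      rw [hτ, hc, zero_smul, add_zero]
      rfl
    rw [this]
    exact (nSub G).one_mem
  · have hτeq : τ = mkU (c • nl σ) (smul_sq (quad_sq hσ.2.1) c) := by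
      apply Units.ext
      rw [hτ]
      rfl
    rw [hτeq]
    apply Subgroup.subset_closure
    refine ⟨mkU_smul_quad hσ hc, ?_⟩
    rw [SetLike.mem_coe, Subgroup.mem_centralizer_iff]
    intro g hg
    have hgσ := (Subgroup.mem_centralizer_iff.1 hσC) g hg
    apply Units.ext
    rw [Units.val_mul, Units.val_mul]
    show (g : Module.End k M) * (1 + c • nl σ) = (1 + c • nl σ) * (g : Module.End k M)
    have h1 : (g : Module.End k M) * nl σ = nl σ * (g : Module.End k M) := by
      have h2 := congrArg (fun u : LinearMap.GeneralLinearGroup k M => (u : Module.End k M)) hgσ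
      simp only [Units.val_mul] at h2
      rw [nl_def, mul_sub, sub_mul, h2, mul_one, one_mul]
    rw [mul_add, add_mul, mul_one, one_mul, mul_smul_comm, smul_mul_assoc, h1]

theorem quad_nSub_subset : quadraticElements (nSub G) ⊆ cQuad G := by
  rintro σ ⟨hσN, hq, hsf⟩
  exact ⟨⟨nSub_le hσN, hq, fun τ hτ => nSub_le (hsf hτ)⟩, nSub_le_centralizer hσN⟩

theorem nSub_gen : Subgroup.closure (quadraticElements (nSub G)) = nSub G := by
  apply le_antisymm
  · exact (Subgroup.closure_le _).2 (fun _ hx => hx.1)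
  · exact Subgroup.closure_mono cQuad_subset

theorem le_sup_nSub (hG : Cfsg.IsQuadraticPair G)
    (hcov : ∀ x ∈ quadraticElements G, x ∈ gZero G ∨
      x ∈ Subgroup.centralizer (gZero G : Set (LinearMap.GeneralLinearGroup k M))) :
    G ≤ gZero G ⊔ nSub G := by
  conv_lhs => rw [← hG.2]
  refine (Subgroup.closure_le _).2 fun x hx => ?_
  rcases hcov x hx with h | h
  · exact Subgroup.mem_sup_left h
  · exact Subgroup.mem_sup_right (Subgroup.subset_closure ⟨hx, h⟩)

end Cfsg.Agent.Lib.Helper50.QX
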