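import Cfsg.Agent.Lib.Helper50.QxCorr

/-!
# S5063 piece X-PAIR (helper50): the restriction of `N` to a minimal invariant subspace is a
quadratic pair
-/

set_option autoImplicit false

namespace Cfsg.Agent.Lib.Helper50.QX

open Cfsg Cfsg.Agent.Lib.Helper50.QR Cfsg.Agent.Lib.Helper50.QW

universe u v

variable {k : Type u} [Field k] {M : Type v} [AddCommGroup M] [Module k M]

theorem res_pair {N : Subgroup (LinearMap.GeneralLinearGroup k M)} {W : Submodule k M}
    (hW : MinInv N W) (hgen : Subgroup.closure (quadraticElements N) = N)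
    (𝒞 : Subalgebra k (Module.End k M))
    (hN : ∀ n ∈ N, (n : Module.End k M) ∈ 𝒞)
    (hinj : ∀ Z ∈ 𝒞, (∀ w ∈ W, Z w = 0) → Z = 0) :
    Cfsg.IsQuadraticPair (resHom hW.2.1).range := by
  obtain ⟨hW0, hWinv, hWmin⟩ := hW
  refine ⟨⟨?_, ?_⟩, ?_⟩
  · -- `W ≠ 0`
    obtain ⟨x, hx, hx0⟩ := (Submodule.ne_bot_iff W).mp hW0
    exact ⟨⟨x, hx⟩, fun h => hx0 (congrArg Subtype.val h)⟩
  · -- irreducibility
    intro W' hW'
    have hU : Inv N (W'.map W.subtype) := by
      intro g hg u hu
      obtain ⟨w, hw, rfl⟩ := Submodule.mem_map.mp hu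
      have h1 := hW' (resHom hWinv ⟨g, hg⟩) ⟨⟨g, hg⟩, rfl⟩ w hw
      exact Submodule.mem_map.mpr ⟨_, h1, rfl⟩
    rcases hWmin (W'.map W.subtype) (Submodule.map_subtype_le W W') hU with h | h
    · left
      rw [Submodule.eq_bot_iff]
      intro w hw
      have h1 : (w : M) ∈ W'.map W.subtype := Submodule.mem_map.mpr ⟨w, hw, rfl⟩
      rw [h, Submodule.mem_bot] at h1
      exact Subtype.ext h1
    · right
      rw [Submodule.eq_top_iff']
      intro w
      have h1 : (w : M) ∈ W'.map W.subtype := by rw [h]; exact w.2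
      obtain ⟨w', hw', hww⟩ := Submodule.mem_map.mp h1
      have h2 : w' = w := Subtype.ext hww
      rw [← h2]
      exact hw'
  · -- generation
    apply le_antisymm
    · rw [Subgroup.closure_le]
      intro σ hσ
      exact hσ.1
    · rintro x ⟨n, rfl⟩
      have hn : (n : LinearMap.GeneralLinearGroup k M) ∈
          Subgroup.closure (quadraticElements N) := by
        rw [hgen]
        exact n.2
      have key : ∀ (g : LinearMap.GeneralLinearGroup k M)
          (hg : g ∈ Subgroup.closure (quadraticElements N)), ∀ hgN : g ∈ N,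
          resHom hWinv ⟨g, hgN⟩ ∈
            Subgroup.closure (quadraticElements (resHom hWinv).range) := by
        intro g hg
        induction hg using Subgroup.closure_induction with
        | mem g hg =>
          intro hgN
          exact Subgroup.subset_closure
            ((res_quad_iff hWinv 𝒞 hN hinj ⟨g, hgN⟩).mp hg)
        | one =>
          intro hgN
          have h1 : (⟨1, hgN⟩ : ↥N) = 1 := rfl
          rw [h1, map_one]
          exact Subgroup.one_mem _
        | mul g₁ g₂ hg₁ hg₂ ih₁ ih₂ =>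
          intro hgN
          have h1 : g₁ ∈ N := by rw [← hgen]; exact hg₁
          have h2 : g₂ ∈ N := by rw [← hgen]; exact hg₂
          have h3 : (⟨g₁ * g₂, hgN⟩ : ↥N) = ⟨g₁, h1⟩ * ⟨g₂, h2⟩ := rfl
          rw [h3, map_mul]
          exact Subgroup.mul_mem _ (ih₁ h1) (ih₂ h2)
        | inv g hg ih =>
          intro hgN
          have h1 : g ∈ N := by rw [← hgen]; exact hg
          have h3 : (⟨g⁻¹, hgN⟩ : ↥N) = (⟨g, h1⟩ : ↥N)⁻¹ := rfl
          rw [h3, map_inv]
          exact Subgroup.inv_mem _ (ih h1)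
      exact key n hn n.2

end Cfsg.Agent.Lib.Helper50.QX
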