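import Cfsg.Agent.Lib.Helper50.QxBase
import Cfsg.Agent.Lib.Helper30.Basic

/-!
# S5063 piece X-PULL (helper50): pulling back a central product decomposition along an
injective homomorphism (pure group theory)
-/

set_option autoImplicit false

namespace Cfsg.Agent.Lib.Helper50.QX

open scoped commutatorElement

theorem dec_pull {A₁ A₂ : Type*} [Group A₁] [Group A₂] (Γ₂ : Subgroup A₂) (φ : ↥Γ₂ →* A₁)
    (hφ : Function.Injective φ) (Q₁ : Set A₁) (Q₂ : Set A₂)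
    (hQ : ∀ g : ↥Γ₂, (g : A₂) ∈ Q₂ ↔ φ g ∈ Q₁) (h : Dec φ.range Q₁) : Dec Γ₂ Q₂ := by
  classical
  obtain ⟨𝒦, hfin, hK, hcomm, hsup, hcov⟩ := h
  -- the pulled back subgroups
  have hmem : ∀ (K : Subgroup A₁) (x : A₂), x ∈ (K.comap φ).map Γ₂.subtype ↔
      ∃ g : ↥Γ₂, φ g ∈ K ∧ (g : A₂) = x := by
    intro K x
    rw [Subgroup.mem_map]
    constructor
    · rintro ⟨g, hg, rfl⟩
      exact ⟨g, Subgroup.mem_comap.mp hg, rfl⟩
    · rintro ⟨g, hg, rfl⟩
      exact ⟨g, Subgroup.mem_comap.mpr hg, rfl⟩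
  have hrange : ∀ K ∈ 𝒦, ∀ y ∈ K, ∃ g : ↥Γ₂, φ g = y := by
    intro K hK' y hy
    exact MonoidHom.mem_range.mp ((hK K hK').1 hy)
  refine ⟨(fun K : Subgroup A₁ => (K.comap φ).map Γ₂.subtype) '' 𝒦, hfin.image _, ?_, ?_, ?_, ?_⟩
  · rintro _ ⟨K, hK', rfl⟩
    obtain ⟨h1, h2, h3, h4⟩ := hK K hK'
    refine ⟨?_, ?_, ?_, ?_⟩
    · intro x hx
      obtain ⟨g, -, rfl⟩ := (hmem K x).mp hx
      exact g.2
    · intro g hg z hz
      obtain ⟨g₀, hg₀, rfl⟩ := (hmem K z).mp hz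
      rw [hmem]
      refine ⟨⟨g, hg⟩ * g₀ * (⟨g, hg⟩ : ↥Γ₂)⁻¹, ?_, rfl⟩
      rw [map_mul, map_mul, map_inv]
      exact h2 _ (MonoidHom.mem_range.mpr ⟨_, rfl⟩) _ hg₀
    · -- quasisimple
      have hbij : Function.Bijective (φ.subgroupComap K) := by
        constructor
        · intro a b hab
          apply Subtype.ext
          apply hφ
          exact congrArg Subtype.val hab
        · rintro ⟨y, hy⟩
          obtain ⟨g, rfl⟩ := hrange K hK' y hy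
          exact ⟨⟨g, Subgroup.mem_comap.mpr hy⟩, rfl⟩
      have e1 : ↥(K.comap φ) ≃* ↥K := MulEquiv.ofBijective (φ.subgroupComap K) hbij
      have e2 : ↥(K.comap φ) ≃* ↥((K.comap φ).map Γ₂.subtype) :=
        Subgroup.equivMapOfInjective _ _ (Subgroup.subtype_injective Γ₂)
      exact Cfsg.Agent.Lib.Helper30.isQuasisimple_of_mulEquiv (e1.symm.trans e2) h3
    · -- generation
      apply le_antisymm
      · rw [Subgroup.closure_le]
        exact Set.inter_subset_right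
      · intro x hx
        obtain ⟨g, hg, rfl⟩ := (hmem K x).mp hx
        obtain ⟨H, hH⟩ : ∃ H : Subgroup ↥Γ₂, H =
            (Subgroup.closure (Q₂ ∩ (((K.comap φ).map Γ₂.subtype : Subgroup A₂) : Set A₂))).comap
              Γ₂.subtype := ⟨_, rfl⟩
        have hle : K ≤ H.map φ := by
          rw [← h4, Subgroup.closure_le]
          rintro y ⟨hyQ, hyK⟩
          obtain ⟨g', rfl⟩ := hrange K hK' y hyK
          refine ⟨g', ?_, rfl⟩
          rw [hH]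
          apply Subgroup.mem_comap.mpr
          apply Subgroup.subset_closure
          exact ⟨(hQ g').mpr hyQ, (hmem K _).mpr ⟨g', hyK, rfl⟩⟩
        obtain ⟨g'', hg'', e⟩ := hle hg
        have e' : g'' = g := hφ e
        rw [e', hH] at hg''
        exact Subgroup.mem_comap.mp hg''
  · rintro _ ⟨K, hK', rfl⟩ _ ⟨K', hK'', rfl⟩ hne
    have hne' : K ≠ K' := by
      rintro rfl
      exact hne rfl
    have hc := hcomm K hK' K' hK'' hne'
    rw [eq_bot_iff, Subgroup.commutator_le]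
    intro x hx x' hx'
    obtain ⟨g, hg, rfl⟩ := (hmem K x).mp hx
    obtain ⟨g', hg', rfl⟩ := (hmem K' x').mp hx'
    have h1 : ⁅φ g, φ g'⁆ ∈ ⁅K, K'⁆ := Subgroup.commutator_mem_commutator hg hg'
    rw [hc, Subgroup.mem_bot, ← map_commutatorElement] at h1
    have h2 : ⁅g, g'⁆ = 1 := hφ (by rw [h1, map_one])
    rw [Subgroup.mem_bot]
    have h3 : ⁅(g : A₂), (g' : A₂)⁆ = ((⁅g, g'⁆ : ↥Γ₂) : A₂) := rfl
    rw [h3, h2]
    rfl
  · apply le_antisymm
    · apply sSup_le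
      rintro _ ⟨K, hK', rfl⟩
      exact Subgroup.map_subtype_le _
    · intro x hx
      obtain ⟨H, hH⟩ : ∃ H : Subgroup ↥Γ₂, H =
          (sSup ((fun K : Subgroup A₁ => (K.comap φ).map Γ₂.subtype) '' 𝒦)).comap Γ₂.subtype :=
        ⟨_, rfl⟩
      have hle : sSup 𝒦 ≤ H.map φ := by
        apply sSup_le
        intro K hK' y hy
        obtain ⟨g', rfl⟩ := hrange K hK' y hy
        refine ⟨g', ?_, rfl⟩
        rw [hH]
        apply Subgroup.mem_comap.mpr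
        have h1 : (K.comap φ).map Γ₂.subtype ≤
            sSup ((fun K : Subgroup A₁ => (K.comap φ).map Γ₂.subtype) '' 𝒦) :=
          le_sSup ⟨K, hK', rfl⟩
        exact h1 ((hmem K _).mpr ⟨g', hy, rfl⟩)
      have hx' : φ ⟨x, hx⟩ ∈ sSup 𝒦 := by
        rw [hsup]
        exact MonoidHom.mem_range.mpr ⟨_, rfl⟩
      obtain ⟨g'', hg'', e⟩ := hle hx'
      have e' : g'' = ⟨x, hx⟩ := hφ e
      rw [e', hH] at hg''
      exact Subgroup.mem_comap.mp hg''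
  · rintro x ⟨hxQ, hxΓ⟩
    have h1 : φ ⟨x, hxΓ⟩ ∈ Q₁ := (hQ ⟨x, hxΓ⟩).mp hxQ
    obtain ⟨K, hK', hxK⟩ := Set.mem_iUnion₂.mp (hcov ⟨h1, MonoidHom.mem_range.mpr ⟨_, rfl⟩⟩)
    rw [Set.mem_iUnion₂]
    exact ⟨_, ⟨K, hK', rfl⟩, (hmem K x).mpr ⟨⟨x, hxΓ⟩, hxK, rfl⟩⟩

end Cfsg.Agent.Lib.Helper50.QX
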