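import Cfsg.Agent.Lib.Helper50.QxRel
import Cfsg.Agent.Lib.Helper50.QxMin
import Cfsg.Agent.Lib.Helper50.QxPair
import Cfsg.Agent.Lib.Helper50.QxDim
import Cfsg.Agent.Lib.Helper50.QxPull
import Cfsg.Agent.Lib.Helper50.QxFin
import Cfsg.Agent.Lib.Helper50.QxComp2
import Cfsg.Agent.Lib.Helper50.QxN

/-!
# S5063 (helper50): a quadratic pair is a central product of quasisimple groups — assembly

Strong induction on `dim M`: `G = G₀ · N` with `N = ⟨𝒬 ∩ C(G₀)⟩`; the component groups of `G₀`
together with the pulled back decomposition of the quadratic pair `(N|W, W)`, `W` a minimal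
`N`-invariant subspace, decompose `G`.
-/

set_option autoImplicit false

namespace Cfsg.Agent.Lib.Helper50.QX

open Polynomial Cfsg Cfsg.Agent.Lib.Helper50.QR Cfsg.Agent.Lib.Helper50.QP
  Cfsg.Agent.Lib.Helper50.QS Cfsg.Agent.Lib.Helper50.QW Cfsg.Agent.Lib.Helper50.QV

universe u

variable {k : Type u} [Field k]

theorem dec_all (hk2 : ringChar k ≠ 2) (hk3 : Nat.card k ≠ 3) :
    ∀ (n : ℕ) (M : Type u) [AddCommGroup M] [Module k M] [FiniteDimensional k M],
      Module.finrank k M = n → ∀ G : Subgroup (LinearMap.GeneralLinearGroup k M),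
      Cfsg.IsQuadraticPair G → Dec G (quadraticElements G) := by
  intro n
  induction n using Nat.strong_induction_on with
  | _ n IH =>
    intro M _ _ _ hn G hG
    by_cases hempty : minimalQuadraticElements G = ∅
    · have hQ : quadraticElements G = ∅ := by
        by_contra hne
        obtain ⟨x, hx⟩ := Set.nonempty_iff_ne_empty.2 hne
        obtain ⟨σ, hσ, hmin⟩ := WellFounded.has_min
          (InvImage.wf (commutatorRank (k := k) (M := M)) Nat.lt_wfRel.wf)
          (quadraticElements G) ⟨x, hx⟩
        have : σ ∈ minimalQuadraticElements G :=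
          ⟨hσ, fun τ hτ => not_lt.1 (hmin τ hτ)⟩
        rw [hempty] at this
        exact this
      have hGbot : G = ⊥ := by rw [← hG.2, hQ, Subgroup.closure_empty]
      refine ⟨∅, Set.finite_empty, ?_, ?_, ?_, ?_⟩
      · intro K hK
        exact absurd hK (Set.notMem_empty K)
      · intro K hK
        exact absurd hK (Set.notMem_empty K)
      · rw [sSup_empty, hGbot]
      · rw [hQ, Set.empty_inter]
        exact Set.empty_subset _
    · obtain ⟨a, ha⟩ := Set.nonempty_iff_ne_empty.2 hempty
      have hcov := quad_cover hk2 hk3 hG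
      have hcov' : ∀ x ∈ quadraticElements G, x ∈ gZero G ∨
          x ∈ Subgroup.centralizer (gZero G : Set (LinearMap.GeneralLinearGroup k M)) := by
        intro x hx
        rcases hcov x hx with ⟨σ, -, h⟩ | h
        · exact Or.inl (gc_le_g0 h)
        · exact Or.inr h
      have hNle : nSub G ≤ G := nSub_le
      have hNC := nSub_le_centralizer (G := G)
      have hGle : G ≤ gZero G ⊔ nSub G := le_sup_nSub hG hcov'
      have hcomm : ∀ g ∈ gZero G, ∀ n ∈ nSub G, g * n = n * g :=
        fun g hg n hn => (Subgroup.mem_centralizer_iff.1 (hNC hn)) g hg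
      obtain ⟨W, hW⟩ := exists_minInv (nSub G) hG.1.1
      have hN𝒞 : ∀ n ∈ nSub G, (n : Module.End k M) ∈
          Subalgebra.centralizer k {Z : Module.End k M | ∃ g ∈ gZero G, Z = (g : Module.End k M)} := by
        intro n hn
        rw [Subalgebra.mem_centralizer_iff]
        rintro _ ⟨g, hg, rfl⟩
        have h1 := congrArg (fun u : LinearMap.GeneralLinearGroup k M => (u : Module.End k M))
          (hcomm g hg n hn)
        simpa only [Units.val_mul] using h1
      have hinj : ∀ Z ∈ Subalgebra.centralizer k
          {Z : Module.End k M | ∃ g ∈ gZero G, Z = (g : Module.End k M)},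
          (∀ w ∈ W, Z w = 0) → Z = 0 := by
        intro Z hZ hZW
        refine span_zero hG hGle hcomm hW.1 hW.2.1 (fun g hg => ?_) hZW
        exact (((Subalgebra.mem_centralizer_iff k).1 hZ) _ ⟨g, hg, rfl⟩).symm
      have hpair := res_pair hW nSub_gen _ hN𝒞 hinj
      have hdim : Module.finrank k ↥W < Module.finrank k M :=
        res_dim_lt hW (a := a) (fun n hn => (hcomm a (min_mem_gZero ha) n hn).symm)
          (quad_sq ha.1.2.1) (quad_ne ha.1.2.1)
      have hdecW := IH (Module.finrank k ↥W) (hn ▸ hdim) ↥W rfl _ hpair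
      have hdecN : Dec (nSub G) (quadraticElements (nSub G)) :=
        dec_pull (nSub G) (resHom hW.2.1) (res_injective hW.2.1 _ hN𝒞 hinj) _ _
          (fun g => res_quad_iff hW.2.1 _ hN𝒞 hinj g) hdecW
      obtain ⟨𝒦₂, hfin2, hK2, hcomm2, hsup2, hcov2⟩ := hdecN
      have hcg_le : ∀ K ∈ compGroups G, K ≤ gZero G := by
        intro K hK
        rw [← sSup_compGroups]
        exact le_sSup hK
      refine ⟨compGroups G ∪ 𝒦₂, (compGroups_finite hk2 hk3 hG).union hfin2, ?_, ?_, ?_, ?_⟩
      · rintro K (hK | hK)
        · obtain ⟨σ, hσ, rfl⟩ := hK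
          exact ⟨gc_le, gc_normal_G hk2 hk3 hG hσ, gc_quasisimple hk2 hk3 hG hσ,
            gc_closure_quad⟩
        · obtain ⟨hKN, hKn, hKq, hKc⟩ := hK2 K hK
          refine ⟨hKN.trans hNle, ?_, hKq, ?_⟩
          · have hle : gZero G ⊔ nSub G ≤
                Subgroup.normalizer (K : Set (LinearMap.GeneralLinearGroup k M)) := by
              apply sup_le
              · refine le_trans ?_ (Subgroup.centralizer_le_normalizer _)
                intro g₀ hg₀
                rw [Subgroup.mem_centralizer_iff]
                intro h hh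
                exact (hcomm g₀ hg₀ h (hKN hh)).symm
              · intro n hn
                rw [Subgroup.mem_set_normalizer_iff]
                intro h
                constructor
                · intro hh
                  exact hKn n hn h hh
                · intro hh
                  have := hKn n⁻¹ ((nSub G).inv_mem hn) _ hh
                  have e : n⁻¹ * (n * h * n⁻¹) * n⁻¹⁻¹ = h := by group
                  rwa [e] at this
            intro g hg z hz
            exact (Subgroup.mem_set_normalizer_iff.mp (hle (hGle hg)) z).mp hz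
          · apply le_antisymm
            · exact (Subgroup.closure_le K).2 (fun x hx => hx.2)
            · conv_lhs => rw [← hKc]
              exact Subgroup.closure_mono (fun x hx => ⟨(quad_nSub_subset hx.1).1, hx.2⟩)
      · rintro K (hK | hK) K' (hK' | hK') hne
        · exact compGroups_comm hk2 hk3 hG K hK K' hK' hne
        · rw [Subgroup.commutator_eq_bot_iff_le_centralizer]
          intro g hg
          rw [Subgroup.mem_centralizer_iff]
          intro h hh
          exact (hcomm g (hcg_le K hK hg) h ((hK2 K' hK').1 hh)).symm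
        · rw [Subgroup.commutator_eq_bot_iff_le_centralizer]
          intro g hg
          rw [Subgroup.mem_centralizer_iff]
          intro h hh
          exact hcomm h (hcg_le K' hK' hh) g ((hK2 K hK).1 hg)
        · exact hcomm2 K hK K' hK' hne
      · rw [sSup_union, sSup_compGroups, hsup2]
        exact le_antisymm (sup_le gZero_le hNle) hGle
      · rintro x ⟨hx, -⟩
        rcases hcov x hx with ⟨σ, hσ, hxK⟩ | hC
        · exact Set.mem_biUnion (Or.inl ⟨σ, hσ, rfl⟩) hxK
        · have hxN : x ∈ quadraticElements (nSub G) := cQuad_subset ⟨hx, hC⟩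
          obtain ⟨K, hK, hxK⟩ := Set.mem_iUnion₂.1 (hcov2 ⟨hxN, hxN.1⟩)
          exact Set.mem_biUnion (Or.inr hK) hxK

/-- **S5063** -/
theorem main63 (hk2 : ringChar k ≠ 2) (hk3 : Nat.card k ≠ 3)
    {M : Type u} [AddCommGroup M] [Module k M] [FiniteDimensional k M]
    {G : Subgroup (LinearMap.GeneralLinearGroup k M)} (hG : Cfsg.IsQuadraticPair G) :
    ∃ (s : ℕ) (Gi : Fin s → Subgroup (LinearMap.GeneralLinearGroup k M)),
      (∀ i, Gi i ≤ G ∧ ∀ g ∈ G, Cfsg.conjBy (Gi i) g = Gi i) ∧
      (∀ i j, i ≠ j → ⁅Gi i, Gi j⁆ = ⊥) ∧ (⨆ i, Gi i) = G ∧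
      (∀ i, Cfsg.IsQuasisimple ↥(Gi i) ∧
        Subgroup.closure (Cfsg.quadraticElements G ∩
          (Gi i : Set (LinearMap.GeneralLinearGroup k M))) = Gi i) ∧
      Cfsg.quadraticElements G ⊆ ⋃ i, (Gi i : Set (LinearMap.GeneralLinearGroup k M)) :=
  dec_to_fin (fun _ hx => hx.1) (dec_all hk2 hk3 _ M rfl G hG)

end Cfsg.Agent.Lib.Helper50.QX
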