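import Cfsg.Agent.Lib.Helper50.QxBase

/-!
# S5063 piece X-SPAN (helper50; proof by helper83): an endomorphism commuting with `G₀` and
vanishing on a non-zero `N`-invariant subspace is zero (`G ≤ G₀ ⊔ N`, `G₀` and `N` commuting,
`M` irreducible)
-/

set_option autoImplicit false

namespace Cfsg.Agent.Lib.Helper50.QX

open Cfsg Cfsg.Agent.Lib.Helper50.QR Cfsg.Agent.Lib.Helper50.QW

universe u v

variable {k : Type u} [Field k] {M : Type v} [AddCommGroup M] [Module k M]

/-- the subgroup of `GL(M)` stabilising a subspace (together with the inverses) -/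
def xspanStab (U : Submodule k M) : Subgroup (LinearMap.GeneralLinearGroup k M) where
  carrier := {x | (∀ u ∈ U, (x : Module.End k M) u ∈ U) ∧
    (∀ u ∈ U, ((x⁻¹ : LinearMap.GeneralLinearGroup k M) : Module.End k M) u ∈ U)}
  mul_mem' := by
    intro a b ha hb
    refine ⟨fun u hu => ?_, fun u hu => ?_⟩
    · rw [Units.val_mul, Module.End.mul_apply]
      exact ha.1 _ (hb.1 u hu)
    · rw [mul_inv_rev, Units.val_mul, Module.End.mul_apply]
      exact hb.2 _ (ha.2 u hu)
  one_mem' := by
    refine ⟨fun u hu => ?_, fun u hu => ?_⟩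
    · rw [Units.val_one, Module.End.one_apply]; exact hu
    · rw [inv_one, Units.val_one, Module.End.one_apply]; exact hu
  inv_mem' := by
    intro a ha
    refine ⟨ha.2, fun u hu => ?_⟩
    rw [inv_inv]
    exact ha.1 u hu

theorem span_zero {G G0 N : Subgroup (LinearMap.GeneralLinearGroup k M)}
    (hG : Cfsg.IsQuadraticPair G) (hGle : G ≤ G0 ⊔ N)
    (hcomm : ∀ g ∈ G0, ∀ n ∈ N, g * n = n * g) {W : Submodule k M} (hW0 : W ≠ ⊥)
    (hW : Inv N W) {Z : Module.End k M}
    (hZ : ∀ g ∈ G0, Z * (g : Module.End k M) = (g : Module.End k M) * Z)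
    (hZW : ∀ w ∈ W, Z w = 0) : Z = 0 := by
  classical
  obtain ⟨U, hU⟩ : ∃ U : Submodule k M,
      U = Submodule.span k {m : M | ∃ g ∈ G0, ∃ w ∈ W, m = (g : Module.End k M) w} := ⟨_, rfl⟩
  have hWU : W ≤ U := by
    intro w hw
    rw [hU]
    refine Submodule.subset_span ⟨1, G0.one_mem, w, hw, ?_⟩
    rw [Units.val_one, Module.End.one_apply]
  -- invariance under `G0`
  have hG0 : ∀ g' ∈ G0, ∀ u ∈ U, (g' : Module.End k M) u ∈ U := by
    intro g' hg' u hu
    rw [hU] at hu ⊢
    refine Submodule.span_induction ?_ ?_ ?_ ?_ hu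
    · rintro _ ⟨g, hg, w, hw, rfl⟩
      refine Submodule.subset_span ⟨g' * g, G0.mul_mem hg' hg, w, hw, ?_⟩
      rw [Units.val_mul, Module.End.mul_apply]
    · rw [map_zero]; exact Submodule.zero_mem _
    · intro x y _ _ hx hy
      rw [map_add]; exact Submodule.add_mem _ hx hy
    · intro a x _ hx
      rw [map_smul]; exact Submodule.smul_mem _ a hx
  -- invariance under `N`
  have hN : ∀ n ∈ N, ∀ u ∈ U, (n : Module.End k M) u ∈ U := by
    intro n hn u hu
    rw [hU] at hu ⊢
    refine Submodule.span_induction ?_ ?_ ?_ ?_ hu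
    · rintro _ ⟨g, hg, w, hw, rfl⟩
      refine Submodule.subset_span ⟨g, hg, (n : Module.End k M) w, hW n hn w hw, ?_⟩
      rw [← Module.End.mul_apply, ← Module.End.mul_apply, ← Units.val_mul, ← Units.val_mul,
        hcomm g hg n hn]
    · rw [map_zero]; exact Submodule.zero_mem _
    · intro x y _ _ hx hy
      rw [map_add]; exact Submodule.add_mem _ hx hy
    · intro a x _ hx
      rw [map_smul]; exact Submodule.smul_mem _ a hx
  have hle : G0 ⊔ N ≤ xspanStab U := by
    apply sup_le
    · intro g hg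
      exact ⟨hG0 g hg, hG0 g⁻¹ (G0.inv_mem hg)⟩
    · intro n hn
      exact ⟨hN n hn, hN n⁻¹ (N.inv_mem hn)⟩
  have hUtop : U = ⊤ := by
    rcases hG.1.2 U (fun g hg u hu => (hle (hGle hg)).1 u hu) with h | h
    · exfalso
      apply hW0
      rw [eq_bot_iff, ← h]
      exact hWU
    · exact h
  have hker : U ≤ LinearMap.ker Z := by
    rw [hU, Submodule.span_le]
    rintro _ ⟨g, hg, w, hw, rfl⟩
    show Z ((g : Module.End k M) w) = 0
    rw [← Module.End.mul_apply, hZ g hg, Module.End.mul_apply, hZW w hw, map_zero]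
  apply LinearMap.ext
  intro m
  have hm : m ∈ U := by rw [hUtop]; exact Submodule.mem_top
  exact hker hm

/-- unmixing: `Z` commutes with `K`, kills the commutator space of some `ξ ∈ K`, `ξ ≠ 1` -/
theorem unmix {G K : Subgroup (LinearMap.GeneralLinearGroup k M)}
    (hG : Cfsg.IsQuadraticPair G)
    (hKC : G ≤ K ⊔ Subgroup.centralizer (K : Set (LinearMap.GeneralLinearGroup k M)))
    {Z : Module.End k M}
    (hZ : ∀ g ∈ K, Z * (g : Module.End k M) = (g : Module.End k M) * Z)
    {ξ : LinearMap.GeneralLinearGroup k M} (hξ : ξ ∈ K) (hξ0 : nl ξ ≠ 0) (hZξ : Z * nl ξ = 0) :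
    Z = 0 := by
  refine span_zero (G0 := K)
    (N := Subgroup.centralizer (K : Set (LinearMap.GeneralLinearGroup k M)))
    (W := LinearMap.range (nl ξ)) hG hKC ?_ ?_ ?_ hZ ?_
  · intro g hg n hn
    exact Subgroup.mem_centralizer_iff.1 hn g hg
  · intro h
    exact hξ0 (LinearMap.range_eq_bot.1 h)
  · intro c hc w hw
    obtain ⟨m, rfl⟩ := hw
    refine ⟨(c : Module.End k M) m, ?_⟩
    have h1 : ξ * c = c * ξ := Subgroup.mem_centralizer_iff.1 hc ξ hξ
    have h2 : (c : Module.End k M) ((ξ : Module.End k M) m) =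
        (ξ : Module.End k M) ((c : Module.End k M) m) := by
      rw [← Module.End.mul_apply, ← Module.End.mul_apply, ← Units.val_mul, ← Units.val_mul, h1]
    rw [nl_def]
    simp only [LinearMap.sub_apply, Module.End.one_apply, map_sub]
    rw [h2]
  · intro w hw
    obtain ⟨m, rfl⟩ := hw
    rw [← Module.End.mul_apply, hZξ]
    rfl

end Cfsg.Agent.Lib.Helper50.QX
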