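import Cfsg.Agent.Lib.Helper50.QxKC
import Cfsg.Agent.Lib.Helper50.QxSpan
import Cfsg.Agent.Lib.Helper50.QxComp

/-!
# S5063 (helper50): every quadratic element lies in a component group or centralizes `G₀`

For a component group `K = GC G (E σ₀)`: every quadratic element of `G` lies in `K` or in the
centralizer of `K` (the argument of S5074 relative to `K`, with the unmixing lemma).
-/

set_option autoImplicit false

namespace Cfsg.Agent.Lib.Helper50.QX

open Polynomial Cfsg Cfsg.Agent.Lib.Helper50.QR Cfsg.Agent.Lib.Helper50.QP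
  Cfsg.Agent.Lib.Helper50.QS Cfsg.Agent.Lib.Helper50.QW Cfsg.Agent.Lib.Helper50.QV

universe u v

variable {k : Type u} [Field k] {M : Type v} [AddCommGroup M] [Module k M] [FiniteDimensional k M]

variable {G : Subgroup (LinearMap.GeneralLinearGroup k M)}
  {σ₀ : LinearMap.GeneralLinearGroup k M}

omit [FiniteDimensional k M] in
theorem nl_comm_of_comm {x a : LinearMap.GeneralLinearGroup k M} (h : a * x = x * a) :
    nl x * nl a = nl a * nl x := by
  have h1 := congrArg nl h
  rw [nl_mul, nl_mul] at h1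
  have h2 : nl x * nl a = (nl x + nl a + nl x * nl a) - (nl x + nl a) := by abel
  rw [h2, ← h1]
  abel

omit [FiniteDimensional k M] in
/-- an element of the centralizer of `K` has `nl` commuting with the elements of `K` -/
theorem nl_comm_of_centralizer {K : Subgroup (LinearMap.GeneralLinearGroup k M)}
    {z : LinearMap.GeneralLinearGroup k M}
    (hz : z ∈ Subgroup.centralizer (K : Set (LinearMap.GeneralLinearGroup k M))) :
    ∀ g ∈ K, nl z * (g : Module.End k M) = (g : Module.End k M) * nl z := by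
  intro g hg
  have hc := (Subgroup.mem_centralizer_iff.1 hz) g hg
  have h1 := congrArg (fun u : LinearMap.GeneralLinearGroup k M => (u : Module.End k M)) hc
  simp only [Units.val_mul] at h1
  rw [coe_eq z, mul_add, add_mul, mul_one, one_mul] at h1
  exact (add_left_cancel h1).symm

/-- Step 1+2 relative to `K`: `T S T = 0` -/
theorem rel_step2 (hk2 : ringChar k ≠ 2) (hk3 : Nat.card k ≠ 3) (hG : Cfsg.IsQuadraticPair G)
    (hσ₀ : σ₀ ∈ minimalQuadraticElements G) {n : ℕ}
    (ih : ∀ y ∈ quadraticElements G, Module.finrank k (LinearMap.range (nl y)) < n →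
      y ∈ GC G (sameActionSubgroup G σ₀) ∨ y ∈ Subgroup.centralizer
        (GC G (sameActionSubgroup G σ₀) : Set (LinearMap.GeneralLinearGroup k M)))
    {a y : LinearMap.GeneralLinearGroup k M} (ha : a ∈ minimalQuadraticElements G)
    (hac : sameActionSubgroup G a ∈ Comp G (sameActionSubgroup G σ₀))
    (hy : y ∈ quadraticElements G) (hn : Module.finrank k (LinearMap.range (nl y)) = n)
    (hbK : y ∉ GC G (sameActionSubgroup G σ₀))
    (hbC : y ∉ Subgroup.centralizer
        (GC G (sameActionSubgroup G σ₀) : Set (LinearMap.GeneralLinearGroup k M))) :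
    nl a * nl y * nl a = 0 := by
  by_contra hne
  have hII : ∀ m, nl a (nl y (nl a m)) = 0 → nl a m = 0 := by
    intro m h0
    by_contra h1
    exact hne (mixed_nil hk2 hk3 ha hy h0 h1)
  have hKn := gc_normal_G hk2 hk3 hG hσ₀
  have hKa : sameActionSubgroup G a ≤ GC G (sameActionSubgroup G σ₀) := le_gc hac
  have hKa' : sameActionSubgroup G (y * a * y⁻¹) ≤ GC G (sameActionSubgroup G σ₀) := by
    rw [← conj_subgroup ha hy.1]
    rintro _ ⟨z, hz, rfl⟩
    exact hKn y hy.1 z (hKa hz)
  obtain ⟨S₁, hS₁ne, hS₁, hS₁S, hSS₁, hfam, hrk⟩ :=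
    split_gen hk2 hk3 hKn ha hy hKa hKa' hII
  have hS : nl y * nl y = 0 := quad_sq hy.2.1
  obtain ⟨g₁, hg₁, e₁⟩ := hfam 1
  rw [one_smul] at e₁
  have hnlg₁ : nl g₁ = S₁ := by rw [nl_def, e₁, add_sub_cancel_left]
  by_cases h0 : nl y - S₁ = 0
  · have : y = g₁ := by
      apply Units.ext
      rw [e₁, coe_eq y, sub_eq_zero.1 h0]
    rw [this] at hbK
    exact hbK hg₁
  · have hsq : (nl y - S₁) * (nl y - S₁) = 0 := by
      calc (nl y - S₁) * (nl y - S₁) = nl y * nl y - nl y * S₁ - S₁ * nl y + S₁ * S₁ := by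
            noncomm_ring
        _ = 0 := by rw [hS, hSS₁, hS₁S, hS₁]; simp
    have hF : Fam G (nl y - S₁) := by
      refine ⟨hsq, fun c => ?_⟩
      obtain ⟨gc, hgc, ec⟩ := hfam c
      have hxc : mkU (c • nl y) (smul_sq hS c) ∈ G := mkU_smul_mem hy c _
      refine ⟨gc⁻¹ * mkU (c • nl y) (smul_sq hS c), G.mul_mem (G.inv_mem (gc_le hgc)) hxc, ?_⟩
      have h3 : gc⁻¹ * mkU (c • nl y) (smul_sq hS c) = mkU (c • (nl y - S₁)) (smul_sq hsq c) := by
        rw [inv_mul_eq_iff_eq_mul]
        apply Units.ext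
        rw [Units.val_mul, ec]
        show 1 + c • nl y = (1 + c • S₁) * (1 + c • (nl y - S₁))
        calc 1 + c • nl y = 1 + c • nl y + (c * c) • (S₁ * nl y - S₁ * S₁) := by
              rw [hS₁S, hS₁]; simp
          _ = (1 + c • S₁) * (1 + c • (nl y - S₁)) := by
              simp only [smul_sub, mul_add, add_mul, mul_sub, mul_one, one_mul,
                smul_mul_assoc, mul_smul_comm]
              module
      rw [h3]
      rfl
    have hq : mkU (nl y - S₁) hF.1 ∈ quadraticElements G := quad_of_fam hF h0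
    have hmem := ih _ hq (by rw [nl_mkU, ← hn]; exact hrk)
    have hprod : y = g₁ * mkU (nl y - S₁) hF.1 := by
      apply Units.ext
      rw [Units.val_mul, e₁, coe_eq y]
      show 1 + nl y = (1 + S₁) * (1 + (nl y - S₁))
      calc 1 + nl y = 1 + nl y + (S₁ * nl y - S₁ * S₁) := by rw [hS₁S, hS₁]; simp
        _ = (1 + S₁) * (1 + (nl y - S₁)) := by noncomm_ring
    rcases hmem with hK | hC
    · apply hbK
      rw [hprod]
      exact (GC G (sameActionSubgroup G σ₀)).mul_mem hg₁ hK
    · have hZ := nl_comm_of_centralizer hC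
      rw [nl_mkU] at hZ
      have hzero := unmix hG (le_gc_sup_centralizer hk2 hk3 hG hσ₀) hZ hg₁
        (by rw [hnlg₁]; exact hS₁ne) (by rw [hnlg₁, sub_mul, hSS₁, hS₁, sub_zero])
      exact h0 hzero

/-- Step 3 relative to `K`: `S T S = 0` -/
theorem rel_step3 (hk2 : ringChar k ≠ 2) (hk3 : Nat.card k ≠ 3) (hG : Cfsg.IsQuadraticPair G)
    (hσ₀ : σ₀ ∈ minimalQuadraticElements G) {n : ℕ}
    (ih : ∀ y ∈ quadraticElements G, Module.finrank k (LinearMap.range (nl y)) < n →
      y ∈ GC G (sameActionSubgroup G σ₀) ∨ y ∈ Subgroup.centralizer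
        (GC G (sameActionSubgroup G σ₀) : Set (LinearMap.GeneralLinearGroup k M)))
    {a y : LinearMap.GeneralLinearGroup k M} (ha : a ∈ minimalQuadraticElements G)
    (hac : sameActionSubgroup G a ∈ Comp G (sameActionSubgroup G σ₀))
    (hy : y ∈ quadraticElements G) (hn : Module.finrank k (LinearMap.range (nl y)) = n)
    (hbK : y ∉ GC G (sameActionSubgroup G σ₀))
    (hbC : y ∉ Subgroup.centralizer
        (GC G (sameActionSubgroup G σ₀) : Set (LinearMap.GeneralLinearGroup k M))) :
    nl y * nl a * nl y = 0 := by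
  by_contra hX
  have h2 : (2 : k) ≠ 0 := Ring.two_ne_zero hk2
  have hT : nl a * nl a = 0 := quad_sq ha.1.2.1
  have hS : nl y * nl y = 0 := quad_sq hy.2.1
  have hTST := rel_step2 hk2 hk3 hG hσ₀ ih ha hac hy hn hbK hbC
  have hKn := gc_normal_G hk2 hk3 hG hσ₀
  have haK : a ∈ GC G (sameActionSubgroup G σ₀) := le_gc hac (self_mem ha)
  have hfamK := fam_STS_gen h2 hKn haK hy hT hTST
  have hfam : Fam G (nl y * nl a * nl y) := Fam.mono gc_le hfamK
  have hξq : mkU _ hfam.1 ∈ quadraticElements G := quad_of_fam hfam hX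
  have hξmin : mkU _ hfam.1 ∈ minimalQuadraticElements G :=
    min_of_rank_le ha hξq (by rw [nl_mkU]; exact rank_STS _ _)
  have hξK : mkU _ hfam.1 ∈ GC G (sameActionSubgroup G σ₀) := by
    obtain ⟨g, hg, e⟩ := hfamK.2 1
    have : mkU _ hfam.1 = g := by
      apply Units.ext
      rw [e, one_smul]
      rfl
    rw [this]
    exact hg
  have hξc := mem_comp_of_mem_gc hk2 hk3 hG hσ₀ hξmin hξK
  -- the element `y ξ = 1 + S + X`
  have hSX : nl y * (nl y * nl a * nl y) = 0 := by
    rw [← mul_assoc, ← mul_assoc, hS, zero_mul, zero_mul]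
  have hXS : nl y * nl a * nl y * nl y = 0 := by
    rw [mul_assoc, hS, mul_zero]
  have hnl2 : nl (y * mkU _ hfam.1) = nl y + nl y * nl a * nl y := by
    rw [nl_mul, nl_mkU, hSX, add_zero]
  have hrange : LinearMap.range (nl y + nl y * nl a * nl y) = LinearMap.range (nl y) :=
    range_add_STS hTST
  have hne2 : nl y + nl y * nl a * nl y ≠ 0 := by
    intro e
    apply quad_ne hy.2.1
    rw [e, LinearMap.range_zero] at hrange
    exact LinearMap.range_eq_bot.1 hrange.symm
  have hF2 : Fam G (nl y + nl y * nl a * nl y) := by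
    refine ⟨?_, fun c => ?_⟩
    · calc (nl y + nl y * nl a * nl y) * (nl y + nl y * nl a * nl y)
          = nl y * nl y + nl y * (nl y * nl a * nl y) + nl y * nl a * nl y * nl y
            + nl y * nl a * (nl y * nl y) * nl a * nl y := by noncomm_ring
        _ = 0 := by rw [hS, hSX, hXS]; simp
    · obtain ⟨gc, hgc, ec⟩ := hfam.2 c
      refine ⟨mkU (c • nl y) (smul_sq hS c) * gc, G.mul_mem (mkU_smul_mem hy c _) hgc, ?_⟩
      rw [Units.val_mul, ec]
      show (1 + c • nl y) * (1 + c • (nl y * nl a * nl y)) = 1 + c • (nl y + nl y * nl a * nl y)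
      calc (1 + c • nl y) * (1 + c • (nl y * nl a * nl y))
          = 1 + c • nl y + c • (nl y * nl a * nl y)
            + (c * c) • (nl y * (nl y * nl a * nl y)) := by
            simp only [mul_add, add_mul, mul_one, one_mul, smul_mul_assoc, mul_smul_comm]
            module
        _ = 1 + c • (nl y + nl y * nl a * nl y) := by
            rw [hSX, smul_zero, add_zero, smul_add, add_assoc]
  have hq2 : y * mkU _ hfam.1 ∈ quadraticElements G := by
    have : y * mkU _ hfam.1 = mkU _ hF2.1 := by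
      apply eq_of_nl_eq
      rw [hnl2, nl_mkU]
    rw [this]
    exact quad_of_fam hF2 hne2
  have hn2 : Module.finrank k (LinearMap.range (nl (y * mkU _ hfam.1))) = n := by
    rw [hnl2, hrange, hn]
  have hbK2 : y * mkU _ hfam.1 ∉ GC G (sameActionSubgroup G σ₀) := by
    intro h
    apply hbK
    have := (GC G (sameActionSubgroup G σ₀)).mul_mem h
      ((GC G (sameActionSubgroup G σ₀)).inv_mem hξK)
    rwa [mul_inv_cancel_right] at this
  have hbC2 : y * mkU _ hfam.1 ∉ Subgroup.centralizer
      (GC G (sameActionSubgroup G σ₀) : Set (LinearMap.GeneralLinearGroup k M)) := by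
    intro hC
    have hZ := nl_comm_of_centralizer hC
    rw [hnl2] at hZ
    have hzero := unmix hG (le_gc_sup_centralizer hk2 hk3 hG hσ₀) hZ hξK
      (by rw [nl_mkU]; exact hX) (by rw [nl_mkU, add_mul, hSX, hfam.1, add_zero])
    exact hne2 hzero
  obtain ⟨ρ, hρ, hρc, hkill⟩ := partner_in_comp hk2 hk3 hG hξmin hξc
  have e1 := rel_step2 hk2 hk3 hG hσ₀ ih hρ hρc hy hn hbK hbC
  have e2 := rel_step2 hk2 hk3 hG hσ₀ ih hρ hρc hq2 hn2 hbK2 hbC2
  apply partner_absurd hρ hkill
  rw [nl_mkU]
  rw [hnl2, mul_add, add_mul, e1, zero_add] at e2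
  exact e2

/-- Step 4 relative to `K`: `y` commutes with the minimal quadratic elements of the component -/
theorem rel_step4 (hk2 : ringChar k ≠ 2) (hk3 : Nat.card k ≠ 3) (hG : Cfsg.IsQuadraticPair G)
    (hσ₀ : σ₀ ∈ minimalQuadraticElements G) {n : ℕ}
    (ih : ∀ y ∈ quadraticElements G, Module.finrank k (LinearMap.range (nl y)) < n →
      y ∈ GC G (sameActionSubgroup G σ₀) ∨ y ∈ Subgroup.centralizer
        (GC G (sameActionSubgroup G σ₀) : Set (LinearMap.GeneralLinearGroup k M)))
    {a y : LinearMap.GeneralLinearGroup k M} (ha : a ∈ minimalQuadraticElements G)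
    (hac : sameActionSubgroup G a ∈ Comp G (sameActionSubgroup G σ₀))
    (hy : y ∈ quadraticElements G) (hn : Module.finrank k (LinearMap.range (nl y)) = n)
    (hbK : y ∉ GC G (sameActionSubgroup G σ₀))
    (hbC : y ∉ Subgroup.centralizer
        (GC G (sameActionSubgroup G σ₀) : Set (LinearMap.GeneralLinearGroup k M))) :
    nl y * nl a = nl a * nl y := by
  by_contra hne
  have hT : nl a * nl a = 0 := quad_sq ha.1.2.1
  have hS : nl y * nl y = 0 := quad_sq hy.2.1
  have hTST := rel_step2 hk2 hk3 hG hσ₀ ih ha hac hy hn hbK hbC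
  have hSTS := rel_step3 hk2 hk3 hG hσ₀ ih ha hac hy hn hbK hbC
  have hKn := gc_normal_G hk2 hk3 hG hσ₀
  have haK : a ∈ GC G (sameActionSubgroup G σ₀) := le_gc hac (self_mem ha)
  have hfamK := fam_comm_gen hKn haK hy hT hTST hSTS
  have hfam : Fam G (nl y * nl a - nl a * nl y) := Fam.mono gc_le hfamK
  have hY0 : nl y * nl a - nl a * nl y ≠ 0 := sub_ne_zero.2 hne
  have hηq : mkU _ hfam.1 ∈ quadraticElements G := quad_of_fam hfam hY0
  have hηmin : mkU _ hfam.1 ∈ minimalQuadraticElements G :=
    min_of_rank_le ha hηq (by rw [nl_mkU]; exact rank_comm hSTS)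
  have hηK : mkU _ hfam.1 ∈ GC G (sameActionSubgroup G σ₀) := by
    obtain ⟨g, hg, e⟩ := hfamK.2 1
    have : mkU _ hfam.1 = g := by
      apply Units.ext
      rw [e, one_smul]
      rfl
    rw [this]
    exact hg
  have hηc := mem_comp_of_mem_gc hk2 hk3 hG hσ₀ hηmin hηK
  -- the conjugate `a y a⁻¹ = 1 + S - Y`
  have hq3 : a * y * a⁻¹ ∈ quadraticElements G := conj_quad hy ha.1.1
  have hnl3 : nl (a * y * a⁻¹) = nl y - (nl y * nl a - nl a * nl y) := by
    rw [nl_conj, coe_inv_of_sq a hT, coe_eq a]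
    calc (1 + nl a) * nl y * (1 - nl a)
        = nl y - (nl y * nl a - nl a * nl y) - nl a * nl y * nl a := by noncomm_ring
      _ = nl y - (nl y * nl a - nl a * nl y) := by rw [hTST, sub_zero]
  have hn3 : Module.finrank k (LinearMap.range (nl (a * y * a⁻¹))) = n := by
    rw [nl_conj, Conj.range_conj, Conj.finrank_map, hn]
  have hbK3 : a * y * a⁻¹ ∉ GC G (sameActionSubgroup G σ₀) := by
    intro h
    apply hbK
    have := (GC G (sameActionSubgroup G σ₀)).mul_mem
      ((GC G (sameActionSubgroup G σ₀)).mul_mem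
        ((GC G (sameActionSubgroup G σ₀)).inv_mem haK) h) haK
    have e : a⁻¹ * (a * y * a⁻¹) * a = y := by group
    rwa [e] at this
  have hbC3 : a * y * a⁻¹ ∉ Subgroup.centralizer
      (GC G (sameActionSubgroup G σ₀) : Set (LinearMap.GeneralLinearGroup k M)) := by
    intro hC
    apply hbC
    have hc := (Subgroup.mem_centralizer_iff.1 hC) a haK
    have e : a * y * a⁻¹ = y := by
      have h1 : a * (a * y * a⁻¹) = a * y := by
        rw [hc]; group
      exact mul_left_cancel h1
    rwa [e] at hC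
  obtain ⟨ρ, hρ, hρc, hkill⟩ := partner_in_comp hk2 hk3 hG hηmin hηc
  have e1 := rel_step2 hk2 hk3 hG hσ₀ ih hρ hρc hy hn hbK hbC
  have e2 := rel_step2 hk2 hk3 hG hσ₀ ih hρ hρc hq3 hn3 hbK3 hbC3
  apply partner_absurd hρ hkill
  rw [nl_mkU]
  rw [hnl3, mul_sub, sub_mul, e1, zero_sub, neg_eq_zero] at e2
  exact e2

/-- every quadratic element of `G` lies in the component group `K` or centralizes it -/
theorem rel_main (hk2 : ringChar k ≠ 2) (hk3 : Nat.card k ≠ 3) (hG : Cfsg.IsQuadraticPair G)
    (hσ₀ : σ₀ ∈ minimalQuadraticElements G) :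
    ∀ (n : ℕ), ∀ y ∈ quadraticElements G,
      Module.finrank k (LinearMap.range (nl y)) = n →
      y ∈ GC G (sameActionSubgroup G σ₀) ∨ y ∈ Subgroup.centralizer
        (GC G (sameActionSubgroup G σ₀) : Set (LinearMap.GeneralLinearGroup k M)) := by
  intro n
  induction n using Nat.strong_induction_on with
  | _ n IH =>
    intro y hy hn
    by_contra hbad
    push Not at hbad
    obtain ⟨hbK, hbC⟩ := hbad
    have ih : ∀ z ∈ quadraticElements G,
        Module.finrank k (LinearMap.range (nl z)) < n →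
        z ∈ GC G (sameActionSubgroup G σ₀) ∨ z ∈ Subgroup.centralizer
          (GC G (sameActionSubgroup G σ₀) : Set (LinearMap.GeneralLinearGroup k M)) :=
      fun z hz hlt => IH _ hlt z hz rfl
    apply hbC
    exact mem_centralizer_gc
      (fun a ha hac => rel_step4 hk2 hk3 hG hσ₀ ih ha hac hy hn hbK hbC)

/-- every quadratic element of `G` lies in a component group or centralizes `G₀` -/
theorem quad_cover (hk2 : ringChar k ≠ 2) (hk3 : Nat.card k ≠ 3) (hG : Cfsg.IsQuadraticPair G) :
    ∀ x ∈ quadraticElements G,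
      (∃ σ ∈ minimalQuadraticElements G, x ∈ GC G (sameActionSubgroup G σ)) ∨
      x ∈ Subgroup.centralizer (gZero G : Set (LinearMap.GeneralLinearGroup k M)) := by
  intro x hx
  by_cases h : ∀ a ∈ minimalQuadraticElements G, nl x * nl a = nl a * nl x
  · right
    rw [Subgroup.mem_centralizer_iff]
    have hle : gZero G ≤ Subgroup.centralizer {x} := by
      refine iSup₂_le fun A hA => ?_
      obtain ⟨σ, -, rfl⟩ := hA
      refine (Subgroup.closure_le _).2 fun τ hτ => ?_
      have hc := h τ hτ.1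
      rw [SetLike.mem_coe, Subgroup.mem_centralizer_iff]
      intro z hz
      rw [Set.mem_singleton_iff] at hz
      subst hz
      apply Units.ext
      rw [Units.val_mul, Units.val_mul, coe_eq z, coe_eq τ]
      calc (1 + nl z) * (1 + nl τ) = 1 + nl z + nl τ + nl z * nl τ := by noncomm_ring
        _ = 1 + nl z + nl τ + nl τ * nl z := by rw [hc]
        _ = (1 + nl τ) * (1 + nl z) := by noncomm_ring
    intro g hg
    have := hle hg
    rw [Subgroup.mem_centralizer_iff] at this
    exact (this x rfl).symm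
  · left
    push Not at h
    obtain ⟨a, ha, hne⟩ := h
    refine ⟨a, ha, ?_⟩
    rcases rel_main hk2 hk3 hG ha _ x hx rfl with hK | hC
    · exact hK
    · exfalso
      apply hne
      have haK : a ∈ GC G (sameActionSubgroup G a) :=
        le_gc (comp_self ⟨a, ha, rfl⟩) (self_mem ha)
      exact nl_comm_of_comm ((Subgroup.mem_centralizer_iff.1 hC) a haK)

end Cfsg.Agent.Lib.Helper50.QX
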