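import Mathlib
import Cfsg.Agent.S2426
import Cfsg.Agent.Lib.Helper86.Small

/-!
# Special rank one groups: `⟨a, b(a)⟩` is a central quotient of `SL₂(p)` (helper50, for S5022)

`A` elementary abelian of exponent `p`, `SPart A B a β`.  The elements `a ^ t`, `β ^ (-t)`
(`t : ZMod p`) satisfy the rank one Steinberg relations (S2426, helper48), by helper86's power
identity `spart_pow`.  The resulting homomorphism `SL₂(ZMod p) → X` has range `⟨a, β⟩` and central
kernel (helper86's normal subgroup dichotomy in rank one groups).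
-/

set_option autoImplicit false

namespace Cfsg.Agent.Lib.Helper50.RKP

open Cfsg Cfsg.Agent.Lib.Helper86 Cfsg.Agent.S5016

section ze

variable {X : Type*} [Group X] (p : ℕ) [Fact p.Prime]

/-- `g ^ t` for `t : ZMod p`. -/
def ze (g : X) (t : ZMod p) : X := g ^ t.val

variable {p}

theorem ze_zero (g : X) : ze p g 0 = 1 := by simp [ze]

theorem ze_one (g : X) : ze p g 1 = g := by
  haveI : Fact (1 < p) := ⟨(Fact.out : p.Prime).one_lt⟩
  simp [ze, ZMod.val_one]

theorem ze_add {g : X} (hg : g ^ p = 1) (t u : ZMod p) :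
    ze p g (t + u) = ze p g t * ze p g u := by
  unfold ze
  rw [ZMod.val_add, ← pow_add, ← pow_eq_pow_mod _ hg]

theorem ze_mul {g : X} (hg : g ^ p = 1) (t u : ZMod p) :
    ze p g (t * u) = ze p (ze p g t) u := by
  unfold ze
  rw [ZMod.val_mul, ← pow_mul, ← pow_eq_pow_mod _ hg]

theorem ze_neg {g : X} (hg : g ^ p = 1) (t : ZMod p) : ze p g (-t) = (ze p g t)⁻¹ := by
  rw [eq_inv_iff_mul_eq_one, ← ze_add hg, neg_add_cancel, ze_zero]

omit [Fact p.Prime] in
theorem ze_conj (x g : X) (t : ZMod p) : x * ze p g t * x⁻¹ = ze p (x * g * x⁻¹) t := by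
  unfold ze
  rw [conj_pow]

omit [Fact p.Prime] in
theorem ze_mem {H : Subgroup X} {g : X} (hg : g ∈ H) (t : ZMod p) : ze p g t ∈ H :=
  H.pow_mem hg _

theorem ze_ne_one {g : X} (hg : g ^ p = 1) (hg1 : g ≠ 1) {t : ZMod p} (ht : t ≠ 0) :
    ze p g t ≠ 1 := by
  intro h
  apply hg1
  have h2 := ze_mul hg t t⁻¹
  rw [mul_inv_cancel₀ ht, ze_one, h] at h2
  rw [h2]
  simp [ze]

end ze

section spart

variable {X : Type*} [Group X] {A B : Subgroup X} {p : ℕ} [Fact p.Prime]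

omit [Fact p.Prime] in
theorem beta_pow (hs : IsSpecialRankOnePair A B) (hAp : ∀ x ∈ A, x ^ p = 1) {a β : X}
    (h1 : SPart A B a β) : β ^ p = 1 := by
  rw [← braid_conj_left (spart_braid hs h1), conj_pow, hAp a h1.1, mul_one, mul_inv_cancel]

omit [Fact p.Prime] in
theorem B_pow (hAp : ∀ x ∈ A, x ^ p = 1) {a β : X}
    (h1 : SPart A B a β) : ∀ y ∈ B, y ^ p = 1 := by
  intro y hy
  have h3 : y ∈ conjBy A (a * β * a) := by rw [spart_conjA h1]; exact hy
  have h4 := hAp _ (mem_conjBy.mp h3)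
  have e : y = (a * β * a) * ((a * β * a)⁻¹ * y * (a * β * a)) * (a * β * a)⁻¹ := by group
  rw [e, conj_pow, h4]
  group

/-- The partner of `a ^ m` is `β ^ (m⁻¹)`. -/
theorem spart_ze (hs : IsSpecialRankOnePair A B) (hAc : ∀ x ∈ A, ∀ y ∈ A, x * y = y * x)
    (hBc : ∀ x ∈ B, ∀ y ∈ B, x * y = y * x) (hAp : ∀ x ∈ A, x ^ p = 1) {a β : X}
    (h1 : SPart A B a β) {m : ZMod p} (hm : m ≠ 0) : SPart A B (ze p a m) (ze p β m⁻¹) := by
  have hap := hAp a h1.1
  have hc1 : ze p a m ≠ 1 := ze_ne_one hap h1.2.1 hm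
  obtain ⟨γ, hγ⟩ := spart_exists hs.1 (ze_mem h1.1 m) hc1
  have hmv : 1 ≤ m.val := Nat.one_le_iff_ne_zero.mpr (fun h0 => hm ((ZMod.val_eq_zero m).mp h0))
  have hpow : γ ^ m.val = β := spart_pow hs hAc hBc m.val hmv a β γ h1 hγ
  have hγp : γ ^ p = 1 := B_pow hAp h1 γ hγ.2.2.1
  have e : ze p β m⁻¹ = γ := by
    have e1 : β = ze p γ m := hpow.symm
    rw [e1, ← ze_mul hγp, mul_inv_cancel₀ hm, ze_one]
  rw [e]
  exact hγ

theorem n_conj_a (hs : IsSpecialRankOnePair A B) (hAc : ∀ x ∈ A, ∀ y ∈ A, x * y = y * x)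
    (hBc : ∀ x ∈ B, ∀ y ∈ B, x * y = y * x) (hAp : ∀ x ∈ A, x ^ p = 1) {a β : X}
    (h1 : SPart A B a β) {m : ZMod p} (hm : m ≠ 0) (u : ZMod p) :
    (ze p a m * ze p β m⁻¹ * ze p a m) * ze p a u * (ze p a m * ze p β m⁻¹ * ze p a m)⁻¹ =
      ze p β (m⁻¹ ^ 2 * u) := by
  have h2 := spart_ze hs hAc hBc hAp h1 hm
  have hbr := spart_braid hs h2
  have hap := hAp a h1.1
  have hβp := beta_pow hs hAp h1
  have e1 : ze p a u = ze p (ze p a m) (m⁻¹ * u) := by
    rw [← ze_mul hap, ← mul_assoc, mul_inv_cancel₀ hm, one_mul]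
  rw [e1, ze_conj, braid_conj_left hbr, ← ze_mul hβp]
  congr 1
  ring

theorem n_conj_b (hs : IsSpecialRankOnePair A B) (hAc : ∀ x ∈ A, ∀ y ∈ A, x * y = y * x)
    (hBc : ∀ x ∈ B, ∀ y ∈ B, x * y = y * x) (hAp : ∀ x ∈ A, x ^ p = 1) {a β : X}
    (h1 : SPart A B a β) {m : ZMod p} (hm : m ≠ 0) (u : ZMod p) :
    (ze p a m * ze p β m⁻¹ * ze p a m) * ze p β u * (ze p a m * ze p β m⁻¹ * ze p a m)⁻¹ =
      ze p a (m ^ 2 * u) := by
  have h2 := spart_ze hs hAc hBc hAp h1 hm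
  have hbr := spart_braid hs h2
  have hap := hAp a h1.1
  have hβp := beta_pow hs hAp h1
  have e1 : ze p β u = ze p (ze p β m⁻¹) (m * u) := by
    rw [← ze_mul hβp, ← mul_assoc, inv_mul_cancel₀ hm, one_mul]
  rw [e1, ze_conj, braid_conj_right hbr, ← ze_mul hap]
  congr 1
  ring

/-- The images of the Steinberg generators. -/
def gen (p : ℕ) [Fact p.Prime] (a β : X) : Bool × ZMod p → X
  | (true, t) => ze p a t
  | (false, t) => ze p β (-t)

theorem rels_hold (hs : IsSpecialRankOnePair A B) (hAc : ∀ x ∈ A, ∀ y ∈ A, x * y = y * x)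
    (hBc : ∀ x ∈ B, ∀ y ∈ B, x * y = y * x) (hAp : ∀ x ∈ A, x ^ p = 1) {a β : X}
    (h1 : SPart A B a β) :
    ∀ r ∈ ({g : FreeGroup (Bool × ZMod p) | ∃ (b : Bool) (t u : ZMod p),
          g = FreeGroup.of (b, t) * FreeGroup.of (b, u) * (FreeGroup.of (b, t + u))⁻¹} ∪
        {g | ∃ (b : Bool) (t u : ZMod p), t ≠ 0 ∧
          g = (FreeGroup.of (b, t) * FreeGroup.of (!b, -t⁻¹) * FreeGroup.of (b, t)) *
                FreeGroup.of (b, u) *
                (FreeGroup.of (b, t) * FreeGroup.of (!b, -t⁻¹) * FreeGroup.of (b, t))⁻¹ *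
                (FreeGroup.of (!b, -(t⁻¹ ^ 2 * u)))⁻¹}),
      FreeGroup.lift (gen p a β) r = 1 := by
  have hap := hAp a h1.1
  have hβp := beta_pow hs hAp h1
  intro r hr
  rcases hr with ⟨b, t, u, rfl⟩ | ⟨b, t, u, ht, rfl⟩
  · simp only [map_mul, map_inv, FreeGroup.lift_apply_of]
    cases b
    · show ze p β (-t) * ze p β (-u) * (ze p β (-(t + u)))⁻¹ = 1
      rw [← ze_add hβp, mul_inv_eq_one]
      congr 1
      ring
    · show ze p a t * ze p a u * (ze p a (t + u))⁻¹ = 1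
      rw [← ze_add hap, mul_inv_cancel]
  · simp only [map_mul, map_inv, FreeGroup.lift_apply_of]
    cases b
    · show (ze p β (-t) * ze p a (-t⁻¹) * ze p β (-t)) * ze p β (-u) *
          (ze p β (-t) * ze p a (-t⁻¹) * ze p β (-t))⁻¹ * (ze p a (-(t⁻¹ ^ 2 * u)))⁻¹ = 1
      have hm : (-t⁻¹ : ZMod p) ≠ 0 := neg_ne_zero.mpr (inv_ne_zero ht)
      have hminv : (-t⁻¹ : ZMod p)⁻¹ = -t := by rw [inv_neg, inv_inv]
      have h2 := spart_ze hs hAc hBc hAp h1 hm
      have hbr := spart_braid hs h2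
      have hc := n_conj_b hs hAc hBc hAp h1 hm (-u)
      rw [hminv] at hbr hc
      rw [← hbr, hc, mul_inv_eq_one]
      congr 1
      ring
    · show (ze p a t * ze p β (-(-t⁻¹)) * ze p a t) * ze p a u *
          (ze p a t * ze p β (-(-t⁻¹)) * ze p a t)⁻¹ * (ze p β (-(-(t⁻¹ ^ 2 * u))))⁻¹ = 1
      rw [neg_neg, neg_neg, n_conj_a hs hAc hBc hAp h1 ht u, mul_inv_cancel]

/-- The homomorphism `SL₂(ZMod p) → X` attached to a partner pair `(a, β)`. -/
theorem exists_hom (hs : IsSpecialRankOnePair A B) (hAc : ∀ x ∈ A, ∀ y ∈ A, x * y = y * x)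
    (hBc : ∀ x ∈ B, ∀ y ∈ B, x * y = y * x) (hAp : ∀ x ∈ A, x ^ p = 1) {a β : X}
    (h1 : SPart A B a β) :
    ∃ ψ : Matrix.SpecialLinearGroup (Fin 2) (ZMod p) →* X,
      (∀ t, ψ (Um t) = ze p a t) ∧ (∀ t, ψ (Lm t) = ze p β (-t)) ∧
        ψ.range = Subgroup.closure {a, β⁻¹} := by
  have hβp := beta_pow hs hAp h1
  obtain ⟨e, he1, he2⟩ := Cfsg.Agent.S2426.result (K := ZMod p)
  let φ := PresentedGroup.toGroup (rels_hold hs hAc hBc hAp h1)
  have hφ : ∀ x, φ (PresentedGroup.of x) = gen p a β x := fun x => PresentedGroup.toGroup.of _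
  have hU : ∀ t, e (PresentedGroup.of (true, t)) = Um t := fun t => Subtype.ext (he1 t)
  have hL : ∀ t, e (PresentedGroup.of (false, t)) = Lm t := fun t => Subtype.ext (he2 t)
  refine ⟨φ.comp e.symm.toMonoidHom, ?_, ?_, ?_⟩
  · intro t
    rw [← hU t]
    simp only [MonoidHom.comp_apply, MulEquiv.coe_toMonoidHom, MulEquiv.symm_apply_apply, hφ]
    rfl
  · intro t
    rw [← hL t]
    simp only [MonoidHom.comp_apply, MulEquiv.coe_toMonoidHom, MulEquiv.symm_apply_apply, hφ]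
    rfl
  · have hr : (φ.comp e.symm.toMonoidHom).range = φ.range := by
      ext x
      constructor
      · rintro ⟨y, rfl⟩
        exact ⟨e.symm y, rfl⟩
      · rintro ⟨y, rfl⟩
        exact ⟨e y, by simp⟩
    rw [hr, MonoidHom.range_eq_map, ← PresentedGroup.closure_range_of, MonoidHom.map_closure]
    apply le_antisymm
    · rw [Subgroup.closure_le]
      rintro _ ⟨_, ⟨⟨b, t⟩, rfl⟩, rfl⟩
      rw [hφ]
      cases b
      · show ze p β (-t) ∈ _
        refine ze_mem ?_ _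
        have h3 := Subgroup.inv_mem _
          (Subgroup.subset_closure (show β⁻¹ ∈ ({a, β⁻¹} : Set X) by simp))
        simpa using h3
      · exact ze_mem (Subgroup.subset_closure (by simp)) _
    · rw [Subgroup.closure_le]
      intro x hx
      rcases hx with rfl | rfl
      · exact Subgroup.subset_closure ⟨_, ⟨(true, 1), rfl⟩, by rw [hφ]; exact ze_one _⟩
      · refine Subgroup.subset_closure ⟨_, ⟨(false, 1), rfl⟩, ?_⟩
        rw [hφ]
        show ze p β (-1) = β⁻¹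
        rw [ze_neg hβp, ze_one]

theorem ker_central (hs : IsSpecialRankOnePair A B) {a : X} (ha : a ∈ A) (ha1 : a ≠ 1)
    (ψ : Matrix.SpecialLinearGroup (Fin 2) (ZMod p) →* X) (hU : ψ (Um 1) = a)
    (hL : ∀ t, ψ (Lm t) ∈ B) :
    ψ.ker ≤ Subgroup.center (Matrix.SpecialLinearGroup (Fin 2) (ZMod p)) := by
  rcases rk1_normal_dichotomy (Cfsg.Agent.S5016.result (ZMod p)).1 ψ.ker inferInstance with h | h
  · exfalso
    have h1 : Um (1 : ZMod p) ∈ ψ.ker ⊔ lowerUnipotentSL2 (ZMod p) := by rw [h]; trivial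
    have h2 : (ψ.ker ⊔ lowerUnipotentSL2 (ZMod p)).map ψ ≤ B := by
      rw [Subgroup.map_sup, (Subgroup.map_eq_bot_iff _).mpr le_rfl, bot_sup_eq]
      rintro _ ⟨g, hg, rfl⟩
      obtain ⟨t, rfl⟩ := mem_lower_iff.mp hg
      exact hL t
    have h3 : a ∈ B := by
      rw [← hU]
      exact h2 (Subgroup.mem_map_of_mem ψ h1)
    have hmem : a ∈ A ⊓ B := ⟨ha, h3⟩
    rw [rk1_inf_eq_bot hs.1, Subgroup.mem_bot] at hmem
    exact ha1 hmem
  · exact h

end spart

section final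

variable {p : ℕ} [Fact p.Prime]

/-- A subgroup of the centre of `SL₂(ZMod p)` is trivial or the whole centre. -/
theorem center_sub (N : Subgroup (Matrix.SpecialLinearGroup (Fin 2) (ZMod p)))
    (hN : N ≤ Subgroup.center (Matrix.SpecialLinearGroup (Fin 2) (ZMod p))) :
    N = ⊥ ∨ N = Subgroup.center (Matrix.SpecialLinearGroup (Fin 2) (ZMod p)) := by
  have key : ∀ z ∈ Subgroup.center (Matrix.SpecialLinearGroup (Fin 2) (ZMod p)),
      z = 1 ∨ (z : Matrix (Fin 2) (Fin 2) (ZMod p)) = Matrix.scalar (Fin 2) (-1) := by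
    intro z hz
    obtain ⟨r, hr, hrz⟩ := Matrix.SpecialLinearGroup.mem_center_iff.mp hz
    rw [Fintype.card_fin] at hr
    rcases sq_eq_one_iff.mp hr with h | h
    · left
      apply Subtype.ext
      rw [← hrz, h]
      simp
    · right
      rw [← hrz, h]
  by_cases hb : N = ⊥
  · exact Or.inl hb
  · right
    obtain ⟨⟨g, hg⟩, hg1⟩ := (Subgroup.ne_bot_iff_exists_ne_one.mp hb)
    have hg1' : g ≠ 1 := fun e => hg1 (Subtype.ext e)
    have hgs : (g : Matrix (Fin 2) (Fin 2) (ZMod p)) = Matrix.scalar (Fin 2) (-1) := by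
      rcases key g (hN hg) with h | h
      · exact absurd h hg1'
      · exact h
    apply le_antisymm hN
    intro z hz
    rcases key z hz with h | h
    · rw [h]
      exact N.one_mem
    · have e : z = g := Subtype.ext (h.trans hgs.symm)
      rw [e]
      exact hg

/-- A homomorphism from `SL₂(ZMod p)` with central kernel has range isomorphic to `SL₂(ZMod p)`
or to `PSL₂(ZMod p)`. -/
theorem final_iso {X : Type*} [Group X] (ψ : Matrix.SpecialLinearGroup (Fin 2) (ZMod p) →* X)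
    (hker : ψ.ker ≤ Subgroup.center (Matrix.SpecialLinearGroup (Fin 2) (ZMod p))) :
    Nonempty (↥ψ.range ≃* Matrix.SpecialLinearGroup (Fin 2) (ZMod p)) ∨
    Nonempty (↥ψ.range ≃* Matrix.ProjectiveSpecialLinearGroup (Fin 2) (ZMod p)) := by
  rcases center_sub ψ.ker hker with h | h
  · left
    exact ⟨(MonoidHom.ofInjective ((MonoidHom.ker_eq_bot_iff ψ).mp h)).symm⟩
  · right
    exact ⟨(QuotientGroup.quotientKerEquivRange ψ).symm.trans
      (QuotientGroup.quotientMulEquivOfEq h)⟩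

/-- The main statement: for a partner pair `(a, β)` in a special rank one pair with abelian
unipotent subgroups of exponent `p`, `⟨a, β⁻¹⟩` is isomorphic to `SL₂(p)` or `PSL₂(p)`. -/
theorem main {X : Type*} [Group X] {A B : Subgroup X} (hs : IsSpecialRankOnePair A B)
    (hAc : ∀ x ∈ A, ∀ y ∈ A, x * y = y * x) (hBc : ∀ x ∈ B, ∀ y ∈ B, x * y = y * x)
    (hAp : ∀ x ∈ A, x ^ p = 1) {a β : X} (h1 : SPart A B a β) :
    Nonempty (↥(Subgroup.closure ({a, β⁻¹} : Set X)) ≃*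
      Matrix.SpecialLinearGroup (Fin 2) (ZMod p)) ∨
    Nonempty (↥(Subgroup.closure ({a, β⁻¹} : Set X)) ≃*
      Matrix.ProjectiveSpecialLinearGroup (Fin 2) (ZMod p)) := by
  obtain ⟨ψ, hU, hL, hr⟩ := exists_hom hs hAc hBc hAp h1
  have hk := ker_central hs h1.1 h1.2.1 ψ (by rw [hU, ze_one])
    (fun t => by rw [hL]; exact ze_mem h1.2.2.1 _)
  rw [← hr]
  exact final_iso ψ hk

end final

end Cfsg.Agent.Lib.Helper50.RKP
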