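import Mathlib
import Cfsg.Agent.Lib.Helper50.SUQMain
import Cfsg.Agent.Lib.Helper82.ASSA
import Cfsg.Agent.Lib.Helper66.ASSC
import Cfsg.Agent.Lib.Helper88.SUQPERP
import Cfsg.Agent.Lib.Helper93.SUQPAIRa
import Cfsg.Agent.Lib.Helper61.SUQPAIRb
import Cfsg.Agent.Lib.Helper84.SUQPLNM
import Cfsg.Agent.Lib.Helper19.SUQQ2
import Cfsg.Agent.Lib.Helper68.SUQADJ
import Cfsg.Agent.Lib.Helper31.SUQFLD2
import Cfsg.Agent.Lib.Helper60.SUQTF
import Cfsg.Agent.Lib.Helper66.SUQTFSW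
import Cfsg.Agent.Lib.Helper50.SUQTFS
import Cfsg.Agent.Lib.Helper90.SUQT2
import Cfsg.Agent.Lib.Helper2.SUQU8E
import Cfsg.Agent.Lib.Helper34.SUQNU2Q
import Cfsg.Agent.Lib.Helper3.SUQNU4Q

/-! Project SU12 (helper50): the maximal subgroups of `SU_12(q)` (statement S5865), on top of
the SUQ pieces; one more piece `PLNM`. -/

set_option autoImplicit false

namespace Cfsg.Agent.Lib.Helper50.SU12Main

open Matrix Cfsg.Geo Cfsg.Agent.Lib.Helper71.Asch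
open scoped Kronecker
open Cfsg.Agent.Lib.Helper82.ASCOREB (coreB)
open Cfsg.Agent.Lib.Helper21.ASCOREC (coreC)
open Cfsg.Agent.Lib.Helper46.ASB3s (B3s B3a)
open Cfsg.Agent.Lib.Helper61.ASB6 (B6)
open Cfsg.Agent.Lib.Helper67.ASNL (NL_core exists_subfield_aut)
open Cfsg.Agent.Lib.Helper46.ASB7core (B7core)
open Cfsg.Agent.Lib.Helper73.SLPC2 (C2)
open Cfsg.Agent.Lib.Helper16.SLPC3 (C3)
open Cfsg.Agent.Lib.Helper1.SUPU3 (U3_even)
open Cfsg.Agent.Lib.Helper21.SUPU1 (U1)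
open Cfsg.Agent.Lib.Helper19.SUPU7 (U7)
open Cfsg.Agent.Lib.Helper89.SUPU8a (U8a)
open Cfsg.Agent.Lib.Helper46.SUPU8b (U8b)
open Cfsg.Agent.Lib.Helper39.SUPNU1 (NU1)
open Cfsg.Agent.Lib.Helper39.SUPNU2 (NU2)
open Cfsg.Agent.Lib.Helper28.SUPNU3 (NU3)
open Cfsg.Agent.Lib.Helper79.SUPNU5 (NU5)
open Cfsg.Agent.Lib.Helper86.SPPCAP (CAP)
open Cfsg.Agent.Lib.Helper83.SPPHOMP (HOMP)
open Cfsg.Agent.Lib.Helper10.SPPUNIQ (UNIQ)
open Cfsg.Agent.Lib.Helper28.SPPB8D (B8D)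
open Cfsg.Agent.Lib.Helper50.SUQMain (eq_inf_of_max not_ts_top exists_minNS)

open Cfsg.Agent.Lib.Helper88.SUQPERP (PERP)
open Cfsg.Agent.Lib.Helper93.SUQPAIRa (PAIRa)
open Cfsg.Agent.Lib.Helper61.SUQPAIRb (PAIRb)
open Cfsg.Agent.Lib.Helper84.SUQPLNM (PLNM)
open Cfsg.Agent.Lib.Helper19.SUQQ2 (Q2)
open Cfsg.Agent.Lib.Helper68.SUQADJ (ADJ)
open Cfsg.Agent.Lib.Helper31.SUQFLD2 (FLD2)
open Cfsg.Agent.Lib.Helper60.SUQTF (TF)
open Cfsg.Agent.Lib.Helper66.SUQTFSW (TFSW)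
open Cfsg.Agent.Lib.Helper50.SUQTFS (TFS)
open Cfsg.Agent.Lib.Helper90.SUQT2 (T2)
open Cfsg.Agent.Lib.Helper2.SUQU8E (U8E)
open Cfsg.Agent.Lib.Helper34.SUQNU2Q (NU2Q)
open Cfsg.Agent.Lib.Helper3.SUQNU4Q (NU4Q)

variable {n : ℕ} {F : Type*} [Field F] [Fintype F] {q : ℕ}

/-! ## Assembly -/

/-- the factorisations of `12` -/
theorem tm_cases12 {t m : ℕ} (h : t * m = 12) (ht : 2 ≤ t) :
    (2 = t ∧ 6 = m) ∨ (3 = t ∧ 4 = m) ∨ (4 = t ∧ 3 = m) ∨ (6 = t ∧ 2 = m) ∨ (12 = t ∧ 1 = m) := by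
  have ht12 : t ≤ 12 := Nat.le_of_dvd (by norm_num) ⟨m, h.symm⟩
  interval_cases t <;> omega

/-- `12` is not a proper power -/
theorem not_pow12 {m k : ℕ} (hk : 2 ≤ k) (h : 12 = m ^ k) : False := by
  have h3 : 3 ∣ m ^ k := ⟨4, by rw [← h]⟩
  have h3m : 3 ∣ m := Nat.Prime.dvd_of_dvd_pow Nat.prime_three h3
  obtain ⟨a, rfl⟩ := h3m
  obtain ⟨j, rfl⟩ : ∃ j, k = 2 + j := ⟨k - 2, by omega⟩
  have h9 : 9 ∣ 12 := by
    rw [h, pow_add]
    exact Dvd.dvd.mul_right ⟨a ^ 2, by ring⟩ _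
  omega

/-- no symplectic-type minimal normal subgroup in dimension `12` -/
theorem SY12 (H L : Subgroup (GL (Fin 12) F)) (h : SymT H L) : False := by
  classical
  obtain ⟨r, hr, hx⟩ := Cfsg.Agent.Lib.Helper82.ASSA.SA H L h
  have hpw := Cfsg.Agent.Lib.Helper66.ASSC.SC H L h r hr hx
  haveI : Fact r.Prime := ⟨hr⟩
  have hPG : IsPGroup r ↥L := by
    intro g
    obtain ⟨j, hj⟩ := hpw g.1 g.2
    exact ⟨j, Subtype.ext (by rw [Subgroup.coe_pow, Subgroup.coe_one]; exact hj)⟩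
  obtain ⟨a, ha⟩ := IsPGroup.iff_card.mp hPG
  have hidx := Cfsg.Agent.Lib.Helper63.SPPSY.sy_index (by norm_num) H L h
  have hcard := Subgroup.card_eq_card_quotient_mul_card_subgroup
    ((scalars (Fin 12) F).subgroupOf L)
  rw [hidx, ha] at hcard
  have hdvd : 12 * 12 ∣ r ^ a := ⟨_, hcard⟩
  have h2 : 2 ∣ r ^ a := Dvd.dvd.trans ⟨72, by norm_num⟩ hdvd
  have h3 : 3 ∣ r ^ a := Dvd.dvd.trans ⟨48, by norm_num⟩ hdvd
  have hr2 : 2 = r :=
    (Nat.prime_dvd_prime_iff_eq Nat.prime_two hr).1 (Nat.prime_two.dvd_of_dvd_pow h2)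
  have hr3 : 3 = r :=
    (Nat.prime_dvd_prime_iff_eq Nat.prime_three hr).1 (Nat.prime_three.dvd_of_dvd_pow h3)
  omega

/-- The normal form of a subgroup of `GU_12(q)`. -/
def GenU12 (q : ℕ) (H : Subgroup (GL (Fin 12) F)) : Prop :=
  (∃ W : Submodule F (Fin 12 → F), W ≠ ⊥ ∧ IsTotallySingularFor (Cfsg.hermForm 12 F q) W ∧
    H ≤ subspaceStabilizer W) ∨
  (∃ W : Submodule F (Fin 12 → F), W ≠ ⊥ ∧ IsNondegenerateOn (Cfsg.hermForm 12 F q) W ∧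
    2 * Module.finrank F W < 12 ∧ H ≤ subspaceStabilizer W) ∨
  (∃ D : Fin 12 → Submodule F (Fin 12 → F),
    IsNondegenerateMDecomposition (Cfsg.hermForm 12 F q) 1 D ∧ H ≤ decompositionStabilizer D) ∨
  (3 ≤ q ∧ ∃ D : Fin 6 → Submodule F (Fin 12 → F),
    IsNondegenerateMDecomposition (Cfsg.hermForm 12 F q) 2 D ∧ H ≤ decompositionStabilizer D) ∨
  (∃ D : Fin 4 → Submodule F (Fin 12 → F),
    IsNondegenerateMDecomposition (Cfsg.hermForm 12 F q) 3 D ∧ H ≤ decompositionStabilizer D) ∨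
  (∃ D : Fin 3 → Submodule F (Fin 12 → F),
    IsNondegenerateMDecomposition (Cfsg.hermForm 12 F q) 4 D ∧ H ≤ decompositionStabilizer D) ∨
  (∃ D : Fin 2 → Submodule F (Fin 12 → F),
    IsNondegenerateMDecomposition (Cfsg.hermForm 12 F q) 6 D ∧ H ≤ decompositionStabilizer D) ∨
  (∃ D : Fin 2 → Submodule F (Fin 12 → F), IsMDecomposition 6 D ∧
    (∀ i, IsTotallySingularFor (Cfsg.hermForm 12 F q) (D i)) ∧ H ≤ decompositionStabilizer D) ∨
  (∃ K : Subalgebra F (Matrix (Fin 12) (Fin 12) F), IsFieldSubalgebra 3 K ∧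
    IsAdjointClosedFor (Cfsg.hermForm 12 F q) K ∧ H ≤ subalgebraNormalizer K) ∨
  (3 ≤ q ∧ ∃ (e : Fin 12 ≃ Fin 2 × Fin 6) (P : GL (Fin 12) F)
    (f₁ : (Fin 2 → F) → (Fin 2 → F) → F) (f₂ : (Fin 6 → F) → (Fin 6 → F) → F),
    IsUnitaryFormPow q f₁ ∧ IsUnitaryFormPow q f₂ ∧
    IsTensorFormStructure (fun x : F => x ^ q) (Cfsg.hermForm 12 F q) f₁ f₂ e P ∧
    H ≤ tensorProductSubgroup 2 6 e P) ∨
  (∃ (e : Fin 12 ≃ Fin 3 × Fin 4) (P : GL (Fin 12) F)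
    (f₁ : (Fin 3 → F) → (Fin 3 → F) → F) (f₂ : (Fin 4 → F) → (Fin 4 → F) → F),
    IsUnitaryFormPow q f₁ ∧ IsUnitaryFormPow q f₂ ∧
    IsTensorFormStructure (fun x : F => x ^ q) (Cfsg.hermForm 12 F q) f₁ f₂ e P ∧
    H ≤ tensorProductSubgroup 3 4 e P) ∨
  (∃ (F₀ : Subfield F) (r : ℕ) (P : GL (Fin 12) F), r.Prime ∧ Odd r ∧
    Fintype.card F = Nat.card F₀ ^ r ∧ IsFormRationalStructure (Cfsg.hermForm 12 F q) F₀ 1 P ∧
    H ≤ subfieldSubgroup F₀ P) ∨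
  (∃ (F₀ : Subfield F) (P : GL (Fin 12) F) (ζ : F), Fintype.card F = Nat.card F₀ ^ 2 ∧ ζ ≠ 0 ∧
    ζ + ζ ^ q = 0 ∧ IsFormRationalStructure (Cfsg.hermForm 12 F q) F₀ ζ P ∧
    (∀ u : Fin 12 → F, (∀ i, u i ∈ F₀) →
      (Cfsg.hermForm 12 F q) (Matrix.mulVec (P : Matrix (Fin 12) (Fin 12) F) u)
        (Matrix.mulVec (P : Matrix (Fin 12) (Fin 12) F) u) = 0) ∧
    H ≤ subfieldSubgroup F₀ P) ∨
  (Odd q ∧ ∃ (F₀ : Subfield F) (P : GL (Fin 12) F), Fintype.card F = Nat.card F₀ ^ 2 ∧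
    IsFormRationalStructure (Cfsg.hermForm 12 F q) F₀ 1 P ∧ H ≤ subfieldSubgroup F₀ P) ∨
  InUnitaryResidualClass H

/-- GENU12: the structure of a subgroup of `GU_12(q)`. -/
theorem genU12 (hF : Fintype.card F = q ^ 2) (H : Subgroup (GL (Fin 12) F))
    (hH : H ≤ Cfsg.GU 12 F q) : GenU12 q H := by
  classical
  have hq2 : 2 ≤ q := by
    have h1 : 1 < Fintype.card F := Fintype.one_lt_card
    rw [hF] at h1
    by_contra hlt
    have h01 : q = 0 ∨ q = 1 := by omega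
    rcases h01 with rfl | rfl <;> simp at h1
  -- non-degenerate decompositions into planes
  have dec2 : ∀ D : Fin 6 → Submodule F (Fin 12 → F),
      IsNondegenerateMDecomposition (Cfsg.hermForm 12 F q) 2 D →
      H ≤ decompositionStabilizer D → GenU12 q H := by
    intro D hND hHD
    by_cases hq : 3 ≤ q
    · exact Or.inr (Or.inr (Or.inr (Or.inl ⟨hq, D, hND, hHD⟩)))
    · have hq2' : q = 2 := by omega
      obtain ⟨D', hD', hHD'⟩ := Q2 hF hq2' H hH D hND hHD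
      exact Or.inr (Or.inr (Or.inl ⟨D', hD', hHD'⟩))
  by_cases h1 : ActsIrreducibly (matrixSet H)
  swap
  · rcases U1 hF H hH h1 with ⟨W, h0, hts, hle⟩ | ⟨W, h0, hnd, hdim, hle⟩
    · exact Or.inl ⟨W, h0, hts, hle⟩
    · by_cases hlt : 2 * Module.finrank F W < 12
      · exact Or.inr (Or.inl ⟨W, h0, hnd, hlt, hle⟩)
      · have hdim' : Module.finrank F W = 6 := by omega
        obtain ⟨D, hD, hHD⟩ := PERP hF 6 (by norm_num) rfl H hH W hnd hdim' hle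
        exact Or.inr (Or.inr (Or.inr (Or.inr (Or.inr (Or.inr (Or.inl ⟨D, hD, hHD⟩))))))
  obtain ⟨L, hL⟩ := exists_minNS (by norm_num) H h1
  have hLGU : L ≤ Cfsg.GU 12 F q := hL.le.trans hH
  -- the field alternative
  have fld : ∀ (r : ℕ) (K : Subalgebra F (Matrix (Fin 12) (Fin 12) F)), r.Prime →
      IsFieldSubalgebra r K → IsAdjointClosedFor (Cfsg.hermForm 12 F q) K →
      H ≤ subalgebraNormalizer K → GenU12 q H := by
    intro r K hr hK hadj hHK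
    have hrn : r ∣ 12 := C3 (by norm_num) r K hK
    have hr23 : r = 2 ∨ r = 3 := by
      have h12 : (12 : ℕ) = 2 * (2 * 3) := by norm_num
      rw [h12] at hrn
      rcases (Nat.Prime.dvd_mul hr).1 hrn with h | h
      · exact Or.inl ((Nat.prime_dvd_prime_iff_eq hr Nat.prime_two).1 h)
      · rcases (Nat.Prime.dvd_mul hr).1 h with h | h
        · exact Or.inl ((Nat.prime_dvd_prime_iff_eq hr Nat.prime_two).1 h)
        · exact Or.inr ((Nat.prime_dvd_prime_iff_eq hr Nat.prime_three).1 h)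
    rcases hr23 with hr2 | hr3
    · subst hr2
      exact (FLD2 hF (by norm_num) K hK hadj).elim
    · subst hr3
      exact Or.inr (Or.inr (Or.inr (Or.inr (Or.inr (Or.inr (Or.inr (Or.inr (Or.inl
        ⟨K, hK, hadj, hHK⟩))))))))
  -- the tensor alternatives
  have tens26 : ∀ (e : Fin 12 ≃ Fin 2 × Fin 6) (P : GL (Fin 12) F)
      (G₁ : Matrix (Fin 2) (Fin 2) F) (G₂ : Matrix (Fin 6) (Fin 6) F), G₁.det ≠ 0 → G₂.det ≠ 0 →
      (∀ a b, G₁ a b = (G₁ b a) ^ q) → (∀ a b, G₂ a b = (G₂ b a) ^ q) →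
      (∀ x y : Fin 2 × Fin 6 → F,
        Cfsg.hermForm 12 F q (P.1 *ᵥ (x ∘ e)) (P.1 *ᵥ (y ∘ e)) =
          formOfGram (fun c : F => c ^ q) (G₁ ⊗ₖ G₂) x y) →
      H ≤ tensorProductSubgroup 2 6 e P → GenU12 q H := by
    intro e P G₁ G₂ hd1 hd2 hh1 hh2 hid hHT
    obtain ⟨f₁, f₂, hf₁, hf₂, ht⟩ := TFS hF e P G₁ G₂ hd1 hd2 hh1 hh2 hid
    by_cases hq : 3 ≤ q
    · exact Or.inr (Or.inr (Or.inr (Or.inr (Or.inr (Or.inr (Or.inr (Or.inr (Or.inr (Or.inl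
        ⟨hq, e, P, f₁, f₂, hf₁, hf₂, ht, hHT⟩)))))))))
    · have hq2' : q = 2 := by omega
      obtain ⟨D, hD, hHD⟩ := T2 hF hq2' 6 (by norm_num) H hH e P f₁ f₂ hf₁ hf₂ ht hHT
      exact Or.inr (Or.inr (Or.inr (Or.inr (Or.inr (Or.inr (Or.inl ⟨D, hD, hHD⟩))))))
  have tens34 : ∀ (e : Fin 12 ≃ Fin 3 × Fin 4) (P : GL (Fin 12) F)
      (G₁ : Matrix (Fin 3) (Fin 3) F) (G₂ : Matrix (Fin 4) (Fin 4) F), G₁.det ≠ 0 → G₂.det ≠ 0 →
      (∀ a b, G₁ a b = (G₁ b a) ^ q) → (∀ a b, G₂ a b = (G₂ b a) ^ q) →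
      (∀ x y : Fin 3 × Fin 4 → F,
        Cfsg.hermForm 12 F q (P.1 *ᵥ (x ∘ e)) (P.1 *ᵥ (y ∘ e)) =
          formOfGram (fun c : F => c ^ q) (G₁ ⊗ₖ G₂) x y) →
      H ≤ tensorProductSubgroup 3 4 e P → GenU12 q H := by
    intro e P G₁ G₂ hd1 hd2 hh1 hh2 hid hHT
    obtain ⟨f₁, f₂, hf₁, hf₂, ht⟩ := TFS hF e P G₁ G₂ hd1 hd2 hh1 hh2 hid
    exact Or.inr (Or.inr (Or.inr (Or.inr (Or.inr (Or.inr (Or.inr (Or.inr (Or.inr (Or.inr (Or.inl
      ⟨e, P, f₁, f₂, hf₁, hf₂, ht, hHT⟩))))))))))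
  rcases CAP (by norm_num) H L h1 hL.le hL.nrm with
    ⟨t, m, D, hD, hHD, hiso, hinv, hfull⟩ | ⟨d, k, e, P, R, hR, hR1, hR2⟩
  · -- inhomogeneous
    have htm : t * m = 12 := C2 D hD
    have ht2 := hD.two_le
    obtain ⟨τ, hτ, horth, hno⟩ := PAIRa hF L hLGU D hD hiso hinv hfull
    rcases PAIRb hF H hH h1 D hD hHD τ hτ horth hno with hND | ⟨hfp, hcompat⟩
    · rcases tm_cases12 htm ht2 with ⟨rfl, rfl⟩ | ⟨rfl, rfl⟩ | ⟨rfl, rfl⟩ | ⟨rfl, rfl⟩ |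
        ⟨rfl, rfl⟩
      · exact Or.inr (Or.inr (Or.inr (Or.inr (Or.inr (Or.inr (Or.inl ⟨D, hND, hHD⟩))))))
      · exact Or.inr (Or.inr (Or.inr (Or.inr (Or.inr (Or.inl ⟨D, hND, hHD⟩)))))
      · exact Or.inr (Or.inr (Or.inr (Or.inr (Or.inl ⟨D, hND, hHD⟩))))
      · exact dec2 D hND hHD
      · exact Or.inr (Or.inr (Or.inl ⟨D, hND, hHD⟩))
    · have hev : Even t := by
        have := U3_even τ hτ hfp
        simpa using this
      rcases tm_cases12 htm ht2 with ⟨rfl, rfl⟩ | ⟨rfl, rfl⟩ | ⟨rfl, rfl⟩ | ⟨rfl, rfl⟩ |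
        ⟨rfl, rfl⟩
      · have hts : ∀ i, IsTotallySingularFor (Cfsg.hermForm 12 F q) (D i) :=
          fun i => horth i i (hfp i).symm
        exact Or.inr (Or.inr (Or.inr (Or.inr (Or.inr (Or.inr (Or.inr (Or.inl
          ⟨D, hD, hts, hHD⟩)))))))
      · exact absurd hev (by decide)
      · obtain ⟨s, E, hE, hHE⟩ := PLNM hF H D hD (by norm_num) hHD τ hfp hτ horth hcompat
        have hs : s * (2 * 3) = 12 := C2 E hE.decomp
        obtain rfl : 2 = s := by omega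
        exact Or.inr (Or.inr (Or.inr (Or.inr (Or.inr (Or.inr (Or.inl ⟨E, hE, hHE⟩))))))
      · obtain ⟨s, E, hE, hHE⟩ := PLNM hF H D hD (by norm_num) hHD τ hfp hτ horth hcompat
        have hs : s * (2 * 2) = 12 := C2 E hE.decomp
        obtain rfl : 3 = s := by omega
        exact Or.inr (Or.inr (Or.inr (Or.inr (Or.inr (Or.inl ⟨E, hE, hHE⟩)))))
      · obtain ⟨s, E, hE, hHE⟩ := PLNM hF H D hD (by norm_num) hHD τ hfp hτ horth hcompat
        have hs : s * (2 * 1) = 12 := C2 E hE.decomp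
        obtain rfl : 6 = s := by omega
        exact dec2 E hE hHE
  · -- homogeneous
    have hcard : 12 = d * k := by
      have := Fintype.card_congr e
      simpa using this
    have hd1 : d ≠ 1 := by
      rintro rfl
      exact hL.ns (B3s e P R L hR1)
    have hd0 : d ≠ 0 := by
      rintro rfl
      simp at hcard
    have hdk : d * k = 12 := hcard.symm
    by_cases hRa : ActsAbsolutelyIrreducibly (matrixSet R)
    swap
    · obtain ⟨r, K, hr, hK, hHK, hKc⟩ :=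
        coreB (by norm_num) H L hL.le hL.nrm e P R hR hR1 hR2 hRa
      have hhom := HOMP e P R L hR hR1 hR2
      have hadj := ADJ hF (by norm_num) L hLGU hhom
        (fun Z hc hi r K K' hK hK' h1 h2 => UNIQ (by norm_num) Z hc hi r K K' hK hK' h1 h2)
        r K hK hKc
      exact fld r K hr hK hadj hHK
    · have hHT : H ≤ tensorProductSubgroup d k e P := fun h hh =>
        (coreC e P R L hRa hR1 hR2).2 h (fun x hx => hL.nrm h hh x hx)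
      rcases tm_cases12 hdk (by omega) with ⟨rfl, rfl⟩ | ⟨rfl, rfl⟩ | ⟨rfl, rfl⟩ | ⟨rfl, rfl⟩ |
        ⟨rfl, rfl⟩
      · -- d = 2, k = 6
        obtain ⟨G₁, G₂, hd1', hd2', hh1, hh2, hid⟩ := TF hF e P R L hLGU hRa hR1 hR2
        exact tens26 e P G₁ G₂ hd1' hd2' hh1 hh2 hid hHT
      · -- d = 3, k = 4
        obtain ⟨G₁, G₂, hd1', hd2', hh1, hh2, hid⟩ := TF hF e P R L hLGU hRa hR1 hR2
        exact tens34 e P G₁ G₂ hd1' hd2' hh1 hh2 hid hHT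
      · -- d = 4, k = 3
        obtain ⟨G₁, G₂, hd1', hd2', hh1, hh2, hid⟩ := TF hF e P R L hLGU hRa hR1 hR2
        obtain ⟨hid', heq⟩ := TFSW (Cfsg.hermForm 12 F q) (fun c : F => c ^ q) e P G₁ G₂ hid
        exact tens34 (e.trans (Equiv.prodComm (Fin 4) (Fin 3))) P G₂ G₁ hd2' hd1' hh2 hh1 hid'
          (heq ▸ hHT)
      · -- d = 6, k = 2
        obtain ⟨G₁, G₂, hd1', hd2', hh1, hh2, hid⟩ := TF hF e P R L hLGU hRa hR1 hR2
        obtain ⟨hid', heq⟩ := TFSW (Cfsg.hermForm 12 F q) (fun c : F => c ^ q) e P G₁ G₂ hid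
        exact tens26 (e.trans (Equiv.prodComm (Fin 6) (Fin 2))) P G₂ G₁ hd2' hd1' hh2 hh1 hid'
          (heq ▸ hHT)
      · -- d = 12, k = 1: L absolutely irreducible
        have hLa := B3a e P R L hRa hR2
        rcases hL.min ⁅L, L⁆ (commutator_le_self L) hL.nrm.commutator with hc | hc
        · exact (SY12 H L ⟨hL, hLa, hc⟩).elim
        · rcases B6 H L hL hc with ⟨hs, hna⟩ | ⟨k', Ps, hk', hns, hcomm, hsup, hperm, htrans⟩
          · by_cases hsubf : ∃ F₀ : Subfield F, F₀ ≠ ⊤ ∧ RealisableOver F₀ (matrixSet L)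
            · obtain ⟨F₀, hF₀, hreal⟩ := hsubf
              obtain ⟨F₁, r, τ', hr, hcardF, hle, hfixτ⟩ := exists_subfield_aut F₀ hF₀
              obtain ⟨B, hB⟩ := hreal
              have hB₁ : ∀ s ∈ matrixSet L, ∀ i j,
                  (B.1 * s * (B⁻¹ : GL (Fin 12) F).1) i j ∈ F₁ :=
                fun s hs i j => hle (hB s hs i j)
              have hHle : H ≤ subfieldSubgroup F₁ B⁻¹ := by
                intro h hh
                have key := NL_core L hLa F₁ τ' hfixτ B hB₁ h (fun x hx => hL.nrm h hh x hx)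
                unfold subfieldSubgroup
                refine ⟨B * h * B⁻¹, key, ?_⟩
                show B⁻¹ * (B * h * B⁻¹) * B⁻¹⁻¹ = h
                group
              obtain ⟨ζ, hζ, hrat⟩ := U8a hF (by norm_num) L hLGU hLa F₁ τ' hfixτ B hB₁
              rcases hr.eq_two_or_odd' with h2 | hro
              · subst h2
                rcases U8E hF (by norm_num) L hLGU hLa F₁ hcardF B hB₁ ζ hζ hrat with
                  ⟨ζ', hζ', htr, hrat', hiso'⟩ | ⟨hqo, hrat1⟩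
                · exact Or.inr (Or.inr (Or.inr (Or.inr (Or.inr (Or.inr (Or.inr (Or.inr (Or.inr
                    (Or.inr (Or.inr (Or.inr (Or.inl
                      ⟨F₁, B⁻¹, ζ', hcardF, hζ', htr, hrat', hiso', hHle⟩))))))))))))
                · exact Or.inr (Or.inr (Or.inr (Or.inr (Or.inr (Or.inr (Or.inr (Or.inr (Or.inr
                    (Or.inr (Or.inr (Or.inr (Or.inr (Or.inl
                      ⟨hqo, F₁, B⁻¹, hcardF, hrat1, hHle⟩)))))))))))))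
              · obtain ⟨P', hP', hsub⟩ := U8b hF (by norm_num) F₁ r hro hcardF B⁻¹ ζ hζ hrat
                exact Or.inr (Or.inr (Or.inr (Or.inr (Or.inr (Or.inr (Or.inr (Or.inr (Or.inr
                  (Or.inr (Or.inr (Or.inl
                    ⟨F₁, r, P', hr, hro, hcardF, hP', by rw [hsub]; exact hHle⟩)))))))))))
            · refine Or.inr (Or.inr (Or.inr (Or.inr (Or.inr (Or.inr (Or.inr (Or.inr (Or.inr
                (Or.inr (Or.inr (Or.inr (Or.inr (Or.inr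
                  ⟨L, B7core H L hL.le hL.nrm hLa hc hs hna ?_, ?_, ?_⟩)))))))))))))
              · intro F₀ hF₀ hreal
                exact hsubf ⟨F₀, hF₀, hreal⟩
              · rintro ⟨Q, hQ, hQfix⟩
                apply hsubf
                refine U7 hF (by norm_num) L hLGU hLa (QuadraticMap.polar Q) hQ.polar_bilinear
                  hQ.nondegenerate ?_
                intro s hs u v
                unfold QuadraticMap.polar
                rw [← Matrix.mulVec_add, hQfix s hs, hQfix s hs, hQfix s hs]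
              · rintro ⟨f, hf, hffix⟩
                exact hsubf (U7 hF (by norm_num) L hLGU hLa f hf.bilinear hf.nondegenerate hffix)
          · obtain ⟨m', hm', hnm⟩ :=
              B8D (by norm_num) H L hLa k' Ps hk' hns hcomm hsup hperm htrans
            exact (not_pow12 hk' hnm).elim

/-- FINAL: the maximal subgroups of `SU_12(q)`. -/
theorem finalU12 (hF : Fintype.card F = q ^ 2) (H : Subgroup (GL (Fin 12) F))
    (hH : IsMaximalIn (Cfsg.GU 12 F q ⊓ specialLinear (Fin 12) F) H) :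

    (∃ W : Submodule F (Fin 12 → F), W ≠ ⊥ ∧ IsTotallySingularFor (Cfsg.hermForm 12 F q) W ∧ H = subspaceStabilizer W ⊓ (Cfsg.GU 12 F q ⊓ specialLinear (Fin 12) F)) ∨
    (∃ W : Submodule F (Fin 12 → F), W ≠ ⊥ ∧ IsNondegenerateOn (Cfsg.hermForm 12 F q) W ∧ 2 * Module.finrank F W < 12 ∧ H = subspaceStabilizer W ⊓ (Cfsg.GU 12 F q ⊓ specialLinear (Fin 12) F)) ∨
    (∃ D : Fin 12 → Submodule F (Fin 12 → F), IsNondegenerateMDecomposition (Cfsg.hermForm 12 F q) 1 D ∧ H = decompositionStabilizer D ⊓ (Cfsg.GU 12 F q ⊓ specialLinear (Fin 12) F)) ∨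
    (3 ≤ q ∧ ∃ D : Fin 6 → Submodule F (Fin 12 → F), IsNondegenerateMDecomposition (Cfsg.hermForm 12 F q) 2 D ∧ H = decompositionStabilizer D ⊓ (Cfsg.GU 12 F q ⊓ specialLinear (Fin 12) F)) ∨
    (∃ D : Fin 4 → Submodule F (Fin 12 → F), IsNondegenerateMDecomposition (Cfsg.hermForm 12 F q) 3 D ∧ H = decompositionStabilizer D ⊓ (Cfsg.GU 12 F q ⊓ specialLinear (Fin 12) F)) ∨
    (∃ D : Fin 3 → Submodule F (Fin 12 → F), IsNondegenerateMDecomposition (Cfsg.hermForm 12 F q) 4 D ∧ H = decompositionStabilizer D ⊓ (Cfsg.GU 12 F q ⊓ specialLinear (Fin 12) F)) ∨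
    (∃ D : Fin 2 → Submodule F (Fin 12 → F), IsNondegenerateMDecomposition (Cfsg.hermForm 12 F q) 6 D ∧ H = decompositionStabilizer D ⊓ (Cfsg.GU 12 F q ⊓ specialLinear (Fin 12) F)) ∨
    (∃ D : Fin 2 → Submodule F (Fin 12 → F), IsMDecomposition 6 D ∧ (∀ i, IsTotallySingularFor (Cfsg.hermForm 12 F q) (D i)) ∧ H = decompositionStabilizer D ⊓ (Cfsg.GU 12 F q ⊓ specialLinear (Fin 12) F)) ∨
    (∃ K : Subalgebra F (Matrix (Fin 12) (Fin 12) F), IsFieldSubalgebra 3 K ∧ IsAdjointClosedFor (Cfsg.hermForm 12 F q) K ∧ H = subalgebraNormalizer K ⊓ (Cfsg.GU 12 F q ⊓ specialLinear (Fin 12) F)) ∨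
    (3 ≤ q ∧ ∃ (e : Fin 12 ≃ Fin 2 × Fin 6) (P : GL (Fin 12) F) (f₁ : (Fin 2 → F) → (Fin 2 → F) → F) (f₂ : (Fin 6 → F) → (Fin 6 → F) → F), IsUnitaryFormPow q f₁ ∧ IsUnitaryFormPow q f₂ ∧ IsTensorFormStructure (fun x : F => x ^ q) (Cfsg.hermForm 12 F q) f₁ f₂ e P ∧ H = tensorProductSubgroup 2 6 e P ⊓ (Cfsg.GU 12 F q ⊓ specialLinear (Fin 12) F)) ∨
    (∃ (e : Fin 12 ≃ Fin 3 × Fin 4) (P : GL (Fin 12) F) (f₁ : (Fin 3 → F) → (Fin 3 → F) → F) (f₂ : (Fin 4 → F) → (Fin 4 → F) → F), IsUnitaryFormPow q f₁ ∧ IsUnitaryFormPow q f₂ ∧ IsTensorFormStructure (fun x : F => x ^ q) (Cfsg.hermForm 12 F q) f₁ f₂ e P ∧ H = tensorProductSubgroup 3 4 e P ⊓ (Cfsg.GU 12 F q ⊓ specialLinear (Fin 12) F)) ∨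
    (∃ (F₀ : Subfield F) (r : ℕ) (P : GL (Fin 12) F), r.Prime ∧ Odd r ∧ Fintype.card F = Nat.card F₀ ^ r ∧ IsFormRationalStructure (Cfsg.hermForm 12 F q) F₀ 1 P ∧ H = subfieldSubgroup F₀ P ⊓ (Cfsg.GU 12 F q ⊓ specialLinear (Fin 12) F)) ∨
    (∃ (F₀ : Subfield F) (P : GL (Fin 12) F) (ζ : F), Fintype.card F = Nat.card F₀ ^ 2 ∧ ζ ≠ 0 ∧ ζ + ζ ^ q = 0 ∧ IsFormRationalStructure (Cfsg.hermForm 12 F q) F₀ ζ P ∧ (∀ u : Fin 12 → F, (∀ i, u i ∈ F₀) → (Cfsg.hermForm 12 F q) (Matrix.mulVec (P : Matrix (Fin 12) (Fin 12) F) u) (Matrix.mulVec (P : Matrix (Fin 12) (Fin 12) F) u) = 0) ∧ H = subfieldSubgroup F₀ P ⊓ (Cfsg.GU 12 F q ⊓ specialLinear (Fin 12) F)) ∨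
    (Odd q ∧ ∃ (F₀ : Subfield F) (P : GL (Fin 12) F), Fintype.card F = Nat.card F₀ ^ 2 ∧ IsFormRationalStructure (Cfsg.hermForm 12 F q) F₀ 1 P ∧ H = subfieldSubgroup F₀ P ⊓ (Cfsg.GU 12 F q ⊓ specialLinear (Fin 12) F)) ∨
    InUnitaryResidualClass H := by
  classical
  have hHS : H ≤ Cfsg.GU 12 F q ⊓ specialLinear (Fin 12) F := hH.1.le
  have hHGU : H ≤ Cfsg.GU 12 F q := hHS.trans inf_le_left
  have hne : ∀ (F₀ : Subfield F) (r : ℕ), r.Prime → Fintype.card F = Nat.card F₀ ^ r →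
      F₀ ≠ ⊤ := by
    intro F₁ r hr hcard htop
    rw [htop] at hcard
    have h1 : Nat.card (⊤ : Subfield F) = Fintype.card F := by
      rw [← Nat.card_eq_fintype_card]
      exact Nat.card_congr Subfield.topEquiv.toEquiv
    rw [h1] at hcard
    have h2 : 1 < Fintype.card F := Fintype.one_lt_card
    have h3 : Fintype.card F ^ 1 < Fintype.card F ^ r :=
      Nat.pow_lt_pow_right h2 hr.one_lt
    rw [pow_one] at h3
    omega
  have hg := genU12 hF H hHGU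
  unfold GenU12 at hg
  rcases hg with ⟨W, h0, hts, hle⟩ | ⟨W, h0, hnd, hdim, hle⟩ | ⟨D, hD, hle⟩ | ⟨hq, D, hD, hle⟩ |
    ⟨D, hD, hle⟩ | ⟨D, hD, hle⟩ | ⟨D, hD, hle⟩ | ⟨D, hD, hts, hle⟩ | ⟨K, hK, hadj, hle⟩ |
    ⟨hq, e, P, f₁, f₂, hf₁, hf₂, ht, hle⟩ | ⟨e, P, f₁, f₂, hf₁, hf₂, ht, hle⟩ |
    ⟨F₀, r, P, hr, hro, hcard, hrat, hle⟩ |
    ⟨F₀, P, ζ, hcard, hζ, htr, hrat, hiso, hle⟩ | ⟨hqo, F₀, P, hcard, hrat, hle⟩ | hres
  · have htop : W ≠ ⊤ := by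
      rintro rfl
      exact not_ts_top (by norm_num) hts
    exact Or.inl ⟨W, h0, hts, eq_inf_of_max hH hle (NU1 hF (by norm_num) W h0 htop)⟩
  · have htop : W ≠ ⊤ := by
      rintro rfl
      rw [finrank_top, Module.finrank_fin_fun] at hdim
      omega
    exact Or.inr (Or.inl ⟨W, h0, hnd, hdim,
      eq_inf_of_max hH hle (NU1 hF (by norm_num) W h0 htop)⟩)
  · exact Or.inr (Or.inr (Or.inl ⟨D, hD, eq_inf_of_max hH hle (NU2 hF (by norm_num) D hD)⟩))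
  · exact Or.inr (Or.inr (Or.inr (Or.inl ⟨hq, D, hD,
      eq_inf_of_max hH hle (NU2Q hF (by norm_num) D hD.decomp (by norm_num))⟩)))
  · exact Or.inr (Or.inr (Or.inr (Or.inr (Or.inl ⟨D, hD,
      eq_inf_of_max hH hle (NU2Q hF (by norm_num) D hD.decomp (by norm_num))⟩))))
  · exact Or.inr (Or.inr (Or.inr (Or.inr (Or.inr (Or.inl ⟨D, hD,
      eq_inf_of_max hH hle (NU2Q hF (by norm_num) D hD.decomp (by norm_num))⟩)))))
  · exact Or.inr (Or.inr (Or.inr (Or.inr (Or.inr (Or.inr (Or.inl ⟨D, hD,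
      eq_inf_of_max hH hle (NU2Q hF (by norm_num) D hD.decomp (by norm_num))⟩))))))
  · exact Or.inr (Or.inr (Or.inr (Or.inr (Or.inr (Or.inr (Or.inr (Or.inl ⟨D, hD, hts,
      eq_inf_of_max hH hle (NU2Q hF (by norm_num) D hD (by norm_num))⟩)))))))
  · exact Or.inr (Or.inr (Or.inr (Or.inr (Or.inr (Or.inr (Or.inr (Or.inr (Or.inl ⟨K, hK, hadj,
      eq_inf_of_max hH hle (NU3 hF (by norm_num) 3 (by norm_num) K hK)⟩))))))))
  · exact Or.inr (Or.inr (Or.inr (Or.inr (Or.inr (Or.inr (Or.inr (Or.inr (Or.inr (Or.inl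
      ⟨hq, e, P, f₁, f₂, hf₁, hf₂, ht,
        eq_inf_of_max hH hle (NU4Q hF (by norm_num) (by norm_num) (by norm_num) e P)⟩)))))))))
  · exact Or.inr (Or.inr (Or.inr (Or.inr (Or.inr (Or.inr (Or.inr (Or.inr (Or.inr (Or.inr (Or.inl
      ⟨e, P, f₁, f₂, hf₁, hf₂, ht,
        eq_inf_of_max hH hle (NU4Q hF (by norm_num) (by norm_num) (by norm_num) e P)⟩))))))))))
  · exact Or.inr (Or.inr (Or.inr (Or.inr (Or.inr (Or.inr (Or.inr (Or.inr (Or.inr (Or.inr (Or.inr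
      (Or.inl ⟨F₀, r, P, hr, hro, hcard, hrat,
        eq_inf_of_max hH hle (NU5 hF (by norm_num) F₀ (hne F₀ r hr hcard) P)⟩)))))))))))
  · exact Or.inr (Or.inr (Or.inr (Or.inr (Or.inr (Or.inr (Or.inr (Or.inr (Or.inr (Or.inr (Or.inr
      (Or.inr (Or.inl ⟨F₀, P, ζ, hcard, hζ, htr, hrat, hiso,
        eq_inf_of_max hH hle
          (NU5 hF (by norm_num) F₀ (hne F₀ 2 Nat.prime_two hcard) P)⟩))))))))))))
  · exact Or.inr (Or.inr (Or.inr (Or.inr (Or.inr (Or.inr (Or.inr (Or.inr (Or.inr (Or.inr (Or.inr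
      (Or.inr (Or.inr (Or.inl ⟨hqo, F₀, P, hcard, hrat,
        eq_inf_of_max hH hle
          (NU5 hF (by norm_num) F₀ (hne F₀ 2 Nat.prime_two hcard) P)⟩)))))))))))))
  · exact Or.inr (Or.inr (Or.inr (Or.inr (Or.inr (Or.inr (Or.inr (Or.inr (Or.inr (Or.inr (Or.inr
      (Or.inr (Or.inr (Or.inr hres)))))))))))))

end Cfsg.Agent.Lib.Helper50.SU12Main
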