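import Mathlib
import Cfsg.Agent.Lib.Helper50.SUQMain
import Cfsg.Agent.Lib.Helper82.ASSA
import Cfsg.Agent.Lib.Helper66.ASSC
import Cfsg.Agent.Lib.Helper88.SUQPERP
import Cfsg.Agent.Lib.Helper93.SUQPAIRa
import Cfsg.Agent.Lib.Helper61.SUQPAIRb
import Cfsg.Agent.Lib.Helper84.SUQPLNM
import Cfsg.Agent.Lib.Helper19.SUQQ2
import Cfsg.Agent.Lib.Helper68.SUQADJ
import Cfsg.Agent.Lib.Helper31.SUQFLD2
import Cfsg.Agent.Lib.Helper60.SUQTF
import Cfsg.Agent.Lib.Helper66.SUQTFSW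
import Cfsg.Agent.Lib.Helper50.SUQTFS
import Cfsg.Agent.Lib.Helper90.SUQT2
import Cfsg.Agent.Lib.Helper2.SUQU8E
import Cfsg.Agent.Lib.Helper34.SUQNU2Q
import Cfsg.Agent.Lib.Helper3.SUQNU4Q

import Cfsg.Agent.Lib.Helper39.SUQPLN
import Cfsg.Agent.Lib.Helper34.SUPU9
import Cfsg.Agent.Lib.Helper65.SUPNU6
import Cfsg.Agent.Lib.Helper71.SUPMain
import Cfsg.Agent.Lib.Helper12.SU8U58
import Cfsg.Agent.Lib.Helper51.SU8SKB
import Cfsg.Agent.Lib.Helper38.SU8B8W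
import Cfsg.Agent.Lib.Helper37.SU8TW2F
import Cfsg.Agent.Lib.Helper13.SU8AU4
import Cfsg.Agent.Lib.Helper60.SU4U54
import Cfsg.Agent.Lib.Helper23.SU4NU64
import Cfsg.Agent.Lib.Helper27.SU4T22N
import Cfsg.Agent.Lib.Helper68.SU4TSN
import Cfsg.Agent.Lib.Helper79.SU4Q3MON


/-! Project SU4 (helper50): the maximal subgroups of `SU_4(q)` (statement S5784), on top of
the SUQ / SU8 pieces; new pieces `U54`, `NU64`, `T22N`, `TSN`, `Q3MON`. -/

set_option autoImplicit false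

namespace Cfsg.Agent.Lib.Helper50.SU4Main

open Matrix Cfsg.Geo Cfsg.Agent.Lib.Helper71.Asch
open scoped Kronecker
open Cfsg.Agent.Lib.Helper82.ASCOREB (coreB)
open Cfsg.Agent.Lib.Helper21.ASCOREC (coreC)
open Cfsg.Agent.Lib.Helper46.ASB3s (B3s B3a)
open Cfsg.Agent.Lib.Helper61.ASB6 (B6)
open Cfsg.Agent.Lib.Helper67.ASNL (NL_core exists_subfield_aut)
open Cfsg.Agent.Lib.Helper46.ASB7core (B7core)
open Cfsg.Agent.Lib.Helper73.SLPC2 (C2)
open Cfsg.Agent.Lib.Helper16.SLPC3 (C3)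
open Cfsg.Agent.Lib.Helper1.SUPU3 (U3_even)
open Cfsg.Agent.Lib.Helper21.SUPU1 (U1)
open Cfsg.Agent.Lib.Helper19.SUPU7 (U7)
open Cfsg.Agent.Lib.Helper89.SUPU8a (U8a)
open Cfsg.Agent.Lib.Helper46.SUPU8b (U8b)
open Cfsg.Agent.Lib.Helper39.SUPNU1 (NU1)
open Cfsg.Agent.Lib.Helper39.SUPNU2 (NU2)
open Cfsg.Agent.Lib.Helper28.SUPNU3 (NU3)
open Cfsg.Agent.Lib.Helper79.SUPNU5 (NU5)
open Cfsg.Agent.Lib.Helper86.SPPCAP (CAP)
open Cfsg.Agent.Lib.Helper83.SPPHOMP (HOMP)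
open Cfsg.Agent.Lib.Helper10.SPPUNIQ (UNIQ)
open Cfsg.Agent.Lib.Helper28.SPPB8D (B8D)
open Cfsg.Agent.Lib.Helper50.SUQMain (eq_inf_of_max not_ts_top exists_minNS)

open Cfsg.Agent.Lib.Helper88.SUQPERP (PERP)
open Cfsg.Agent.Lib.Helper93.SUQPAIRa (PAIRa)
open Cfsg.Agent.Lib.Helper61.SUQPAIRb (PAIRb)
open Cfsg.Agent.Lib.Helper84.SUQPLNM (PLNM)
open Cfsg.Agent.Lib.Helper19.SUQQ2 (Q2)
open Cfsg.Agent.Lib.Helper68.SUQADJ (ADJ)
open Cfsg.Agent.Lib.Helper31.SUQFLD2 (FLD2)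
open Cfsg.Agent.Lib.Helper60.SUQTF (TF)
open Cfsg.Agent.Lib.Helper66.SUQTFSW (TFSW)
open Cfsg.Agent.Lib.Helper50.SUQTFS (TFS)
open Cfsg.Agent.Lib.Helper90.SUQT2 (T2)
open Cfsg.Agent.Lib.Helper2.SUQU8E (U8E)
open Cfsg.Agent.Lib.Helper34.SUQNU2Q (NU2Q)
open Cfsg.Agent.Lib.Helper3.SUQNU4Q (NU4Q)

open Cfsg.Agent.Lib.Helper39.SUQPLN (PLN)
open Cfsg.Agent.Lib.Helper34.SUPU9 (U9)
open Cfsg.Agent.Lib.Helper65.SUPNU6 (NU6)

open Cfsg.Agent.Lib.Helper12.SU8U58 (U58)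
open Cfsg.Agent.Lib.Helper51.SU8SKB (SKB)
open Cfsg.Agent.Lib.Helper38.SU8B8W (B8W)
open Cfsg.Agent.Lib.Helper37.SU8TW2F (TW2F)
open Cfsg.Agent.Lib.Helper13.SU8AU4 (AU4)


open Cfsg.Agent.Lib.Helper60.SU4U54 (U54)
open Cfsg.Agent.Lib.Helper23.SU4NU64 (NU64)
open Cfsg.Agent.Lib.Helper27.SU4T22N (T22N)
open Cfsg.Agent.Lib.Helper68.SU4TSN (TSN)
open Cfsg.Agent.Lib.Helper79.SU4Q3MON (Q3MON)

variable {n : ℕ} {F : Type*} [Field F] [Fintype F] {q : ℕ}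

/-! ## Assembly -/

/-- the factorisations of `4` -/
theorem tm_cases4 {t m : ℕ} (h : t * m = 4) (ht : 2 ≤ t) :
    (2 = t ∧ 2 = m) ∨ (4 = t ∧ 1 = m) := by
  have ht4 : t ≤ 4 := Nat.le_of_dvd (by norm_num) ⟨m, h.symm⟩
  interval_cases t <;> omega

/-- The subfield alternatives, from an absolutely irreducible normal subgroup realisable over a
proper subfield. -/
theorem C5of (hF : Fintype.card F = q ^ 2) (H N : Subgroup (GL (Fin 4) F))
    (hNGU : N ≤ Cfsg.GU 4 F q) (hnrm : Nrm H N)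
    (hNa : ActsAbsolutelyIrreducibly (matrixSet N)) (F₀ : Subfield F) (hF₀ : F₀ ≠ ⊤)
    (hreal : RealisableOver F₀ (matrixSet N)) :
    (∃ (F₁ : Subfield F) (r : ℕ) (P : GL (Fin 4) F), r.Prime ∧ Odd r ∧
      Fintype.card F = Nat.card F₁ ^ r ∧ IsFormRationalStructure (Cfsg.hermForm 4 F q) F₁ 1 P ∧
      H ≤ subfieldSubgroup F₁ P) ∨
    (∃ (F₁ : Subfield F) (P : GL (Fin 4) F) (ζ : F), Fintype.card F = Nat.card F₁ ^ 2 ∧ ζ ≠ 0 ∧
      ζ + ζ ^ q = 0 ∧ IsFormRationalStructure (Cfsg.hermForm 4 F q) F₁ ζ P ∧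
      (∀ u : Fin 4 → F, (∀ i, u i ∈ F₁) →
        (Cfsg.hermForm 4 F q) (Matrix.mulVec (P : Matrix (Fin 4) (Fin 4) F) u)
          (Matrix.mulVec (P : Matrix (Fin 4) (Fin 4) F) u) = 0) ∧
      H ≤ subfieldSubgroup F₁ P) ∨
    (Odd q ∧ ∃ (F₁ : Subfield F) (P : GL (Fin 4) F), Fintype.card F = Nat.card F₁ ^ 2 ∧
      IsFormRationalStructure (Cfsg.hermForm 4 F q) F₁ 1 P ∧ H ≤ subfieldSubgroup F₁ P) := by
  classical
  obtain ⟨F₁, r, τ', hr, hcardF, hle, hfixτ⟩ := exists_subfield_aut F₀ hF₀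
  obtain ⟨B, hB⟩ := hreal
  have hB₁ : ∀ s ∈ matrixSet N, ∀ i j,
      (B.1 * s * (B⁻¹ : GL (Fin 4) F).1) i j ∈ F₁ :=
    fun s hs i j => hle (hB s hs i j)
  have hHle : H ≤ subfieldSubgroup F₁ B⁻¹ := by
    intro h hh
    have key := NL_core N hNa F₁ τ' hfixτ B hB₁ h (fun x hx => hnrm h hh x hx)
    unfold subfieldSubgroup
    refine ⟨B * h * B⁻¹, key, ?_⟩
    show B⁻¹ * (B * h * B⁻¹) * B⁻¹⁻¹ = h
    group
  obtain ⟨ζ, hζ, hrat⟩ := U8a hF (by norm_num) N hNGU hNa F₁ τ' hfixτ B hB₁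
  rcases hr.eq_two_or_odd' with h2 | hro
  · subst h2
    rcases U8E hF (by norm_num) N hNGU hNa F₁ hcardF B hB₁ ζ hζ hrat with
      ⟨ζ', hζ', htr, hrat', hiso'⟩ | ⟨hqo, hrat1⟩
    · exact Or.inr (Or.inl ⟨F₁, B⁻¹, ζ', hcardF, hζ', htr, hrat', hiso', hHle⟩)
    · exact Or.inr (Or.inr ⟨hqo, F₁, B⁻¹, hcardF, hrat1, hHle⟩)
  · obtain ⟨P', hP', hsub⟩ := U8b hF (by norm_num) F₁ r hro hcardF B⁻¹ ζ hζ hrat
    exact Or.inl ⟨F₁, r, P', hr, hro, hcardF, hP', by rw [hsub]; exact hHle⟩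

/-- The normal form of a subgroup of `GU_4(q)`. -/
def GenU4 (q : ℕ) (H : Subgroup (GL (Fin 4) F)) : Prop :=
  (∃ W : Submodule F (Fin 4 → F), W ≠ ⊥ ∧ IsTotallySingularFor (Cfsg.hermForm 4 F q) W ∧
    H ≤ subspaceStabilizer W) ∨
  (∃ W : Submodule F (Fin 4 → F), W ≠ ⊥ ∧ IsNondegenerateOn (Cfsg.hermForm 4 F q) W ∧
    2 * Module.finrank F W < 4 ∧ H ≤ subspaceStabilizer W) ∨
  (∃ D : Fin 4 → Submodule F (Fin 4 → F),
    IsNondegenerateMDecomposition (Cfsg.hermForm 4 F q) 1 D ∧ H ≤ decompositionStabilizer D) ∨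
  (3 ≤ q ∧ ∃ D : Fin 2 → Submodule F (Fin 4 → F),
    IsNondegenerateMDecomposition (Cfsg.hermForm 4 F q) 2 D ∧ H ≤ decompositionStabilizer D) ∨
  (∃ D : Fin 2 → Submodule F (Fin 4 → F), IsMDecomposition 2 D ∧
    (∀ i, IsTotallySingularFor (Cfsg.hermForm 4 F q) (D i)) ∧ H ≤ decompositionStabilizer D) ∨
  (∃ (F₀ : Subfield F) (r : ℕ) (P : GL (Fin 4) F), r.Prime ∧ Odd r ∧
    Fintype.card F = Nat.card F₀ ^ r ∧ IsFormRationalStructure (Cfsg.hermForm 4 F q) F₀ 1 P ∧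
    H ≤ subfieldSubgroup F₀ P) ∨
  (∃ (F₀ : Subfield F) (P : GL (Fin 4) F) (ζ : F), Fintype.card F = Nat.card F₀ ^ 2 ∧ ζ ≠ 0 ∧
    ζ + ζ ^ q = 0 ∧ IsFormRationalStructure (Cfsg.hermForm 4 F q) F₀ ζ P ∧
    (∀ u : Fin 4 → F, (∀ i, u i ∈ F₀) →
      (Cfsg.hermForm 4 F q) (Matrix.mulVec (P : Matrix (Fin 4) (Fin 4) F) u)
        (Matrix.mulVec (P : Matrix (Fin 4) (Fin 4) F) u) = 0) ∧
    H ≤ subfieldSubgroup F₀ P) ∨
  (Odd q ∧ ∃ (F₀ : Subfield F) (P : GL (Fin 4) F), Fintype.card F = Nat.card F₀ ^ 2 ∧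
    IsFormRationalStructure (Cfsg.hermForm 4 F q) F₀ 1 P ∧ H ≤ subfieldSubgroup F₀ P) ∨
  (∃ (p e : ℕ) (R : Subgroup (GL (Fin 4) F)), IsMinimalFieldFor 4 p e F ∧ 2 ≠ p ∧
    IsSymplecticTypeGroup 2 R ∧ ActsAbsolutelyIrreducibly (matrixSet R) ∧
    R ≤ Cfsg.GU 4 F q ∧ ⁅R, R⁆ ≤ scalars (Fin 4) F ∧ ¬ R ≤ scalars (Fin 4) F ∧
    Nat.card R = 64 ∧ Nat.card (Subgroup.center R) = 4 ∧ H ≤ subgroupNormalizer R) ∨
  (∃ (e : Fin 4 ≃ Fin 2 × Fin 2) (P : GL (Fin 4) F)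
    (G₁ G₂ : Matrix (Fin 2) (Fin 2) F), G₁.det ≠ 0 ∧ G₂.det ≠ 0 ∧
    (∀ a b, G₁ a b = (G₁ b a) ^ q) ∧ (∀ a b, G₂ a b = (G₂ b a) ^ q) ∧
    (∀ x y : Fin 2 × Fin 2 → F,
      Cfsg.hermForm 4 F q (P.1 *ᵥ (x ∘ e)) (P.1 *ᵥ (y ∘ e)) =
        formOfGram (fun c : F => c ^ q) (G₁ ⊗ₖ G₂) x y) ∧
    H ≤ tensorProductSubgroup 2 2 e P) ∨
  InUnitaryResidualClass H

/-- GENU4: the structure of a subgroup of `GU_4(q)`. -/
theorem genU4 (hF : Fintype.card F = q ^ 2) (H : Subgroup (GL (Fin 4) F))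
    (hH : H ≤ Cfsg.GU 4 F q) : GenU4 q H := by
  classical
  have hq2 : 2 ≤ q := by
    have h1 : 1 < Fintype.card F := Fintype.one_lt_card
    rw [hF] at h1
    by_contra hlt
    have h01 : q = 0 ∨ q = 1 := by omega
    rcases h01 with rfl | rfl <;> simp at h1
  -- non-degenerate decompositions into planes
  have dec2 : ∀ D : Fin 2 → Submodule F (Fin 4 → F),
      IsNondegenerateMDecomposition (Cfsg.hermForm 4 F q) 2 D →
      H ≤ decompositionStabilizer D → GenU4 q H := by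
    intro D hND hHD
    by_cases hq : 3 ≤ q
    · exact Or.inr (Or.inr (Or.inr (Or.inl ⟨hq, D, hND, hHD⟩)))
    · have hq2' : q = 2 := by omega
      obtain ⟨D', hD', hHD'⟩ := Q2 hF hq2' H hH D hND hHD
      exact Or.inr (Or.inr (Or.inl ⟨D', hD', hHD'⟩))
  by_cases h1 : ActsIrreducibly (matrixSet H)
  swap
  · rcases U1 hF H hH h1 with ⟨W, h0, hts, hle⟩ | ⟨W, h0, hnd, hdim, hle⟩
    · exact Or.inl ⟨W, h0, hts, hle⟩
    · by_cases hlt : 2 * Module.finrank F W < 4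
      · exact Or.inr (Or.inl ⟨W, h0, hnd, hlt, hle⟩)
      · have hdim' : Module.finrank F W = 2 := by omega
        obtain ⟨D, hD, hHD⟩ := PERP hF 2 (by norm_num) rfl H hH W hnd hdim' hle
        exact dec2 D hD hHD
  obtain ⟨L, hL⟩ := exists_minNS (by norm_num) H h1
  have hLGU : L ≤ Cfsg.GU 4 F q := hL.le.trans hH
  rcases CAP (by norm_num) H L h1 hL.le hL.nrm with
    ⟨t, m, D, hD, hHD, hiso, hinv, hfull⟩ | ⟨d, k, e, P, R, hR, hR1, hR2⟩
  · -- inhomogeneous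
    have htm : t * m = 4 := C2 D hD
    have ht2 := hD.two_le
    obtain ⟨τ, hτ, horth, hno⟩ := PAIRa hF L hLGU D hD hiso hinv hfull
    rcases PAIRb hF H hH h1 D hD hHD τ hτ horth hno with hND | ⟨hfp, hcompat⟩
    · rcases tm_cases4 htm ht2 with ⟨rfl, rfl⟩ | ⟨rfl, rfl⟩
      · exact dec2 D hND hHD
      · exact Or.inr (Or.inr (Or.inl ⟨D, hND, hHD⟩))
    · rcases tm_cases4 htm ht2 with ⟨rfl, rfl⟩ | ⟨rfl, rfl⟩
      · have hts : ∀ i, IsTotallySingularFor (Cfsg.hermForm 4 F q) (D i) :=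
          fun i => horth i i (hfp i).symm
        exact Or.inr (Or.inr (Or.inr (Or.inr (Or.inl ⟨D, hD, hts, hHD⟩))))
      · obtain ⟨s, E, hE, hHE⟩ := PLN hF (by norm_num) H D hD hHD τ hfp hτ horth hcompat
        have hs : s * 2 = 4 := C2 E hE.decomp
        obtain rfl : 2 = s := by omega
        exact dec2 E hE hHE
  · -- homogeneous
    have hcard : 4 = d * k := by
      have := Fintype.card_congr e
      simpa using this
    have hd1 : d ≠ 1 := by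
      rintro rfl
      exact hL.ns (B3s e P R L hR1)
    have hd0 : d ≠ 0 := by
      rintro rfl
      simp at hcard
    have hdk : d * k = 4 := hcard.symm
    by_cases hRa : ActsAbsolutelyIrreducibly (matrixSet R)
    swap
    · obtain ⟨r, K, hr, hK, hHK, hKc⟩ :=
        coreB (by norm_num) H L hL.le hL.nrm e P R hR hR1 hR2 hRa
      have hhom := HOMP e P R L hR hR1 hR2
      have hadj := ADJ hF (by norm_num) L hLGU hhom
        (fun Z hc hi r K K' hK hK' h1 h2 => UNIQ (by norm_num) Z hc hi r K K' hK hK' h1 h2)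
        r K hK hKc
      have hrn : r ∣ 4 := C3 (by norm_num) r K hK
      have hr2 : r = 2 := by
        have h4 : (4 : ℕ) = 2 ^ 2 := by norm_num
        rw [h4] at hrn
        exact (Nat.prime_dvd_prime_iff_eq hr Nat.prime_two).1 (hr.dvd_of_dvd_pow hrn)
      subst hr2
      exact (FLD2 hF (by norm_num) K hK hadj).elim
    · have hHT : H ≤ tensorProductSubgroup d k e P := fun h hh =>
        (coreC e P R L hRa hR1 hR2).2 h (fun x hx => hL.nrm h hh x hx)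
      rcases tm_cases4 hdk (by omega) with ⟨rfl, rfl⟩ | ⟨rfl, rfl⟩
      · -- d = 2, k = 2
        obtain ⟨G₁, G₂, hd1', hd2', hh1, hh2, hid⟩ := TF hF e P R L hLGU hRa hR1 hR2
        exact Or.inr (Or.inr (Or.inr (Or.inr (Or.inr (Or.inr (Or.inr (Or.inr (Or.inr (Or.inl
          ⟨e, P, G₁, G₂, hd1', hd2', hh1, hh2, hid, hHT⟩)))))))))
      · -- d = 4, k = 1: L absolutely irreducible
        have hLa := B3a e P R L hRa hR2
        -- the subfield alternative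
        have sub : ∀ F₀ : Subfield F, F₀ ≠ ⊤ → RealisableOver F₀ (matrixSet L) → GenU4 q H := by
          intro F₀ hF₀ hreal
          rcases C5of hF H L hLGU hL.nrm hLa F₀ hF₀ hreal with h | h | h
          · exact Or.inr (Or.inr (Or.inr (Or.inr (Or.inr (Or.inl h)))))
          · exact Or.inr (Or.inr (Or.inr (Or.inr (Or.inr (Or.inr (Or.inl h))))))
          · exact Or.inr (Or.inr (Or.inr (Or.inr (Or.inr (Or.inr (Or.inr (Or.inl h)))))))
        -- the bilinear alternative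
        have bil : ∀ f : (Fin 4 → F) → (Fin 4 → F) → F, IsBilinearForm f →
            IsNondegenerateForm f → FixesForm (matrixSet L) f → GenU4 q H := by
          intro f hb hnd hfix
          obtain ⟨F₀, hF₀, hreal⟩ := U7 hF (by norm_num) L hLGU hLa f hb hnd hfix
          exact sub F₀ hF₀ hreal
        rcases hL.min ⁅L, L⁆ (commutator_le_self L) hL.nrm.commutator with hc | hc
        · -- symplectic type
          have hsym : SymT H L := ⟨hL, hLa, hc⟩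
          rcases U54 H L hsym with ⟨F₁, hF₁, hreal⟩ | ⟨hz, h2, h8, htr⟩ |
            ⟨p, e', hst, hnp, hmin, hcardL, hcen⟩
          · exact sub F₁ hF₁ hreal
          · obtain ⟨f, hb, hnd, hfix⟩ := SKB (by norm_num) H L hsym h2 h8 htr hz
            exact bil f hb hnd hfix
          · refine Or.inr (Or.inr (Or.inr (Or.inr (Or.inr (Or.inr (Or.inr (Or.inr (Or.inl
                ⟨p, e', L, hmin, hnp, hst, hLa, hLGU, hc, hL.ns, hcardL, hcen, ?_⟩))))))))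
            intro h hh
            unfold subgroupNormalizer
            rw [Subgroup.mem_normalizer_iff]
            intro x
            constructor
            · intro hx
              exact hL.nrm h hh x hx
            · intro hx
              have := hL.nrm h⁻¹ (H.inv_mem hh) _ hx
              have h3 : h⁻¹ * (h * x * h⁻¹) * h⁻¹⁻¹ = x := by group
              rwa [h3] at this
        · rcases B6 H L hL hc with ⟨hs, hna⟩ | ⟨k', Ps, hk', hns, hcomm, hsup, hperm, htrans⟩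
          · by_cases hsubf : ∃ F₀ : Subfield F, F₀ ≠ ⊤ ∧ RealisableOver F₀ (matrixSet L)
            · obtain ⟨F₀, hF₀, hreal⟩ := hsubf
              exact sub F₀ hF₀ hreal
            · refine Or.inr (Or.inr (Or.inr (Or.inr (Or.inr (Or.inr (Or.inr (Or.inr (Or.inr
                (Or.inr
                  ⟨L, B7core H L hL.le hL.nrm hLa hc hs hna ?_, ?_, ?_⟩)))))))))
              · intro F₀ hF₀ hreal
                exact hsubf ⟨F₀, hF₀, hreal⟩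
              · rintro ⟨Q, hQ, hQfix⟩
                apply hsubf
                refine U7 hF (by norm_num) L hLGU hLa (QuadraticMap.polar Q) hQ.polar_bilinear
                  hQ.nondegenerate ?_
                intro s hs u v
                unfold QuadraticMap.polar
                rw [← Matrix.mulVec_add, hQfix s hs, hQfix s hs, hQfix s hs]
              · rintro ⟨f, hf, hffix⟩
                exact hsubf (U7 hF (by norm_num) L hLGU hLa f hf.bilinear hf.nondegenerate hffix)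
          · obtain ⟨m', e', P', hm', hHW⟩ :=
              B8W (by norm_num) H L hLa k' Ps hk' hns hcomm hsup hperm htrans
            have hcard' : 4 = m' ^ k' := by
              have := Fintype.card_congr e'
              simpa using this
            have hm2 : m' = 2 := by
              by_contra hne
              have h3 : 3 ≤ m' := by omega
              have h9 : 3 ^ 2 ≤ m' ^ k' :=
                (Nat.pow_le_pow_left h3 2).trans (Nat.pow_le_pow_right (by omega) hk')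
              omega
            subst hm2
            obtain ⟨f, hb, hnd, hfix⟩ := TW2F (by omega) e' P' L (hL.le.trans hHW) hc
            exact bil f hb hnd hfix

/-- the conclusion of S5784 -/
def FinU4 (q : ℕ) (H : Subgroup (GL (Fin 4) F)) : Prop :=
    (∃ W : Submodule F (Fin 4 → F), W ≠ ⊥ ∧ IsTotallySingularFor (Cfsg.hermForm 4 F q) W ∧ H = subspaceStabilizer W ⊓ (Cfsg.GU 4 F q ⊓ specialLinear (Fin 4) F)) ∨
    (∃ W : Submodule F (Fin 4 → F), W ≠ ⊥ ∧ IsNondegenerateOn (Cfsg.hermForm 4 F q) W ∧ 2 * Module.finrank F W < 4 ∧ H = subspaceStabilizer W ⊓ (Cfsg.GU 4 F q ⊓ specialLinear (Fin 4) F)) ∨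
    (q ≠ 3 ∧ ∃ D : Fin 4 → Submodule F (Fin 4 → F), IsNondegenerateMDecomposition (Cfsg.hermForm 4 F q) 1 D ∧ H = decompositionStabilizer D ⊓ (Cfsg.GU 4 F q ⊓ specialLinear (Fin 4) F)) ∨
    (3 ≤ q ∧ ∃ D : Fin 2 → Submodule F (Fin 4 → F), IsNondegenerateMDecomposition (Cfsg.hermForm 4 F q) 2 D ∧ H = decompositionStabilizer D ⊓ (Cfsg.GU 4 F q ⊓ specialLinear (Fin 4) F)) ∨
    (4 ≤ q ∧ ∃ D : Fin 2 → Submodule F (Fin 4 → F), IsMDecomposition 2 D ∧ (∀ i, IsTotallySingularFor (Cfsg.hermForm 4 F q) (D i)) ∧ H = decompositionStabilizer D ⊓ (Cfsg.GU 4 F q ⊓ specialLinear (Fin 4) F)) ∨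
    (∃ (F₀ : Subfield F) (r : ℕ) (P : GL (Fin 4) F), r.Prime ∧ Odd r ∧ Fintype.card F = Nat.card F₀ ^ r ∧ IsFormRationalStructure (Cfsg.hermForm 4 F q) F₀ 1 P ∧ H = subfieldSubgroup F₀ P ⊓ (Cfsg.GU 4 F q ⊓ specialLinear (Fin 4) F)) ∨
    (∃ (F₀ : Subfield F) (P : GL (Fin 4) F) (ζ : F), Fintype.card F = Nat.card F₀ ^ 2 ∧ ζ ≠ 0 ∧ ζ + ζ ^ q = 0 ∧ IsFormRationalStructure (Cfsg.hermForm 4 F q) F₀ ζ P ∧ (∀ u : Fin 4 → F, (∀ i, u i ∈ F₀) → (Cfsg.hermForm 4 F q) (Matrix.mulVec (P : Matrix (Fin 4) (Fin 4) F) u) (Matrix.mulVec (P : Matrix (Fin 4) (Fin 4) F) u) = 0) ∧ H = subfieldSubgroup F₀ P ⊓ (Cfsg.GU 4 F q ⊓ specialLinear (Fin 4) F)) ∨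
    (Odd q ∧ ∃ (F₀ : Subfield F) (P : GL (Fin 4) F), Fintype.card F = Nat.card F₀ ^ 2 ∧ IsFormRationalStructure (Cfsg.hermForm 4 F q) F₀ 1 P ∧ H = subfieldSubgroup F₀ P ⊓ (Cfsg.GU 4 F q ⊓ specialLinear (Fin 4) F)) ∨
    (∃ (p : ℕ) (R : Subgroup (GL (Fin 4) F)), p.Prime ∧ q = p ∧ p % 4 = 3 ∧ IsSymplecticTypeGroup 2 R ∧ ActsAbsolutelyIrreducibly (matrixSet R) ∧ R ≤ similarityGroup (Cfsg.hermForm 4 F q) ∧ Nat.card R = 64 ∧ Nat.card (Subgroup.center R) = 4 ∧ H = subgroupNormalizer R ⊓ (Cfsg.GU 4 F q ⊓ specialLinear (Fin 4) F)) ∨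
    InUnitaryResidualClass H

/-- FINAL: the maximal subgroups of `SU_4(q)`. -/
theorem finalU4 (hF : Fintype.card F = q ^ 2) (H : Subgroup (GL (Fin 4) F))
    (hH : IsMaximalIn (Cfsg.GU 4 F q ⊓ specialLinear (Fin 4) F) H) : FinU4 q H := by
  classical
  have hHS : H ≤ Cfsg.GU 4 F q ⊓ specialLinear (Fin 4) F := hH.1.le
  have hHGU : H ≤ Cfsg.GU 4 F q := hHS.trans inf_le_left
  have hq2 : 2 ≤ q := by
    have h1 : 1 < Fintype.card F := Fintype.one_lt_card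
    rw [hF] at h1
    by_contra hlt
    have h01 : q = 0 ∨ q = 1 := by omega
    rcases h01 with rfl | rfl <;> simp at h1
  have hne : ∀ (F₀ : Subfield F) (r : ℕ), r.Prime → Fintype.card F = Nat.card F₀ ^ r →
      F₀ ≠ ⊤ := by
    intro F₁ r hr hcard htop
    rw [htop] at hcard
    have h1 : Nat.card (⊤ : Subfield F) = Fintype.card F := by
      rw [← Nat.card_eq_fintype_card]
      exact Nat.card_congr Subfield.topEquiv.toEquiv
    rw [h1] at hcard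
    have h2 : 1 < Fintype.card F := Fintype.one_lt_card
    have h3 : Fintype.card F ^ 1 < Fintype.card F ^ r :=
      Nat.pow_lt_pow_right h2 hr.one_lt
    rw [pow_one] at h3
    omega
  -- the three subfield clauses
  have c5 : (∃ (F₁ : Subfield F) (r : ℕ) (P : GL (Fin 4) F), r.Prime ∧ Odd r ∧
        Fintype.card F = Nat.card F₁ ^ r ∧ IsFormRationalStructure (Cfsg.hermForm 4 F q) F₁ 1 P ∧
        H ≤ subfieldSubgroup F₁ P) ∨
      (∃ (F₁ : Subfield F) (P : GL (Fin 4) F) (ζ : F), Fintype.card F = Nat.card F₁ ^ 2 ∧ ζ ≠ 0 ∧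
        ζ + ζ ^ q = 0 ∧ IsFormRationalStructure (Cfsg.hermForm 4 F q) F₁ ζ P ∧
        (∀ u : Fin 4 → F, (∀ i, u i ∈ F₁) →
          (Cfsg.hermForm 4 F q) (Matrix.mulVec (P : Matrix (Fin 4) (Fin 4) F) u)
            (Matrix.mulVec (P : Matrix (Fin 4) (Fin 4) F) u) = 0) ∧
        H ≤ subfieldSubgroup F₁ P) ∨
      (Odd q ∧ ∃ (F₁ : Subfield F) (P : GL (Fin 4) F), Fintype.card F = Nat.card F₁ ^ 2 ∧
        IsFormRationalStructure (Cfsg.hermForm 4 F q) F₁ 1 P ∧ H ≤ subfieldSubgroup F₁ P) →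
      FinU4 q H := by
    intro h
    unfold FinU4
    rcases h with ⟨F₀, r, P, hr, hro, hcard, hrat, hle⟩ |
      ⟨F₀, P, ζ, hcard, hζ, htr, hrat, hiso, hle⟩ | ⟨hqo, F₀, P, hcard, hrat, hle⟩
    · exact Or.inr (Or.inr (Or.inr (Or.inr (Or.inr (Or.inl
        ⟨F₀, r, P, hr, hro, hcard, hrat,
          eq_inf_of_max hH hle (NU5 hF (by norm_num) F₀ (hne F₀ r hr hcard) P)⟩)))))
    · exact Or.inr (Or.inr (Or.inr (Or.inr (Or.inr (Or.inr (Or.inl
        ⟨F₀, P, ζ, hcard, hζ, htr, hrat, hiso,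
          eq_inf_of_max hH hle (NU5 hF (by norm_num) F₀ (hne F₀ 2 Nat.prime_two hcard) P)⟩))))))
    · exact Or.inr (Or.inr (Or.inr (Or.inr (Or.inr (Or.inr (Or.inr
        (Or.inl ⟨hqo, F₀, P, hcard, hrat,
          eq_inf_of_max hH hle (NU5 hF (by norm_num) F₀ (hne F₀ 2 Nat.prime_two hcard) P)⟩)))))))
  -- from an absolutely irreducible normal subgroup fixing a bilinear form
  have c5N : ∀ (N : Subgroup (GL (Fin 4) F)) (b : (Fin 4 → F) → (Fin 4 → F) → F), N ≤ H →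
      Nrm H N → ActsAbsolutelyIrreducibly (matrixSet N) → IsBilinearForm b →
      IsNondegenerateForm b → FixesForm (matrixSet N) b → FinU4 q H := by
    intro N b hNH hnrm hNa hb hbn hfix
    have hNGU : N ≤ Cfsg.GU 4 F q := hNH.trans hHGU
    obtain ⟨F₀, hF₀, hreal⟩ := U7 hF (by norm_num) N hNGU hNa b hb hbn hfix
    exact c5 (C5of hF H N hNGU hnrm hNa F₀ hF₀ hreal)
  -- the symplectic-type clause
  have c6 : ∀ (p e : ℕ) (R : Subgroup (GL (Fin 4) F)), IsMinimalFieldFor 4 p e F → 2 ≠ p →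
      IsSymplecticTypeGroup 2 R → ActsAbsolutelyIrreducibly (matrixSet R) →
      R ≤ Cfsg.GU 4 F q → ⁅R, R⁆ ≤ scalars (Fin 4) F → ¬ R ≤ scalars (Fin 4) F →
      Nat.card R = 64 → Nat.card (Subgroup.center R) = 4 → H ≤ subgroupNormalizer R →
      FinU4 q H := by
    intro p e R hmin hnp hst hRa hRGU hc hns hcardR hcen hle
    unfold FinU4
    obtain ⟨hqp, hp4⟩ := AU4 hF p e hmin
    have hu := U9 R 2 p hst.pGroup hmin.1 Nat.prime_two hmin.2.1 hnp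
    exact Or.inr (Or.inr (Or.inr (Or.inr (Or.inr (Or.inr (Or.inr (Or.inr
      (Or.inl ⟨p, R, hmin.1, hqp, hp4, hst, hRa,
        hRGU.trans Cfsg.Agent.Lib.Helper71.SUPMain.GU_le_sim, hcardR, hcen,
        eq_inf_of_max hH hle (NU64 hF R hRGU hc hns hu)⟩))))))))
  have hg := genU4 hF H hHGU
  unfold GenU4 at hg
  unfold FinU4
  rcases hg with ⟨W, h0, hts, hle⟩ | ⟨W, h0, hnd, hdim, hle⟩ | ⟨D, hD, hle⟩ | ⟨hq, D, hD, hle⟩ |
    ⟨D, hD, hts, hle⟩ | h5 | h5 | h5 |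
    ⟨p, e, R, hmin, hnp, hst, hRa, hRGU, hc, hns, hcardR, hcen, hle⟩ |
    ⟨e, P, G₁, G₂, hd1, hd2, hh1, hh2, hid, hle⟩ | hres
  · have htop : W ≠ ⊤ := by
      rintro rfl
      exact not_ts_top (by norm_num) hts
    exact Or.inl ⟨W, h0, hts, eq_inf_of_max hH hle (NU1 hF (by norm_num) W h0 htop)⟩
  · have htop : W ≠ ⊤ := by
      rintro rfl
      rw [finrank_top, Module.finrank_fin_fun] at hdim
      omega
    exact Or.inr (Or.inl ⟨W, h0, hnd, hdim,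
      eq_inf_of_max hH hle (NU1 hF (by norm_num) W h0 htop)⟩)
  · -- orthogonal frames
    have hHeq := eq_inf_of_max hH hle (NU2 hF (by norm_num) D hD)
    by_cases hq3 : q = 3
    · obtain ⟨K, R, hsym, hRGU, hz2, hnsub, hnrm⟩ := Q3MON hF hq3 D hD
      have hleR : H ≤ subgroupNormalizer R := by
        rw [hHeq]
        exact hnrm
      rcases U54 K R hsym with hsubf | ⟨hz, -⟩ | ⟨p, e, hst, hnp, hmin, hcardR, hcen⟩
      · exact absurd hsubf hnsub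
      · exact absurd hz hz2
      · exact c6 p e R hmin hnp hst hsym.abs hRGU hsym.comm hsym.min.ns hcardR hcen hleR
    · exact Or.inr (Or.inr (Or.inl ⟨hq3, D, hD, hHeq⟩))
  · exact Or.inr (Or.inr (Or.inr (Or.inl ⟨hq, D, hD,
      eq_inf_of_max hH hle (NU2Q hF (by norm_num) D hD.decomp (by norm_num))⟩)))
  · -- totally isotropic pairs
    have hHeq := eq_inf_of_max hH hle (NU2Q hF (by norm_num) D hD (by norm_num))
    by_cases hq4 : 4 ≤ q
    · exact Or.inr (Or.inr (Or.inr (Or.inr (Or.inl ⟨hq4, D, hD, hts, hHeq⟩))))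
    · obtain ⟨N, b, hNH, hnrm, hNa, hb, hbn, hfix⟩ := TSN hF (by omega) D hD hts H hHeq
      exact c5N N b hNH hnrm hNa hb hbn hfix
  · exact c5 (Or.inl h5)
  · exact c5 (Or.inr (Or.inl h5))
  · exact c5 (Or.inr (Or.inr h5))
  · exact c6 p e R hmin hnp hst hRa hRGU hc hns hcardR hcen hle
  · -- tensor decompositions 2 ⊗ 2
    have hHeq := eq_inf_of_max hH hle (NU4Q hF (by norm_num) (by norm_num) (by norm_num) e P)
    obtain ⟨N, b, hNH, hnrm, hNa, hb, hbn, hfix⟩ :=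
      T22N hF e P G₁ G₂ hd1 hd2 hh1 hh2 hid H hHeq
    exact c5N N b hNH hnrm hNa hb hbn hfix
  · exact Or.inr (Or.inr (Or.inr (Or.inr (Or.inr (Or.inr (Or.inr (Or.inr
      (Or.inr hres))))))))

end Cfsg.Agent.Lib.Helper50.SU4Main
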