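import Mathlib
import Cfsg.Prelude.Def_RootSubgroups
import Cfsg.Agent.Lib.Helper52.SiegelGeom
import Cfsg.Agent.Lib.Helper87.RootTransfer

/-!
# Siegel transvection groups of totally singular lines (helper50)

For a quadratic form `Q` with polar form `f` and `p, r` spanning a totally singular subspace,
`sg h c` is the isometry `x ↦ x + c (f(r,x) p - f(p,x) r)` and `TT h` the group of all of them.
This file: basic calculus (`sg_add`, `sg_conj`, base change), the characterisation of `TT h` as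
the isometries fixing `⟨p, r⟩^⊥` pointwise, commuting pairs, and the commutator case.
-/

set_option autoImplicit false
set_option linter.unusedSectionVars false

namespace Cfsg.Agent.Lib.Helper50

open Module QuadraticMap
open Cfsg.Agent.Lib.Helper51 Cfsg.Agent.Lib.Helper52

section SgAct

variable {ι : Type} [Fintype ι] [DecidableEq ι] {F : Type*} [Field F]
variable (Q : QuadraticForm F (ι → F))

/-- The action of an isometry on a vector. -/
def ac (g : ↥(Cfsg.isometryGroup F ⇑Q)) (x : ι → F) : ι → F :=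
  ((g : Matrix.GeneralLinearGroup ι F) : Matrix ι ι F).mulVec x

theorem ac_mul (g h : ↥(Cfsg.isometryGroup F ⇑Q)) (x : ι → F) :
    ac Q (g * h) x = ac Q g (ac Q h x) := by
  unfold ac
  rw [coe_mul', Matrix.mulVec_mulVec]

theorem ac_one (x : ι → F) : ac Q 1 x = x := by
  show (1 : Matrix ι ι F).mulVec x = x
  exact Matrix.one_mulVec x

theorem ac_inv_ac (g : ↥(Cfsg.isometryGroup F ⇑Q)) (x : ι → F) : ac Q g⁻¹ (ac Q g x) = x :=
  coe_inv_mulVec' Q g x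

theorem ac_ac_inv (g : ↥(Cfsg.isometryGroup F ⇑Q)) (x : ι → F) : ac Q g (ac Q g⁻¹ x) = x :=
  coe_inv_mulVec Q g x

theorem ac_add (g : ↥(Cfsg.isometryGroup F ⇑Q)) (x y : ι → F) :
    ac Q g (x + y) = ac Q g x + ac Q g y := Matrix.mulVec_add _ _ _

theorem ac_sub (g : ↥(Cfsg.isometryGroup F ⇑Q)) (x y : ι → F) :
    ac Q g (x - y) = ac Q g x - ac Q g y := Matrix.mulVec_sub _ _ _

theorem ac_smul (g : ↥(Cfsg.isometryGroup F ⇑Q)) (c : F) (x : ι → F) :
    ac Q g (c • x) = c • ac Q g x := Matrix.mulVec_smul _ _ _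

theorem Q_ac (g : ↥(Cfsg.isometryGroup F ⇑Q)) (x : ι → F) : Q (ac Q g x) = Q x :=
  isometry_apply Q g x

theorem polar_ac (g : ↥(Cfsg.isometryGroup F ⇑Q)) (x y : ι → F) :
    polar ⇑Q (ac Q g x) (ac Q g y) = polar ⇑Q x y := isometry_polar Q g x y

theorem polar_ac_inv (g : ↥(Cfsg.isometryGroup F ⇑Q)) (v x : ι → F) :
    polar ⇑Q v (ac Q g⁻¹ x) = polar ⇑Q (ac Q g v) x := by
  rw [← polar_ac Q g, ac_ac_inv]

theorem ac_ext {g h : ↥(Cfsg.isometryGroup F ⇑Q)} (H : ∀ x, ac Q g x = ac Q h x) : g = h := by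
  apply isometry_ext
  apply matrix_ext_mulVec
  exact H

/-- `p, r` span a totally singular subspace. -/
structure TSP (p r : ι → F) : Prop where
  hp : Q p = 0
  hr : Q r = 0
  hpr : polar ⇑Q p r = 0

variable {Q}

theorem TSP.hrp {p r : ι → F} (h : TSP Q p r) : polar ⇑Q r p = 0 := by
  rw [polar_comm]; exact h.hpr

theorem TSP.hpp {p r : ι → F} (h : TSP Q p r) : polar ⇑Q p p = 0 := by
  rw [Cfsg.Agent.Lib.Helper51.polar_self, h.hp, mul_zero]

theorem TSP.hrr {p r : ι → F} (h : TSP Q p r) : polar ⇑Q r r = 0 := by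
  rw [Cfsg.Agent.Lib.Helper51.polar_self, h.hr, mul_zero]

theorem TSP.swap {p r : ι → F} (h : TSP Q p r) : TSP Q r p := ⟨h.hr, h.hp, h.hrp⟩

theorem TSP.map {p r : ι → F} (h : TSP Q p r) (g : ↥(Cfsg.isometryGroup F ⇑Q)) :
    TSP Q (ac Q g p) (ac Q g r) :=
  ⟨by rw [Q_ac]; exact h.hp, by rw [Q_ac]; exact h.hr, by rw [polar_ac]; exact h.hpr⟩

theorem TSP.Q_comb {p r : ι → F} (h : TSP Q p r) (α β : F) : Q (α • p + β • r) = 0 := by
  have := Q_add_smul_add_smul Q 0 p r α β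
  rw [zero_add] at this
  rw [this, h.hp, h.hr, h.hpr, polar_zero_left, polar_zero_left, QuadraticMap.map_zero]
  ring

theorem TSP.comb {p r : ι → F} (h : TSP Q p r) (α β γ δ : F) :
    TSP Q (α • p + β • r) (γ • p + δ • r) := by
  refine ⟨h.Q_comb α β, h.Q_comb γ δ, ?_⟩
  simp only [polar_add_left, polar_add_right, polar_smul_left, polar_smul_right, h.hpp, h.hrr,
    h.hpr, h.hrp, smul_zero, add_zero]

variable (Q)

/-- The Siegel transvection `x ↦ x + c (f(r,x) p - f(p,x) r)`. -/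
noncomputable def sg {p r : ι → F} (h : TSP Q p r) (c : F) : ↥(Cfsg.isometryGroup F ⇑Q) :=
  eich Q p (c • r) h.hp (by rw [polar_smul_right, h.hpr, smul_zero])

theorem sg_ac {p r : ι → F} (h : TSP Q p r) (c : F) (x : ι → F) :
    ac Q (sg Q h c) x = x + c • (polar ⇑Q r x • p - polar ⇑Q p x • r) := by
  unfold ac sg
  rw [coe_eich, eichMat_mulVec, QuadraticMap.map_smul, h.hr, polar_smul_left]
  simp only [smul_eq_mul, mul_zero, zero_mul, zero_smul, sub_zero]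
  module

theorem sg_add {p r : ι → F} (h : TSP Q p r) (c d : F) :
    sg Q h c * sg Q h d = sg Q h (c + d) := by
  apply ac_ext
  intro x
  rw [ac_mul, sg_ac, sg_ac, sg_ac]
  simp only [polar_add_right, polar_sub_right, polar_smul_right, smul_eq_mul, h.hpp, h.hrr,
    h.hpr, h.hrp, mul_zero, sub_zero, add_zero]
  module

theorem sg_zero {p r : ι → F} (h : TSP Q p r) : sg Q h 0 = 1 := by
  apply ac_ext
  intro x
  rw [sg_ac, ac_one, zero_smul, add_zero]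

theorem sg_inv {p r : ι → F} (h : TSP Q p r) (c : F) : (sg Q h c)⁻¹ = sg Q h (-c) := by
  apply inv_eq_of_mul_eq_one_right
  rw [sg_add, add_neg_cancel, sg_zero]

theorem sg_conj {p r : ι → F} (h : TSP Q p r) (g : ↥(Cfsg.isometryGroup F ⇑Q)) (c : F) :
    g * sg Q h c * g⁻¹ = sg Q (h.map g) c := by
  apply ac_ext
  intro x
  rw [ac_mul, ac_mul, sg_ac, sg_ac, ac_add, ac_smul, ac_sub, ac_smul, ac_smul, ac_ac_inv,
    polar_ac_inv, polar_ac_inv]

theorem sg_basis {p r : ι → F} (h : TSP Q p r) (α β γ δ : F)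
    (h₂ : TSP Q (α • p + β • r) (γ • p + δ • r)) (c : F) :
    sg Q h₂ c = sg Q h (c * (α * δ - β * γ)) := by
  apply ac_ext
  intro x
  rw [sg_ac, sg_ac]
  simp only [polar_add_left, polar_smul_left, smul_eq_mul]
  module

theorem sg_congr {p r p₂ r₂ : ι → F} (h : TSP Q p r) (h₂ : TSP Q p₂ r₂) (hp : p₂ = p)
    (hr : r₂ = r) (c : F) : sg Q h₂ c = sg Q h c := by
  subst hp hr
  rfl

/-- The Siegel transvection group of the line `⟨p, r⟩`. -/
def TT {p r : ι → F} (h : TSP Q p r) : Subgroup ↥(Cfsg.isometryGroup F ⇑Q) where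
  carrier := Set.range (sg Q h)
  one_mem' := ⟨0, sg_zero Q h⟩
  mul_mem' := by
    rintro _ _ ⟨c, rfl⟩ ⟨d, rfl⟩
    exact ⟨c + d, (sg_add Q h c d).symm⟩
  inv_mem' := by
    rintro _ ⟨c, rfl⟩
    exact ⟨-c, (sg_inv Q h c).symm⟩

theorem mem_TT {p r : ι → F} (h : TSP Q p r) (g : ↥(Cfsg.isometryGroup F ⇑Q)) :
    g ∈ TT Q h ↔ ∃ c, sg Q h c = g := Iff.rfl

theorem sg_mem_TT {p r : ι → F} (h : TSP Q p r) (c : F) : sg Q h c ∈ TT Q h := ⟨c, rfl⟩

theorem TT_basis {p r : ι → F} (h : TSP Q p r) (α β γ δ : F)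
    (h₂ : TSP Q (α • p + β • r) (γ • p + δ • r)) (hdet : α * δ - β * γ ≠ 0) :
    TT Q h₂ = TT Q h := by
  ext g
  constructor
  · rintro ⟨c, rfl⟩
    exact ⟨_, (sg_basis Q h α β γ δ h₂ c).symm⟩
  · rintro ⟨c, rfl⟩
    refine ⟨c / (α * δ - β * γ), ?_⟩
    rw [sg_basis Q h α β γ δ h₂, div_mul_cancel₀ _ hdet]

theorem TT_eq_of {p r p₂ r₂ : ι → F} (h : TSP Q p r) (h₂ : TSP Q p₂ r₂) (α β γ δ : F)
    (hp : p₂ = α • p + β • r) (hr : r₂ = γ • p + δ • r) (hdet : α * δ - β * γ ≠ 0) :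
    TT Q h₂ = TT Q h := by
  subst hp hr
  exact TT_basis Q h α β γ δ h₂ hdet

theorem TT_swap {p r : ι → F} (h : TSP Q p r) : TT Q h.swap = TT Q h :=
  TT_eq_of Q h h.swap 0 1 1 0 (by simp) (by simp) (by simp)

theorem conjBy_TT {p r : ι → F} (h : TSP Q p r) (g : ↥(Cfsg.isometryGroup F ⇑Q)) :
    Cfsg.conjBy (TT Q h) g = TT Q (h.map g) := by
  ext y
  constructor
  · rintro ⟨_, ⟨c, rfl⟩, rfl⟩
    exact ⟨c, (sg_conj Q h g c).symm⟩
  · rintro ⟨c, rfl⟩
    exact ⟨sg Q h c, ⟨c, rfl⟩, sg_conj Q h g c⟩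

theorem TT_isMulCommutative {p r : ι → F} (h : TSP Q p r) : IsMulCommutative ↥(TT Q h) := by
  rw [isMulCommutative_iff]
  rintro ⟨_, ⟨c, rfl⟩⟩ ⟨_, ⟨d, rfl⟩⟩
  apply Subtype.ext
  show sg Q h c * sg Q h d = sg Q h d * sg Q h c
  rw [sg_add, sg_add, add_comm]

end SgAct

section SgFix

variable {ι : Type} [Fintype ι] [DecidableEq ι] {F : Type*} [Field F]
variable (Q : QuadraticForm F (ι → F))

theorem not_mem_span_of_indep {p r : ι → F} (hi : LinearIndependent F ![p, r]) :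
    p ∉ Submodule.span F ({r} : Set (ι → F)) := by
  intro hp
  obtain ⟨t, ht⟩ := Submodule.mem_span_singleton.mp hp
  have h1 := (LinearIndependent.pair_iff.mp hi) 1 (-t)
    (by rw [one_smul, neg_smul, ht]; exact add_neg_cancel _)
  exact one_ne_zero h1.1

theorem indep_swap {p r : ι → F} (hi : LinearIndependent F ![p, r]) :
    LinearIndependent F ![r, p] := by
  rw [LinearIndependent.pair_iff] at hi ⊢
  intro s t hst
  have h1 := hi t s (by rw [add_comm]; exact hst)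
  exact ⟨h1.2, h1.1⟩

/-- Vectors dual to an independent pair. -/
theorem exists_dual_pair (hQ : (polarBilin Q).Nondegenerate) {p r : ι → F}
    (hi : LinearIndependent F ![p, r]) :
    ∃ x₁ x₂ : ι → F, polar ⇑Q x₁ p = 1 ∧ polar ⇑Q x₁ r = 0 ∧ polar ⇑Q x₂ p = 0 ∧
      polar ⇑Q x₂ r = 1 := by
  obtain ⟨x₁, h1, h1'⟩ := exists_polar_sep Q hQ (Submodule.span F ({r} : Set (ι → F))) p
    (not_mem_span_of_indep hi)
  obtain ⟨x₂, h2, h2'⟩ := exists_polar_sep Q hQ (Submodule.span F ({p} : Set (ι → F))) r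
    (not_mem_span_of_indep (indep_swap hi))
  exact ⟨x₁, x₂, h1, h1' r (Submodule.mem_span_singleton_self r),
    h2' p (Submodule.mem_span_singleton_self p), h2⟩

theorem sg_eq_one (hQ : (polarBilin Q).Nondegenerate) {p r : ι → F} (h : TSP Q p r)
    (hi : LinearIndependent F ![p, r]) {c : F} (hc : sg Q h c = 1) : c = 0 := by
  obtain ⟨x₁, x₂, h1p, h1r, h2p, h2r⟩ := exists_dual_pair Q hQ hi
  have h1 : ac Q (sg Q h c) x₁ = x₁ := by rw [hc, ac_one]
  rw [sg_ac, polar_comm ⇑Q r x₁, polar_comm ⇑Q p x₁, h1r, h1p] at h1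
  have hr0 : r ≠ 0 := LinearIndependent.ne_zero 1 hi
  have h2 : c • r = 0 := by
    have h3 : x₁ + c • ((0 : F) • p - (1 : F) • r) = x₁ + 0 := by rw [add_zero]; exact h1
    have h4 := add_left_cancel h3
    rw [zero_smul, one_smul, zero_sub, smul_neg, neg_eq_zero] at h4
    exact h4
  rcases smul_eq_zero.mp h2 with h5 | h5
  · exact h5
  · exact absurd h5 hr0

theorem TT_ne_bot (hQ : (polarBilin Q).Nondegenerate) {p r : ι → F} (h : TSP Q p r)
    (hi : LinearIndependent F ![p, r]) : TT Q h ≠ ⊥ := by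
  intro hb
  have h1 : sg Q h 1 ∈ TT Q h := sg_mem_TT Q h 1
  rw [hb, Subgroup.mem_bot] at h1
  exact one_ne_zero (sg_eq_one Q hQ h hi h1)

/-- An isometry fixing `⟨p, r⟩^⊥` pointwise is a Siegel transvection. -/
theorem mem_TT_of_fix (hQ : (polarBilin Q).Nondegenerate) {p r : ι → F} (h : TSP Q p r)
    (hi : LinearIndependent F ![p, r]) (σ : ↥(Cfsg.isometryGroup F ⇑Q))
    (hσ : ∀ v, polar ⇑Q v p = 0 → polar ⇑Q v r = 0 → ac Q σ v = v) : σ ∈ TT Q h := by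
  obtain ⟨x₁, x₂, h1p, h1r, h2p, h2r⟩ := exists_dual_pair Q hQ hi
  have hdec : ∀ x, polar ⇑Q (x - polar ⇑Q x p • x₁ - polar ⇑Q x r • x₂) p = 0 ∧
      polar ⇑Q (x - polar ⇑Q x p • x₁ - polar ⇑Q x r • x₂) r = 0 := by
    intro x
    constructor
    · rw [polar_sub_left, polar_sub_left, polar_smul_left, polar_smul_left, h1p, h2p]
      simp
    · rw [polar_sub_left, polar_sub_left, polar_smul_left, polar_smul_left, h1r, h2r]
      simp
  obtain ⟨u, hu⟩ : ∃ u, u = ac Q σ x₁ - x₁ := ⟨_, rfl⟩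
  obtain ⟨w, hw⟩ : ∃ w, w = ac Q σ x₂ - x₂ := ⟨_, rfl⟩
  have hact : ∀ x, ac Q σ x = x + polar ⇑Q x p • u + polar ⇑Q x r • w := by
    intro x
    have h0 := hσ _ (hdec x).1 (hdec x).2
    rw [ac_sub, ac_sub, ac_smul, ac_smul] at h0
    have h1 : ac Q σ x = (x - polar ⇑Q x p • x₁ - polar ⇑Q x r • x₂)
        + polar ⇑Q x p • ac Q σ x₁ + polar ⇑Q x r • ac Q σ x₂ := by
      rw [← h0]; abel
    rw [h1, hu, hw]
    module
  have hperp : ∀ z x₀ : ι → F, z = ac Q σ x₀ - x₀ →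
      ∀ y, polar ⇑Q y p = 0 → polar ⇑Q y r = 0 → polar ⇑Q z y = 0 := by
    intro z x₀ hz y hy1 hy2
    have h1 := polar_ac Q σ x₀ y
    rw [hσ y hy1 hy2] at h1
    rw [hz, polar_sub_left, h1, sub_self]
  have key : ∀ z : ι → F, (∀ y, polar ⇑Q y p = 0 → polar ⇑Q y r = 0 → polar ⇑Q z y = 0) →
      z = polar ⇑Q z x₁ • p + polar ⇑Q z x₂ • r := by
    intro z hz
    by_contra hne
    have hne' : z - (polar ⇑Q z x₁ • p + polar ⇑Q z x₂ • r) ≠ 0 := sub_ne_zero.mpr hne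
    obtain ⟨y, hy⟩ := exists_polar_ne_zero Q hQ _ hne'
    apply hy
    have hy0 := hz _ (hdec y).1 (hdec y).2
    rw [polar_sub_right, polar_sub_right, polar_smul_right, polar_smul_right] at hy0
    rw [polar_sub_left, polar_add_left, polar_smul_left, polar_smul_left,
      polar_comm ⇑Q p y, polar_comm ⇑Q r y]
    simp only [smul_eq_mul] at hy0 ⊢
    linear_combination hy0
  have hu' := key u (hperp u x₁ hu)
  have hw' := key w (hperp w x₂ hw)
  obtain ⟨u₁, hu₁⟩ : ∃ u₁, u₁ = polar ⇑Q u x₁ := ⟨_, rfl⟩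
  obtain ⟨u₂, hu₂⟩ : ∃ u₂, u₂ = polar ⇑Q u x₂ := ⟨_, rfl⟩
  obtain ⟨w₁, hw₁⟩ : ∃ w₁, w₁ = polar ⇑Q w x₁ := ⟨_, rfl⟩
  obtain ⟨w₂, hw₂⟩ : ∃ w₂, w₂ = polar ⇑Q w x₂ := ⟨_, rfl⟩
  rw [← hu₁, ← hu₂] at hu'
  rw [← hw₁, ← hw₂] at hw'
  have e1 : ac Q σ x₁ = x₁ + u₁ • p + u₂ • r := by
    rw [add_assoc, ← hu', hu]; abel
  have e2 : ac Q σ x₂ = x₂ + w₁ • p + w₂ • r := by
    rw [add_assoc, ← hw', hw]; abel
  have e3 : ac Q σ (x₁ + x₂) = (x₁ + x₂) + (u₁ + w₁) • p + (u₂ + w₂) • r := by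
    rw [ac_add, e1, e2]; module
  have q1 := Q_ac Q σ x₁
  rw [e1, Q_add_smul_add_smul, h.hp, h.hr, h.hpr, h1p, h1r] at q1
  have q2 := Q_ac Q σ x₂
  rw [e2, Q_add_smul_add_smul, h.hp, h.hr, h.hpr, h2p, h2r] at q2
  have q3 := Q_ac Q σ (x₁ + x₂)
  rw [e3, Q_add_smul_add_smul, h.hp, h.hr, h.hpr, polar_add_left, polar_add_left, h1p, h1r,
    h2p, h2r] at q3
  have hu1 : u₁ = 0 := by linear_combination q1
  have hw2 : w₂ = 0 := by linear_combination q2
  have hw1 : w₁ = -u₂ := by linear_combination q3 - q1 - q2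
  refine ⟨-u₂, ?_⟩
  apply ac_ext
  intro x
  rw [hact x, sg_ac, hu', hw', hu1, hw2, hw1, polar_comm ⇑Q r x, polar_comm ⇑Q p x]
  module

theorem sg_fix {p r : ι → F} (h : TSP Q p r) (c : F) (v : ι → F) (h1 : polar ⇑Q v p = 0)
    (h2 : polar ⇑Q v r = 0) : ac Q (sg Q h c) v = v := by
  rw [sg_ac, polar_comm ⇑Q r v, polar_comm ⇑Q p v, h1, h2]
  simp

/-- `TT h` is the group generated by (in fact, the set of) the isometries fixing `⟨p, r⟩^⊥`
pointwise. -/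
theorem closure_fix_eq_TT (hQ : (polarBilin Q).Nondegenerate) {p r : ι → F} (h : TSP Q p r)
    (hi : LinearIndependent F ![p, r]) :
    Subgroup.closure {σ : ↥(Cfsg.isometryGroup F ⇑Q) | ∀ v : ι → F, polar ⇑Q v p = 0 →
      polar ⇑Q v r = 0 →
        ((σ : Matrix.GeneralLinearGroup ι F) : Matrix ι ι F).mulVec v = v} = TT Q h := by
  apply le_antisymm
  · rw [Subgroup.closure_le]
    intro σ hσ
    exact mem_TT_of_fix Q hQ h hi σ hσ
  · rintro _ ⟨c, rfl⟩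
    apply Subgroup.subset_closure
    intro v h1 h2
    exact sg_fix Q h c v h1 h2

/-- Two Siegel transvection groups commute when the second line is moved by the first group
only inside itself along `p'`. -/
theorem TT_comm {p r p' r' : ι → F} (h : TSP Q p r) (h' : TSP Q p' r')
    (h1 : polar ⇑Q p p' = 0) (h2 : polar ⇑Q p r' = 0) (h3 : polar ⇑Q r p' = 0)
    (h4 : ∃ t : F, polar ⇑Q r r' • p = t • p') :
    ∀ a ∈ TT Q h, ∀ b ∈ TT Q h', a * b = b * a := by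
  rintro _ ⟨c, rfl⟩ _ ⟨d, rfl⟩
  obtain ⟨t, ht⟩ := h4
  have e1 : ac Q (sg Q h c) p' = (1 : F) • p' + (0 : F) • r' := by
    rw [sg_ac, h3, h1]; simp
  have e2 : ac Q (sg Q h c) r' = (c * t) • p' + (1 : F) • r' := by
    rw [sg_ac, h2, mul_smul, ← ht]; module
  have hconj := sg_conj Q h' (sg Q h c) d
  have hcomb := h'.comb 1 0 (c * t) 1
  have e3 : sg Q (h'.map (sg Q h c)) d = sg Q h' d := by
    rw [sg_congr Q hcomb (h'.map (sg Q h c)) e1 e2 d, sg_basis Q h' 1 0 (c * t) 1 hcomb d]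
    congr 1; ring
  rw [e3] at hconj
  calc sg Q h c * sg Q h' d = sg Q h c * sg Q h' d * (sg Q h c)⁻¹ * sg Q h c := by group
    _ = sg Q h' d * sg Q h c := by rw [hconj]

theorem TT_commutator_eq_bot {p r p' r' : ι → F} (h : TSP Q p r) (h' : TSP Q p' r')
    (h1 : polar ⇑Q p p' = 0) (h2 : polar ⇑Q p r' = 0) (h3 : polar ⇑Q r p' = 0)
    (h4 : ∃ t : F, polar ⇑Q r r' • p = t • p') : ⁅TT Q h, TT Q h'⁆ = ⊥ := by
  rw [Subgroup.commutator_eq_bot_iff_le_centralizer]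
  intro a ha
  rw [Subgroup.mem_centralizer_iff]
  intro b hb
  exact (TT_comm Q h h' h1 h2 h3 h4 a ha b hb).symm

/-- The commutator formula for two lines `⟨a, r⟩`, `⟨a', r'⟩` with `a ⊥ ⟨a', r'⟩`,
`a' ⊥ ⟨a, r⟩`, `f(r, r') = 1`. -/
theorem sg_commutator {a r a' r' : ι → F} (h : TSP Q a r) (h' : TSP Q a' r') (hN : TSP Q a' a)
    (h1 : polar ⇑Q a a' = 0) (h2 : polar ⇑Q a r' = 0) (h3 : polar ⇑Q r a' = 0)
    (h4 : polar ⇑Q r r' = 1) (c d : F) :
    sg Q h c * sg Q h' d * (sg Q h c)⁻¹ * (sg Q h' d)⁻¹ = sg Q hN (c * d) := by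
  have h2' : polar ⇑Q r' a = 0 := by rw [polar_comm]; exact h2
  have h3' : polar ⇑Q a' r = 0 := by rw [polar_comm]; exact h3
  have h4' : polar ⇑Q r' r = 1 := by rw [polar_comm]; exact h4
  rw [sg_inv, sg_inv]
  apply ac_ext
  intro x
  rw [ac_mul, ac_mul, ac_mul, sg_ac, sg_ac, sg_ac, sg_ac, sg_ac]
  simp only [polar_add_right, polar_sub_right, polar_smul_right, smul_eq_mul, h.hpp, h.hrr,
    h.hpr, h.hrp, h'.hpp, h'.hrr, h'.hpr, h'.hrp, hN.hpr, h1, h2, h3, h4, h2', h3', h4',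
    mul_zero, mul_one, sub_zero, add_zero, zero_sub]
  module

theorem rootCommCase_TT (S : Set (Subgroup ↥(Cfsg.isometryGroup F ⇑Q))) {a r a' r' : ι → F}
    (h : TSP Q a r) (h' : TSP Q a' r') (hN : TSP Q a' a) (hNS : TT Q hN ∈ S)
    (h1 : polar ⇑Q a a' = 0) (h2 : polar ⇑Q a r' = 0) (h3 : polar ⇑Q r a' = 0)
    (h4 : polar ⇑Q r r' = 1) : Cfsg.RootCommutatorCase S (TT Q h) (TT Q h') := by
  have hcomm_eq : ⁅TT Q h, TT Q h'⁆ = TT Q hN := by
    apply le_antisymm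
    · rw [Subgroup.commutator_le]
      rintro _ ⟨c, rfl⟩ _ ⟨d, rfl⟩
      rw [commutatorElement_def, sg_commutator Q h h' hN h1 h2 h3 h4]
      exact sg_mem_TT Q hN _
    · rintro _ ⟨e, rfl⟩
      have h5 := Subgroup.commutator_mem_commutator (sg_mem_TT Q h 1) (sg_mem_TT Q h' e)
      rw [commutatorElement_def, sg_commutator Q h h' hN h1 h2 h3 h4, one_mul] at h5
      exact h5
  have h3' : polar ⇑Q a' r = 0 := by rw [polar_comm]; exact h3
  have hNh : ∀ z ∈ TT Q hN, ∀ y ∈ TT Q h, z * y = y * z :=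
    TT_comm Q hN h hN.hpr h3' h.hpp ⟨0, by rw [h.hpr, zero_smul, zero_smul]⟩
  have hNh' : ∀ z ∈ TT Q hN, ∀ y ∈ TT Q h', z * y = y * z :=
    TT_comm Q hN h' h'.hpp h'.hpr h1 ⟨polar ⇑Q a r', rfl⟩
  refine ⟨by rw [hcomm_eq]; exact hNS, ?_, ?_, ?_⟩
  · intro z hz x hx
    rw [hcomm_eq] at hz
    have hle : TT Q h ⊔ TT Q h' ≤ Subgroup.centralizer ({z} : Set ↥(Cfsg.isometryGroup F ⇑Q)) := by
      apply sup_le
      · intro y hy
        rw [Subgroup.mem_centralizer_iff]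
        intro g hg
        rw [Set.mem_singleton_iff.mp hg]
        exact hNh z hz y hy
      · intro y hy
        rw [Subgroup.mem_centralizer_iff]
        intro g hg
        rw [Set.mem_singleton_iff.mp hg]
        exact hNh' z hz y hy
    exact Subgroup.mem_centralizer_iff.mp (hle hx) z rfl
  · rintro _ ⟨c, rfl⟩ hc1
    have hc : c ≠ 0 := fun h0 => hc1 (by rw [h0, sg_zero])
    rw [hcomm_eq]
    apply le_antisymm
    · rw [Subgroup.closure_le]
      rintro _ ⟨_, ⟨d, rfl⟩, rfl⟩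
      show sg Q h c * sg Q h' d * (sg Q h c)⁻¹ * (sg Q h' d)⁻¹ ∈ TT Q hN
      rw [sg_commutator Q h h' hN h1 h2 h3 h4]
      exact sg_mem_TT Q hN _
    · rintro _ ⟨e, rfl⟩
      apply Subgroup.subset_closure
      refine ⟨sg Q h' (e / c), sg_mem_TT Q h' _, ?_⟩
      show sg Q h c * sg Q h' (e / c) * (sg Q h c)⁻¹ * (sg Q h' (e / c))⁻¹ = sg Q hN e
      rw [sg_commutator Q h h' hN h1 h2 h3 h4, mul_div_cancel₀ e hc]
  · rintro _ ⟨d, rfl⟩ hd1
    have hd : d ≠ 0 := fun h0 => hd1 (by rw [h0, sg_zero])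
    rw [hcomm_eq]
    apply le_antisymm
    · rw [Subgroup.closure_le]
      rintro _ ⟨_, ⟨c, rfl⟩, rfl⟩
      show sg Q h c * sg Q h' d * (sg Q h c)⁻¹ * (sg Q h' d)⁻¹ ∈ TT Q hN
      rw [sg_commutator Q h h' hN h1 h2 h3 h4]
      exact sg_mem_TT Q hN _
    · rintro _ ⟨e, rfl⟩
      apply Subgroup.subset_closure
      refine ⟨sg Q h (e / d), sg_mem_TT Q h _, ?_⟩
      show sg Q h (e / d) * sg Q h' d * (sg Q h (e / d))⁻¹ * (sg Q h' d)⁻¹ = sg Q hN e
      rw [sg_commutator Q h h' hN h1 h2 h3 h4, div_mul_cancel₀ e hd]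

end SgFix

end Cfsg.Agent.Lib.Helper50
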