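import Mathlib
import Cfsg.Prelude.Def_RootSubgroups
import Cfsg.Agent.Lib.Helper50.SgBasic
import Cfsg.Agent.Lib.Helper50.SLRoot
import Cfsg.Agent.S5016

/-!
# Pairs of Siegel transvection groups (helper50)

Two opposite totally singular lines give a rank one pair which is an image of `SL₂`
(`rankOne_of_det`); any two Siegel transvection groups commute, form such a rank one pair, or
are in the commutator case (`pair_cases`); transfer of a set of root subgroups to the subgroup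
it generates (`root_set_transfer`).
-/

set_option autoImplicit false
set_option linter.unusedSectionVars false

namespace Cfsg.Agent.Lib.Helper50

open Module QuadraticMap
open Cfsg.Agent.Lib.Helper51 Cfsg.Agent.Lib.Helper52

section EmbTwo

variable {F : Type*} [Field F] {n k : Type*} [Fintype n] [Fintype k] [DecidableEq n]
  [DecidableEq k]

open Cfsg.Agent.Lib.Helper87 (embM embM_one embM_mul embM_eq_one)

theorem embM_mul_cross (P₁ : Matrix n k F) (Q₁ : Matrix k n F) (P₂ : Matrix n k F)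
    (Q₂ : Matrix k n F) (h : Q₁ * P₂ = 0) (M N : Matrix k k F) :
    embM P₁ Q₁ M * embM P₂ Q₂ N = 1 + P₁ * (M - 1) * Q₁ + P₂ * (N - 1) * Q₂ := by
  have hX : P₁ * (M - 1) * Q₁ * (P₂ * (N - 1) * Q₂) = 0 := by
    calc P₁ * (M - 1) * Q₁ * (P₂ * (N - 1) * Q₂)
        = P₁ * (M - 1) * (Q₁ * P₂) * (N - 1) * Q₂ := by simp only [Matrix.mul_assoc]
      _ = 0 := by rw [h]; simp
  have e : (1 + P₁ * (M - 1) * Q₁) * (1 + P₂ * (N - 1) * Q₂) =
      1 + P₁ * (M - 1) * Q₁ + P₂ * (N - 1) * Q₂ + P₁ * (M - 1) * Q₁ * (P₂ * (N - 1) * Q₂) := by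
    noncomm_ring
  rw [embM, embM, e, hX, add_zero]

theorem embM_comm_cross (P₁ : Matrix n k F) (Q₁ : Matrix k n F) (P₂ : Matrix n k F)
    (Q₂ : Matrix k n F) (h : Q₁ * P₂ = 0) (h' : Q₂ * P₁ = 0) (M N : Matrix k k F) :
    embM P₁ Q₁ M * embM P₂ Q₂ N = embM P₂ Q₂ N * embM P₁ Q₁ M := by
  rw [embM_mul_cross P₁ Q₁ P₂ Q₂ h, embM_mul_cross P₂ Q₂ P₁ Q₁ h']
  abel

theorem mul_four_swap {A B C D : Matrix n n F} (h : B * C = C * B) :
    A * B * (C * D) = A * C * (B * D) := by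
  calc A * B * (C * D) = A * (B * C) * D := by simp only [Matrix.mul_assoc]
    _ = A * (C * B) * D := by rw [h]
    _ = A * C * (B * D) := by simp only [Matrix.mul_assoc]

/-- The product of two commuting embeddings. -/
def embTwo (P₁ : Matrix n k F) (Q₁ : Matrix k n F) (P₂ : Matrix n k F) (Q₂ : Matrix k n F)
    (M : Matrix k k F) : Matrix n n F :=
  embM P₁ Q₁ M * embM P₂ Q₂ M

theorem embTwo_one (P₁ : Matrix n k F) (Q₁ : Matrix k n F) (P₂ : Matrix n k F)
    (Q₂ : Matrix k n F) : embTwo P₁ Q₁ P₂ Q₂ 1 = 1 := by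
  rw [embTwo, embM_one, embM_one, Matrix.mul_one]

theorem embTwo_mul (P₁ : Matrix n k F) (Q₁ : Matrix k n F) (P₂ : Matrix n k F)
    (Q₂ : Matrix k n F) (h₁ : Q₁ * P₁ = 1) (h₂ : Q₂ * P₂ = 1) (h : Q₁ * P₂ = 0)
    (h' : Q₂ * P₁ = 0) (M N : Matrix k k F) :
    embTwo P₁ Q₁ P₂ Q₂ (M * N) = embTwo P₁ Q₁ P₂ Q₂ M * embTwo P₁ Q₁ P₂ Q₂ N := by
  rw [embTwo, embTwo, embTwo, embM_mul _ _ h₁, embM_mul _ _ h₂]
  exact mul_four_swap (embM_comm_cross P₁ Q₁ P₂ Q₂ h h' N M)

theorem embTwo_eq_one (P₁ : Matrix n k F) (Q₁ : Matrix k n F) (P₂ : Matrix n k F)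
    (Q₂ : Matrix k n F) (h₁ : Q₁ * P₁ = 1) (h : Q₁ * P₂ = 0) {M : Matrix k k F}
    (hM : embTwo P₁ Q₁ P₂ Q₂ M = 1) : M = 1 := by
  rw [embTwo, embM_mul_cross P₁ Q₁ P₂ Q₂ h] at hM
  have h1 : P₁ * (M - 1) * Q₁ + P₂ * (M - 1) * Q₂ = 0 := by
    have h2 : (1 : Matrix n n F) + (P₁ * (M - 1) * Q₁ + P₂ * (M - 1) * Q₂) = 1 + 0 := by
      rw [add_zero, ← add_assoc]; exact hM
    exact add_left_cancel h2
  have h3 : Q₁ * (P₁ * (M - 1) * Q₁ + P₂ * (M - 1) * Q₂) * P₁ = M - 1 := by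
    calc Q₁ * (P₁ * (M - 1) * Q₁ + P₂ * (M - 1) * Q₂) * P₁
        = (Q₁ * P₁) * (M - 1) * (Q₁ * P₁) + (Q₁ * P₂) * (M - 1) * (Q₂ * P₁) := by
          simp only [Matrix.mul_add, Matrix.add_mul, Matrix.mul_assoc]
      _ = M - 1 := by rw [h₁, h]; simp
  rw [h1, Matrix.mul_zero, Matrix.zero_mul] at h3
  exact sub_eq_zero.1 h3.symm

end EmbTwo

section SgRank

variable {ι : Type} [Fintype ι] [DecidableEq ι] {F : Type*} [Field F]
variable (Q : QuadraticForm F (ι → F))

open Cfsg.Agent.Lib.Helper87 (embM embM_one embM_mul embM_eq_one fin2_01 fin2_10 upper_eq_range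
  lower_eq_range upper_sup_lower)

theorem embQL_mul_embPL_zero {u φ v ψ : ι → F} (hψu : ψ ⬝ᵥ u = 0) (hψv : ψ ⬝ᵥ v = 0)
    (hφu : φ ⬝ᵥ u = 0) (hφv : φ ⬝ᵥ v = 0) : embQL ψ φ * embPL u v = 0 := by
  ext i j
  have e : (embQL ψ φ * embPL u v) i j = (embQL ψ φ i) ⬝ᵥ (fun a => embPL u v a j) := rfl
  rw [e]
  fin_cases i <;> fin_cases j
  · show ψ ⬝ᵥ u = 0
    exact hψu
  · show ψ ⬝ᵥ v = 0
    exact hψv
  · show φ ⬝ᵥ u = 0
    exact hφu
  · show φ ⬝ᵥ v = 0
    exact hφv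

/-- Two totally singular pairs in opposite position, with normalised Gram matrix. -/
structure Opp (p r p' r' : ι → F) : Prop where
  h : TSP Q p r
  h' : TSP Q p' r'
  g11 : polar ⇑Q p p' = 0
  g12 : polar ⇑Q p r' = 1
  g21 : polar ⇑Q r p' = -1
  g22 : polar ⇑Q r r' = 0

/-- The matrix of the image of `M` under the embedding of `SL₂` attached to an opposite pair. -/
def sgE (p r p' r' : ι → F) (M : Matrix (Fin 2) (Fin 2) F) : Matrix ι ι F :=
  embTwo (embPL p p') (embQL (Cfsg.polarVec ⇑Q r') (-Cfsg.polarVec ⇑Q r))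
    (embPL r r') (embQL (-Cfsg.polarVec ⇑Q p') (Cfsg.polarVec ⇑Q p)) M

variable {Q}

theorem Opp.qp1 {p r p' r' : ι → F} (o : Opp Q p r p' r') :
    embQL (Cfsg.polarVec ⇑Q r') (-Cfsg.polarVec ⇑Q r) * embPL p p' = 1 := by
  apply embQL_mul_embPL
  · rw [polarVec_dotProduct, polar_comm, o.g12]
  · rw [polarVec_dotProduct, o.h'.hrp]
  · rw [neg_dotProduct, polarVec_dotProduct, o.h.hrp, neg_zero]
  · rw [neg_dotProduct, polarVec_dotProduct, o.g21, neg_neg]

theorem Opp.qp2 {p r p' r' : ι → F} (o : Opp Q p r p' r') :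
    embQL (-Cfsg.polarVec ⇑Q p') (Cfsg.polarVec ⇑Q p) * embPL r r' = 1 := by
  apply embQL_mul_embPL
  · rw [neg_dotProduct, polarVec_dotProduct, polar_comm, o.g21, neg_neg]
  · rw [neg_dotProduct, polarVec_dotProduct, o.h'.hpr, neg_zero]
  · rw [polarVec_dotProduct, o.h.hpr]
  · rw [polarVec_dotProduct, o.g12]

theorem Opp.qp12 {p r p' r' : ι → F} (o : Opp Q p r p' r') :
    embQL (Cfsg.polarVec ⇑Q r') (-Cfsg.polarVec ⇑Q r) * embPL r r' = 0 := by
  apply embQL_mul_embPL_zero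
  · rw [polarVec_dotProduct, polar_comm, o.g22]
  · rw [polarVec_dotProduct, o.h'.hrr]
  · rw [neg_dotProduct, polarVec_dotProduct, o.h.hrr, neg_zero]
  · rw [neg_dotProduct, polarVec_dotProduct, o.g22, neg_zero]

theorem Opp.qp21 {p r p' r' : ι → F} (o : Opp Q p r p' r') :
    embQL (-Cfsg.polarVec ⇑Q p') (Cfsg.polarVec ⇑Q p) * embPL p p' = 0 := by
  apply embQL_mul_embPL_zero
  · rw [neg_dotProduct, polarVec_dotProduct, polar_comm, o.g11, neg_zero]
  · rw [neg_dotProduct, polarVec_dotProduct, o.h'.hpp, neg_zero]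
  · rw [polarVec_dotProduct, o.h.hpp]
  · rw [polarVec_dotProduct, o.g11]

theorem sgE_one (p r p' r' : ι → F) : sgE Q p r p' r' 1 = 1 := embTwo_one _ _ _ _

theorem sgE_mul {p r p' r' : ι → F} (o : Opp Q p r p' r') (M N : Matrix (Fin 2) (Fin 2) F) :
    sgE Q p r p' r' (M * N) = sgE Q p r p' r' M * sgE Q p r p' r' N :=
  embTwo_mul _ _ _ _ o.qp1 o.qp2 o.qp12 o.qp21 M N

theorem sgE_eq_one {p r p' r' : ι → F} (o : Opp Q p r p' r') {M : Matrix (Fin 2) (Fin 2) F}
    (hM : sgE Q p r p' r' M = 1) : M = 1 :=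
  embTwo_eq_one _ _ _ _ o.qp1 o.qp12 hM

theorem sgE_transv01 {p r p' r' : ι → F} (o : Opp Q p r p' r') (x : F) :
    sgE Q p r p' r'
      (Matrix.SpecialLinearGroup.transvection fin2_01 x : Matrix (Fin 2) (Fin 2) F) =
      (((sg Q o.h (-x) : ↥(Cfsg.isometryGroup F ⇑Q)) : Matrix.GeneralLinearGroup ι F) :
        Matrix ι ι F) := by
  have ha : (-Cfsg.polarVec ⇑Q r) ⬝ᵥ p = 0 := by
    rw [neg_dotProduct, polarVec_dotProduct, o.h.hrp, neg_zero]
  have hb : (Cfsg.polarVec ⇑Q p) ⬝ᵥ r = 0 := by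
    rw [polarVec_dotProduct, o.h.hpr]
  apply matrix_ext_mulVec
  intro y
  have e := sg_ac Q o.h (-x) y
  unfold ac at e
  rw [e, sgE, embTwo, embM_transv01 p' (Cfsg.polarVec ⇑Q r') ha x,
    embM_transv01 r' (-Cfsg.polarVec ⇑Q p') hb x, ← Matrix.mulVec_mulVec, tL_mulVec hb,
    tL_mulVec ha, dotProduct_add, dotProduct_smul, neg_dotProduct, neg_dotProduct,
    polarVec_dotProduct, polarVec_dotProduct, polarVec_dotProduct, o.h.hrr]
  simp only [smul_eq_mul, mul_zero, neg_zero, add_zero]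
  module

theorem sgE_transv10 {p r p' r' : ι → F} (o : Opp Q p r p' r') (x : F) :
    sgE Q p r p' r'
      (Matrix.SpecialLinearGroup.transvection fin2_10 x : Matrix (Fin 2) (Fin 2) F) =
      (((sg Q o.h' x : ↥(Cfsg.isometryGroup F ⇑Q)) : Matrix.GeneralLinearGroup ι F) :
        Matrix ι ι F) := by
  have ha : (Cfsg.polarVec ⇑Q r') ⬝ᵥ p' = 0 := by
    rw [polarVec_dotProduct, o.h'.hrp]
  have hb : (-Cfsg.polarVec ⇑Q p') ⬝ᵥ r' = 0 := by
    rw [neg_dotProduct, polarVec_dotProduct, o.h'.hpr, neg_zero]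
  apply matrix_ext_mulVec
  intro y
  have e := sg_ac Q o.h' x y
  unfold ac at e
  rw [e, sgE, embTwo, embM_transv10 p (-Cfsg.polarVec ⇑Q r) ha x,
    embM_transv10 r (Cfsg.polarVec ⇑Q p) hb x, ← Matrix.mulVec_mulVec, tL_mulVec hb,
    tL_mulVec ha, dotProduct_add, dotProduct_smul, neg_dotProduct,
    polarVec_dotProduct, polarVec_dotProduct, polarVec_dotProduct, o.h'.hrr]
  simp only [smul_eq_mul, mul_zero, add_zero]
  module

theorem exists_sgE {p r p' r' : ι → F} (o : Opp Q p r p' r')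
    (M : Matrix.SpecialLinearGroup (Fin 2) F) :
    ∃ σ : ↥(Cfsg.isometryGroup F ⇑Q),
      ((σ : Matrix.GeneralLinearGroup ι F) : Matrix ι ι F) =
        sgE Q p r p' r' (M : Matrix (Fin 2) (Fin 2) F) := by
  let H : Subgroup (Matrix.SpecialLinearGroup (Fin 2) F) :=
    { carrier := {M | ∃ σ : ↥(Cfsg.isometryGroup F ⇑Q),
        ((σ : Matrix.GeneralLinearGroup ι F) : Matrix ι ι F) =
          sgE Q p r p' r' (M : Matrix (Fin 2) (Fin 2) F)}
      one_mem' := ⟨1, by rw [Matrix.SpecialLinearGroup.coe_one, sgE_one]; rfl⟩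
      mul_mem' := by
        rintro A B ⟨σ, hσ⟩ ⟨τ, hτ⟩
        refine ⟨σ * τ, ?_⟩
        rw [coe_mul', hσ, hτ, Matrix.SpecialLinearGroup.coe_mul, sgE_mul o]
      inv_mem' := by
        rintro A ⟨σ, hσ⟩
        refine ⟨σ⁻¹, ?_⟩
        have h1 : sgE Q p r p' r' (A : Matrix (Fin 2) (Fin 2) F) *
            sgE Q p r p' r' ((A⁻¹ : Matrix.SpecialLinearGroup (Fin 2) F) :
              Matrix (Fin 2) (Fin 2) F) = 1 := by
          rw [← sgE_mul o, ← Matrix.SpecialLinearGroup.coe_mul, mul_inv_cancel,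
            Matrix.SpecialLinearGroup.coe_one, sgE_one]
        have h2 : (((σ⁻¹ : ↥(Cfsg.isometryGroup F ⇑Q)) : Matrix.GeneralLinearGroup ι F) :
            Matrix ι ι F) * ((σ : Matrix.GeneralLinearGroup ι F) : Matrix ι ι F) = 1 := by
          rw [← coe_mul', inv_mul_cancel]; rfl
        calc (((σ⁻¹ : ↥(Cfsg.isometryGroup F ⇑Q)) : Matrix.GeneralLinearGroup ι F) :
              Matrix ι ι F)
            = (((σ⁻¹ : ↥(Cfsg.isometryGroup F ⇑Q)) : Matrix.GeneralLinearGroup ι F) :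
              Matrix ι ι F) * (sgE Q p r p' r' (A : Matrix (Fin 2) (Fin 2) F) *
                sgE Q p r p' r' ((A⁻¹ : Matrix.SpecialLinearGroup (Fin 2) F) :
                  Matrix (Fin 2) (Fin 2) F)) := by rw [h1, Matrix.mul_one]
          _ = sgE Q p r p' r' ((A⁻¹ : Matrix.SpecialLinearGroup (Fin 2) F) :
                  Matrix (Fin 2) (Fin 2) F) := by
              rw [← Matrix.mul_assoc, ← hσ, h2, Matrix.one_mul] }
  have hH : H = ⊤ := by
    apply Cfsg.Agent.Lib.Helper47.eq_top_of_transvection_mem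
    intro i j hij c
    fin_cases i <;> fin_cases j
    · exact absurd rfl hij
    · exact ⟨sg Q o.h (-c), (sgE_transv01 o c).symm⟩
    · exact ⟨sg Q o.h' c, (sgE_transv10 o c).symm⟩
    · exact absurd rfl hij
  have hM : M ∈ H := by
    rw [hH]
    trivial
  exact hM

/-- The homomorphism `SL₂(F) → O(Q)` attached to an opposite pair of singular lines. -/
noncomputable def sgEmb {p r p' r' : ι → F} (o : Opp Q p r p' r') :
    Matrix.SpecialLinearGroup (Fin 2) F →* ↥(Cfsg.isometryGroup F ⇑Q) :=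
  MonoidHom.mk' (fun M => Classical.choose (exists_sgE o M)) (fun M N => by
    apply isometry_ext
    rw [coe_mul', Classical.choose_spec (exists_sgE o (M * N)),
      Classical.choose_spec (exists_sgE o M), Classical.choose_spec (exists_sgE o N),
      Matrix.SpecialLinearGroup.coe_mul, sgE_mul o])

theorem sgEmb_coe {p r p' r' : ι → F} (o : Opp Q p r p' r')
    (M : Matrix.SpecialLinearGroup (Fin 2) F) :
    (((sgEmb o M : ↥(Cfsg.isometryGroup F ⇑Q)) : Matrix.GeneralLinearGroup ι F) :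
      Matrix ι ι F) = sgE Q p r p' r' (M : Matrix (Fin 2) (Fin 2) F) :=
  Classical.choose_spec (exists_sgE o M)

theorem sgEmb_transv01 {p r p' r' : ι → F} (o : Opp Q p r p' r') (x : F) :
    sgEmb o (Matrix.SpecialLinearGroup.transvection fin2_01 x) = sg Q o.h (-x) := by
  apply isometry_ext
  rw [sgEmb_coe, sgE_transv01 o]

theorem sgEmb_transv10 {p r p' r' : ι → F} (o : Opp Q p r p' r') (x : F) :
    sgEmb o (Matrix.SpecialLinearGroup.transvection fin2_10 x) = sg Q o.h' x := by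
  apply isometry_ext
  rw [sgEmb_coe, sgE_transv10 o]

theorem sgEmb_injective {p r p' r' : ι → F} (o : Opp Q p r p' r') :
    Function.Injective (sgEmb o) := by
  rw [injective_iff_map_eq_one]
  intro M hM
  have h1 : sgE Q p r p' r' (M : Matrix (Fin 2) (Fin 2) F) = 1 := by
    rw [← sgEmb_coe o, hM]; rfl
  exact Subtype.ext (sgE_eq_one o h1)

theorem map_upper_sgEmb {p r p' r' : ι → F} (o : Opp Q p r p' r') :
    (Cfsg.upperUnipotentSL2 F).map (sgEmb o) = TT Q o.h := by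
  show (Subgroup.closure _).map (sgEmb o) = TT Q o.h
  rw [upper_eq_range, MonoidHom.map_closure]
  apply le_antisymm
  · rw [Subgroup.closure_le]
    rintro _ ⟨_, ⟨x, rfl⟩, rfl⟩
    exact ⟨-x, (sgEmb_transv01 o x).symm⟩
  · rintro _ ⟨c, rfl⟩
    apply Subgroup.subset_closure
    refine ⟨_, ⟨-c, rfl⟩, ?_⟩
    rw [sgEmb_transv01 o, neg_neg]

theorem map_lower_sgEmb {p r p' r' : ι → F} (o : Opp Q p r p' r') :
    (Cfsg.lowerUnipotentSL2 F).map (sgEmb o) = TT Q o.h' := by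
  show (Subgroup.closure _).map (sgEmb o) = TT Q o.h'
  rw [lower_eq_range, MonoidHom.map_closure]
  apply le_antisymm
  · rw [Subgroup.closure_le]
    rintro _ ⟨_, ⟨x, rfl⟩, rfl⟩
    exact ⟨x, (sgEmb_transv10 o x).symm⟩
  · rintro _ ⟨c, rfl⟩
    apply Subgroup.subset_closure
    exact ⟨_, ⟨c, rfl⟩, sgEmb_transv10 o c⟩

theorem isPSL2Pair_TT {p r p' r' : ι → F} (o : Opp Q p r p' r') :
    Cfsg.IsPSL2PairOver F (TT Q o.h) (TT Q o.h') := by
  refine ⟨sgEmb o, ?_, ?_, map_upper_sgEmb o, map_lower_sgEmb o⟩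
  · rw [MonoidHom.range_eq_map, ← upper_sup_lower F, Subgroup.map_sup, map_upper_sgEmb,
      map_lower_sgEmb]
  · rw [(MonoidHom.ker_eq_bot_iff (sgEmb o)).mpr (sgEmb_injective o)]
    exact bot_le

theorem isRankOnePair_TT {p r p' r' : ι → F} (o : Opp Q p r p' r') :
    Cfsg.IsRankOnePair (TT Q o.h) (TT Q o.h') := by
  have h1 : Cfsg.IsRankOnePair (Cfsg.upperUnipotentSL2 F) (Cfsg.lowerUnipotentSL2 F) :=
    Cfsg.RankOnePair_symm (Cfsg.Agent.S5016.result F).1.2
  have h2 := (Cfsg.Agent.Lib.Helper87.isRankOnePair_map_iff (sgEmb o) (sgEmb_injective o)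
    _ _).2 h1
  rw [map_upper_sgEmb, map_lower_sgEmb] at h2
  exact h2

variable (Q)

/-- Opposite lines (non-singular Gram matrix) give a rank one pair that is an image of `SL₂`. -/
theorem rankOne_of_det {p r p' r' : ι → F} (h : TSP Q p r) (h' : TSP Q p' r')
    (hdet : polar ⇑Q p p' * polar ⇑Q r r' - polar ⇑Q p r' * polar ⇑Q r p' ≠ 0) :
    Cfsg.IsRankOnePair (TT Q h) (TT Q h') ∧ Cfsg.IsPSL2PairOver F (TT Q h) (TT Q h') := by
  obtain ⟨d, hd⟩ : ∃ d, d = polar ⇑Q p p' * polar ⇑Q r r' - polar ⇑Q p r' * polar ⇑Q r p' :=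
    ⟨_, rfl⟩
  rw [← hd] at hdet
  have h'' := h'.comb (polar ⇑Q p r' / d) (-polar ⇑Q p p' / d) (polar ⇑Q r r' / d)
    (-polar ⇑Q r p' / d)
  have hT : TT Q h'' = TT Q h' := by
    apply TT_basis Q h'
    have e : polar ⇑Q p r' / d * (-polar ⇑Q r p' / d) - -polar ⇑Q p p' / d * (polar ⇑Q r r' / d)
        = 1 / d := by
      field_simp
      rw [hd]; ring
    rw [e]
    exact one_div_ne_zero hdet
  have o : Opp Q p r ((polar ⇑Q p r' / d) • p' + (-polar ⇑Q p p' / d) • r')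
      ((polar ⇑Q r r' / d) • p' + (-polar ⇑Q r p' / d) • r') := by
    refine ⟨h, h'', ?_, ?_, ?_, ?_⟩
    · simp only [polar_add_right, polar_smul_right, smul_eq_mul]
      field_simp
      ring
    · simp only [polar_add_right, polar_smul_right, smul_eq_mul]
      field_simp
      rw [hd]; ring
    · simp only [polar_add_right, polar_smul_right, smul_eq_mul]
      field_simp
      rw [hd]; ring
    · simp only [polar_add_right, polar_smul_right, smul_eq_mul]
      field_simp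
      ring
  have h1 := isRankOnePair_TT o
  have h2 := isPSL2Pair_TT o
  rw [hT] at h1 h2
  exact ⟨h1, h2⟩

end SgRank

section RootTransfer2

variable {G : Type*} [Group G]

open Cfsg.Agent.Lib.Helper87 (isRankOnePair_map_iff commutator_map_eq_bot_iff
  subgroupOf_isMulCommutative isPSL2PairOver_subgroupOf rankOnePair_commutator_ne_bot
  not_rootCommutatorCase_of_rankOnePair conjBy_map)

theorem rootCommCase_subgroupOf (S : Set (Subgroup G)) (K : Subgroup G)
    (hle : ∀ A ∈ S, A ≤ K) {A B : Subgroup G} (hA : A ≤ K) (hB : B ≤ K)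
    (hc : Cfsg.RootCommutatorCase S A B) :
    Cfsg.RootCommutatorCase ((fun A : Subgroup G => A.subgroupOf K) '' S) (A.subgroupOf K)
      (B.subgroupOf K) := by
  obtain ⟨hmem, hcent, hl, hr⟩ := hc
  have hinj : Function.Injective K.subtype := K.subtype_injective
  have hmA : (A.subgroupOf K).map K.subtype = A := Subgroup.map_subgroupOf_eq_of_le hA
  have hmB : (B.subgroupOf K).map K.subtype = B := Subgroup.map_subgroupOf_eq_of_le hB
  have hmC : (⁅A.subgroupOf K, B.subgroupOf K⁆).map K.subtype = ⁅A, B⁆ := by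
    rw [Subgroup.map_commutator, hmA, hmB]
  refine ⟨⟨⁅A, B⁆, hmem, ?_⟩, ?_, ?_, ?_⟩
  · apply Subgroup.map_injective hinj
    show ((⁅A, B⁆).subgroupOf K).map K.subtype = (⁅A.subgroupOf K, B.subgroupOf K⁆).map K.subtype
    rw [Subgroup.map_subgroupOf_eq_of_le (hle _ hmem), hmC]
  · intro c hc x hx
    apply Subtype.ext
    have h1 : (c : G) ∈ ⁅A, B⁆ := by
      rw [← hmC]; exact Subgroup.mem_map_of_mem _ hc
    have h2 : (x : G) ∈ A ⊔ B := by
      rw [← hmA, ← hmB, ← Subgroup.map_sup]; exact Subgroup.mem_map_of_mem _ hx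
    exact hcent _ h1 _ h2
  · intro a ha ha1
    apply Subgroup.map_injective hinj
    rw [MonoidHom.map_closure, hmC]
    have h1 : (a : G) ∈ A := Subgroup.mem_subgroupOf.mp ha
    have h2 : (a : G) ≠ 1 := fun h => ha1 (Subtype.ext h)
    rw [← hl (a : G) h1 h2]
    congr 1
    ext y
    constructor
    · rintro ⟨_, ⟨b, hb, rfl⟩, rfl⟩
      exact ⟨(b : G), Subgroup.mem_subgroupOf.mp hb, rfl⟩
    · rintro ⟨b, hb, rfl⟩
      exact ⟨_, ⟨⟨b, hB hb⟩, Subgroup.mem_subgroupOf.mpr hb, rfl⟩, rfl⟩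
  · intro b hb hb1
    apply Subgroup.map_injective hinj
    rw [MonoidHom.map_closure, hmC]
    have h1 : (b : G) ∈ B := Subgroup.mem_subgroupOf.mp hb
    have h2 : (b : G) ≠ 1 := fun h => hb1 (Subtype.ext h)
    rw [← hr (b : G) h1 h2]
    congr 1
    ext y
    constructor
    · rintro ⟨_, ⟨a, ha, rfl⟩, rfl⟩
      exact ⟨(a : G), Subgroup.mem_subgroupOf.mp ha, rfl⟩
    · rintro ⟨a, ha, rfl⟩
      exact ⟨_, ⟨⟨a, hA ha⟩, Subgroup.mem_subgroupOf.mpr ha, rfl⟩, rfl⟩

/-- Transfer of a system of root subgroups of `G` (with all three cases allowed) to the subgroup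
it generates. -/
theorem root_set_transfer (L : Type*) [Field L] (S : Set (Subgroup G))
    (hcomm : ∀ A ∈ S, IsMulCommutative ↥A) (hne : ∀ A ∈ S, A ≠ ⊥)
    (hconj : ∀ A ∈ S, ∀ g : G, Cfsg.conjBy A g ∈ S)
    (hpair : ∀ A ∈ S, ∀ B ∈ S, ⁅A, B⁆ = ⊥ ∨
      (Cfsg.IsRankOnePair A B ∧ Cfsg.IsPSL2PairOver L A B) ∨ Cfsg.RootCommutatorCase S A B) :
    Cfsg.IsKRootSubgroupSet L ((fun A : Subgroup G => A.subgroupOf (⨆ B ∈ S, B)) '' S) := by
  have hle : ∀ A ∈ S, A ≤ ⨆ B ∈ S, B := fun A hA =>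
    le_iSup₂ (f := fun (B : Subgroup G) (_ : B ∈ S) => B) A hA
  generalize hK : (⨆ B ∈ S, B) = K at hle ⊢
  have hinj : Function.Injective K.subtype := K.subtype_injective
  have hmap : ∀ A ∈ S, (A.subgroupOf K).map K.subtype = A := fun A hA =>
    Subgroup.map_subgroupOf_eq_of_le (hle A hA)
  have hrk : ∀ A ∈ S, ∀ B ∈ S,
      (Cfsg.IsRankOnePair (A.subgroupOf K) (B.subgroupOf K) ↔ Cfsg.IsRankOnePair A B) := by
    intro A hA B hB
    rw [← isRankOnePair_map_iff K.subtype hinj, hmap A hA, hmap B hB]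
  have hcm : ∀ A ∈ S, ∀ B ∈ S, (⁅A.subgroupOf K, B.subgroupOf K⁆ = ⊥ ↔ ⁅A, B⁆ = ⊥) := by
    intro A hA B hB
    rw [← commutator_map_eq_bot_iff K.subtype hinj, hmap A hA, hmap B hB]
  have hgen : (⨆ A' ∈ (fun A : Subgroup G => A.subgroupOf K) '' S, A') = ⊤ := by
    apply Subgroup.map_injective hinj
    rw [iSup_image, Subgroup.map_iSup]
    have h1 : ∀ A : Subgroup G,
        (⨆ (_ : A ∈ S), A.subgroupOf K).map K.subtype = ⨆ (_ : A ∈ S), A := by
      intro A
      rw [Subgroup.map_iSup]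
      exact iSup_congr (fun hA => hmap A hA)
    rw [iSup_congr h1, hK, ← MonoidHom.range_eq_map, Subgroup.range_subtype]
  refine ⟨⟨?_, ?_, hgen, ?_, ?_⟩, ?_⟩
  · rintro _ ⟨A, hA, rfl⟩
    exact subgroupOf_isMulCommutative K (hcomm A hA)
  · rintro _ ⟨A, hA, rfl⟩ h0
    have h0' : A.subgroupOf K = ⊥ := h0
    apply hne A hA
    rw [← hmap A hA, h0', Subgroup.map_bot]
  · rintro _ ⟨A, hA, rfl⟩ g
    refine ⟨Cfsg.conjBy A (g : G), hconj A hA g, ?_⟩
    apply Subgroup.map_injective hinj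
    show ((Cfsg.conjBy A (g : G)).subgroupOf K).map K.subtype =
      (Cfsg.conjBy (A.subgroupOf K) g).map K.subtype
    rw [hmap _ (hconj A hA g), ← conjBy_map, hmap A hA]
    rfl
  · rintro _ ⟨A, hA, rfl⟩ _ ⟨B, hB, rfl⟩
    rcases hpair A hA B hB with h | h | h
    · exact Or.inl ((hcm A hA B hB).2 h)
    · exact Or.inr (Or.inl ((hrk A hA B hB).2 h.1))
    · exact Or.inr (Or.inr (rootCommCase_subgroupOf S K hle (hle A hA) (hle B hB) h))
  · rintro _ ⟨A, hA, rfl⟩ _ ⟨B, hB, rfl⟩ hAB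
    have hAB' := (hrk A hA B hB).1 hAB
    rcases hpair A hA B hB with h | h | h
    · exact absurd h (rankOnePair_commutator_ne_bot hAB')
    · exact isPSL2PairOver_subgroupOf L K (hle A hA) (hle B hB) h.2
    · exact absurd h (not_rootCommutatorCase_of_rankOnePair hAB' (hcomm B hB))

end RootTransfer2

section SgTri

variable {ι : Type} [Fintype ι] [DecidableEq ι] {F : Type*} [Field F]
variable (Q : QuadraticForm F (ι → F))

/-- The set of all Siegel transvection groups of totally singular lines. -/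
def SigQ : Set (Subgroup ↥(Cfsg.isometryGroup F ⇑Q)) :=
  {A | ∃ (p r : ι → F) (h : TSP Q p r), LinearIndependent F ![p, r] ∧ A = TT Q h}

theorem TT_mem_SigQ {p r : ι → F} (h : TSP Q p r) (hi : LinearIndependent F ![p, r]) :
    TT Q h ∈ SigQ Q := ⟨p, r, h, hi, rfl⟩

theorem pair_cases_aux {p r p' r' : ι → F} (h : TSP Q p r) (h' : TSP Q p' r')
    (hi' : LinearIndependent F ![p', r'])
    (hdet : polar ⇑Q p p' * polar ⇑Q r r' - polar ⇑Q p r' * polar ⇑Q r p' = 0)
    (hg : polar ⇑Q r r' ≠ 0) :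
    ⁅TT Q h, TT Q h'⁆ = ⊥ ∨ Cfsg.RootCommutatorCase (SigQ Q) (TT Q h) (TT Q h') := by
  have hA := h.comb (polar ⇑Q r r') (-polar ⇑Q p r') 0 1
  have hA' := h'.comb (polar ⇑Q r r') (-polar ⇑Q r p') 0 (polar ⇑Q r r')⁻¹
  have hTA : TT Q hA = TT Q h := by
    apply TT_basis Q h
    rw [mul_one, mul_zero, sub_zero]
    exact hg
  have hTA' : TT Q hA' = TT Q h' := by
    apply TT_basis Q h'
    rw [mul_inv_cancel₀ hg, mul_zero, sub_zero]
    exact one_ne_zero
  have k1 : polar ⇑Q (polar ⇑Q r r' • p + (-polar ⇑Q p r') • r)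
      (polar ⇑Q r r' • p' + (-polar ⇑Q r p') • r') = 0 := by
    simp only [polar_add_left, polar_add_right, polar_smul_left, polar_smul_right, smul_eq_mul]
    linear_combination polar ⇑Q r r' * hdet
  have k2 : polar ⇑Q (polar ⇑Q r r' • p + (-polar ⇑Q p r') • r)
      ((0 : F) • p' + (polar ⇑Q r r')⁻¹ • r') = 0 := by
    simp only [polar_add_left, polar_add_right, polar_smul_left, polar_smul_right, smul_eq_mul]
    ring
  have k3 : polar ⇑Q ((0 : F) • p + (1 : F) • r)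
      (polar ⇑Q r r' • p' + (-polar ⇑Q r p') • r') = 0 := by
    simp only [polar_add_left, polar_add_right, polar_smul_left, polar_smul_right, smul_eq_mul]
    ring
  have k4 : polar ⇑Q ((0 : F) • p + (1 : F) • r) ((0 : F) • p' + (polar ⇑Q r r')⁻¹ • r') = 1 := by
    simp only [polar_add_left, polar_add_right, polar_smul_left, polar_smul_right, smul_eq_mul]
    have h9 : (polar ⇑Q r r')⁻¹ * polar ⇑Q r r' = 1 := inv_mul_cancel₀ hg
    linear_combination h9
  have ha' : polar ⇑Q r r' • p' + (-polar ⇑Q r p') • r' ≠ 0 := by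
    intro h0
    exact hg ((LinearIndependent.pair_iff.mp hi') _ _ h0).1
  by_cases hind : LinearIndependent F ![polar ⇑Q r r' • p' + (-polar ⇑Q r p') • r',
      polar ⇑Q r r' • p + (-polar ⇑Q p r') • r]
  · right
    have hN : TSP Q (polar ⇑Q r r' • p' + (-polar ⇑Q r p') • r')
        (polar ⇑Q r r' • p + (-polar ⇑Q p r') • r) :=
      ⟨hA'.hp, hA.hp, by rw [polar_comm]; exact k1⟩
    have h5 := rootCommCase_TT Q (SigQ Q) hA hA' hN (TT_mem_SigQ Q hN hind) k1 k2 k3 k4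
    rw [hTA, hTA'] at h5
    exact h5
  · left
    rw [LinearIndependent.pair_iff] at hind
    push Not at hind
    obtain ⟨s, t, hst, hne⟩ := hind
    have ht : t ≠ 0 := by
      intro ht0
      rw [ht0, zero_smul, add_zero] at hst
      rcases smul_eq_zero.mp hst with h6 | h6
      · exact hne h6 ht0
      · exact ha' h6
    have h7 : t • (polar ⇑Q r r' • p + (-polar ⇑Q p r') • r)
        = -(s • (polar ⇑Q r r' • p' + (-polar ⇑Q r p') • r')) :=
      eq_neg_of_add_eq_zero_right hst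
    have h8 : (1 : F) • (polar ⇑Q r r' • p + (-polar ⇑Q p r') • r)
        = (-s / t) • (polar ⇑Q r r' • p' + (-polar ⇑Q r p') • r') := by
      calc (1 : F) • (polar ⇑Q r r' • p + (-polar ⇑Q p r') • r)
          = t⁻¹ • (t • (polar ⇑Q r r' • p + (-polar ⇑Q p r') • r)) := by
            rw [smul_smul, inv_mul_cancel₀ ht]
        _ = (-s / t) • (polar ⇑Q r r' • p' + (-polar ⇑Q r p') • r') := by
            rw [h7, smul_neg, smul_smul, ← neg_smul]
            congr 1
            field_simp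
    have h5 := TT_commutator_eq_bot Q hA hA' k1 k2 k3 ⟨-s / t, by rw [k4]; exact h8⟩
    rw [hTA, hTA'] at h5
    exact h5

/-- Any two Siegel transvection groups commute, form a rank one pair which is an image of
`SL₂(F)`, or are in the commutator case. -/
theorem pair_cases {p r p' r' : ι → F} (h : TSP Q p r) (h' : TSP Q p' r')
    (hi' : LinearIndependent F ![p', r']) :
    ⁅TT Q h, TT Q h'⁆ = ⊥ ∨
      (Cfsg.IsRankOnePair (TT Q h) (TT Q h') ∧ Cfsg.IsPSL2PairOver F (TT Q h) (TT Q h')) ∨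
      Cfsg.RootCommutatorCase (SigQ Q) (TT Q h) (TT Q h') := by
  by_cases hdet : polar ⇑Q p p' * polar ⇑Q r r' - polar ⇑Q p r' * polar ⇑Q r p' = 0
  swap
  · exact Or.inr (Or.inl (rankOne_of_det Q h h' hdet))
  have key : ⁅TT Q h, TT Q h'⁆ = ⊥ ∨ Cfsg.RootCommutatorCase (SigQ Q) (TT Q h) (TT Q h') := by
    by_cases h22 : polar ⇑Q r r' = 0
    swap
    · exact pair_cases_aux Q h h' hi' hdet h22
    by_cases h21 : polar ⇑Q r p' = 0
    swap
    · have hd : polar ⇑Q p r' * polar ⇑Q r p' - polar ⇑Q p p' * polar ⇑Q r r' = 0 := by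
        linear_combination -hdet
      have h5 := pair_cases_aux Q h h'.swap (indep_swap hi') hd h21
      rw [TT_swap Q h'] at h5
      exact h5
    by_cases h12 : polar ⇑Q p r' = 0
    swap
    · have hd : polar ⇑Q r p' * polar ⇑Q p r' - polar ⇑Q r r' * polar ⇑Q p p' = 0 := by
        linear_combination -hdet
      have h5 := pair_cases_aux Q h.swap h' hi' hd h12
      rw [TT_swap Q h] at h5
      exact h5
    by_cases h11 : polar ⇑Q p p' = 0
    swap
    · have hd : polar ⇑Q r r' * polar ⇑Q p p' - polar ⇑Q r p' * polar ⇑Q p r' = 0 := by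
        linear_combination hdet
      have h5 := pair_cases_aux Q h.swap h'.swap (indep_swap hi') hd h11
      rw [TT_swap Q h, TT_swap Q h'] at h5
      exact h5
    left
    exact TT_commutator_eq_bot Q h h' h11 h12 h21 ⟨0, by rw [h22, zero_smul, zero_smul]⟩
  rcases key with k | k
  · exact Or.inl k
  · exact Or.inr (Or.inr k)

theorem indep_map {p r : ι → F} (hi : LinearIndependent F ![p, r])
    (g : ↥(Cfsg.isometryGroup F ⇑Q)) : LinearIndependent F ![ac Q g p, ac Q g r] := by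
  rw [LinearIndependent.pair_iff] at hi ⊢
  intro s t hst
  apply hi s t
  have h1 : ac Q g⁻¹ (s • ac Q g p + t • ac Q g r) = ac Q g⁻¹ 0 := by rw [hst]
  rw [ac_add, ac_smul, ac_smul, ac_inv_ac, ac_inv_ac] at h1
  rw [h1]
  unfold ac
  exact Matrix.mulVec_zero _

/-- The Siegel transvection groups, inside the group they generate, form a set of `F`-root
subgroups. -/
theorem siegel_kroot (hQ : (polarBilin Q).Nondegenerate) :
    Cfsg.IsKRootSubgroupSet F
      ((fun A : Subgroup ↥(Cfsg.isometryGroup F ⇑Q) => A.subgroupOf (⨆ B ∈ SigQ Q, B)) ''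
        SigQ Q) := by
  apply root_set_transfer F (SigQ Q)
  · rintro _ ⟨p, r, h, hi, rfl⟩
    exact TT_isMulCommutative Q h
  · rintro _ ⟨p, r, h, hi, rfl⟩
    exact TT_ne_bot Q hQ h hi
  · rintro _ ⟨p, r, h, hi, rfl⟩ g
    rw [conjBy_TT]
    exact TT_mem_SigQ Q (h.map g) (indep_map Q hi g)
  · rintro _ ⟨p, r, h, hi, rfl⟩ _ ⟨p', r', h', hi', rfl⟩
    exact pair_cases Q h h' hi'

/-- The set of Siegel transvection groups in the form used in the statement, for a function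
`Qf`. -/
def SigSt (Qf : (ι → F) → F) : Set (Subgroup ↥(Cfsg.isometryGroup F Qf)) :=
  {A | ∃ p r : ι → F, LinearIndependent F ![p, r] ∧ Qf p = 0 ∧ Qf r = 0 ∧ Qf (p + r) = 0 ∧
    A = Subgroup.closure {σ : ↥(Cfsg.isometryGroup F Qf) | ∀ v : ι → F,
      Qf (v + p) - Qf v - Qf p = 0 → Qf (v + r) - Qf v - Qf r = 0 →
        ((σ : Matrix.GeneralLinearGroup ι F) : Matrix ι ι F).mulVec v = v}}

theorem sigSt_eq (hQ : (polarBilin Q).Nondegenerate) : SigSt ⇑Q = SigQ Q := by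
  ext A
  constructor
  · rintro ⟨p, r, hi, hp, hr, hpr, rfl⟩
    have h : TSP Q p r := ⟨hp, hr, by
      have h1 : polar ⇑Q p r = Q (p + r) - Q p - Q r := rfl
      rw [h1, hpr, hp, hr]; ring⟩
    exact ⟨p, r, h, hi, closure_fix_eq_TT Q hQ h hi⟩
  · rintro ⟨p, r, h, hi, rfl⟩
    refine ⟨p, r, hi, h.hp, h.hr, ?_, (closure_fix_eq_TT Q hQ h hi).symm⟩
    have h1 : polar ⇑Q p r = Q (p + r) - Q p - Q r := rfl
    have h2 := h.hpr
    rw [h1, h.hp, h.hr] at h2
    linear_combination h2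

end SgTri

end Cfsg.Agent.Lib.Helper50
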