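import Mathlib
import Cfsg.Agent.Lib.Helper50.SgPair
import Cfsg.Agent.Lib.Helper52.OmegaPlus

/-!
# Siegel transvection groups of the hyperbolic form `Σ xᵢ yᵢ` (helper50)

Connectedness of the graph of rank one pairs on the Siegel transvection groups of the singular
lines of `QPlus n F`, `n ≥ 3`: every singular line is opposite a coordinate line, and any two
coordinate lines are joined by a path.  Final statement `siegel_root_statement`.
-/

set_option autoImplicit false
set_option linter.unusedSectionVars false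

namespace Cfsg.Agent.Lib.Helper50

open Module QuadraticMap
open Cfsg.Agent.Lib.Helper51 Cfsg.Agent.Lib.Helper52

section SgPlus

variable {F : Type*} [Field F] {n : ℕ}

/-- The hyperbolic pair a coordinate belongs to. -/
def ty : Fin n ⊕ Fin n → Fin n := Sum.elim id id

theorem ty_swap (k : Fin n ⊕ Fin n) : ty (Sum.swap k) = ty k := by
  cases k <;> rfl

/-- Standard basis vectors. -/
def bv (F : Type*) [Field F] (k : Fin n ⊕ Fin n) : Fin n ⊕ Fin n → F := Pi.single k 1

theorem polar_bv (x : Fin n ⊕ Fin n → F) (k : Fin n ⊕ Fin n) :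
    polar ⇑(QPlus n F) x (bv F k) = x (Sum.swap k) := by
  rw [polar_QPlus]
  cases k with
  | inl i => simp [bv, Pi.single_apply]
  | inr i => simp [bv, Pi.single_apply]

theorem polar_bv_bv_of_ne {a c : Fin n ⊕ Fin n} (h : ty a ≠ ty c) :
    polar ⇑(QPlus n F) (bv F a) (bv F c) = 0 := by
  rw [polar_bv, bv, Pi.single_apply, if_neg]
  intro h1
  apply h
  rw [← h1, ty_swap]

theorem polar_bv_swap (a : Fin n ⊕ Fin n) :
    polar ⇑(QPlus n F) (bv F a) (bv F (Sum.swap a)) = 1 := by
  rw [polar_bv, Sum.swap_swap, bv, Pi.single_eq_same]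

theorem polar_bv_swap' (a : Fin n ⊕ Fin n) :
    polar ⇑(QPlus n F) (bv F (Sum.swap a)) (bv F a) = 1 := by
  rw [polar_comm, polar_bv_swap]

theorem Q_bv (a : Fin n ⊕ Fin n) : QPlus n F (bv F a) = 0 := by
  rw [QPlus_apply]
  apply Finset.sum_eq_zero
  intro i _
  cases a <;> simp [bv, Pi.single_apply]

theorem tsp_bv {k l : Fin n ⊕ Fin n} (h : ty k ≠ ty l) : TSP (QPlus n F) (bv F k) (bv F l) :=
  ⟨Q_bv k, Q_bv l, polar_bv_bv_of_ne h⟩

theorem indep_bv {k l : Fin n ⊕ Fin n} (h : ty k ≠ ty l) :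
    LinearIndependent F ![bv F k, bv F l] := by
  rw [LinearIndependent.pair_iff]
  intro s u hsu
  have h1 := congrArg (fun z => polar ⇑(QPlus n F) (bv F (Sum.swap k)) z) hsu
  have h2 := congrArg (fun z => polar ⇑(QPlus n F) (bv F (Sum.swap l)) z) hsu
  simp only [polar_add_right, polar_smul_right, polar_zero_right, smul_eq_mul] at h1 h2
  rw [polar_bv_swap', polar_bv_bv_of_ne (a := Sum.swap k) (c := l) (by rw [ty_swap]; exact h)]
    at h1
  rw [polar_bv_swap', polar_bv_bv_of_ne (a := Sum.swap l) (c := k)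
    (by rw [ty_swap]; exact h.symm)] at h2
  constructor
  · linear_combination h1
  · linear_combination h2

/-- The Siegel transvection group of a coordinate line. -/
noncomputable def Std (F : Type*) [Field F] {k l : Fin n ⊕ Fin n} (h : ty k ≠ ty l) :
    Subgroup ↥(Cfsg.isometryGroup F ⇑(QPlus n F)) :=
  TT (QPlus n F) (tsp_bv (F := F) h)

theorem Std_mem {k l : Fin n ⊕ Fin n} (h : ty k ≠ ty l) : Std F h ∈ SigQ (QPlus n F) :=
  TT_mem_SigQ _ _ (indep_bv h)

theorem Std_symm {k l : Fin n ⊕ Fin n} (h : ty k ≠ ty l) : Std F h = Std F h.symm :=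
  TT_swap (QPlus n F) (tsp_bv (F := F) h.symm)

theorem std_step {k k' l : Fin n ⊕ Fin n} (h1 : ty k ≠ ty l) (h2 : ty k' ≠ ty l)
    (h3 : ty k ≠ ty k') :
    Relation.ReflTransGen (Cfsg.FAdj (SigQ (QPlus n F))) (Std F h1) (Std F h2) := by
  have z1 : polar ⇑(QPlus n F) (bv F k) (bv F (Sum.swap k')) = 0 :=
    polar_bv_bv_of_ne (by rw [ty_swap]; exact h3)
  have z2 : polar ⇑(QPlus n F) (bv F k) (bv F (Sum.swap l)) = 0 :=
    polar_bv_bv_of_ne (by rw [ty_swap]; exact h1)
  have z3 : polar ⇑(QPlus n F) (bv F l) (bv F (Sum.swap k)) = 0 :=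
    polar_bv_bv_of_ne (by rw [ty_swap]; exact h1.symm)
  have z4 : polar ⇑(QPlus n F) (bv F l) (bv F (Sum.swap k')) = 0 :=
    polar_bv_bv_of_ne (by rw [ty_swap]; exact h2.symm)
  have z5 : polar ⇑(QPlus n F) (bv F k') (bv F (Sum.swap k)) = 0 :=
    polar_bv_bv_of_ne (by rw [ty_swap]; exact h3.symm)
  have z6 : polar ⇑(QPlus n F) (bv F k') (bv F (Sum.swap l)) = 0 :=
    polar_bv_bv_of_ne (by rw [ty_swap]; exact h2)
  have z1' : polar ⇑(QPlus n F) (bv F (Sum.swap k')) (bv F k) = 0 := by rw [polar_comm]; exact z1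
  have z2' : polar ⇑(QPlus n F) (bv F (Sum.swap l)) (bv F k) = 0 := by rw [polar_comm]; exact z2
  have z3' : polar ⇑(QPlus n F) (bv F (Sum.swap k)) (bv F l) = 0 := by rw [polar_comm]; exact z3
  have z4' : polar ⇑(QPlus n F) (bv F (Sum.swap k')) (bv F l) = 0 := by rw [polar_comm]; exact z4
  have z5' : polar ⇑(QPlus n F) (bv F (Sum.swap k)) (bv F k') = 0 := by rw [polar_comm]; exact z5
  have z6' : polar ⇑(QPlus n F) (bv F (Sum.swap l)) (bv F k') = 0 := by rw [polar_comm]; exact z6
  have z7 : polar ⇑(QPlus n F) (bv F (Sum.swap k)) (bv F (Sum.swap k')) = 0 :=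
    polar_bv_bv_of_ne (by rw [ty_swap, ty_swap]; exact h3)
  have z8 : polar ⇑(QPlus n F) (bv F (Sum.swap k)) (bv F (Sum.swap l)) = 0 :=
    polar_bv_bv_of_ne (by rw [ty_swap, ty_swap]; exact h1)
  have z9 : polar ⇑(QPlus n F) (bv F (Sum.swap k')) (bv F (Sum.swap l)) = 0 :=
    polar_bv_bv_of_ne (by rw [ty_swap, ty_swap]; exact h2)
  have hM : TSP (QPlus n F) (bv F (Sum.swap k) + bv F (Sum.swap k')) (bv F (Sum.swap l)) := by
    refine ⟨?_, Q_bv _, ?_⟩
    · have e : QPlus n F (bv F (Sum.swap k) + bv F (Sum.swap k'))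
          = QPlus n F (bv F (Sum.swap k)) + QPlus n F (bv F (Sum.swap k'))
            + polar ⇑(QPlus n F) (bv F (Sum.swap k)) (bv F (Sum.swap k')) := by
        unfold QuadraticMap.polar; ring
      rw [e, Q_bv, Q_bv, z7]; ring
    · rw [polar_add_left, z8, z9, add_zero]
  have hMi : LinearIndependent F ![bv F (Sum.swap k) + bv F (Sum.swap k'), bv F (Sum.swap l)] := by
    rw [LinearIndependent.pair_iff]
    intro s u hsu
    have e1 := congrArg (fun z => polar ⇑(QPlus n F) (bv F k) z) hsu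
    have e2 := congrArg (fun z => polar ⇑(QPlus n F) (bv F l) z) hsu
    simp only [polar_add_right, polar_smul_right, polar_zero_right, smul_eq_mul, polar_bv_swap,
      z1, z2, z3, z4] at e1 e2
    constructor
    · linear_combination e1
    · linear_combination e2
  have a1 : Cfsg.FAdj (SigQ (QPlus n F)) (Std F h1) (TT (QPlus n F) hM) := by
    refine ⟨Std_mem h1, TT_mem_SigQ _ hM hMi, (rankOne_of_det (QPlus n F) (tsp_bv h1) hM ?_).1⟩
    simp only [polar_add_right, polar_bv_swap, z1, z2, z3, z4]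
    norm_num
  have a2 : Cfsg.FAdj (SigQ (QPlus n F)) (TT (QPlus n F) hM) (Std F h2) := by
    refine ⟨TT_mem_SigQ _ hM hMi, Std_mem h2, (rankOne_of_det (QPlus n F) hM (tsp_bv h2) ?_).1⟩
    simp only [polar_add_left, polar_bv_swap', z5', z6', z3', z4']
    norm_num
  exact (Relation.ReflTransGen.single a1).trans (Relation.ReflTransGen.single a2)

theorem exists_ty_ne (hn : 3 ≤ n) (a c : Fin n) :
    ∃ j : Fin n ⊕ Fin n, ty j ≠ a ∧ ty j ≠ c := by
  have h0 : ∃ i : Fin n, i ≠ a ∧ i ≠ c := by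
    by_contra hcon
    push Not at hcon
    have h1 : (Finset.univ : Finset (Fin n)) ⊆ {a, c} := by
      intro i _
      by_cases hi : i = a
      · simp [hi]
      · simp [hcon i hi]
    have h2 := Finset.card_le_card h1
    rw [Finset.card_univ, Fintype.card_fin] at h2
    have h3 := Finset.card_le_two (a := a) (b := c)
    omega
  obtain ⟨i, h1, h2⟩ := h0
  exact ⟨Sum.inl i, h1, h2⟩

theorem std_step' (hn : 3 ≤ n) {k k' l : Fin n ⊕ Fin n} (h1 : ty k ≠ ty l) (h2 : ty k' ≠ ty l) :
    Relation.ReflTransGen (Cfsg.FAdj (SigQ (QPlus n F))) (Std F h1) (Std F h2) := by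
  by_cases h3 : ty k = ty k'
  · obtain ⟨j, hj1, hj2⟩ := exists_ty_ne hn (ty k) (ty l)
    exact (std_step h1 hj2 (Ne.symm hj1)).trans (std_step hj2 h2 (by rw [← h3]; exact hj1))
  · exact std_step h1 h2 h3

theorem std_conn (hn : 3 ≤ n) {k l k' l' : Fin n ⊕ Fin n} (h : ty k ≠ ty l)
    (h' : ty k' ≠ ty l') :
    Relation.ReflTransGen (Cfsg.FAdj (SigQ (QPlus n F))) (Std F h) (Std F h') := by
  obtain ⟨j, hj1, hj2⟩ := exists_ty_ne hn (ty k) (ty k')
  have s1 : Relation.ReflTransGen (Cfsg.FAdj (SigQ (QPlus n F))) (Std F h.symm) (Std F hj1) :=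
    std_step' hn h.symm hj1
  have s2 : Relation.ReflTransGen (Cfsg.FAdj (SigQ (QPlus n F))) (Std F hj1.symm)
      (Std F hj2.symm) := std_step' hn hj1.symm hj2.symm
  have s3 : Relation.ReflTransGen (Cfsg.FAdj (SigQ (QPlus n F))) (Std F hj2) (Std F h'.symm) :=
    std_step' hn hj2 h'.symm
  have e1 : Std F h = Std F h.symm := Std_symm h
  have e2 : Std F hj1 = Std F hj1.symm := Std_symm hj1
  have e3 : Std F hj2.symm = Std F hj2 := Std_symm hj2.symm
  have e4 : Std F h'.symm = Std F h' := Std_symm h'.symm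
  rw [← e1, e2] at s1
  rw [e3] at s2
  rw [e4] at s3
  exact s1.trans (s2.trans s3)

/-- A singular line has a non-zero coordinate minor in two columns of different type. -/
theorem exists_minor {p r : Fin n ⊕ Fin n → F} (h : TSP (QPlus n F) p r)
    (hi : LinearIndependent F ![p, r]) :
    ∃ k l, ty k ≠ ty l ∧ p k * r l - p l * r k ≠ 0 := by
  by_contra hcon
  push Not at hcon
  have hp0 : p ≠ 0 := LinearIndependent.ne_zero 0 hi
  obtain ⟨k₀, hk₀⟩ := Function.ne_iff.mp hp0
  have hk₀' : p k₀ ≠ 0 := hk₀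
  have step1 : ∃ k l, p k * r l - p l * r k ≠ 0 := by
    by_contra hall
    push Not at hall
    have hr : (r k₀ / p k₀) • p + (-1 : F) • r = 0 := by
      funext l
      have e : r l = r k₀ / p k₀ * p l := by
        field_simp
        linear_combination hall k₀ l
      simp only [Pi.add_apply, Pi.smul_apply, smul_eq_mul, Pi.zero_apply]
      rw [e]; ring
    have h1 := ((LinearIndependent.pair_iff.mp hi) _ _ hr).2
    have h2 : (1 : F) = 0 := by linear_combination -h1
    exact one_ne_zero h2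
  obtain ⟨k, l, hkl⟩ := step1
  have hty : ty k = ty l := by
    by_contra hne
    exact hkl (hcon k l hne)
  obtain ⟨i₀, hD⟩ : ∃ i₀ : Fin n,
      p (Sum.inl i₀) * r (Sum.inr i₀) - p (Sum.inr i₀) * r (Sum.inl i₀) ≠ 0 := by
    cases k with
    | inl i =>
      cases l with
      | inl j =>
        exfalso
        have hij : i = j := hty
        subst hij
        exact hkl (by ring)
      | inr j =>
        have hij : i = j := hty
        subst hij
        exact ⟨i, hkl⟩
    | inr i =>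
      cases l with
      | inl j =>
        have hij : i = j := hty
        subst hij
        exact ⟨i, fun h0 => hkl (by linear_combination -h0)⟩
      | inr j =>
        exfalso
        have hij : i = j := hty
        subst hij
        exact hkl (by ring)
  have hz : ∀ j : Fin n ⊕ Fin n, ty j ≠ i₀ → p j = 0 := by
    intro j hj
    have e1 := hcon (Sum.inl i₀) j (fun h0 => hj h0.symm)
    have e2 := hcon (Sum.inr i₀) j (fun h0 => hj h0.symm)
    have h5 : (p (Sum.inl i₀) * r (Sum.inr i₀) - p (Sum.inr i₀) * r (Sum.inl i₀)) * p j = 0 := by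
      linear_combination p (Sum.inr i₀) * e1 - p (Sum.inl i₀) * e2
    rcases mul_eq_zero.mp h5 with h0 | h0
    · exact absurd h0 hD
    · exact h0
  have hQp : p (Sum.inl i₀) * p (Sum.inr i₀) = 0 := by
    have h6 := h.hp
    rw [QPlus_apply, Finset.sum_eq_single i₀
      (fun i _ hi => by rw [hz (Sum.inl i) hi, zero_mul])
      (fun h0 => absurd (Finset.mem_univ _) h0)] at h6
    exact h6
  have hB : p (Sum.inl i₀) * r (Sum.inr i₀) + r (Sum.inl i₀) * p (Sum.inr i₀) = 0 := by
    have h6 := h.hpr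
    rw [polar_QPlus, Finset.sum_eq_single i₀
      (fun i _ hi => by rw [hz (Sum.inl i) hi, hz (Sum.inr i) hi]; ring)
      (fun h0 => absurd (Finset.mem_univ _) h0)] at h6
    exact h6
  rcases mul_eq_zero.mp hQp with h0 | h0
  · apply hD
    rw [h0] at hB ⊢
    linear_combination (-1 : F) * hB
  · apply hD
    rw [h0] at hB ⊢
    linear_combination hB

theorem ty_swap_ne {k l : Fin n ⊕ Fin n} (h : ty k ≠ ty l) : ty (Sum.swap k) ≠ ty (Sum.swap l) := by
  rw [ty_swap, ty_swap]; exact h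

/-- The graph of rank one pairs on the Siegel transvection groups is connected. -/
theorem siegel_connected (hn : 3 ≤ n) :
    Cfsg.IsConnectedFamily (Cfsg.FAdj (SigQ (QPlus n F))) (SigQ (QPlus n F)) := by
  rintro _ ⟨p, r, h, hi, rfl⟩ _ ⟨p', r', h', hi', rfl⟩
  obtain ⟨k, l, hkl, hm⟩ := exists_minor h hi
  obtain ⟨k', l', hkl', hm'⟩ := exists_minor h' hi'
  have a1 : Cfsg.FAdj (SigQ (QPlus n F)) (TT (QPlus n F) h) (Std F (ty_swap_ne hkl)) := by
    refine ⟨TT_mem_SigQ _ h hi, Std_mem _,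
      (rankOne_of_det (QPlus n F) h (tsp_bv (ty_swap_ne hkl)) ?_).1⟩
    rw [polar_bv, polar_bv, polar_bv, polar_bv, Sum.swap_swap, Sum.swap_swap]
    exact hm
  have a2 : Cfsg.FAdj (SigQ (QPlus n F)) (Std F (ty_swap_ne hkl')) (TT (QPlus n F) h') := by
    refine ⟨Std_mem _, TT_mem_SigQ _ h' hi',
      (rankOne_of_det (QPlus n F) (tsp_bv (ty_swap_ne hkl')) h' ?_).1⟩
    rw [polar_comm ⇑(QPlus n F) (bv F (Sum.swap k')) p',
      polar_comm ⇑(QPlus n F) (bv F (Sum.swap l')) r',
      polar_comm ⇑(QPlus n F) (bv F (Sum.swap k')) r',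
      polar_comm ⇑(QPlus n F) (bv F (Sum.swap l')) p',
      polar_bv, polar_bv, polar_bv, polar_bv, Sum.swap_swap, Sum.swap_swap]
    intro h0
    exact hm' (by linear_combination h0)
  exact (Relation.ReflTransGen.single a1).trans
    ((std_conn hn (ty_swap_ne hkl) (ty_swap_ne hkl')).trans (Relation.ReflTransGen.single a2))

/-- The statement on Siegel transvection groups, for the quadratic form `QPlus (m + 3) F`. -/
theorem siegel_root_statement (F : Type*) [Field F] (m : ℕ) :
    Cfsg.IsKRootSubgroupSet F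
      ((fun A : Subgroup ↥(Cfsg.isometryGroup F ⇑(QPlus (m + 3) F)) =>
        A.subgroupOf (⨆ B ∈ SigSt ⇑(QPlus (m + 3) F), B)) '' SigSt ⇑(QPlus (m + 3) F)) ∧
    Cfsg.IsConnectedFamily (Cfsg.FAdj (SigSt ⇑(QPlus (m + 3) F))) (SigSt ⇑(QPlus (m + 3) F)) := by
  rw [sigSt_eq (QPlus (m + 3) F) QPlus_nondegenerate]
  exact ⟨siegel_kroot (QPlus (m + 3) F) QPlus_nondegenerate, siegel_connected (by omega)⟩

end SgPlus

end Cfsg.Agent.Lib.Helper50
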