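import Mathlib
import Cfsg.Prelude.Def_GeometricClasses
import Cfsg.Agent.Lib.Helper97.Transv
import Cfsg.Agent.Lib.Helper97.TransvM
import Cfsg.Agent.Lib.Helper50.UnitMax
import Cfsg.Agent.Lib.Helper50.OrthMax
import Cfsg.Agent.Lib.Helper50.SubfW
import Cfsg.Agent.Lib.Helper50.SubfMax

/-!
# The dihedral argument for subfield groups: generic involution instances

Helper library (helper50).  Versions of `le_H1_odd` and `le_H1_two` for an arbitrary index type
with seven distinct indices, where the membership of the two involutions in `M` is a hypothesis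
(so that they apply to overgroups of subfield groups inside any classical group).
-/

set_option autoImplicit false

namespace Cfsg.Agent.Lib.Helper50

open Matrix Cfsg.Agent.Lib.Helper97

section InvGen

variable {ι : Type} [Fintype ι] [DecidableEq ι] {F : Type*} [Field F]

omit [Fintype ι] in
theorem single_ne_zero_gen (k : ι) : (Pi.single k (1 : F) : ι → F) ≠ 0 := by
  intro h
  have h1 := congrFun h k
  rw [Pi.single_eq_same, Pi.zero_apply] at h1
  exact one_ne_zero h1

/-- A non-zero vector supported on three given coordinates whose image under `g` has vanishing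
coordinates `p` and `q`. -/
theorem exists_x0_gen {i4 i5 i6 : ι} (h45 : i4 ≠ i5) (h46 : i4 ≠ i6) (h56 : i5 ≠ i6) (p q : ι)
    (g : Matrix ι ι F) :
    ∃ x0 : ι → F, x0 ≠ 0 ∧ (∀ k : ι, k ≠ i4 → k ≠ i5 → k ≠ i6 → x0 k = 0) ∧
      (g *ᵥ x0) p = 0 ∧ (g *ᵥ x0) q = 0 := by
  obtain ⟨c, hc0, hp, hq⟩ := two_by_three ![g p i4, g p i5, g p i6] ![g q i4, g q i5, g q i6]
  rw [dotProduct, Fin.sum_univ_three] at hp hq
  replace hp : g p i4 * c 0 + g p i5 * c 1 + g p i6 * c 2 = 0 := hp
  replace hq : g q i4 * c 0 + g q i5 * c 1 + g q i6 * c 2 = 0 := hq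
  refine ⟨c 0 • Pi.single i4 1 + c 1 • Pi.single i5 1 + c 2 • Pi.single i6 1, ?_, ?_, ?_, ?_⟩
  · intro h
    apply hc0
    funext t
    fin_cases t
    · have h1 := congrFun h i4
      simpa [Pi.single_apply, h45, h46, h45.symm, h46.symm] using h1
    · have h1 := congrFun h i5
      simpa [Pi.single_apply, h45, h56, h45.symm, h56.symm] using h1
    · have h1 := congrFun h i6
      simpa [Pi.single_apply, h46, h56, h46.symm, h56.symm] using h1
  · intro k h4 h5 h6
    simp [Pi.single_eq_of_ne h4, Pi.single_eq_of_ne h5, Pi.single_eq_of_ne h6]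
  · rw [Matrix.mulVec_add, Matrix.mulVec_add, Matrix.mulVec_smul, Matrix.mulVec_smul,
      Matrix.mulVec_smul, Matrix.mulVec_single_one, Matrix.mulVec_single_one,
      Matrix.mulVec_single_one]
    simp only [Pi.add_apply, Pi.smul_apply, Matrix.col_apply, smul_eq_mul]
    linear_combination hp
  · rw [Matrix.mulVec_add, Matrix.mulVec_add, Matrix.mulVec_smul, Matrix.mulVec_smul,
      Matrix.mulVec_smul, Matrix.mulVec_single_one, Matrix.mulVec_single_one,
      Matrix.mulVec_single_one]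
    simp only [Pi.add_apply, Pi.smul_apply, Matrix.col_apply, smul_eq_mul]
    linear_combination hq

variable [Fintype F]

/-- The odd characteristic instance of the dihedral argument, for seven distinct indices and two
diagonal sign involutions in `M`. -/
theorem le_H1_odd_gen (i0 i1 i2 i3 i4 i5 i6 : ι) (hd : [i0, i1, i2, i3, i4, i5, i6].Nodup)
    {F₀ : Subfield F} {M : Subgroup (GL ι F)} (a b0 : GL ι F)
    (haval : (a : Matrix ι ι F) =
      Matrix.diagonal (fun k => if k = i0 ∨ k = i1 ∨ k = i2 ∨ k = i3 then (-1 : F) else 1))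
    (hbval : (b0 : Matrix ι ι F) =
      Matrix.diagonal (fun k => if k = i0 ∨ k = i1 then (-1 : F) else 1))
    (haM : a ∈ M) (hb0M : b0 ∈ M)
    (hGPl : ∀ m ∈ M, ¬ GP F₀ m → m ∈ H1 ι F₀)
    (hsq : ∀ c : F, c ^ 2 ∈ F₀ → c ∈ F₀) (h2 : (2 : F) ≠ 0) : M ≤ H1 ι F₀ := by
  have n02 : i0 ≠ i2 := by rintro rfl; simp at hd
  have n03 : i0 ≠ i3 := by rintro rfl; simp at hd
  have n04 : i0 ≠ i4 := by rintro rfl; simp at hd
  have n05 : i0 ≠ i5 := by rintro rfl; simp at hd
  have n06 : i0 ≠ i6 := by rintro rfl; simp at hd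
  have n12 : i1 ≠ i2 := by rintro rfl; simp at hd
  have n13 : i1 ≠ i3 := by rintro rfl; simp at hd
  have n14 : i1 ≠ i4 := by rintro rfl; simp at hd
  have n15 : i1 ≠ i5 := by rintro rfl; simp at hd
  have n16 : i1 ≠ i6 := by rintro rfl; simp at hd
  have n23 : i2 ≠ i3 := by rintro rfl; simp at hd
  have n24 : i2 ≠ i4 := by rintro rfl; simp at hd
  have n25 : i2 ≠ i5 := by rintro rfl; simp at hd
  have n26 : i2 ≠ i6 := by rintro rfl; simp at hd
  have n34 : i3 ≠ i4 := by rintro rfl; simp at hd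
  have n35 : i3 ≠ i5 := by rintro rfl; simp at hd
  have n36 : i3 ≠ i6 := by rintro rfl; simp at hd
  have n45 : i4 ≠ i5 := by rintro rfl; simp at hd
  have n46 : i4 ≠ i6 := by rintro rfl; simp at hd
  have n56 : i5 ≠ i6 := by rintro rfl; simp at hd
  have hamv : ∀ (y : ι → F) (k : ι), ((a : Matrix ι ι F) *ᵥ y) k =
      (if k = i0 ∨ k = i1 ∨ k = i2 ∨ k = i3 then (-1 : F) else 1) * y k := by
    intro y k
    rw [haval, Matrix.mulVec_diagonal]
  have hbmv : ∀ (y : ι → F) (k : ι), ((b0 : Matrix ι ι F) *ᵥ y) k =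
      (if k = i0 ∨ k = i1 then (-1 : F) else 1) * y k := by
    intro y k
    rw [hbval, Matrix.mulVec_diagonal]
  have ha2 : a * a = 1 := by
    apply Units.ext
    rw [Units.val_mul, haval, Matrix.diagonal_mul_diagonal, Units.val_one, ← Matrix.diagonal_one]
    congr 1
    funext k
    split_ifs <;> simp
  have hb2 : b0 * b0 = 1 := by
    apply Units.ext
    rw [Units.val_mul, hbval, Matrix.diagonal_mul_diagonal, Units.val_one, ← Matrix.diagonal_one]
    congr 1
    funext k
    split_ifs <;> simp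
  have hneg : ∀ x : F, -1 * x = x → x = 0 := by
    intro x hx
    have h3 : (2 : F) * x = 0 := by linear_combination (-1 : F) * hx
    rcases mul_eq_zero.mp h3 with h4 | h4
    · exact absurd h4 h2
    · exact h4
  refine le_H1_of_involutions hGPl hsq a b0 haM hb0M ha2 hb2 ?_ ?_ (Pi.single i0 1)
    (ratV_single F₀ _ F₀.one_mem) (single_ne_zero_gen _) ?_ ?_ ?_
  · intro h
    have h1 := congrFun (congrFun h i2) i2
    rw [hbval, Matrix.add_apply, Matrix.diagonal_apply_eq, Matrix.one_apply_eq,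
      Matrix.zero_apply, if_neg (by simp [n02.symm, n12.symm]), one_add_one_eq_two] at h1
    exact h2 h1
  · intro z haz hGP
    have h3 : (a : Matrix ι ι F) *ᵥ Pi.single i4 1 = Pi.single i4 1 := by
      funext k
      rw [hamv]
      by_cases hk : k = i4
      · subst hk
        rw [if_neg (by simp [n04.symm, n14.symm, n24.symm, n34.symm]), one_mul]
      · rw [Pi.single_eq_of_ne hk, mul_zero]
    have h1 : (a : Matrix ι ι F) *ᵥ ((z : Matrix ι ι F) *ᵥ Pi.single i4 1) =
        (z : Matrix ι ι F) *ᵥ Pi.single i4 1 := by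
      rw [Matrix.mulVec_mulVec, ← Units.val_mul, haz, Units.val_mul, ← Matrix.mulVec_mulVec, h3]
    have h4 := congrFun h1 i0
    rw [hamv, if_pos (Or.inl rfl)] at h4
    have h5 := hneg _ h4
    apply hGP (Pi.single i4 1) (Pi.single i0 1) (ratV_single F₀ _ F₀.one_mem)
      (ratV_single F₀ _ F₀.one_mem) (single_ne_zero_gen _) (single_ne_zero_gen _)
    rw [single_dotProduct, one_mul, h5]
  · intro w hw
    have h4 := congrFun hw i0
    rw [hbmv, if_pos (Or.inl rfl)] at h4
    rw [single_dotProduct, one_mul, hneg _ h4]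
  · intro g hg
    have h1 := congrArg (fun x : GL ι F => (x : Matrix ι ι F).trace) hg
    simp only [Units.val_mul] at h1
    rw [Matrix.trace_mul_comm, ← Matrix.mul_assoc, Units.inv_mul, Matrix.one_mul, haval, hbval,
      Matrix.trace_diagonal, Matrix.trace_diagonal] at h1
    have e : ∀ k : ι, ((if k = i0 ∨ k = i1 ∨ k = i2 ∨ k = i3 then (-1 : F) else 1) -
        (if k = i0 ∨ k = i1 then (-1 : F) else 1)) =
        (if k = i2 then (-2 : F) else 0) + (if k = i3 then (-2 : F) else 0) := by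
      intro k
      by_cases h0 : k = i0
      · rw [h0]; simp [n02, n03]
      by_cases h1' : k = i1
      · rw [h1']; simp [n12, n13]
      by_cases h2' : k = i2
      · rw [h2']; simp [n02.symm, n12.symm, n23]; norm_num
      by_cases h3' : k = i3
      · rw [h3']; simp [n03.symm, n13.symm, n23.symm]; norm_num
      simp [h0, h1', h2', h3']
    have h3 : ∑ k : ι, ((if k = i0 ∨ k = i1 ∨ k = i2 ∨ k = i3 then (-1 : F) else 1) -
        (if k = i0 ∨ k = i1 then (-1 : F) else 1)) = -2 + -2 := by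
      simp_rw [e]
      rw [Finset.sum_add_distrib, Finset.sum_ite_eq', Finset.sum_ite_eq', if_pos (Finset.mem_univ _),
        if_pos (Finset.mem_univ _)]
    rw [Finset.sum_sub_distrib, h1, sub_self] at h3
    have h5 : (2 : F) * 2 = 0 := by linear_combination h3
    exact h2 (mul_self_eq_zero.mp h5)
  · intro m
    obtain ⟨x0, hx0, hsupp, h0, h1⟩ :=
      exists_x0_gen n45 n46 n56 i0 i1 ((m⁻¹ : GL ι F) : Matrix ι ι F)
    refine ⟨x0, hx0, ?_, ?_⟩
    · funext k
      rw [hamv]
      split_ifs with hk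
      · rcases hk with hk | hk | hk | hk
        · rw [hk, hsupp i0 n04 n05 n06, mul_zero]
        · rw [hk, hsupp i1 n14 n15 n16, mul_zero]
        · rw [hk, hsupp i2 n24 n25 n26, mul_zero]
        · rw [hk, hsupp i3 n34 n35 n36, mul_zero]
      · rw [one_mul]
    · funext k
      rw [hbmv]
      split_ifs with hk
      · rcases hk with hk | hk
        · rw [hk, h0, mul_zero]
        · rw [hk, h1, mul_zero]
      · rw [one_mul]

/-- The characteristic two instance of the dihedral argument, for seven distinct indices and two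
elementary transvections in `M`. -/
theorem le_H1_two_gen (i0 i1 i2 i3 i4 i5 i6 : ι) (hd : [i0, i1, i2, i3, i4, i5, i6].Nodup)
    {F₀ : Subfield F} {M : Subgroup (GL ι F)}
    (hbM : ∀ t : GL ι F, (t : Matrix ι ι F) = tv (Pi.single i0 1) (Pi.single i1 1) → t ∈ M)
    (hcM : ∀ t : GL ι F, (t : Matrix ι ι F) = tv (Pi.single i2 1) (Pi.single i3 1) → t ∈ M)
    (hGPl : ∀ m ∈ M, ¬ GP F₀ m → m ∈ H1 ι F₀)
    (hsq : ∀ c : F, c ^ 2 ∈ F₀ → c ∈ F₀) (h2 : (2 : F) = 0) : M ≤ H1 ι F₀ := by
  have n01 : i0 ≠ i1 := by rintro rfl; simp at hd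
  have n02 : i0 ≠ i2 := by rintro rfl; simp at hd
  have n03 : i0 ≠ i3 := by rintro rfl; simp at hd
  have n12 : i1 ≠ i2 := by rintro rfl; simp at hd
  have n13 : i1 ≠ i3 := by rintro rfl; simp at hd
  have n14 : i1 ≠ i4 := by rintro rfl; simp at hd
  have n15 : i1 ≠ i5 := by rintro rfl; simp at hd
  have n16 : i1 ≠ i6 := by rintro rfl; simp at hd
  have n23 : i2 ≠ i3 := by rintro rfl; simp at hd
  have n34 : i3 ≠ i4 := by rintro rfl; simp at hd
  have n35 : i3 ≠ i5 := by rintro rfl; simp at hd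
  have n36 : i3 ≠ i6 := by rintro rfl; simp at hd
  have n45 : i4 ≠ i5 := by rintro rfl; simp at hd
  have n46 : i4 ≠ i6 := by rintro rfl; simp at hd
  have n56 : i5 ≠ i6 := by rintro rfl; simp at hd
  have h01 : (Pi.single i1 (1 : F) : ι → F) ⬝ᵥ Pi.single i0 1 = 0 :=
    single_dot_single_ne n01 1 1
  have h23 : (Pi.single i3 (1 : F) : ι → F) ⬝ᵥ Pi.single i2 1 = 0 :=
    single_dot_single_ne n23 1 1
  set s0 : ι → F := Pi.single i0 1 with hs0
  set s2 : ι → F := Pi.single i2 1 with hs2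
  have s0_0 : s0 i0 = 1 := by rw [hs0, Pi.single_eq_same]
  have s0_1 : s0 i1 = 0 := by rw [hs0, Pi.single_eq_of_ne (Ne.symm n01)]
  have s0_2 : s0 i2 = 0 := by rw [hs0, Pi.single_eq_of_ne (Ne.symm n02)]
  have s0_3 : s0 i3 = 0 := by rw [hs0, Pi.single_eq_of_ne (Ne.symm n03)]
  have s2_0 : s2 i0 = 0 := by rw [hs2, Pi.single_eq_of_ne n02]
  have s2_1 : s2 i1 = 0 := by rw [hs2, Pi.single_eq_of_ne n12]
  have s2_2 : s2 i2 = 1 := by rw [hs2, Pi.single_eq_same]
  have s2_3 : s2 i3 = 0 := by rw [hs2, Pi.single_eq_of_ne (Ne.symm n23)]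
  set b0 : GL ι F := tvG s0 (Pi.single i1 1) h01 with hb0
  set c0 : GL ι F := tvG s2 (Pi.single i3 1) h23 with hc0
  set a : GL ι F := b0 * c0 with ha
  have hbmv : ∀ y : ι → F, (b0 : Matrix ι ι F) *ᵥ y = y + y i1 • s0 := by
    intro y
    rw [hb0, tvG_val, tv_mulVec, single_dotProduct, one_mul]
  have hcmv : ∀ y : ι → F, (c0 : Matrix ι ι F) *ᵥ y = y + y i3 • s2 := by
    intro y
    rw [hc0, tvG_val, tv_mulVec, single_dotProduct, one_mul]
  have hamv : ∀ y : ι → F, (a : Matrix ι ι F) *ᵥ y =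
      y + y i3 • s2 + y i1 • s0 := by
    intro y
    rw [ha, Units.val_mul, ← Matrix.mulVec_mulVec, hcmv, hbmv, Pi.add_apply, Pi.smul_apply,
      s2_1, smul_zero, add_zero]
  have hb0M : b0 ∈ M := hbM b0 rfl
  have hc0M : c0 ∈ M := hcM c0 rfl
  have haM : a ∈ M := M.mul_mem hb0M hc0M
  have hsmul2 : ∀ (x : F) (v : ι → F), x • v + x • v = 0 := by
    intro x v
    rw [← two_smul F (x • v), h2, zero_smul]
  have hb2 : b0 * b0 = 1 := by
    apply Units.ext
    apply ext_mulVec_single
    intro k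
    rw [Units.val_mul, ← Matrix.mulVec_mulVec, hbmv, hbmv, Units.val_one, Matrix.one_mulVec,
      Pi.add_apply, Pi.smul_apply, s0_1, smul_zero, add_zero, add_assoc, hsmul2, add_zero]
  have ha2 : a * a = 1 := by
    apply Units.ext
    apply ext_mulVec_single
    intro k
    rw [Units.val_mul, ← Matrix.mulVec_mulVec, hamv, hamv, Units.val_one, Matrix.one_mulVec]
    simp only [Pi.add_apply, Pi.smul_apply, s0_1, s0_3, s2_1, s2_3, smul_zero, add_zero]
    have h5 := hsmul2 ((Pi.single k 1 : ι → F) i3) s2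
    have h6 := hsmul2 ((Pi.single k 1 : ι → F) i1) s0
    calc (Pi.single k 1 : ι → F) + (Pi.single k 1 : ι → F) i3 • s2
          + (Pi.single k 1 : ι → F) i1 • s0 + (Pi.single k 1 : ι → F) i3 • s2
          + (Pi.single k 1 : ι → F) i1 • s0
        = (Pi.single k 1 : ι → F) + ((Pi.single k 1 : ι → F) i3 • s2
          + (Pi.single k 1 : ι → F) i3 • s2) + ((Pi.single k 1 : ι → F) i1 • s0
          + (Pi.single k 1 : ι → F) i1 • s0) := by abel
      _ = Pi.single k 1 := by rw [h5, h6, add_zero, add_zero]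
  refine le_H1_of_involutions hGPl hsq a b0 haM hb0M ha2 hb2 ?_ ?_ (Pi.single i1 1)
    (ratV_single F₀ _ F₀.one_mem) (single_ne_zero_gen _) ?_ ?_ ?_
  · intro h
    have h1 := congrFun (congrFun h i0) i1
    rw [hb0, tvG_val, tv, Matrix.add_apply, Matrix.add_apply, Matrix.vecMulVec_apply, s0_0,
      Pi.single_eq_same, Matrix.one_apply_ne n01, Matrix.zero_apply, zero_add, mul_one,
      add_zero] at h1
    exact one_ne_zero h1
  · intro z haz hGP
    have h3 : (a : Matrix ι ι F) *ᵥ s0 = s0 := by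
      rw [hamv, s0_3, s0_1, zero_smul, zero_smul, add_zero, add_zero]
    have h1 : (a : Matrix ι ι F) *ᵥ ((z : Matrix ι ι F) *ᵥ s0) =
        (z : Matrix ι ι F) *ᵥ s0 := by
      rw [Matrix.mulVec_mulVec, ← Units.val_mul, haz, Units.val_mul, ← Matrix.mulVec_mulVec, h3]
    rw [hamv] at h1
    have h4 := congrFun h1 i0
    simp only [Pi.add_apply, Pi.smul_apply, s2_0, s0_0, smul_eq_mul, mul_zero, mul_one,
      add_zero] at h4
    have h5 : ((z : Matrix ι ι F) *ᵥ s0) i1 = 0 := by
      linear_combination h4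
    apply hGP s0 (Pi.single i1 1) (ratV_single F₀ _ F₀.one_mem) (ratV_single F₀ _ F₀.one_mem)
      (single_ne_zero_gen _) (single_ne_zero_gen _)
    rw [single_dotProduct, one_mul, h5]
  · intro w hw
    rw [hbmv] at hw
    have h4 := congrFun hw i0
    simp only [Pi.add_apply, Pi.smul_apply, s0_0, smul_eq_mul, mul_one] at h4
    rw [single_dotProduct, one_mul]
    linear_combination h4
  · intro g hg
    have hmv : ∀ y : ι → F, (a : Matrix ι ι F) *ᵥ y =
        y + (((g⁻¹ : GL ι F) : Matrix ι ι F) *ᵥ y) i1 •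
          ((g : Matrix ι ι F) *ᵥ s0) := by
      intro y
      rw [hg, Units.val_mul, Units.val_mul, ← Matrix.mulVec_mulVec, ← Matrix.mulVec_mulVec,
        hbmv, Matrix.mulVec_add, Matrix.mulVec_smul, gl_mulVec_inv]
    have e1 := hmv (Pi.single i1 1)
    have e3 := hmv (Pi.single i3 1)
    rw [hamv] at e1 e3
    rw [Pi.single_eq_same, Pi.single_eq_of_ne (Ne.symm n13), zero_smul, add_zero, one_smul,
      add_right_inj] at e1
    rw [Pi.single_eq_same, Pi.single_eq_of_ne n13, zero_smul, add_zero, one_smul,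
      add_right_inj] at e3
    have f1 := congrFun e1 i0
    have f2 := congrFun e1 i2
    have f3 := congrFun e3 i2
    rw [Pi.smul_apply, smul_eq_mul, s0_0] at f1
    rw [Pi.smul_apply, smul_eq_mul, s0_2] at f2
    rw [Pi.smul_apply, smul_eq_mul, s2_2] at f3
    have hα : (((g⁻¹ : GL ι F) : Matrix ι ι F) *ᵥ Pi.single i1 1) i1 ≠ 0 := by
      intro h
      rw [h, zero_mul] at f1
      exact one_ne_zero f1
    have hw2 : ((g : Matrix ι ι F) *ᵥ s0) i2 = 0 := by
      rcases mul_eq_zero.mp f2.symm with h | h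
      · exact absurd h hα
      · exact h
    rw [hw2, mul_zero] at f3
    exact one_ne_zero f3
  · intro m
    obtain ⟨x0, hx0, hsupp, h0, h1⟩ :=
      exists_x0_gen n45 n46 n56 i1 i1 ((m⁻¹ : GL ι F) : Matrix ι ι F)
    refine ⟨x0, hx0, ?_, ?_⟩
    · rw [hamv, hsupp i3 n34 n35 n36, hsupp i1 n14 n15 n16, zero_smul,
        zero_smul, add_zero, add_zero]
    · rw [hbmv]
      have h5 : (((m⁻¹ : GL ι F) : Matrix ι ι F) *ᵥ x0) i1 = 0 := h1
      rw [h5, zero_smul, add_zero]


end InvGen

end Cfsg.Agent.Lib.Helper50
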