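import Mathlib
import Cfsg.Prelude.Def_GeometricClasses
import Cfsg.Agent.Lib.Helper97.Transv
import Cfsg.Agent.Lib.Helper97.TransvM
import Cfsg.Agent.Lib.Helper97.SympMax
import Cfsg.Agent.Lib.Helper50.UnitField
import Cfsg.Agent.Lib.Helper50.UnitForm
import Cfsg.Agent.Lib.Helper50.UnitMax

/-!
The similarity group of a non-degenerate unitary form meets `SL_n` in a maximal subgroup of
`SL_n` over a finite field, now for `n ≥ 5` (helper50): the argument of `UnitMax` with
two-vector versions of the existence lemmas and one re-arranged step.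
-/

set_option autoImplicit false

namespace Cfsg.Agent.Lib.Helper50

open Matrix Cfsg.Agent.Lib.Helper97

section UnitMaxSix

variable {ι : Type} [Fintype ι] [DecidableEq ι] {F : Type*} [Field F]
variable {σ : F ≃+* F} {f : (ι → F) → (ι → F) → F}

/-- In dimension at least 5, the common kernel of two functionals `f(·, aᵢ)` contains a
non-isotropic vector. -/
theorem exists_noniso2 [Fintype F] (hf : Cfsg.Geo.IsUnitaryForm σ f) (hn : 5 ≤ Fintype.card ι)
    (a1 a2 : ι → F) : ∃ z, f z a1 = 0 ∧ f z a2 = 0 ∧ f z z ≠ 0 := by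
  classical
  by_contra hcon
  push Not at hcon
  let L : (ι → F) →ₗ[F] (Fin 2 → F) := LinearMap.pi ![ufl hf a1, ufl hf a2]
  have hW : ∀ z, z ∈ LinearMap.ker L → f z a1 = 0 ∧ f z a2 = 0 := by
    intro z hz
    have h := LinearMap.mem_ker.mp hz
    exact ⟨congrFun h 0, congrFun h 1⟩
  have hiso : ∀ z ∈ LinearMap.ker L, f z z = 0 := by
    intro z hz
    obtain ⟨h1, h2⟩ := hW z hz
    exact hcon z h1 h2
  have hzero := uf_zero_of_isotropic hf (LinearMap.ker L) hiso
  have hrk := LinearMap.finrank_range_add_finrank_ker L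
  rw [Module.finrank_fintype_fun_eq_card] at hrk
  have hr : Module.finrank F (LinearMap.range L) ≤ 2 := by
    have := Submodule.finrank_le (LinearMap.range L)
    rw [Module.finrank_fintype_fun_eq_card, Fintype.card_fin] at this
    exact this
  have hann := Subspace.finrank_add_finrank_dualAnnihilator_eq (LinearMap.ker L)
  rw [Module.finrank_fintype_fun_eq_card] at hann
  have hinj : Function.Injective (fun w : LinearMap.ker L =>
      (⟨ufl hf w.1, (Submodule.mem_dualAnnihilator _).mpr (fun y hy => hzero y hy w.1 w.2)⟩ :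
        (LinearMap.ker L).dualAnnihilator)) := by
    intro w w' h
    have h1 : ufl hf w.1 = ufl hf w'.1 := congrArg Subtype.val h
    apply Subtype.ext
    have h0 : w.1 - w'.1 = 0 := by
      apply uf_eq_zero_of_forall hf
      intro x
      rw [uf_sub_right hf, ← ufl_apply hf, ← ufl_apply hf w'.1, h1, sub_self]
    exact sub_eq_zero.mp h0
  have hfin : Finite (Module.Dual F (ι → F)) := Module.finite_of_finite F
  have hle := Nat.card_le_card_of_injective _ hinj
  rw [natCard_eq_pow F, natCard_eq_pow F] at hle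
  have h2 := (Nat.pow_le_pow_iff_right (Fintype.one_lt_card (α := F))).mp hle
  omega

/-- Vectors of prescribed norm in the common kernel of two functionals. -/
theorem exists_norm_vec2 [Fintype F] (hf : Cfsg.Geo.IsUnitaryForm σ f)
    (hn : 5 ≤ Fintype.card ι) (a1 a2 : ι → F) (c : F) (hc : σ c = c) :
    ∃ z, f z a1 = 0 ∧ f z a2 = 0 ∧ f z z = c := by
  obtain ⟨z, h1, h2, hz⟩ := exists_noniso2 hf hn a1 a2
  have hfix : σ (c / f z z) = c / f z z := by rw [map_div₀, hc, uf_self hf]
  obtain ⟨t, ht⟩ := norm_surj σ hf.ne_refl hf.involutive _ hfix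
  refine ⟨t • z, ?_, ?_, ?_⟩
  · rw [hf.smul_left, h1, mul_zero]
  · rw [hf.smul_left, h2, mul_zero]
  · rw [hf.smul_left, uf_smul_right hf, ← mul_assoc, ht, div_mul_cancel₀ _ hz]

/-- A non-zero isotropic vector exists. -/
theorem exists_iso5 [Fintype F] (hf : Cfsg.Geo.IsUnitaryForm σ f) (hn : 5 ≤ Fintype.card ι) :
    ∃ u : ι → F, u ≠ 0 ∧ f u u = 0 := by
  obtain ⟨x, -, -, hx⟩ := exists_noniso2 hf hn 0 0
  have hc : σ (-f x x) = -f x x := by rw [map_neg, uf_self hf]
  obtain ⟨z, hz, -, hzz⟩ := exists_norm_vec2 hf hn x 0 _ hc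
  refine ⟨x + z, ?_, ?_⟩
  · intro h0
    apply hx
    have h1 : f (x + z) x = f x x := by rw [hf.add_left, hz, add_zero]
    rw [← h1, h0, uf_zero_left hf]
  · rw [hf.add_left, uf_add_right hf, uf_add_right hf, hzz, hz, uf_swap_zero hf hz]
    ring

/-- Every vector is a sum of two isotropic vectors. -/
theorem exists_iso_sum5 [Fintype F] (hf : Cfsg.Geo.IsUnitaryForm σ f)
    (hn : 5 ≤ Fintype.card ι) (y : ι → F) :
    ∃ u₁ u₂ : ι → F, f u₁ u₁ = 0 ∧ f u₂ u₂ = 0 ∧ y = u₁ + u₂ := by
  by_cases hy : y = 0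
  · refine ⟨0, 0, uf_zero_left hf 0, uf_zero_left hf 0, ?_⟩
    rw [hy, add_zero]
  · obtain ⟨u₀, hu₀, hu₀u₀⟩ := exists_iso5 hf hn
    obtain ⟨u, huu, hyu, -⟩ := exists_iso_both hf hy hu₀ hu₀u₀
    have hc : σ (f y y) = f y y := uf_self hf y
    obtain ⟨t, ht⟩ := trace_surj σ hf.ne_refl hf.involutive _ hc
    have huy : f u y ≠ 0 := uf_swap_ne hf hyu
    refine ⟨(t / f u y) • u, y - (t / f u y) • u, ?_, ?_, ?_⟩
    · rw [hf.smul_left, uf_smul_right hf, huu, mul_zero, mul_zero]
    · rw [uf_sub_left hf, uf_sub_right hf, uf_sub_right hf, hf.smul_left, hf.smul_left,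
        uf_smul_right hf, uf_smul_right hf, huu, map_div₀, hf.herm y u]
      have h1 : σ (f u y) ≠ 0 := by
        rw [← hf.herm y u]
        exact hyu
      have ht' : σ t = f y y - t := by linear_combination ht
      rw [ht']
      field_simp
      ring
    · abel

/-- A matrix which, for every isotropic `u`, multiplies the functional `f(·, u)` by a scalar, is
a similarity. -/
theorem sim_of_iso5 [Fintype F] (hf : Cfsg.Geo.IsUnitaryForm σ f) (hn : 5 ≤ Fintype.card ι)
    (g : GL ι F)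
    (h : ∀ u : ι → F, f u u = 0 → ∃ c : F, ∀ y,
      f ((g : Matrix ι ι F) *ᵥ y) ((g : Matrix ι ι F) *ᵥ u) = c * f y u) :
    g ∈ Cfsg.Geo.similarityGroup f := by
  obtain ⟨u₀, hu₀, hu₀u₀⟩ := exists_iso5 hf hn
  obtain ⟨c₀, hc₀⟩ := h u₀ hu₀u₀
  -- constants of non-orthogonal isotropic vectors are conjugate
  have hconj : ∀ (u z : ι → F) (cu cz : F), f u z ≠ 0 →
      (∀ y, f ((g : Matrix ι ι F) *ᵥ y) ((g : Matrix ι ι F) *ᵥ u) = cu * f y u) →
      (∀ y, f ((g : Matrix ι ι F) *ᵥ y) ((g : Matrix ι ι F) *ᵥ z) = cz * f y z) →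
      cz = σ cu := by
    intro u z cu cz huz h1 h2
    have e1 := h2 u
    have e2 := h1 z
    rw [hf.herm, e2, map_mul, ← hf.herm u z] at e1
    exact (mul_right_cancel₀ huz e1).symm
  have hall : ∀ u : ι → F, f u u = 0 → ∀ y,
      f ((g : Matrix ι ι F) *ᵥ y) ((g : Matrix ι ι F) *ᵥ u) = c₀ * f y u := by
    intro u huu y
    by_cases hu : u = 0
    · rw [hu, Matrix.mulVec_zero, uf_zero_right hf, uf_zero_right hf, mul_zero]
    · obtain ⟨cu, hcu⟩ := h u huu
      obtain ⟨z, hzz, huz, hu₀z⟩ := exists_iso_both hf hu hu₀ hu₀u₀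
      obtain ⟨cz, hcz⟩ := h z hzz
      have e1 := hconj u z cu cz huz hcu hcz
      have e2 := hconj u₀ z c₀ cz hu₀z hc₀ hcz
      have e3 : cu = c₀ := σ.injective (e1.symm.trans e2)
      rw [hcu y, e3]
  have hall' : ∀ v y : ι → F,
      f ((g : Matrix ι ι F) *ᵥ y) ((g : Matrix ι ι F) *ᵥ v) = c₀ * f y v := by
    intro v y
    obtain ⟨u₁, u₂, h1, h2, rfl⟩ := exists_iso_sum5 hf hn v
    rw [Matrix.mulVec_add, uf_add_right hf, uf_add_right hf, hall u₁ h1, hall u₂ h2]
    ring
  have hc0 : c₀ ≠ 0 := by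
    intro h0
    apply hu₀
    have h1 : (g : Matrix ι ι F) *ᵥ u₀ = 0 := by
      apply uf_eq_zero_of_forall hf
      intro x
      have h2 := hall' u₀ (((g⁻¹ : GL ι F) : Matrix ι ι F) *ᵥ x)
      rw [gl_mulVec_inv, h0, zero_mul] at h2
      exact h2
    have h3 := gl_inv_mulVec g u₀
    rw [h1, Matrix.mulVec_zero] at h3
    exact h3.symm
  rw [mem_similarityGroup_iff]
  exact ⟨Units.mk0 c₀ hc0, fun u v => by rw [Units.val_mk0]; exact hall' v u⟩

variable [Fintype F]

/-- Step A1: an isotropic `v` with a transvection `1 + v f(·, z)` in `M`, `z` not a multiple of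
`v`, has the property `UStar`. -/
theorem star_of_TM5 (hf : Cfsg.Geo.IsUnitaryForm σ f) (hn : 5 ≤ Fintype.card ι)
    {M : Subgroup (GL ι F)}
    (hHM : Cfsg.Geo.similarityGroup f ⊓ Cfsg.Geo.specialLinear ι F ≤ M) (v z : ι → F)
    (hvv : f v v = 0) (hTM : TM M v (rho f z)) (hz : ∀ c : F, z ≠ c • v) : UStar M f v := by
  have hvz : f v z = 0 := by
    have := hTM.1
    rwa [rho_dot_u hf] at this
  have hy : ∃ y, f y v = 0 ∧ f y z ≠ 0 := by
    by_contra hcon
    push Not at hcon
    obtain ⟨c, hc⟩ := uf_prop_of_ker hf v z hcon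
    exact hz c hc
  obtain ⟨y, hyv, hyz⟩ := hy
  have hw : ∃ w, f w w = 0 ∧ f w v = 0 ∧ f w z ≠ 0 := by
    by_cases hyy : f y y = 0
    · exact ⟨y, hyy, hyv, hyz⟩
    · have hc : σ (-f y y) = -f y y := by rw [map_neg, uf_self hf]
      obtain ⟨z', h1, h2, h4⟩ := exists_norm_vec2 hf hn v y _ hc
      by_cases h3 : f (y + z') z = 0
      · obtain ⟨ζ, hζ1, hζ⟩ := exists_norm_one σ hf.ne_refl hf.involutive
        have h3' : f z' z = - f y z := by
          rw [hf.add_left] at h3
          linear_combination h3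
        refine ⟨y + ζ • z', ?_, ?_, ?_⟩
        · rw [uf_expand hf, h4, h2, uf_swap_zero hf h2]
          linear_combination (-f y y) * hζ
        · rw [hf.add_left, hf.smul_left, hyv, h1, mul_zero, add_zero]
        · rw [hf.add_left, hf.smul_left, h3']
          intro h5
          have h6 : (1 - ζ) * f y z = 0 := by linear_combination h5
          rcases mul_eq_zero.mp h6 with h7 | h7
          · exact hζ1 (sub_eq_zero.mp h7).symm
          · exact hyz h7
      · refine ⟨y + z', ?_, ?_, h3⟩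
        · rw [hf.add_left, uf_add_right hf, uf_add_right hf, h4, h2, uf_swap_zero hf h2]
          ring
        · rw [hf.add_left, hyv, h1, add_zero]
  obtain ⟨w, hww, hwv, hwz⟩ := hw
  obtain ⟨b, hb0, hb⟩ := exists_trace_zero σ hf.ne_refl hf.involutive
  have hvw : f v w = 0 := uf_swap_zero hf hwv
  intro c
  obtain ⟨l, hl⟩ : ∃ l : F, l = c / (f w z * b) := ⟨_, rfl⟩
  have hu1 : f (l • w) (l • w) = 0 := by
    rw [hf.smul_left, uf_smul_right hf, hww, mul_zero, mul_zero]
  have hu2 : f (v + l • w) (v + l • w) = 0 := by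
    rw [hf.add_left, uf_add_right hf, uf_add_right hf, hvv, hu1, hf.smul_left,
      uf_smul_right hf, hwv, hvw]
    ring
  have t1 := TM_comm (utv_TM hf hHM (l • w) hu1 b hb) hTM (by
    rw [smul_dotProduct, rho_dot_u hf, uf_smul_right hf, hvw, mul_zero, smul_zero])
  have t2 := TM_comm (utv_TM hf hHM (v + l • w) hu2 b hb) hTM (by
    rw [smul_dotProduct, rho_dot_u hf, uf_add_right hf, uf_smul_right hf, hvw, hvv, mul_zero,
      add_zero, smul_zero])
  have t3 := TM_sub t2 t1
  have e : (rho f z ⬝ᵥ (v + l • w)) • b • rho f (v + l • w) -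
      (rho f z ⬝ᵥ (l • w)) • b • rho f (l • w) = c • rho f v := by
    rw [rho_dot_u hf, rho_dot_u hf, hf.add_left, hf.smul_left, hvz, zero_add, rho_add_u hf,
      rho_smul_u hf]
    have hc : l * f w z * b = c := by
      rw [hl]
      field_simp
    rw [← hc]
    module
  rwa [e] at t3

/-- Step A2: from a transvection in `M` with non-isotropic centre to one with isotropic
centre. -/
theorem exists_star_data_of_noniso5 (hf : Cfsg.Geo.IsUnitaryForm σ f)
    (hn : 5 ≤ Fintype.card ι) {M : Subgroup (GL ι F)}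
    (hHM : Cfsg.Geo.similarityGroup f ⊓ Cfsg.Geo.specialLinear ι F ≤ M) (v z : ι → F)
    (hvv : f v v ≠ 0) (hTM : TM M v (rho f z)) (hz : z ≠ 0) :
    ∃ w z', w ≠ 0 ∧ f w w = 0 ∧ TM M w (rho f z') ∧ ∀ c : F, z' ≠ c • w := by
  have hvz : f v z = 0 := by
    have := hTM.1
    rwa [rho_dot_u hf] at this
  have hzv : f z v = 0 := uf_swap_zero hf hvz
  obtain ⟨b, hb0, hb⟩ := exists_trace_zero σ hf.ne_refl hf.involutive
  have hc : σ (-f v v) = -f v v := by rw [map_neg, uf_self hf]
  obtain ⟨z'', h1, h2, h4⟩ := exists_norm_vec2 hf hn v z _ hc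
  have h1' : f v z'' = 0 := uf_swap_zero hf h1
  have hww : f (v + z'') (v + z'') = 0 := by
    rw [hf.add_left, uf_add_right hf, uf_add_right hf, h4, h1, h1']
    ring
  have hwz : f (v + z'') z = 0 := by rw [hf.add_left, hvz, h2, add_zero]
  have hvw : f v (v + z'') = f v v := by rw [uf_add_right hf, h1', add_zero]
  have hwv : f (v + z'') v = f v v := by rw [hf.add_left, h1, add_zero]
  have hw0 : v + z'' ≠ 0 := by
    intro h0
    apply hvv
    rw [← hwv, h0, uf_zero_left hf]
  have t1 := TM_comm hTM (utv_TM hf hHM (v + z'') hww b hb) (by rw [rho_dot_u hf]; exact hwz)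
  have hne : b * f v v ≠ 0 := mul_ne_zero hb0 hvv
  have e : ((b • rho f (v + z'')) ⬝ᵥ v) • rho f z = rho f (σ (b * f v v) • z) := by
    rw [smul_dotProduct, rho_dot_u hf, hvw, rho_smul_u hf, hf.involutive, smul_eq_mul]
  rw [e] at t1
  refine ⟨v + z'', σ (b * f v v) • z, hw0, hww, t1, ?_⟩
  intro c hc'
  have h5 : f (σ (b * f v v) • z) v = 0 := by rw [hf.smul_left, hzv, mul_zero]
  rw [hc', hf.smul_left, hwv] at h5
  have hc0 : c = 0 := by
    rcases mul_eq_zero.mp h5 with h | h
    · exact h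
    · exact absurd h hvv
  rw [hc0, zero_smul] at hc'
  have h6 : σ (b * f v v) ≠ 0 := by
    intro h7
    apply hne
    have := hf.involutive (b * f v v)
    rw [h7, map_zero] at this
    exact this.symm
  rcases smul_eq_zero.mp hc' with h | h
  · exact h6 h
  · exact hz h

/-- Step 0: an element of `M` which is not a similarity yields a transvection in `M` with
isotropic centre `v` and functional `f(·, z)`, `z` not a multiple of `v`. -/
theorem exists_star_data5 (hf : Cfsg.Geo.IsUnitaryForm σ f) (hn : 5 ≤ Fintype.card ι)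
    {M : Subgroup (GL ι F)}
    (hHM : Cfsg.Geo.similarityGroup f ⊓ Cfsg.Geo.specialLinear ι F ≤ M) (g : GL ι F)
    (hgM : g ∈ M) (hg : g ∉ Cfsg.Geo.similarityGroup f) :
    ∃ v z, v ≠ 0 ∧ f v v = 0 ∧ TM M v (rho f z) ∧ ∀ c : F, z ≠ c • v := by
  have h1 : ¬ ∀ u : ι → F, f u u = 0 → ∃ c : F, ∀ y,
      f ((g : Matrix ι ι F) *ᵥ y) ((g : Matrix ι ι F) *ᵥ u) = c * f y u :=
    fun h => hg (sim_of_iso5 hf hn g h)
  push Not at h1
  obtain ⟨u, huu, hu⟩ := h1
  have hu0 : u ≠ 0 := by
    intro h0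
    obtain ⟨y, hy⟩ := hu 0
    apply hy
    rw [h0, Matrix.mulVec_zero, uf_zero_right hf, uf_zero_right hf, mul_zero]
  obtain ⟨b, hb0, hb⟩ := exists_trace_zero σ hf.ne_refl hf.involutive
  have t1 := TM_conj (utv_TM hf hHM u huu b hb) (inv_mem hgM)
  rw [inv_inv] at t1
  obtain ⟨z, hz⟩ := riesz_u hf ((b • rho f u) ᵥ* ((g⁻¹ : GL ι F) : Matrix ι ι F))
  have hzy : ∀ y, f y z = b * f (((g⁻¹ : GL ι F) : Matrix ι ι F) *ᵥ y) u := by
    intro y
    rw [← rho_dot_u hf, hz, ← Matrix.dotProduct_mulVec, smul_dotProduct, rho_dot_u hf,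
      smul_eq_mul]
  have hzg : ∀ x, f ((g : Matrix ι ι F) *ᵥ x) z = b * f x u := by
    intro x
    rw [hzy, gl_inv_mulVec]
  rw [← hz] at t1
  have hgu0 : (g : Matrix ι ι F) *ᵥ u ≠ 0 := by
    intro h0
    apply hu0
    have := gl_inv_mulVec g u
    rw [h0, Matrix.mulVec_zero] at this
    exact this.symm
  have hz0 : z ≠ 0 := by
    intro h0
    apply hu0
    apply uf_eq_zero_of_forall hf
    intro x
    have := hzg x
    rw [h0, uf_zero_right hf] at this
    rcases mul_eq_zero.mp this.symm with h | h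
    · exact absurd h hb0
    · exact h
  by_cases hvv : f ((g : Matrix ι ι F) *ᵥ u) ((g : Matrix ι ι F) *ᵥ u) = 0
  · refine ⟨_, z, hgu0, hvv, t1, ?_⟩
    intro c hc
    have h2 : ∀ x, σ c * f ((g : Matrix ι ι F) *ᵥ x) ((g : Matrix ι ι F) *ᵥ u) = b * f x u := by
      intro x
      rw [← hzg x, hc, uf_smul_right hf]
    have hc0 : σ c ≠ 0 := by
      intro h0
      apply hu0
      apply uf_eq_zero_of_forall hf
      intro x
      have := h2 x
      rw [h0, zero_mul] at this
      rcases mul_eq_zero.mp this.symm with h | h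
      · exact absurd h hb0
      · exact h
    obtain ⟨y, hy⟩ := hu (b / σ c)
    apply hy
    rw [div_mul_eq_mul_div, eq_div_iff hc0, mul_comm]
    exact h2 y
  · exact exists_star_data_of_noniso5 hf hn hHM _ z hvv t1 hz0

/-- All isotropic vectors have the property `UStar`. -/
theorem star_all5 (hf : Cfsg.Geo.IsUnitaryForm σ f) (hn : 5 ≤ Fintype.card ι)
    {M : Subgroup (GL ι F)}
    (hHM : Cfsg.Geo.similarityGroup f ⊓ Cfsg.Geo.specialLinear ι F ≤ M) (g : GL ι F)
    (hgM : g ∈ M) (hg : g ∉ Cfsg.Geo.similarityGroup f) :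
    ∀ u : ι → F, f u u = 0 → UStar M f u := by
  obtain ⟨v, z, hv0, hvv, hTM, hz⟩ := exists_star_data5 hf hn hHM g hgM hg
  have hs := star_of_TM5 hf hn hHM v z hvv hTM hz
  intro u huu
  by_cases hu : u = 0
  · intro c
    have t := utv_TM hf hHM u huu 0 (by rw [map_zero, add_zero])
    have e : c • rho f u = (0 : F) • rho f u := by
      have h0 : rho f u = 0 := by
        funext j
        show f _ u = 0
        rw [hu, uf_zero_right hf]
      rw [h0, smul_zero, smul_zero]
    rw [e]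
    exact t
  · obtain ⟨z', hz'z', huz', hvz'⟩ := exists_iso_both hf hu hv0 hvv
    have s1 := star_move hf hHM v z' hvv hz'z' hvz' hs
    exact star_move hf hHM z' u hz'z' huu (uf_swap_ne hf huz') s1

/-- Step D: non-isotropic vectors are centres of all their transvections in `M`. -/
theorem centres_noniso5 (hf : Cfsg.Geo.IsUnitaryForm σ f) (hn : 5 ≤ Fintype.card ι)
    {M : Subgroup (GL ι F)} (hstar : ∀ u : ι → F, f u u = 0 → UStar M f u) (x : ι → F)
    (hxx : f x x ≠ 0) : x ∈ centres M := by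
  apply mem_centres_of_TM
  intro ψ hψ
  obtain ⟨z0, rfl⟩ := riesz_u hf ψ
  rw [rho_dot_u hf] at hψ
  by_cases hz : f z0 z0 = 0
  · obtain ⟨z1, h1, h2, h4⟩ := exists_noniso2 hf hn x z0
    have h1' : f x z1 = 0 := uf_swap_zero hf h1
    have h2' : f z0 z1 = 0 := uf_swap_zero hf h2
    have h5 : f (z0 - z1) (z0 - z1) ≠ 0 := by
      rw [uf_sub_left hf, uf_sub_right hf, uf_sub_right hf, hz, h2, h2']
      intro h
      apply h4
      linear_combination h
    have h6 : f x (z0 - z1) = 0 := by rw [uf_sub_right hf, hψ, h1', sub_zero]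
    have t1 := TM_noniso hf hstar x z1 hxx h4 h1' 1
    have t2 := TM_noniso hf hstar x (z0 - z1) hxx h5 h6 1
    have t3 := TM_add t1 t2
    rwa [one_smul, one_smul, ← rho_add_u hf, add_sub_cancel] at t3
  · have t := TM_noniso hf hstar x z0 hxx hz hψ 1
    rwa [one_smul] at t

/-- A subgroup containing the unitary similarity group in `SL` and an element which is not a
similarity contains `SL`. -/
theorem unit_overgroup5 [Nontrivial ι] (hf : Cfsg.Geo.IsUnitaryForm σ f)
    (hn : 5 ≤ Fintype.card ι) (M : Subgroup (GL ι F))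
    (hHM : Cfsg.Geo.similarityGroup f ⊓ Cfsg.Geo.specialLinear ι F ≤ M) (g : GL ι F)
    (hgM : g ∈ M) (hg : g ∉ Cfsg.Geo.similarityGroup f) :
    Cfsg.Geo.specialLinear ι F ≤ M := by
  have hstar := star_all5 hf hn hHM g hgM hg
  have hc : ∀ v : ι → F, v ∈ centres M := by
    intro v
    by_cases hvv : f v v = 0
    · obtain ⟨x1, h1, -, h4⟩ := exists_noniso2 hf hn v 0
      have h5 : f (v - x1) (v - x1) ≠ 0 := by
        rw [uf_sub_left hf, uf_sub_right hf, uf_sub_right hf, hvv, h1, uf_swap_zero hf h1]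
        intro h
        apply h4
        linear_combination h
      have h6 := centres_add M (centres_noniso5 hf hn hstar x1 h4)
        (centres_noniso5 hf hn hstar _ h5)
      rwa [add_sub_cancel] at h6
    · exact centres_noniso5 hf hn hstar v hvv
  exact specialLinear_le_of_tv M (fun v φ hφ t ht => hc v φ hφ t ht)

/-- A transvection of determinant one which is not a similarity. -/
theorem unit_exists_not_sim5 (hf : Cfsg.Geo.IsUnitaryForm σ f) (hn : 5 ≤ Fintype.card ι) :
    ∃ t ∈ Cfsg.Geo.specialLinear ι F, t ∉ Cfsg.Geo.similarityGroup f := by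
  obtain ⟨x, -, -, hxx⟩ := exists_noniso2 hf hn 0 0
  obtain ⟨z, hzx, -, hzz⟩ := exists_noniso2 hf hn x 0
  have hxz : f x z = 0 := uf_swap_zero hf hzx
  have h0 : rho f z ⬝ᵥ x = 0 := by rw [rho_dot_u hf]; exact hxz
  refine ⟨tvG x (rho f z) h0, tvG_mem_specialLinear _ _ _, ?_⟩
  intro hmem
  rw [mem_similarityGroup_iff] at hmem
  obtain ⟨c, hc⟩ := hmem
  have e1 := hc x x
  rw [tvG_val, tv_mulVec, h0, zero_smul, add_zero] at e1
  have hc1 : (c : F) = 1 := by
    have h1 : (c : F) * f x x = 1 * f x x := by rw [one_mul]; exact e1.symm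
    exact mul_right_cancel₀ hxx h1
  have e2 := hc z z
  rw [tvG_val, tv_mulVec, rho_dot_u hf, hc1, one_mul] at e2
  have e3 := uf_expand hf z z x x (f z z) (f z z)
  rw [e2, uf_self hf, hzx, hxz] at e3
  have h2 : f z z * f z z * f x x = 0 := by linear_combination -e3
  exact mul_ne_zero (mul_ne_zero hzz hzz) hxx h2

end UnitMaxSix

/-- The similarity group of a non-degenerate unitary form meets `SL_n` in a maximal subgroup of
`SL_n` (finite field, `n ≥ 5`). -/
theorem unit_isMaximalIn5 {F : Type*} [Field F] [Fintype F] (n : ℕ) (hn : 5 ≤ n) (σ : F ≃+* F)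
    (f : (Fin n → F) → (Fin n → F) → F) (hf : Cfsg.Geo.IsUnitaryForm σ f) :
    Cfsg.Geo.IsMaximalIn (Cfsg.Geo.specialLinear (Fin n) F)
      (Cfsg.Geo.similarityGroup f ⊓ Cfsg.Geo.specialLinear (Fin n) F) := by
  have hnt : Nontrivial (Fin n) := Fin.nontrivial_iff_two_le.mpr (by omega)
  have hcard : 5 ≤ Fintype.card (Fin n) := by rw [Fintype.card_fin]; exact hn
  refine ⟨lt_of_le_of_ne inf_le_right ?_, ?_⟩
  · intro heq
    obtain ⟨t, ht, hts⟩ := unit_exists_not_sim5 hf hcard
    rw [← heq] at ht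
    exact hts ht.1
  · intro M hHM hMS
    by_cases hMH : M ≤ Cfsg.Geo.similarityGroup f ⊓ Cfsg.Geo.specialLinear (Fin n) F
    · left
      exact le_antisymm hMH hHM
    · right
      obtain ⟨g, hgM, hgH⟩ := SetLike.not_le_iff_exists.mp hMH
      exact le_antisymm hMS
        (unit_overgroup5 hf hcard M hHM g hgM (fun h => hgH ⟨h, hMS hgM⟩))

/-- The case `n = 6` in the form asked for. -/
theorem unit_isMaximalIn6 {F : Type*} [Field F] [Fintype F] (σ : F ≃+* F)
    (f : (Fin 6 → F) → (Fin 6 → F) → F) (hf : Cfsg.Geo.IsUnitaryForm σ f) :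
    Cfsg.Geo.IsMaximalIn (Cfsg.Geo.specialLinear (Fin 6) F)
      (Cfsg.Geo.similarityGroup f ⊓ Cfsg.Geo.specialLinear (Fin 6) F) :=
  unit_isMaximalIn5 6 (by norm_num) σ f hf

end Cfsg.Agent.Lib.Helper50
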